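import Cfsg.Agent.H12.GraphGens
import Cfsg.Agent.H23.FieldIso
import Cfsg.Agent.H23.OrdD4
import Cfsg.Agent.H23.ChkD4
import Cfsg.Agent.H23.NconjD4
import Cfsg.Agent.H23.CommD4
import Cfsg.Agent.H23.TabD4
import Cfsg.Agent.H23.Tab2D4
import Cfsg.Agent.H42.CharDiag
import Cfsg.Prelude.Def_KGroupFacts

set_option autoImplicit false
set_option maxRecDepth 100000

/-!
# Diagonal automorphisms of `D₄(F)` are inner when `F` is a finite field of characteristic two
-/

namespace Cfsg.Agent.H49.D4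

open Cfsg.Lie Cfsg.Agent.H23

universe u

/-- The character of a torus element takes inverse values on opposite roots. -/
theorem torus_neg' {D : ChevalleyDatum} {K : Type*} [Field K] {z η : ℕ → ℕ → ℤ}
    (hP : PackB D K z η) (χ : ℕ → K) (g : GL D.Idx K) (hg : IsTorus D χ g) (s : ℕ)
    (hs : s < D.nroots) : χ (D.neg s) * χ s = 1 := by
  have hS := hP.sem
  have hn := hP.tab.neg_lt s hs
  have hne := hP.tab2.neg_ne s hs
  have h1 := isTorus_conj hS χ g hg s hs 1
  rw [mul_inv_eq_iff_eq_mul] at h1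
  have h2 := congrArg (fun m : GL D.Idx K => (m : Matrix D.Idx D.Idx K) (Sum.inr ⟨s, hs⟩)
    (Sum.inr ⟨D.neg s, hn⟩)) h1
  simp only [Units.val_mul, xU_val] at h2
  rw [hg.2.2.2, Matrix.diagonal_mul, Matrix.mul_diagonal, x_entry_neg s hs hn hne,
    x_entry_neg s hs hn hne] at h2
  have e1 : ix D (Sum.inr ⟨s, hs⟩ : D.Idx) = s := rfl
  have e2 : ix D (Sum.inr ⟨D.neg s, hn⟩ : D.Idx) = D.neg s := rfl
  rw [e1, e2, mul_one] at h2
  have h0 : χ s ≠ 0 := hg.1 s
  have h3 : χ s * (χ (D.neg s) * χ s - 1) = 0 := by linear_combination h2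
  rcases mul_eq_zero.mp h3 with h4 | h4
  · exact absurd h4 h0
  · exact sub_eq_zero.mp h4

theorem packB (F : Type*) [Field F] :
    PackB chevD4 F (zR chevD4 ctblD4) (fun i s => etaBit (etaD4.getD i 0) s) :=
  ⟨chk_D4.sem F, nconj_D4.semN chk_D4.tblOK F, comm_D4.semC chk_D4.tblOK F, tab_D4, tabC_D4,
    etaNeg_D4, tab2_D4⟩

/-- The Cartan matrix of `D₄` times twice its inverse. -/
theorem cart_mul_inv2 : ∀ i j : Fin chevD4.rank,
    mulZ (fun i j : Fin chevD4.rank => cartZ chevD4 ctblD4 i j)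
      (matL [[2, 2, 1, 1], [2, 4, 2, 2], [1, 2, 2, 1], [1, 2, 1, 2]]) i j =
        diagZ (fun _ => 2) i j := by decide +kernel

/-- In a finite field of characteristic two every unit is a square. -/
theorem exists_sq_unit {F : Type*} [Field F] [Finite F] [CharP F 2] (u : Fˣ) :
    ∃ s : Fˣ, s ^ 2 = u := by
  have hinj : Function.Injective (fun a : F => a ^ 2) := by
    intro a b hab
    have hab' : a ^ 2 = b ^ 2 := hab
    have h1 : (a + b) ^ 2 = 0 := by
      rw [CharTwo.add_sq, hab', CharTwo.add_self_eq_zero]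
    have h2 : a + b = 0 := by
      exact pow_eq_zero_iff (two_ne_zero) |>.mp h1
    exact CharTwo.add_eq_zero.mp h2
  obtain ⟨a, ha⟩ := (Finite.injective_iff_surjective.mp hinj) (u : F)
  have ha' : a ^ 2 = (u : F) := ha
  have ha0 : a ≠ 0 := by
    rintro rfl
    rw [zero_pow two_ne_zero] at ha'
    exact Units.ne_zero u ha'.symm
  exact ⟨Units.mk0 a ha0, Units.ext (by rw [Units.val_pow_eq_pow_val, Units.val_mk0, ha'])⟩

/-- **D4-DIAGINN.** Over a finite field of characteristic two, every diagonal automorphism of `D₄(F)`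
is inner (conjugation by an element of the diagonal subgroup `H`). -/
theorem d4_diag_inner_ex (F : Type u) [Field F] [Finite F] [CharP F 2]
    (d : ↥(chevD4.group F) ≃* ↥(chevD4.group F)) (hd : chevD4.IsDiagonalAut d) :
    ∃ x : ↥(chevD4.group F), ∀ y, d y = x * y * x⁻¹ := by
  classical
  obtain ⟨χ, hχ, hdχ⟩ := hd
  have hP := packB F
  have hS := hP.sem
  have hT := hP.tab
  have hH : TabH chevD4 ctblD4 := tabH_D4
  choose sq hsq using fun u : Fˣ => exists_sq_unit u
  set s : Fin chevD4.rank → Fˣ := fun i => sq (χ (chevD4.simple i)) with hs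
  set Ai : Fin chevD4.rank → Fin chevD4.rank → ℤ :=
    matL [[2, 2, 1, 1], [2, 4, 2, 2], [1, 2, 2, 1], [1, 2, 1, 2]] with hAi
  set A : Fin chevD4.rank → Fin chevD4.rank → ℤ := fun i j => cartZ chevD4 ctblD4 i j with hA
  obtain ⟨h, hhS, hent⟩ := exists_HS_entries hP hH Set.univ (powHom Ai s) (fun _ => Set.mem_univ _)
  have hhH : h ∈ chevD4.diagonalSubgroup F := HS_le _ hhS
  have hhG : h ∈ chevD4.group F := diagonal_le_group hS hhH
  have hval : ∀ i : Fin chevD4.rank, powHom A (powHom Ai s) i = χ (chevD4.simple i) := by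
    intro i
    rw [powHom_comp, powHom_congr _ _ cart_mul_inv2, powHom_diagZ]
    exact hsq _
  obtain ⟨χ', hχ'⟩ := diagonal_le_torus hS hT hhH
  have h1 : ∀ i (hi : i < chevD4.rank), χ' (chevD4.simple i) = ((χ (chevD4.simple i) : Fˣ) : F) := by
    intro i hi
    have e := hent ⟨i, hi⟩
    rw [hval ⟨i, hi⟩, hχ'.2.2.2, Matrix.diagonal_apply_eq] at e
    exact e
  have h2 : ∀ i (hi : i < chevD4.rank),
      χ' (chevD4.neg (chevD4.simple i)) = ((χ (chevD4.neg (chevD4.simple i)) : Fˣ) : F) := by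
    intro i hi
    have hlt := hT.simple_lt i hi
    have hn := torus_neg' hP χ' h hχ' _ hlt
    rw [h1 i hi] at hn
    rw [hχ.1 _ hlt, Units.val_inv_eq_inv_val]
    exact eq_inv_of_mul_eq_one_left hn
  refine ⟨⟨h, hhG⟩, ?_⟩
  have key : d.toMonoidHom = (MulAut.conj (⟨h, hhG⟩ : ↥(chevD4.group F))).toMonoidHom := by
    apply Cfsg.Agent.H12.GraphFix.hom_ext_fund hS hP.semN hT
    intro g i t hi hg
    have hr : ∃ r, r < chevD4.nroots ∧
        ((g : GL chevD4.Idx F) : Matrix chevD4.Idx chevD4.Idx F) = chevD4.x F r t ∧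
        χ' r = ((χ r : Fˣ) : F) := by
      rcases hg with hg | hg
      · exact ⟨_, hT.simple_lt i hi, hg, h1 i hi⟩
      · exact ⟨_, hT.neg_lt _ (hT.simple_lt i hi), hg, h2 i hi⟩
    obtain ⟨r, hr, hg, hχr⟩ := hr
    apply Subtype.ext
    apply Units.ext
    show ((d g : GL chevD4.Idx F) : Matrix chevD4.Idx chevD4.Idx F) =
      ((h * (g : GL chevD4.Idx F) * h⁻¹ : GL chevD4.Idx F) : Matrix chevD4.Idx chevD4.Idx F)
    rw [hdχ g, hg, Cfsg.Agent.H42.charDiag_conj chevD4 Cfsg.Agent.H42.chainOK_D4 χ hχ r hr t]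
    have e := eq_xU hS (g : GL chevD4.Idx F) r t hg
    rw [e, isTorus_conj hS χ' h hχ' r hr t, xU_val, hχr]
  intro y
  exact DFunLike.congr_fun key y

/-- **P-DIAG** in the membership form: a diagonal automorphism lies in `Cfsg.Inn`. -/
theorem d4_diag_inner (F : Type u) [Field F] [Finite F] [CharP F 2]
    (d : MulAut ↥(chevD4.group F)) (hd : chevD4.IsDiagonalAut d) :
    d ∈ Cfsg.Inn ↥(chevD4.group F) := by
  obtain ⟨x, hx⟩ := d4_diag_inner_ex F d hd
  refine ⟨x, ?_⟩
  ext y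
  rw [MulAut.conj_apply, hx y]

/-- **D4-DEC (from the decomposition with diagonal factor).** If every automorphism of `D₄(F)` is
inner·diagonal·graph·field, then over a finite field of characteristic two it is inner·graph·field. -/
theorem d4_dec_of (F : Type u) [Field F] [Finite F] [CharP F 2]
    (hDec : ∀ θ : ↥(chevD4.group F) ≃* ↥(chevD4.group F),
      ∃ (x : ↥(chevD4.group F)) (d g f : ↥(chevD4.group F) ≃* ↥(chevD4.group F)),
        chevD4.IsDiagonalAut d ∧ chevD4.IsGraphAut g ∧ chevD4.IsFieldAut f ∧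
          ∀ y : ↥(chevD4.group F), θ y = x * d (g (f y)) * x⁻¹)
    (θ : ↥(chevD4.group F) ≃* ↥(chevD4.group F)) :
    ∃ (x : ↥(chevD4.group F)) (g f : ↥(chevD4.group F) ≃* ↥(chevD4.group F)),
      chevD4.IsGraphAut g ∧ chevD4.IsFieldAut f ∧
        ∀ y : ↥(chevD4.group F), θ y = x * g (f y) * x⁻¹ := by
  obtain ⟨x, d, g, f, hd, hg, hf, hθ⟩ := hDec θ
  obtain ⟨x₀, hx₀⟩ := d4_diag_inner_ex F d hd
  refine ⟨x * x₀, g, f, hg, hf, fun y => ?_⟩
  rw [hθ y, hx₀ (g (f y)), mul_inv_rev]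
  simp only [mul_assoc]

example (F : Type u) [Field F] [Finite F] [CharP F 2] (d : MulAut ↥(chevD4.group F))
    (hd : chevD4.IsDiagonalAut d) : d ∈ Cfsg.Inn ↥(chevD4.group F) := d4_diag_inner F d hd

example (F : Type u) [Field F] [Finite F] [CharP F 2]
    (d : ↥(chevD4.group F) ≃* ↥(chevD4.group F)) (hd : chevD4.IsDiagonalAut d) :
    ∃ x : ↥(chevD4.group F), ∀ y, d y = x * y * x⁻¹ := d4_diag_inner_ex F d hd

end Cfsg.Agent.H49.D4

#print axioms Cfsg.Agent.H49.D4.d4_diag_inner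
#print axioms Cfsg.Agent.H49.D4.d4_diag_inner_ex
#print axioms Cfsg.Agent.H49.D4.d4_dec_of
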