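import Mathlib
import Cfsg.Prelude.Def_GeometricClasses
import Cfsg.Prelude.Def_Classical
import Cfsg.Prelude.Def_ClassicalGeometry
import Cfsg.Agent.H42.TiDefs
import Cfsg.Agent.H77.TmDefs

/-!
# S5973 team project (helper49): definitions and top-level piece statements

`PΩ⁺_{2d}(q)` (all `q`) acting on the totally singular `m`-spaces (`1 ≤ m < d`) of the plus-type
form `Cfsg.quadFormPlus d F` on `F^(Fin d ⊕ Fin d)`.  This is the PLUS twin of helper77's S5987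
project (`Cfsg.Agent.H77.Tm`, minus type): same shape of pieces, same notation.

Notation: `ii F r` = order of `q` modulo `r` (`Cfsg.Agent.H42.Ti.ii`), `IsCycSet F r Φs`
(`Cfsg.Agent.H42.Ti`), `StOrd` (`Cfsg.Agent.H77.Tm`).
-/

set_option autoImplicit false
open scoped MatrixGroups
open scoped Matrix

namespace Cfsg.Agent.H49.Pt

open Cfsg.Agent.H45 Cfsg.Agent.H42.Spd Cfsg.Agent.H42.Ti Module Polynomial

universe u v

section Std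

variable {F : Type u} [Field F]

/-- `x` fixes a totally singular `m`-space of the plus-type form on `F^(Fin d ⊕ Fin d)`. -/
def FixP (d m : ℕ) (x : GL (Fin d ⊕ Fin d) F) : Prop :=
  ∃ W : Submodule F (Fin d ⊕ Fin d → F),
    Module.finrank F ↥W = m ∧ (∀ w ∈ W, Cfsg.quadFormPlus d F w = 0) ∧
    W.map (Matrix.toLin' (x : Matrix (Fin d ⊕ Fin d) (Fin d ⊕ Fin d) F)) ≤ W

/-- The dimension of the fixed space of `x`. -/
noncomputable def fixDim (d : ℕ) (x : GL (Fin d ⊕ Fin d) F) : ℕ :=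
  Module.finrank F ↥(LinearMap.ker
    (Matrix.toLin' (x : Matrix (Fin d ⊕ Fin d) (Fin d ⊕ Fin d) F) - 1))

/-- `∑_φ ⌊dim ker φ(x) / (2 i)⌋` over the irreducible factors `φ` of the `r`-th cyclotomic
polynomial. -/
noncomputable def sDim [Fintype F] (d r : ℕ) (Φs : Finset F[X]) (x : GL (Fin d ⊕ Fin d) F) : ℕ :=
  ∑ φ ∈ Φs, Module.finrank F ↥(LinearMap.ker
    (aeval (Matrix.toLin' (x : Matrix (Fin d ⊕ Fin d) (Fin d ⊕ Fin d) F)) φ)) / (2 * ii F r)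

end Std

/-- The number of totally singular `m`-spaces. -/
noncomputable def NP (F : Type u) [Field F] (d m : ℕ) : ℕ :=
  Nat.card {W : Submodule F (Fin d ⊕ Fin d → F) // Module.finrank F ↥W = m ∧
    (∀ w ∈ W, Cfsg.quadFormPlus d F w = 0)}

/-! ## Counting -/

/-- PT-CNTP: the number of totally singular `m`-spaces, `m < d`, is prime to the
characteristic. -/
def StCntP : Prop :=
  ∀ (F : Type u) [Field F] [Fintype F] (p : ℕ) [Fact p.Prime] [CharP F p] (d m : ℕ),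
    m + 1 ≤ d → ¬ p ∣ NP F d m

/-- PT-CNT: a prime `r ≠ p` dividing the number of totally singular `m`-spaces, `m < d`, divides
`q^(d-j) - 1` or `q^(d-1-j) + 1` for some `j < m`. -/
def StCnt : Prop :=
  ∀ (F : Type u) [Field F] [Fintype F] (p : ℕ) [Fact p.Prime] [CharP F p] (d m r : ℕ),
    m + 1 ≤ d → r.Prime → r ≠ p → r ∣ NP F d m →
    ∃ j, j < m ∧ (r ∣ Fintype.card F ^ (d - j) - 1 ∨ r ∣ Fintype.card F ^ (d - 1 - j) + 1)

/-! ## Scalars -/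

/-- PT-SCAL: a scalar isometry is `±1`. -/
def StScal : Prop :=
  ∀ (F : Type u) [Field F] [Fintype F] (d : ℕ) (x : GL (Fin d ⊕ Fin d) F) (z : F), 1 ≤ d →
    x ∈ Cfsg.isometryGroup F (Cfsg.quadFormPlus d F) →
    (x : Matrix (Fin d ⊕ Fin d) (Fin d ⊕ Fin d) F) =
      z • (1 : Matrix (Fin d ⊕ Fin d) (Fin d ⊕ Fin d) F) → z * z = 1

/-- PT-SIGN: an isometry `x` with `x ^ r` scalar, `r` odd, has the same invariant subspaces as an
isometry `y` (`= ± x`) with `y ^ r = 1`. -/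
def StSign : Prop :=
  ∀ (F : Type u) [Field F] [Fintype F] (d : ℕ) (x : GL (Fin d ⊕ Fin d) F) (r : ℕ) (z : F),
    1 ≤ d → Odd r → x ∈ Cfsg.isometryGroup F (Cfsg.quadFormPlus d F) →
    ((x ^ r : GL (Fin d ⊕ Fin d) F) : Matrix (Fin d ⊕ Fin d) (Fin d ⊕ Fin d) F) =
      z • (1 : Matrix (Fin d ⊕ Fin d) (Fin d ⊕ Fin d) F) →
    ∃ y : GL (Fin d ⊕ Fin d) F, y ∈ Cfsg.isometryGroup F (Cfsg.quadFormPlus d F) ∧ y ^ r = 1 ∧
      ∀ W : Submodule F (Fin d ⊕ Fin d → F),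
        W.map (Matrix.toLin' (y : Matrix (Fin d ⊕ Fin d) (Fin d ⊕ Fin d) F)) ≤ W →
        W.map (Matrix.toLin' (x : Matrix (Fin d ⊕ Fin d) (Fin d ⊕ Fin d) F)) ≤ W

/-! ## `r = 2 ≠ p` -/

/-- PT-TWO: the case `r = 2 ≠ p`. -/
def StTwo : Prop :=
  ∀ (F : Type u) [Field F] [Fintype F] (d m : ℕ), (2 : F) ≠ 0 → 4 ≤ d → 1 ≤ m → m + 1 ≤ d →
    ((∀ x : GL (Fin d ⊕ Fin d) F, x ∈ Cfsg.Geo.omegaGL (Cfsg.quadFormPlus d F) →
        (∃ z : F, ((x ^ 2 : GL (Fin d ⊕ Fin d) F) : Matrix (Fin d ⊕ Fin d) (Fin d ⊕ Fin d) F)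
          = z • (1 : Matrix (Fin d ⊕ Fin d) (Fin d ⊕ Fin d) F)) →
        (∀ z : F, (x : Matrix (Fin d ⊕ Fin d) (Fin d ⊕ Fin d) F) ≠
          z • (1 : Matrix (Fin d ⊕ Fin d) (Fin d ⊕ Fin d) F)) →
        FixP d m x) ↔
      (Fintype.card F % 4 = 1 ∨
        (Fintype.card F % 4 = 3 ∧ m + 2 ≤ d ∧ (Even m ∨ (2 * d) % 4 = 2))))

/-! ## Odd `r ≠ p`: structure of the invariant totally singular subspaces -/

/-- PT-MODD: `i` odd. An isometry `y` with `y ^ r = 1` has `A` pairs of blocks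
(`dim [V, y] = 2 i A`, `i A ≤ d`); its invariant totally singular subspaces have exactly the
dimensions `i j + w` with `j ≤ A` and `w ≤ d - i A`. -/
def StMOdd : Prop :=
  ∀ (F : Type u) [Field F] [Fintype F] (p : ℕ) [Fact p.Prime] [CharP F p] (d r : ℕ),
    r.Prime → r ≠ 2 → r ≠ p → Odd (ii F r) →
    ∀ y : GL (Fin d ⊕ Fin d) F, y ∈ Cfsg.isometryGroup F (Cfsg.quadFormPlus d F) → y ^ r = 1 →
    ∃ A : ℕ, ii F r * A ≤ d ∧ fixDim d y + 2 * ii F r * A = 2 * d ∧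
      (∀ j w : ℕ, j ≤ A → w + ii F r * A ≤ d → FixP d (ii F r * j + w) y) ∧
      (∀ W : Submodule F (Fin d ⊕ Fin d → F), (∀ w ∈ W, Cfsg.quadFormPlus d F w = 0) →
        W.map (Matrix.toLin' (y : Matrix (Fin d ⊕ Fin d) (Fin d ⊕ Fin d) F)) ≤ W →
        ∃ j w : ℕ, Module.finrank F ↥W = ii F r * j + w ∧ j ≤ A ∧ w + ii F r * A ≤ d)

/-- PT-MEVEN: `i` even, `h = i / 2`. An isometry `y` with `y ^ r = 1` has `A` blocks
(`dim [V, y] = i A`; the fixed space has type `(-1)^A`, so `h A ≤ d - 1` for `A` odd); it has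
invariant totally singular subspaces of the dimensions `i j + w` with `j = 0` or
`(r - 1) / i + 2 j ≤ A + 1`, and `w ≤ d - h A - [A odd]`; and every invariant totally singular
subspace has dimension `i j + w` with `j ≤ sDim` and `w ≤ d - h A - [A odd]`. -/
def StMEven : Prop :=
  ∀ (F : Type u) [Field F] [Fintype F] (p : ℕ) [Fact p.Prime] [CharP F p] (d r : ℕ),
    r.Prime → r ≠ 2 → r ≠ p → Even (ii F r) →
    ∀ Φs : Finset F[X], IsCycSet F r Φs →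
    ∀ y : GL (Fin d ⊕ Fin d) F, y ∈ Cfsg.isometryGroup F (Cfsg.quadFormPlus d F) → y ^ r = 1 →
    ∃ A : ℕ, fixDim d y + ii F r * A = 2 * d ∧ (Odd A → ii F r / 2 * A + 1 ≤ d) ∧
      (∀ j w : ℕ, (j = 0 ∨ (r - 1) / ii F r + 2 * j ≤ A + 1) →
        w + ii F r / 2 * A + (if Odd A then 1 else 0) ≤ d →
        FixP d (ii F r * j + w) y) ∧
      (∀ W : Submodule F (Fin d ⊕ Fin d → F), (∀ w ∈ W, Cfsg.quadFormPlus d F w = 0) →
        W.map (Matrix.toLin' (y : Matrix (Fin d ⊕ Fin d) (Fin d ⊕ Fin d) F)) ≤ W →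
        ∃ j w : ℕ, Module.finrank F ↥W = ii F r * j + w ∧ j ≤ sDim d r Φs y ∧
          w + ii F r / 2 * A + (if Odd A then 1 else 0) ≤ d)

/-! ## Odd `r ≠ p`: existence of elements -/

/-- PT-EXODD: `i` odd: elements of `Ω⁺` of order `r` with `A` pairs of blocks, `1 ≤ A`,
`i A ≤ d`. -/
def StExOdd : Prop :=
  ∀ (F : Type u) [Field F] [Fintype F] (p : ℕ) [Fact p.Prime] [CharP F p] (d r : ℕ),
    4 ≤ d → r.Prime → r ≠ 2 → r ≠ p → Odd (ii F r) →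
    ∀ A : ℕ, 1 ≤ A → ii F r * A ≤ d →
    ∃ x : GL (Fin d ⊕ Fin d) F, x ∈ Cfsg.Geo.omegaGL (Cfsg.quadFormPlus d F) ∧ x ^ r = 1 ∧
      fixDim d x + 2 * ii F r * A = 2 * d ∧
      ∀ z : F, (x : Matrix (Fin d ⊕ Fin d) (Fin d ⊕ Fin d) F) ≠
        z • (1 : Matrix (Fin d ⊕ Fin d) (Fin d ⊕ Fin d) F)

/-- PT-EXEVEN: `i` even, `h = i / 2`: elements of `Ω⁺` of order `r` with `A ≥ 1` blocks
(`h A ≤ d - 1` for `A` odd, `h A ≤ d` for `A` even) spread as evenly as possible over the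
`(r - 1) / i` types. -/
def StExEven : Prop :=
  ∀ (F : Type u) [Field F] [Fintype F] (p : ℕ) [Fact p.Prime] [CharP F p] (d r : ℕ),
    4 ≤ d → r.Prime → r ≠ 2 → r ≠ p → Even (ii F r) →
    ∀ Φs : Finset F[X], IsCycSet F r Φs → ∀ A : ℕ, 1 ≤ A →
    (Odd A → ii F r / 2 * A + 1 ≤ d) → (Even A → ii F r / 2 * A ≤ d) →
    ∃ x : GL (Fin d ⊕ Fin d) F, x ∈ Cfsg.Geo.omegaGL (Cfsg.quadFormPlus d F) ∧ x ^ r = 1 ∧
      fixDim d x + ii F r * A = 2 * d ∧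
      (∀ z : F, (x : Matrix (Fin d ⊕ Fin d) (Fin d ⊕ Fin d) F) ≠
        z • (1 : Matrix (Fin d ⊕ Fin d) (Fin d ⊕ Fin d) F)) ∧
      sDim d r Φs x ≤ if A ≤ (r - 1) / ii F r then 0 else (A - (r - 1) / ii F r + 1) / 2

/-! ## Arithmetic (pure `ℕ`; `n = 2 d`) -/

/-- PT-AROF -/
def StArOddFix : Prop :=
  ∀ d m i A : ℕ, 0 < i → Odd i → m + 1 ≤ d → i ≤ m →
    2 * (m % i) ≤ (2 * d) % (2 * i) → i * A ≤ d →
    ∃ j w : ℕ, j ≤ A ∧ w + i * A ≤ d ∧ i * j + w = m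

/-- PT-AROE -/
def StArOddEx : Prop :=
  ∀ d m i : ℕ, 0 < i → Odd i → 1 ≤ m → m + 1 ≤ d →
    (∃ e : ℕ, d < e + m ∧ e ≤ d ∧ i ∣ e) →
    ¬ (i ≤ m ∧ 2 * (m % i) ≤ (2 * d) % (2 * i)) →
    ∃ A : ℕ, 1 ≤ A ∧ i * A ≤ d ∧ ∀ j w : ℕ, j ≤ A → w + i * A ≤ d → i * j + w ≠ m

/-- PT-AREF -/
def StArEvenFix : Prop :=
  ∀ d m i t A : ℕ, 0 < i → Even i → 1 ≤ t → m + 1 ≤ d → i ≤ m →
    t + 2 * (m / i) ≤ (2 * d) / i →
    ((2 * (m % i) ≤ i ∧ (2 * d) % i = 0 ∧ Odd ((2 * d) / i) ∧ t + 2 * (m / i) < (2 * d) / i) ∨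
      (2 * (m % i) ≤ (2 * d) % i ∧ Even ((2 * d) / i)) ∨
      (2 * (m % i) < (2 * d) % i ∧ Odd ((2 * d) / i))) →
    i / 2 * A + (if Odd A then 1 else 0) ≤ d →
    ∃ j w : ℕ, (j = 0 ∨ t + 2 * j ≤ A + 1) ∧ w + i / 2 * A + (if Odd A then 1 else 0) ≤ d ∧
      i * j + w = m

/-- PT-AREE -/
def StArEvenEx : Prop :=
  ∀ d m i t : ℕ, 0 < i → Even i → 1 ≤ t → 1 ≤ m → m + 1 ≤ d →
    (∃ j : ℕ, j < m ∧ (i ∣ d - j ∨ (d - 1 - j) % i = i / 2)) →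
    ¬ (i ≤ m ∧ t + 2 * (m / i) ≤ (2 * d) / i ∧
      ((2 * (m % i) ≤ i ∧ (2 * d) % i = 0 ∧ Odd ((2 * d) / i) ∧
          t + 2 * (m / i) < (2 * d) / i) ∨
        (2 * (m % i) ≤ (2 * d) % i ∧ Even ((2 * d) / i)) ∨
        (2 * (m % i) < (2 * d) % i ∧ Odd ((2 * d) / i)))) →
    ∃ A : ℕ, 1 ≤ A ∧ (Odd A → i / 2 * A + 1 ≤ d) ∧ (Even A → i / 2 * A ≤ d) ∧
      ∀ j w : ℕ, j ≤ (if A ≤ t then 0 else (A - t + 1) / 2) →
        w + i / 2 * A + (if Odd A then 1 else 0) ≤ d → i * j + w ≠ m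

end Cfsg.Agent.H49.Pt
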