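import Mathlib
import Cfsg.Agent.H49.SimDiag
import Cfsg.Agent.H49.SimInst

set_option autoImplicit false
set_option linter.unusedSectionVars false

/-! Helper lemmas (helper49): `Inndiag(PΩ⁺_{2m}(q)) / Inn`, `q` odd. -/

namespace Cfsg.Agent.H49

open Module Matrix

section
variable (m : ℕ) (F : Type*) [Field F]

/-- The similarity `diag(ν, 1)` of the plus type form. -/
def dsim (ν : Fˣ) : ↥(Cfsg.Geo.quadSimilarityGroup (⇑(QP m F))) :=
  ⟨diagHom (Fin m ⊕ Fin m) F (Sum.elim (fun _ => ν) (fun _ => 1)), ⟨ν, fun v => by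
    rw [diagHom_coe]
    simp only [QP_apply, Matrix.mulVec_diagonal, Sum.elim_inl, Sum.elim_inr, Units.val_one,
      one_mul, Finset.mul_sum, mul_assoc]⟩⟩

theorem dsim_mulVec_inl (ν : Fˣ) (v : Fin m ⊕ Fin m → F) (i : Fin m) :
    ((((dsim m F ν : ↥(Cfsg.Geo.quadSimilarityGroup (⇑(QP m F)))) :
      Matrix.GeneralLinearGroup (Fin m ⊕ Fin m) F) : Matrix (Fin m ⊕ Fin m) (Fin m ⊕ Fin m) F)
        *ᵥ v) (Sum.inl i) = (ν : F) * v (Sum.inl i) := by
  show (Matrix.diagonal _ *ᵥ v) (Sum.inl i) = _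
  rw [Matrix.mulVec_diagonal]
  rfl

theorem dsim_mulVec_inr (ν : Fˣ) (v : Fin m ⊕ Fin m → F) (i : Fin m) :
    ((((dsim m F ν : ↥(Cfsg.Geo.quadSimilarityGroup (⇑(QP m F)))) :
      Matrix.GeneralLinearGroup (Fin m ⊕ Fin m) F) : Matrix (Fin m ⊕ Fin m) (Fin m ⊕ Fin m) F)
        *ᵥ v) (Sum.inr i) = v (Sum.inr i) := by
  show (Matrix.diagonal _ *ᵥ v) (Sum.inr i) = _
  rw [Matrix.mulVec_diagonal]
  simp

theorem QP_dsim (ν : Fˣ) (v : Fin m ⊕ Fin m → F) :
    QP m F ((((dsim m F ν : ↥(Cfsg.Geo.quadSimilarityGroup (⇑(QP m F)))) :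
      Matrix.GeneralLinearGroup (Fin m ⊕ Fin m) F) : Matrix (Fin m ⊕ Fin m) (Fin m ⊕ Fin m) F)
        *ᵥ v) = (ν : F) * QP m F v := by
  rw [QP_apply, QP_apply, Finset.mul_sum]
  refine Finset.sum_congr rfl fun i _ => ?_
  rw [dsim_mulVec_inl, dsim_mulVec_inr, mul_assoc]

theorem simMul_dsim (hne : ∃ v, QP m F v ≠ 0) (ν : Fˣ) :
    simMul (⇑(QP m F)) (dsim m F ν) = ν :=
  simMul_unique (⇑(QP m F)) hne _ ν (QP_dsim m F ν)

theorem simD_dsim (hne : ∃ v, QP m F v ≠ 0) (ν : Fˣ) :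
    simD (QP m F) hne m (dsim m F ν) = 1 := by
  apply Units.ext
  rw [simD_val, simMul_dsim m F hne]
  have hdet : (((dsim m F ν : ↥(Cfsg.Geo.quadSimilarityGroup (⇑(QP m F)))) :
      Matrix.GeneralLinearGroup (Fin m ⊕ Fin m) F) : Matrix (Fin m ⊕ Fin m) (Fin m ⊕ Fin m) F).det
      = (ν : F) ^ m := by
    show (Matrix.diagonal _).det = _
    rw [Matrix.det_diagonal, Fintype.prod_sum_type]
    simp
  rw [hdet, Units.val_one, ← mul_pow, mul_inv_cancel₀ ν.ne_zero, one_pow]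

theorem dsim_map_U0 (ν : Fˣ) :
    (U0 m F).map (Matrix.mulVecLin
      (((dsim m F ν : ↥(Cfsg.Geo.quadSimilarityGroup (⇑(QP m F)))) :
        Matrix.GeneralLinearGroup (Fin m ⊕ Fin m) F) : Matrix (Fin m ⊕ Fin m) (Fin m ⊕ Fin m) F))
      = U0 m F := by
  apply Submodule.eq_of_le_of_finrank_eq
  · rintro _ ⟨v, hv, rfl⟩
    rw [mem_U0]
    intro i
    rw [Matrix.mulVecLin_apply, dsim_mulVec_inr]
    exact mem_U0.mp hv i
  · exact finrank_map_sim (⇑(QP m F)) (dsim m F ν) (U0 m F)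

theorem dsim_sq (ν : Fˣ) :
    dsim m F ν * dsim m F ν
      = scalSim (QP m F) ν * inclO (QP m F) (leviO m F (scalGL (Fin m) ν)) := by
  apply Subtype.ext
  apply Units.ext
  apply matrix_ext_mulVec
  intro x
  have e1 : (((dsim m F ν * dsim m F ν : ↥(Cfsg.Geo.quadSimilarityGroup (⇑(QP m F)))) :
      Matrix.GeneralLinearGroup (Fin m ⊕ Fin m) F) : Matrix (Fin m ⊕ Fin m) (Fin m ⊕ Fin m) F)
      = (((dsim m F ν : ↥(Cfsg.Geo.quadSimilarityGroup (⇑(QP m F)))) :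
          Matrix.GeneralLinearGroup (Fin m ⊕ Fin m) F) : Matrix (Fin m ⊕ Fin m) (Fin m ⊕ Fin m) F)
        * (((dsim m F ν : ↥(Cfsg.Geo.quadSimilarityGroup (⇑(QP m F)))) :
          Matrix.GeneralLinearGroup (Fin m ⊕ Fin m) F) : Matrix (Fin m ⊕ Fin m) (Fin m ⊕ Fin m) F) :=
    rfl
  have e2 : (((scalSim (QP m F) ν * inclO (QP m F) (leviO m F (scalGL (Fin m) ν)) :
      ↥(Cfsg.Geo.quadSimilarityGroup (⇑(QP m F)))) :
      Matrix.GeneralLinearGroup (Fin m ⊕ Fin m) F) : Matrix (Fin m ⊕ Fin m) (Fin m ⊕ Fin m) F)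
      = ((scalGL (Fin m ⊕ Fin m) ν : Matrix.GeneralLinearGroup (Fin m ⊕ Fin m) F) :
          Matrix (Fin m ⊕ Fin m) (Fin m ⊕ Fin m) F)
        * (((leviO m F (scalGL (Fin m) ν) : ↥(Cfsg.isometryGroup F (⇑(QP m F)))) :
          Matrix.GeneralLinearGroup (Fin m ⊕ Fin m) F) : Matrix (Fin m ⊕ Fin m) (Fin m ⊕ Fin m) F) :=
    rfl
  rw [e1, e2, ← Matrix.mulVec_mulVec, ← Matrix.mulVec_mulVec, scalGL_mulVec]
  funext i
  rcases i with i | i
  · rw [dsim_mulVec_inl, dsim_mulVec_inl, Pi.smul_apply, leviO_mulVec_inl, scalGL_mulVec]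
    rfl
  · rw [dsim_mulVec_inr, dsim_mulVec_inr, Pi.smul_apply, leviO_mulVec_inr]
    have e3 : ((scalGL (Fin m) ν : Matrix.GeneralLinearGroup (Fin m) F)⁻¹ :
        Matrix.GeneralLinearGroup (Fin m) F) = scalGL (Fin m) ν⁻¹ :=
      (map_inv (Units.map (algebraMap F (Matrix (Fin m) (Fin m) F)).toMonoidHom) ν).symm
    rw [e3, scalGL_coe, Matrix.transpose_smul, Matrix.transpose_one, Matrix.smul_mulVec,
      Matrix.one_mulVec, Pi.smul_apply, smul_eq_mul, smul_eq_mul, Function.comp_apply,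
      Units.val_inv_eq_inv_val, mul_inv_cancel_left₀ ν.ne_zero]

end

section
variable (m : ℕ) (F : Type*) [Field F] [Fintype F] [DecidableEq F]

theorem sgnD_dsim (h2 : (2 : F) ≠ 0) (hne : ∃ v, QP m F v ≠ 0) (ν : Fˣ) :
    sgnD (QP m F) h2 (QP_nondeg m F) hne (k := m) (by simp; ring) (dsim m F ν) = 1 :=
  (sgnD_eq_one_iff _ h2 _ hne _ _).mpr (simD_dsim m F hne ν)

theorem alphaT_dsim_sq (h2 : (2 : F) ≠ 0) (hne : ∃ v, QP m F v ≠ 0)
    (hneg : spinSign (QP m F) (negG (QP m F)) = 1) (ν : Fˣ) (hν : ¬ IsSquare (ν : F)) :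
    alphaT (QP m F) (dsim m F ν * dsim m F ν) = (-1) ^ m := by
  rw [dsim_sq, alphaT_spec (QP m F) hne hneg, spinSign_leviO m F h2]
  have hdet : Matrix.GeneralLinearGroup.det (scalGL (Fin m) ν) = ν ^ m := by
    apply Units.ext
    rw [Matrix.GeneralLinearGroup.val_det_apply, scalGL_coe, Matrix.det_smul, Matrix.det_one,
      Fintype.card_fin, mul_one, Units.val_pow_eq_pow_val]
  have hχ : (quadraticChar F).toUnitHom ν = -1 := by
    apply Units.ext
    rw [MulChar.coe_toUnitHom, quadraticChar_neg_one_iff_not_isSquare.mpr hν]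
    rfl
  rw [hdet, map_pow, hχ]

/-- `Inndiag(PΩ⁺)` is the image of the similarities with trivial sign. -/
theorem inndiagPlus_eq (h2 : (2 : F) ≠ 0) (hne : ∃ v, QP m F v ≠ 0) :
    Cfsg.inndiagPOmegaPlus m F
      = (sgnD (QP m F) h2 (QP_nondeg m F) hne (k := m) (by simp; ring)).ker.map
          (cHom (⇑(QP m F))) := by
  obtain ⟨ν, hν⟩ := exists_nonsquare_unit (F := F) h2
  have hcard : Fintype.card (Fin m ⊕ Fin m) = 2 * m := by simp; ring
  have key : ∀ g : ↥(Cfsg.Geo.quadSimilarityGroup (⇑(QP m F))),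
      Cfsg.PreservesSingularClasses (⇑(QP m F))
        ((g : Matrix.GeneralLinearGroup (Fin m ⊕ Fin m) F) :
          Matrix (Fin m ⊕ Fin m) (Fin m ⊕ Fin m) F)
        ↔ sgnD (QP m F) h2 (QP_nondeg m F) hne hcard g = 1 :=
    preserves_iff_sgnD (QP m F) h2 (QP_nondeg m F) hne hcard (U0 m F) (U0_ts m F)
      (finrank_U0 m F) (dsim m F ν) (by rw [simMul_dsim m F hne]; exact hν)
      (sgnD_dsim m F h2 hne ν) (dsim_map_U0 m F ν)
  unfold Cfsg.inndiagPOmegaPlus Cfsg.autSubgroupOf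
  have : {β : MulAut (Cfsg.POmega F (Cfsg.quadFormPlus m F)) |
        Cfsg.IsInnerDiagonalAutPOmegaPlus m β}
      = (((sgnD (QP m F) h2 (QP_nondeg m F) hne hcard).ker.map (cHom (⇑(QP m F))) :
          Subgroup (MulAut (Cfsg.POmega F (Cfsg.quadFormPlus m F)))) :
            Set (MulAut (Cfsg.POmega F (Cfsg.quadFormPlus m F)))) := by
    ext β
    constructor
    · rintro ⟨g, hg, hP, hβ⟩
      exact ⟨⟨g, hg⟩, MonoidHom.mem_ker.mpr ((key ⟨g, hg⟩).mp hP),
        ((isInduced_iff (⇑(QP m F)) ⟨g, hg⟩ β).mp hβ).symm⟩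
    · rintro ⟨g, hg, rfl⟩
      exact ⟨g.1, g.2, (key g).mpr (MonoidHom.mem_ker.mp hg),
        (isInduced_iff (⇑(QP m F)) g _).mpr rfl⟩
  rw [this, Subgroup.closure_eq]
  rfl

end

/-- The group of order two in its two guises. -/
noncomputable def c2Equiv : ℤˣ ≃* Multiplicative (ZMod 2) :=
  mulEquivOfPrimeCardEq (p := 2) (G := ℤˣ) (G' := Multiplicative (ZMod 2))
    (by rw [Nat.card_eq_fintype_card, Fintype.card_units_int])
    (by rw [Nat.card_eq_fintype_card]; rfl)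

section PlusInndiag
variable {F : Type*} [Field F] [Fintype F]

theorem plus_inndiag (hodd : Odd (Fintype.card F)) {m : ℕ} (hm : 3 ≤ m) :
    ((Odd m ∧ Fintype.card F % 4 = 3) →
      (∃ φ : ↥(Cfsg.inndiagPOmegaPlus m F) →* Multiplicative (ZMod 2), Function.Surjective φ ∧
        φ.ker = (Cfsg.Inn (Cfsg.POmega F (Cfsg.quadFormPlus m F))).subgroupOf
          (Cfsg.inndiagPOmegaPlus m F))) ∧
    ((Odd m ∧ Fintype.card F % 4 = 1) →
      (∃ φ : ↥(Cfsg.inndiagPOmegaPlus m F) →* Multiplicative (ZMod 4), Function.Surjective φ ∧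
        φ.ker = (Cfsg.Inn (Cfsg.POmega F (Cfsg.quadFormPlus m F))).subgroupOf
          (Cfsg.inndiagPOmegaPlus m F))) ∧
    (Even m →
      (∃ φ : ↥(Cfsg.inndiagPOmegaPlus m F) →* Multiplicative (ZMod 2 × ZMod 2),
        Function.Surjective φ ∧
        φ.ker = (Cfsg.Inn (Cfsg.POmega F (Cfsg.quadFormPlus m F))).subgroupOf
          (Cfsg.inndiagPOmegaPlus m F))) := by
  classical
  have h2 : (2 : F) ≠ 0 := two_ne_zero_of_odd_card hodd
  have hne : ∃ v, QP m F v ≠ 0 := by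
    obtain ⟨x, hx⟩ := exists_Q_eq_of_ts3 (QP m F) (QP_nondeg m F) (hasTS3_QP m hm) 1
    exact ⟨x, by rw [hx]; exact one_ne_zero⟩
  have hcard : Fintype.card (Fin m ⊕ Fin m) = 2 * m := by simp; ring
  obtain ⟨ν, hν⟩ := exists_nonsquare_unit (F := F) h2
  have hP := inndiagPlus_eq m F h2 hne
  have hδ : ¬ IsSquare (simMul (⇑(QP m F)) (dsim m F ν) : F) := by
    rw [simMul_dsim m F hne]
    exact hν
  have hs := sgnD_dsim m F h2 hne ν
  refine ⟨?_, ?_, ?_⟩
  · intro h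
    have hneg : spinSign (QP m F) (negG (QP m F)) ≠ 1 := by
      intro hs'
      rw [spinSign_negG_QP_iff m F h2] at hs'
      rcases hs' with he | hne'
      · exact (Nat.not_even_iff_odd.mpr h.1) he
      · exact hne' h.2
    exact exists_hom_of_mulEquiv c2Equiv _
      (inndiag_mod_inn_two (QP m F) h2 (QP_nondeg m F) (hasTS3_QP m hm) hne hcard (dsim m F ν)
        hδ hs hneg _ hP)
  · intro h
    have hneg : spinSign (QP m F) (negG (QP m F)) = 1 := by
      rw [spinSign_negG_QP_iff m F h2]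
      right
      omega
    have ha := alphaT_dsim_sq m F h2 hne hneg ν hν
    rw [h.1.neg_one_pow] at ha
    exact inndiag_mod_inn_four (QP m F) h2 (QP_nondeg m F) (hasTS3_QP m hm) hne hcard
      (dsim m F ν) hδ hs hneg (H := Multiplicative (ZMod 4)) (Multiplicative.ofAdd 2)
      (Multiplicative.ofAdd 1) (by decide) (by decide) (by decide) (by decide) (by decide)
      (by rw [ha, if_neg (by decide)]; decide) _ hP
  · intro h
    have hneg : spinSign (QP m F) (negG (QP m F)) = 1 := by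
      rw [spinSign_negG_QP_iff m F h2]
      left
      exact h
    have ha := alphaT_dsim_sq m F h2 hne hneg ν hν
    rw [h.neg_one_pow] at ha
    exact inndiag_mod_inn_four (QP m F) h2 (QP_nondeg m F) (hasTS3_QP m hm) hne hcard
      (dsim m F ν) hδ hs hneg (H := Multiplicative (ZMod 2 × ZMod 2))
      (Multiplicative.ofAdd (1, 0)) (Multiplicative.ofAdd (0, 1)) (by decide) (by decide)
      (by decide) (by decide) (by decide) (by rw [ha, if_pos rfl]; decide) _ hP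

end PlusInndiag

end Cfsg.Agent.H49
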