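import Mathlib
import Cfsg.Agent.H49.SimMinusK
import Cfsg.Agent.H49.SimPlus

set_option autoImplicit false
set_option linter.unusedSectionVars false

/-! Helper lemmas (helper49): `Inndiag(PΩ⁻_{2m+2}(q)) / Inn`, `q` odd. -/

namespace Cfsg.Agent.H49

open Module Matrix

section
variable {ι₁ ι₂ : Type} [Fintype ι₁] [DecidableEq ι₁] [Fintype ι₂] [DecidableEq ι₂]
  {F : Type*} [Field F] [Fintype F] [DecidableEq F]

theorem spinSign_blockIsoQ_left (Q₁ : QuadraticForm F (ι₁ → F)) (Q₂ : QuadraticForm F (ι₂ → F))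
    (h2 : (2 : F) ≠ 0) (h₁ : (QuadraticMap.polarBilin Q₁).Nondegenerate)
    (g₁ : ↥(Cfsg.isometryGroup F (⇑Q₁))) :
    spinSign (sumQ Q₁ Q₂) (blockIsoQ Q₁ Q₂ (g₁, 1)) = spinSign Q₁ g₁ := by
  have key : (spinSign (sumQ Q₁ Q₂)).comp ((blockIsoQ Q₁ Q₂).comp (MonoidHom.inl _ _))
      = spinSign Q₁ := by
    apply MonoidHom.eq_of_eqOn_dense (closure_reflSet_eq_top Q₁ h2 h₁)
    rintro r ⟨v, hv, rfl⟩
    show spinSign (sumQ Q₁ Q₂) (blockIsoQ Q₁ Q₂ (reflG Q₁ v, 1)) = spinSign Q₁ (reflG Q₁ v)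
    have e : sumQ Q₁ Q₂ (Sum.elim v 0) = Q₁ v := by
      rw [sumQ_apply, Sum.elim_comp_inl, Sum.elim_comp_inr, QuadraticMap.map_zero, add_zero]
    rw [blockIsoQ_reflG_left, spinSign_reflG _ h2 _ (by rw [e]; exact hv),
      spinSign_reflG Q₁ h2 v hv]
    by_cases hs : IsSquare (Q₁ v)
    · rw [if_pos hs, if_pos (by rw [e]; exact hs)]
    · rw [if_neg hs, if_neg (by rw [e]; exact hs)]
  exact DFunLike.congr_fun key g₁

theorem spinSign_blockIsoQ_right (Q₁ : QuadraticForm F (ι₁ → F)) (Q₂ : QuadraticForm F (ι₂ → F))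
    (h2 : (2 : F) ≠ 0) (h₂ : (QuadraticMap.polarBilin Q₂).Nondegenerate)
    (g₂ : ↥(Cfsg.isometryGroup F (⇑Q₂))) :
    spinSign (sumQ Q₁ Q₂) (blockIsoQ Q₁ Q₂ (1, g₂)) = spinSign Q₂ g₂ := by
  have key : (spinSign (sumQ Q₁ Q₂)).comp ((blockIsoQ Q₁ Q₂).comp (MonoidHom.inr _ _))
      = spinSign Q₂ := by
    apply MonoidHom.eq_of_eqOn_dense (closure_reflSet_eq_top Q₂ h2 h₂)
    rintro r ⟨v, hv, rfl⟩
    show spinSign (sumQ Q₁ Q₂) (blockIsoQ Q₁ Q₂ (1, reflG Q₂ v)) = spinSign Q₂ (reflG Q₂ v)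
    have e : sumQ Q₁ Q₂ (Sum.elim 0 v) = Q₂ v := by
      rw [sumQ_apply, Sum.elim_comp_inl, Sum.elim_comp_inr, QuadraticMap.map_zero, zero_add]
    rw [blockIsoQ_reflG_right, spinSign_reflG _ h2 _ (by rw [e]; exact hv),
      spinSign_reflG Q₂ h2 v hv]
    by_cases hs : IsSquare (Q₂ v)
    · rw [if_pos hs, if_pos (by rw [e]; exact hs)]
    · rw [if_neg hs, if_neg (by rw [e]; exact hs)]
  exact DFunLike.congr_fun key g₂

theorem spinSign_blockIsoQ (Q₁ : QuadraticForm F (ι₁ → F)) (Q₂ : QuadraticForm F (ι₂ → F))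
    (h2 : (2 : F) ≠ 0) (h₁ : (QuadraticMap.polarBilin Q₁).Nondegenerate)
    (h₂ : (QuadraticMap.polarBilin Q₂).Nondegenerate)
    (g₁ : ↥(Cfsg.isometryGroup F (⇑Q₁))) (g₂ : ↥(Cfsg.isometryGroup F (⇑Q₂))) :
    spinSign (sumQ Q₁ Q₂) (blockIsoQ Q₁ Q₂ (g₁, g₂)) = spinSign Q₁ g₁ * spinSign Q₂ g₂ := by
  have e : ((g₁, g₂) : ↥(Cfsg.isometryGroup F (⇑Q₁)) × ↥(Cfsg.isometryGroup F (⇑Q₂)))
      = (g₁, 1) * (1, g₂) := by
    rw [Prod.mk_mul_mk, mul_one, one_mul]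
  rw [e, map_mul, map_mul, spinSign_blockIsoQ_left Q₁ Q₂ h2 h₁,
    spinSign_blockIsoQ_right Q₁ Q₂ h2 h₂]

end

section
variable (m : ℕ) {F : Type*} [Field F]

/-- The matrix of the standard similarity of the minus type form: `diag(ν, 1)` on the
hyperbolic part and multiplication by `α` on the anisotropic plane. -/
def msimMat (ν a b : F) (α : Fin 2 → F) :
    Matrix ((Fin m ⊕ Fin m) ⊕ Fin 2) ((Fin m ⊕ Fin m) ⊕ Fin 2) F :=
  Matrix.fromBlocks (Matrix.diagonal (Sum.elim (fun _ => ν) (fun _ => 1))) 0 0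
    !![α 0, -(b * α 1); α 1, α 0 + a * α 1]

theorem msimMat_mulVec (ν a b : F) (α : Fin 2 → F) (w : (Fin m ⊕ Fin m) ⊕ Fin 2 → F) :
    msimMat m ν a b α *ᵥ w
      = Sum.elim (Matrix.diagonal (Sum.elim (fun _ => ν) (fun _ => 1)) *ᵥ (w ∘ Sum.inl))
        (!![α 0, -(b * α 1); α 1, α 0 + a * α 1] *ᵥ (w ∘ Sum.inr)) := by
  rw [msimMat, Matrix.fromBlocks_mulVec]
  simp

theorem msimMat_inl_inl (ν a b : F) (α : Fin 2 → F) (w : (Fin m ⊕ Fin m) ⊕ Fin 2 → F)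
    (i : Fin m) :
    (msimMat m ν a b α *ᵥ w) (Sum.inl (Sum.inl i)) = ν * w (Sum.inl (Sum.inl i)) := by
  rw [msimMat_mulVec, Sum.elim_inl, Matrix.mulVec_diagonal]
  rfl

theorem msimMat_inl_inr (ν a b : F) (α : Fin 2 → F) (w : (Fin m ⊕ Fin m) ⊕ Fin 2 → F)
    (i : Fin m) :
    (msimMat m ν a b α *ᵥ w) (Sum.inl (Sum.inr i)) = w (Sum.inl (Sum.inr i)) := by
  rw [msimMat_mulVec, Sum.elim_inl, Matrix.mulVec_diagonal, Sum.elim_inr, one_mul]
  rfl

theorem msimMat_inr_zero (ν a b : F) (α : Fin 2 → F) (w : (Fin m ⊕ Fin m) ⊕ Fin 2 → F) :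
    (msimMat m ν a b α *ᵥ w) (Sum.inr 0)
      = α 0 * w (Sum.inr 0) - b * α 1 * w (Sum.inr 1) := by
  rw [msimMat_mulVec, Sum.elim_inr]
  simp [Matrix.mulVec, dotProduct, Fin.sum_univ_two]
  ring

theorem msimMat_inr_one (ν a b : F) (α : Fin 2 → F) (w : (Fin m ⊕ Fin m) ⊕ Fin 2 → F) :
    (msimMat m ν a b α *ᵥ w) (Sum.inr 1)
      = α 1 * w (Sum.inr 0) + (α 0 + a * α 1) * w (Sum.inr 1) := by
  rw [msimMat_mulVec, Sum.elim_inr]
  simp [Matrix.mulVec, dotProduct, Fin.sum_univ_two]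

theorem QMin_msimMat (ν a b : F) (α : Fin 2 → F) (hα : α 0 ^ 2 + a * α 0 * α 1 + b * α 1 ^ 2 = ν)
    (v : (Fin m ⊕ Fin m) ⊕ Fin 2 → F) :
    QMin m F a b (msimMat m ν a b α *ᵥ v) = ν * QMin m F a b v := by
  show Cfsg.quadFormMinus m F a b _ = ν * Cfsg.quadFormMinus m F a b v
  unfold Cfsg.quadFormMinus
  rw [msimMat_inr_zero, msimMat_inr_one]
  simp only [msimMat_inl_inl, msimMat_inl_inr]
  have hs : ∑ x : Fin m, ν * v (Sum.inl (Sum.inl x)) * v (Sum.inl (Sum.inr x))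
      = ν * ∑ i : Fin m, v (Sum.inl (Sum.inl i)) * v (Sum.inl (Sum.inr i)) := by
    rw [Finset.mul_sum]
    exact Finset.sum_congr rfl fun i _ => by ring
  rw [hs]
  linear_combination (v (Sum.inr 0) ^ 2 + a * v (Sum.inr 0) * v (Sum.inr 1)
    + b * v (Sum.inr 1) ^ 2) * hα

theorem det_msimMat (ν a b : F) (α : Fin 2 → F)
    (hα : α 0 ^ 2 + a * α 0 * α 1 + b * α 1 ^ 2 = ν) :
    (msimMat m ν a b α).det = ν ^ (m + 1) := by
  rw [msimMat, Matrix.det_fromBlocks_zero₁₂, Matrix.det_diagonal, Fintype.prod_sum_type,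
    Matrix.det_fin_two_of]
  simp only [Sum.elim_inl, Sum.elim_inr, Finset.prod_const, Finset.card_univ, Fintype.card_fin,
    one_pow, mul_one]
  rw [pow_succ, ← hα]
  ring

end

section
variable (m : ℕ) {F : Type*} [Field F]

/-- On the binary form `z₀² + a z₀ z₁ + b z₁²`, the square of multiplication by `α` is the norm
of `α` times the product of the reflections in `α` and in `1`. -/
theorem binQ_rot (a b : F) (α : Fin 2 → F) (ν : F) (hν : ν ≠ 0)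
    (hα : α 0 ^ 2 + a * α 0 * α 1 + b * α 1 ^ 2 = ν) (z : Fin 2 → F) :
    !![α 0, -(b * α 1); α 1, α 0 + a * α 1] *ᵥ (!![α 0, -(b * α 1); α 1, α 0 + a * α 1] *ᵥ z)
      = ν • ((((reflG (binQ a b) α * reflG (binQ a b) ![1, 0] :
          ↥(Cfsg.isometryGroup F (⇑(binQ a b)))) : Matrix.GeneralLinearGroup (Fin 2) F) :
            Matrix (Fin 2) (Fin 2) F) *ᵥ z) := by
  rw [coe_mul_mulVec, reflG_coe, reflG_coe, reflectionMatrix_mulVec, reflectionMatrix_mulVec]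
  have hb : binQ a b α = ν := by
    rw [binQ_apply]
    exact hα
  have h1 : binQ a b ![1, 0] = 1 := by
    rw [binQ_apply]
    simp
  rw [hb, h1, polar_binQ, polar_binQ]
  have e0 : (!![α 0, -(b * α 1); α 1, α 0 + a * α 1]
      *ᵥ (!![α 0, -(b * α 1); α 1, α 0 + a * α 1] *ᵥ z)) 0
      = (α 0 ^ 2 - b * α 1 ^ 2) * z 0 - (2 * b * α 0 * α 1 + a * b * α 1 ^ 2) * z 1 := by
    simp [Matrix.mulVec, dotProduct, Fin.sum_univ_two]
    ring
  have e1 : (!![α 0, -(b * α 1); α 1, α 0 + a * α 1]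
      *ᵥ (!![α 0, -(b * α 1); α 1, α 0 + a * α 1] *ᵥ z)) 1
      = (2 * α 0 * α 1 + a * α 1 ^ 2) * z 0
        + (α 0 ^ 2 + 2 * a * α 0 * α 1 + a ^ 2 * α 1 ^ 2 - b * α 1 ^ 2) * z 1 := by
    simp [Matrix.mulVec, dotProduct, Fin.sum_univ_two]
    ring
  have hNi : ν * ν⁻¹ = 1 := mul_inv_cancel₀ hν
  have key : ∀ j : Fin 2, (!![α 0, -(b * α 1); α 1, α 0 + a * α 1]
      *ᵥ (!![α 0, -(b * α 1); α 1, α 0 + a * α 1] *ᵥ z)) j
      = (ν •
        (z - ((1 : F)⁻¹ * (2 * (![1, 0] : Fin 2 → F) 0 * z 0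
            + a * ((![1, 0] : Fin 2 → F) 0 * z 1 + (![1, 0] : Fin 2 → F) 1 * z 0)
            + 2 * b * (![1, 0] : Fin 2 → F) 1 * z 1)) • (![1, 0] : Fin 2 → F) -
          (ν⁻¹ *
              (2 * α 0 * (z - ((1 : F)⁻¹ * (2 * (![1, 0] : Fin 2 → F) 0 * z 0
                  + a * ((![1, 0] : Fin 2 → F) 0 * z 1 + (![1, 0] : Fin 2 → F) 1 * z 0)
                  + 2 * b * (![1, 0] : Fin 2 → F) 1 * z 1)) • (![1, 0] : Fin 2 → F)) 0 +
                  a * (α 0 * (z - ((1 : F)⁻¹ * (2 * (![1, 0] : Fin 2 → F) 0 * z 0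
                  + a * ((![1, 0] : Fin 2 → F) 0 * z 1 + (![1, 0] : Fin 2 → F) 1 * z 0)
                  + 2 * b * (![1, 0] : Fin 2 → F) 1 * z 1)) • (![1, 0] : Fin 2 → F)) 1 +
                    α 1 * (z - ((1 : F)⁻¹ * (2 * (![1, 0] : Fin 2 → F) 0 * z 0
                  + a * ((![1, 0] : Fin 2 → F) 0 * z 1 + (![1, 0] : Fin 2 → F) 1 * z 0)
                  + 2 * b * (![1, 0] : Fin 2 → F) 1 * z 1)) • (![1, 0] : Fin 2 → F)) 0) +
                2 * b * α 1 * (z - ((1 : F)⁻¹ * (2 * (![1, 0] : Fin 2 → F) 0 * z 0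
                  + a * ((![1, 0] : Fin 2 → F) 0 * z 1 + (![1, 0] : Fin 2 → F) 1 * z 0)
                  + 2 * b * (![1, 0] : Fin 2 → F) 1 * z 1)) • (![1, 0] : Fin 2 → F)) 1)) •
            α)) j := by
    rw [Fin.forall_fin_two]
    constructor
    · rw [e0]
      simp only [Pi.smul_apply, Pi.sub_apply, smul_eq_mul, Matrix.cons_val_zero,
        Matrix.cons_val_one, Matrix.cons_val_fin_one, inv_one, one_mul, mul_one, mul_zero,
        zero_mul, add_zero, sub_zero]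
      linear_combination (-z 0 - a * z 1) * hα
        + ((2 * α 0 * (-z 0 - a * z 1) + a * (α 0 * z 1 + α 1 * (-z 0 - a * z 1))
          + 2 * b * α 1 * z 1) * α 0) * hNi
    · rw [e1]
      simp only [Pi.smul_apply, Pi.sub_apply, smul_eq_mul, Matrix.cons_val_zero,
        Matrix.cons_val_one, Matrix.cons_val_fin_one, inv_one, one_mul, mul_one, mul_zero,
        zero_mul, add_zero, sub_zero]
      linear_combination (z 1) * hα
        + ((2 * α 0 * (-z 0 - a * z 1) + a * (α 0 * z 1 + α 1 * (-z 0 - a * z 1))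
          + 2 * b * α 1 * z 1) * α 1) * hNi
  exact funext key

end

section
variable (m : ℕ) {F : Type*} [Field F] [Fintype F] [DecidableEq F]

/-- A class-preserving similarity of the minus type form with non-square multiplier, with the
spinor sign of (the isometry part of) its square. -/
theorem exists_msim (a b : F)
    (hab : ∀ z₁ z₂ : F, z₁ ^ 2 + a * z₁ * z₂ + b * z₂ ^ 2 = 0 → z₁ = 0 ∧ z₂ = 0)
    (h2 : (2 : F) ≠ 0) (hne : ∃ v, QMin m F a b v ≠ 0) :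
    ∃ δ₀ : ↥(Cfsg.Geo.quadSimilarityGroup (⇑(QMin m F a b))),
      ¬ IsSquare (simMul (⇑(QMin m F a b)) δ₀ : F) ∧
      simD (QMin m F a b) hne (m + 1) δ₀ = 1 ∧
      (spinSign (QMin m F a b) (negG (QMin m F a b)) = 1 →
        alphaT (QMin m F a b) (δ₀ * δ₀) = (-1) ^ (m + 1)) := by
  obtain ⟨ν, hν⟩ := exists_nonsquare_unit (F := F) h2
  have hd := disc_ne_zero_of_aniso a b hab
  obtain ⟨α, -, hα⟩ := exists_Q_eq (binQ a b) ⊤ (by
      intro z _ hz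
      rw [binQ_apply] at hz
      obtain ⟨h0, h1⟩ := hab _ _ hz
      funext i
      fin_cases i
      · exact h0
      · exact h1) (by rw [finrank_top, Module.finrank_fin_fun]) (ν : F)
  have hbα : binQ a b α = ν := hα
  rw [binQ_apply] at hα
  have hsim := QMin_msimMat m (ν : F) a b α hα
  have hdet := det_msimMat m (ν : F) a b α hα
  have hdet0 : (msimMat m (ν : F) a b α).det ≠ 0 := by
    rw [hdet]
    exact pow_ne_zero _ ν.ne_zero
  obtain ⟨δ₀, hδ₀⟩ : ∃ δ₀ : ↥(Cfsg.Geo.quadSimilarityGroup (⇑(QMin m F a b))),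
      ((δ₀ : Matrix.GeneralLinearGroup ((Fin m ⊕ Fin m) ⊕ Fin 2) F) :
        Matrix ((Fin m ⊕ Fin m) ⊕ Fin 2) ((Fin m ⊕ Fin m) ⊕ Fin 2) F)
        = msimMat m (ν : F) a b α :=
    ⟨⟨Matrix.GeneralLinearGroup.mkOfDetNeZero _ hdet0, ⟨ν, hsim⟩⟩, rfl⟩
  have hmul : simMul (⇑(QMin m F a b)) δ₀ = ν :=
    simMul_unique _ hne δ₀ ν (by
      intro v
      rw [hδ₀]
      exact hsim v)
  refine ⟨δ₀, by rw [hmul]; exact hν, ?_, ?_⟩
  · apply Units.ext
    rw [simD_val, hmul, hδ₀, hdet, Units.val_one, ← mul_pow, mul_inv_cancel₀ ν.ne_zero, one_pow]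
  · intro hneg
    obtain ⟨g₀, hg₀⟩ : ∃ g₀ : ↥(Cfsg.isometryGroup F (⇑(QMin m F a b))),
        g₀ = blockIsoQ (QP m F) (binQ a b) (leviO m F (scalGL (Fin m) ν),
          reflG (binQ a b) α * reflG (binQ a b) ![1, 0]) := ⟨_, rfl⟩
    have hinl : ∀ x : (Fin m ⊕ Fin m) ⊕ Fin 2 → F,
        (((g₀ : Matrix.GeneralLinearGroup ((Fin m ⊕ Fin m) ⊕ Fin 2) F) :
          Matrix ((Fin m ⊕ Fin m) ⊕ Fin 2) ((Fin m ⊕ Fin m) ⊕ Fin 2) F) *ᵥ x) ∘ Sum.inl
        = (((leviO m F (scalGL (Fin m) ν) : ↥(Cfsg.isometryGroup F (⇑(QP m F)))) :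
          Matrix.GeneralLinearGroup (Fin m ⊕ Fin m) F) :
            Matrix (Fin m ⊕ Fin m) (Fin m ⊕ Fin m) F) *ᵥ (x ∘ Sum.inl) := by
      intro x
      rw [hg₀]
      exact blockIsoQ_mulVec_inl (QP m F) (binQ a b) _ x
    have hinr : ∀ x : (Fin m ⊕ Fin m) ⊕ Fin 2 → F,
        (((g₀ : Matrix.GeneralLinearGroup ((Fin m ⊕ Fin m) ⊕ Fin 2) F) :
          Matrix ((Fin m ⊕ Fin m) ⊕ Fin 2) ((Fin m ⊕ Fin m) ⊕ Fin 2) F) *ᵥ x) ∘ Sum.inr
        = (((reflG (binQ a b) α * reflG (binQ a b) ![1, 0] :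
          ↥(Cfsg.isometryGroup F (⇑(binQ a b)))) : Matrix.GeneralLinearGroup (Fin 2) F) :
            Matrix (Fin 2) (Fin 2) F) *ᵥ (x ∘ Sum.inr) := by
      intro x
      rw [hg₀]
      exact blockIsoQ_mulVec_inr (QP m F) (binQ a b) _ x
    have hsq : δ₀ * δ₀ = scalSim (QMin m F a b) ν * inclO (QMin m F a b) g₀ := by
      apply Subtype.ext
      apply Units.ext
      apply matrix_ext_mulVec
      intro x
      have e1 : (((δ₀ * δ₀ : ↥(Cfsg.Geo.quadSimilarityGroup (⇑(QMin m F a b)))) :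
          Matrix.GeneralLinearGroup ((Fin m ⊕ Fin m) ⊕ Fin 2) F) :
            Matrix ((Fin m ⊕ Fin m) ⊕ Fin 2) ((Fin m ⊕ Fin m) ⊕ Fin 2) F)
          = ((δ₀ : Matrix.GeneralLinearGroup ((Fin m ⊕ Fin m) ⊕ Fin 2) F) :
              Matrix ((Fin m ⊕ Fin m) ⊕ Fin 2) ((Fin m ⊕ Fin m) ⊕ Fin 2) F)
            * ((δ₀ : Matrix.GeneralLinearGroup ((Fin m ⊕ Fin m) ⊕ Fin 2) F) :
              Matrix ((Fin m ⊕ Fin m) ⊕ Fin 2) ((Fin m ⊕ Fin m) ⊕ Fin 2) F) := rfl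
      have e2 : (((scalSim (QMin m F a b) ν * inclO (QMin m F a b) g₀ :
          ↥(Cfsg.Geo.quadSimilarityGroup (⇑(QMin m F a b)))) :
          Matrix.GeneralLinearGroup ((Fin m ⊕ Fin m) ⊕ Fin 2) F) :
            Matrix ((Fin m ⊕ Fin m) ⊕ Fin 2) ((Fin m ⊕ Fin m) ⊕ Fin 2) F)
          = ((scalGL ((Fin m ⊕ Fin m) ⊕ Fin 2) ν :
              Matrix.GeneralLinearGroup ((Fin m ⊕ Fin m) ⊕ Fin 2) F) :
              Matrix ((Fin m ⊕ Fin m) ⊕ Fin 2) ((Fin m ⊕ Fin m) ⊕ Fin 2) F)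
            * ((g₀ : Matrix.GeneralLinearGroup ((Fin m ⊕ Fin m) ⊕ Fin 2) F) :
              Matrix ((Fin m ⊕ Fin m) ⊕ Fin 2) ((Fin m ⊕ Fin m) ⊕ Fin 2) F) := rfl
      rw [e1, e2, hδ₀, ← Matrix.mulVec_mulVec, ← Matrix.mulVec_mulVec, scalGL_mulVec]
      funext i
      rcases i with (i | i) | j
      · have h5 := congrFun (hinl x) (Sum.inl i)
        simp only [Function.comp_apply] at h5
        rw [msimMat_inl_inl, msimMat_inl_inl, Pi.smul_apply, h5, leviO_mulVec_inl, scalGL_mulVec]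
        rfl
      · have h5 := congrFun (hinl x) (Sum.inr i)
        simp only [Function.comp_apply] at h5
        have e3 : ((scalGL (Fin m) ν : Matrix.GeneralLinearGroup (Fin m) F)⁻¹ :
            Matrix.GeneralLinearGroup (Fin m) F) = scalGL (Fin m) ν⁻¹ :=
          (map_inv (Units.map (algebraMap F (Matrix (Fin m) (Fin m) F)).toMonoidHom) ν).symm
        rw [msimMat_inl_inr, msimMat_inl_inr, Pi.smul_apply, h5, leviO_mulVec_inr, e3,
          scalGL_coe, Matrix.transpose_smul, Matrix.transpose_one, Matrix.smul_mulVec,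
          Matrix.one_mulVec, Pi.smul_apply, smul_eq_mul, smul_eq_mul, Function.comp_apply,
          Function.comp_apply, Units.val_inv_eq_inv_val, mul_inv_cancel_left₀ ν.ne_zero]
      · have h5 := congrFun (hinr x) j
        simp only [Function.comp_apply] at h5
        have hrot := congrFun (binQ_rot a b α (ν : F) ν.ne_zero hα (x ∘ Sum.inr)) j
        rw [Pi.smul_apply, h5, msimMat_mulVec, Sum.elim_inr, msimMat_mulVec, Sum.elim_comp_inr,
          hrot]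
        rfl
    have hdetν : Matrix.GeneralLinearGroup.det (scalGL (Fin m) ν) = ν ^ m := by
      apply Units.ext
      rw [Matrix.GeneralLinearGroup.val_det_apply, scalGL_coe, Matrix.det_smul, Matrix.det_one,
        Fintype.card_fin, mul_one, Units.val_pow_eq_pow_val]
    have hχ : (quadraticChar F).toUnitHom ν = -1 := by
      apply Units.ext
      rw [MulChar.coe_toUnitHom, quadraticChar_neg_one_iff_not_isSquare.mpr hν]
      rfl
    have h10 : binQ a b ![1, 0] = 1 := by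
      rw [binQ_apply]
      simp
    have hs1 : spinSign (binQ a b) (reflG (binQ a b) α) = 1 := by
      rw [spinSign_reflG (binQ a b) h2 α (by rw [hbα]; exact ν.ne_zero),
        if_neg (by rw [hbα]; exact hν)]
    have hs2 : spinSign (binQ a b) (reflG (binQ a b) ![1, 0]) = -1 := by
      rw [spinSign_reflG (binQ a b) h2 _ (by rw [h10]; exact one_ne_zero),
        if_pos (by rw [h10]; exact ⟨1, by simp⟩)]
    have hsg : spinSign (QMin m F a b) g₀ = (-1) ^ (m + 1) := by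
      rw [hg₀]
      show spinSign (sumQ (QP m F) (binQ a b)) (blockIsoQ (QP m F) (binQ a b) _) = _
      rw [spinSign_blockIsoQ (QP m F) (binQ a b) h2 (QP_nondeg m F) (binQ_nondeg a b hd),
        spinSign_leviO m F h2, map_mul, hs1, hs2, hdetν, map_pow, hχ, pow_succ, one_mul]
    rw [hsq, alphaT_spec (QMin m F a b) hne hneg, hsg]

end

section
variable {ι : Type} [Fintype ι] [DecidableEq ι] {F : Type*} [Field F]

/-- The subgroup of `Aut(PΩ)` generated by the automorphisms induced by the similarities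
satisfying a predicate that cuts out a subgroup `K` is the image of `K`. -/
theorem autSubgroupOf_pred_eq (Qf : (ι → F) → F) (Pr : Matrix ι ι F → Prop)
    (K : Subgroup ↥(Cfsg.Geo.quadSimilarityGroup Qf))
    (hK : ∀ g : ↥(Cfsg.Geo.quadSimilarityGroup Qf),
      Pr ((g : Matrix.GeneralLinearGroup ι F) : Matrix ι ι F) ↔ g ∈ K) :
    Cfsg.autSubgroupOf (fun β : Cfsg.POmega F Qf ≃* Cfsg.POmega F Qf =>
        ∃ g : Matrix.GeneralLinearGroup ι F, g ∈ Cfsg.Geo.quadSimilarityGroup Qf ∧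
          Pr (g : Matrix ι ι F) ∧ Cfsg.IsInducedBySemilinearPOmega Qf g (RingEquiv.refl F) β)
      = K.map (cHom Qf) := by
  unfold Cfsg.autSubgroupOf
  have : {β : MulAut (Cfsg.POmega F Qf) | ∃ g : Matrix.GeneralLinearGroup ι F,
        g ∈ Cfsg.Geo.quadSimilarityGroup Qf ∧ Pr (g : Matrix ι ι F) ∧
          Cfsg.IsInducedBySemilinearPOmega Qf g (RingEquiv.refl F) β}
      = ((K.map (cHom Qf) : Subgroup (MulAut (Cfsg.POmega F Qf))) :
          Set (MulAut (Cfsg.POmega F Qf))) := by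
    ext β
    constructor
    · rintro ⟨g, hg, hP, hβ⟩
      exact ⟨⟨g, hg⟩, (hK ⟨g, hg⟩).mp hP, ((isInduced_iff Qf ⟨g, hg⟩ β).mp hβ).symm⟩
    · rintro ⟨g, hg, rfl⟩
      exact ⟨g.1, g.2, (hK g).mpr hg, (isInduced_iff Qf g _).mpr rfl⟩
  rw [this, Subgroup.closure_eq]

theorem exists_hom_autSubgroupOf_pred (Qf : (ι → F) → F) (Pr : Matrix ι ι F → Prop)
    (K : Subgroup ↥(Cfsg.Geo.quadSimilarityGroup Qf))
    (hK : ∀ g : ↥(Cfsg.Geo.quadSimilarityGroup Qf),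
      Pr ((g : Matrix.GeneralLinearGroup ι F) : Matrix ι ι F) ↔ g ∈ K)
    {H : Type*} [Group H]
    (h : ∃ φ : ↥(K.map (cHom Qf)) →* H, Function.Surjective φ ∧
      φ.ker = (Cfsg.Inn (Cfsg.POmega F Qf)).subgroupOf (K.map (cHom Qf))) :
    ∃ φ : ↥(Cfsg.autSubgroupOf (fun β : Cfsg.POmega F Qf ≃* Cfsg.POmega F Qf =>
        ∃ g : Matrix.GeneralLinearGroup ι F, g ∈ Cfsg.Geo.quadSimilarityGroup Qf ∧
          Pr (g : Matrix ι ι F) ∧ Cfsg.IsInducedBySemilinearPOmega Qf g (RingEquiv.refl F) β))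
        →* H, Function.Surjective φ ∧
      φ.ker = (Cfsg.Inn (Cfsg.POmega F Qf)).subgroupOf
        (Cfsg.autSubgroupOf (fun β : Cfsg.POmega F Qf ≃* Cfsg.POmega F Qf =>
        ∃ g : Matrix.GeneralLinearGroup ι F, g ∈ Cfsg.Geo.quadSimilarityGroup Qf ∧
          Pr (g : Matrix ι ι F) ∧
            Cfsg.IsInducedBySemilinearPOmega Qf g (RingEquiv.refl F) β)) := by
  rw [autSubgroupOf_pred_eq Qf Pr K hK]
  exact h

end

end Cfsg.Agent.H49
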