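import Mathlib
import Cfsg.Agent.H49.MapSub
import Cfsg.Agent.H49.CD
import Cfsg.Agent.H49.CD2
import Cfsg.Agent.H49.TSTrans

set_option autoImplicit false

namespace Cfsg.Agent.H49

open Module Matrix

section
variable {ι : Type} [Fintype ι] [DecidableEq ι] {F : Type*} [Field F]

/-- Decomposition of a vector with respect to a non-degenerate subspace. -/
theorem exists_decomp (Q : QuadraticForm F (ι → F)) (X : Submodule F (ι → F))
    (hX : X ⊓ LinearMap.BilinForm.orthogonal (QuadraticMap.polarBilin Q) X = ⊥) (v : ι → F) :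
    ∃ x ∈ X, ∃ y : ι → F, (∀ w ∈ X, QuadraticMap.polar (⇑Q) w y = 0) ∧ v = x + y := by
  have hc : IsCompl X (LinearMap.BilinForm.orthogonal (QuadraticMap.polarBilin Q) X) :=
    (LinearMap.BilinForm.isCompl_orthogonal_iff_disjoint (polarBilin_isRefl Q)).mpr
      (disjoint_iff.mpr hX)
  have hv : v ∈ X ⊔ LinearMap.BilinForm.orthogonal (QuadraticMap.polarBilin Q) X := by
    rw [hc.sup_eq_top]; exact Submodule.mem_top
  obtain ⟨x, hx, y, hy, rfl⟩ := Submodule.mem_sup.mp hv
  exact ⟨x, hx, y, fun w hw => (LinearMap.BilinForm.mem_orthogonal_iff.mp hy) w hw, rfl⟩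

omit [Fintype ι] [DecidableEq ι] in
theorem polar_map_of_isometry_on (Q : QuadraticForm F (ι → F)) (U : Submodule F (ι → F))
    (e : (ι → F) →ₗ[F] (ι → F)) (he : ∀ u ∈ U, Q (e u) = Q u) {u u' : ι → F} (hu : u ∈ U)
    (hu' : u' ∈ U) :
    QuadraticMap.polar (⇑Q) (e u) (e u') = QuadraticMap.polar (⇑Q) u u' := by
  simp only [QuadraticMap.polar]
  rw [← map_add, he _ (U.add_mem hu hu'), he u hu, he u' hu']

/-- A proper non-degenerate subspace `X` of a non-degenerate subspace `U` has an anisotropic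
vector of `U` orthogonal to it. -/
theorem exists_anisotropic_compl (Q : QuadraticForm F (ι → F)) (U X : Submodule F (ι → F))
    (hU : U ⊓ LinearMap.BilinForm.orthogonal (QuadraticMap.polarBilin Q) U = ⊥)
    (hX : X ⊓ LinearMap.BilinForm.orthogonal (QuadraticMap.polarBilin Q) X = ⊥)
    (hXU : X ≤ U) (hne : X ≠ U) :
    ∃ x ∈ U, (∀ w ∈ X, QuadraticMap.polar (⇑Q) w x = 0) ∧ Q x ≠ 0 := by
  by_contra hcon
  push Not at hcon
  apply hne
  apply le_antisymm hXU
  intro u hu
  obtain ⟨x, hx, y, hy, rfl⟩ := exists_decomp Q X hX u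
  have hyU : y ∈ U := by
    have := U.sub_mem hu (hXU hx)
    simpa using this
  have hy0 : y = 0 := by
    have hmem : y ∈ U ⊓ LinearMap.BilinForm.orthogonal (QuadraticMap.polarBilin Q) U := by
      refine Submodule.mem_inf.mpr ⟨hyU, ?_⟩
      rw [LinearMap.BilinForm.mem_orthogonal_iff]
      intro u' hu'
      obtain ⟨x', hx', y', hy', rfl⟩ := exists_decomp Q X hX u'
      have hy'U : y' ∈ U := by
        have := U.sub_mem hu' (hXU hx')
        simpa using this
      show QuadraticMap.polar (⇑Q) (x' + y') y = 0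
      rw [QuadraticMap.polar_add_left, hy x' hx', zero_add]
      have h1 := hcon y hyU hy
      have h2 := hcon y' hy'U hy'
      have h3 := hcon (y' + y) (U.add_mem hy'U hyU) (fun w hw => by
        rw [QuadraticMap.polar_add_right, hy' w hw, hy w hw, add_zero])
      simp only [QuadraticMap.polar]
      rw [h3, h1, h2]; ring
    rw [hU] at hmem
    exact (Submodule.mem_bot F).mp hmem
  rw [hy0, add_zero]
  exact hx

/-- Odd characteristic: two vectors of the same non-zero norm are interchanged by a product of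
at most two reflections fixing everything orthogonal to both. -/
theorem refl_move (Q : QuadraticForm F (ι → F)) (h2 : (2 : F) ≠ 0) (a b : ι → F)
    (hab : Q b = Q a) (ha : Q a ≠ 0) :
    ∃ h : ↥(Cfsg.isometryGroup F (⇑Q)),
      ((h : Matrix.GeneralLinearGroup ι F) : Matrix ι ι F) *ᵥ b = a ∧
      ∀ x : ι → F, QuadraticMap.polar (⇑Q) a x = 0 → QuadraticMap.polar (⇑Q) b x = 0 →
        ((h : Matrix.GeneralLinearGroup ι F) : Matrix ι ι F) *ᵥ x = x := by
  by_cases h1 : Q (b - a) = 0
  · have h5 : QuadraticMap.polar (⇑Q) b a = Q a + Q a := by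
      rw [Q_sub', hab] at h1
      linear_combination -h1
    have h4 : Q (b - -a) ≠ 0 := by
      rw [Q_sub', QuadraticMap.map_neg, hab, QuadraticMap.polar_neg_right, h5]
      have : Q a + Q a - -(Q a + Q a) = 2 * 2 * Q a := by ring
      rw [this]
      exact mul_ne_zero (mul_ne_zero h2 h2) ha
    refine ⟨reflG Q a * reflG Q (b - -a), ?_, ?_⟩
    · rw [coe_mul_mulVec, reflG_coe (v := b - -a),
        reflection_map Q b (-a) (by rw [QuadraticMap.map_neg]; exact hab) h4, Matrix.mulVec_neg,
        reflG_mulVec_self Q a ha, neg_neg]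
    · intro x hx1 hx2
      rw [coe_mul_mulVec, reflG_fix Q (b - -a) x (by
        rw [sub_neg_eq_add, QuadraticMap.polar_add_left, hx2, hx1, add_zero]),
        reflG_fix Q a x hx1]
  · refine ⟨reflG Q (b - a), ?_, ?_⟩
    · rw [reflG_coe]
      exact reflection_map Q b a hab h1
    · intro x hx1 hx2
      apply reflG_fix
      rw [QuadraticMap.polar_sub_left, hx2, hx1, sub_zero]

/-- Witt's extension theorem for non-degenerate subspaces, odd characteristic (inductive
form). -/
theorem witt_nondeg_odd_aux (Q : QuadraticForm F (ι → F)) (h2 : (2 : F) ≠ 0)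
    (U : Submodule F (ι → F))
    (hU : U ⊓ LinearMap.BilinForm.orthogonal (QuadraticMap.polarBilin Q) U = ⊥)
    (e : (ι → F) →ₗ[F] (ι → F)) (he : ∀ u ∈ U, Q (e u) = Q u) :
    ∀ (k : ℕ) (X : Submodule F (ι → F)) (g : ↥(Cfsg.isometryGroup F (⇑Q))), X ≤ U →
      X ⊓ LinearMap.BilinForm.orthogonal (QuadraticMap.polarBilin Q) X = ⊥ →
      finrank F U ≤ finrank F X + k →
      (∀ x ∈ X, ((g : Matrix.GeneralLinearGroup ι F) : Matrix ι ι F) *ᵥ x = e x) →
      ∃ g' : ↥(Cfsg.isometryGroup F (⇑Q)),
        ∀ u ∈ U, ((g' : Matrix.GeneralLinearGroup ι F) : Matrix ι ι F) *ᵥ u = e u := by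
  intro k
  induction k with
  | zero =>
    intro X g hXU hX hk hg
    have : X = U := Submodule.eq_of_le_of_finrank_le hXU (by omega)
    subst this
    exact ⟨g, hg⟩
  | succ k ih =>
    intro X g hXU hX hk hg
    by_cases hne : X = U
    · subst hne
      exact ⟨g, hg⟩
    · obtain ⟨u, huU, huX, hQu⟩ := exists_anisotropic_compl Q U X hU hX hXU hne
      obtain ⟨h, hh1, hh2⟩ := refl_move Q h2 (e u)
        (((g : Matrix.GeneralLinearGroup ι F) : Matrix ι ι F) *ᵥ u)
        (by rw [isometry_apply g, he u huU]) (by rw [he u huU]; exact hQu)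
      have hfix : ∀ x ∈ X, (((h * g : ↥(Cfsg.isometryGroup F (⇑Q))) :
          Matrix.GeneralLinearGroup ι F) : Matrix ι ι F) *ᵥ x = e x := by
        intro x hx
        rw [coe_mul_mulVec, hg x hx]
        apply hh2
        · rw [polar_map_of_isometry_on Q U e he huU (hXU hx), QuadraticMap.polar_comm]
          exact huX x hx
        · rw [← hg x hx, isometry_polar, QuadraticMap.polar_comm]
          exact huX x hx
      have huX' : u ∉ X := by
        intro hu
        have hmem : u ∈ X ⊓ LinearMap.BilinForm.orthogonal (QuadraticMap.polarBilin Q) X :=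
          ⟨hu, LinearMap.BilinForm.mem_orthogonal_iff.mpr (fun w hw => huX w hw)⟩
        rw [hX, Submodule.mem_bot] at hmem
        rw [hmem] at hQu
        exact hQu (QuadraticMap.map_zero Q)
      apply ih (X ⊔ Submodule.span F {u}) (h * g)
      · exact sup_le hXU ((Submodule.span_singleton_le_iff_mem u U).mpr huU)
      · rw [eq_bot_iff]
        intro x hx
        obtain ⟨hx1, hx2⟩ := Submodule.mem_inf.mp hx
        obtain ⟨w, hw, z, hz, rfl⟩ := Submodule.mem_sup.mp hx1
        obtain ⟨c, rfl⟩ := Submodule.mem_span_singleton.mp hz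
        have hvx := (LinearMap.BilinForm.mem_orthogonal_iff.mp hx2) u
          (Submodule.mem_sup_right (Submodule.mem_span_singleton_self u))
        have hvx' : QuadraticMap.polar (⇑Q) u (w + c • u) = 0 := hvx
        rw [QuadraticMap.polar_add_right, QuadraticMap.polar_smul_right,
          QuadraticMap.polar_comm (⇑Q) u w, huX w hw, polar_self', zero_add, smul_eq_mul] at hvx'
        have hc : c = 0 := by
          rcases mul_eq_zero.mp hvx' with h | h
          · exact h
          · exfalso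
            rcases mul_eq_zero.mp h with h | h
            · exact h2 h
            · exact hQu h
        subst hc
        rw [zero_smul, add_zero] at hx2 ⊢
        have : w ∈ X ⊓ LinearMap.BilinForm.orthogonal (QuadraticMap.polarBilin Q) X :=
          ⟨hw, LinearMap.BilinForm.orthogonal_le le_sup_left hx2⟩
        rw [hX] at this
        exact this
      · rw [finrank_sup_span_singleton X huX']
        omega
      · intro x hx
        obtain ⟨w, hw, z, hz, rfl⟩ := Submodule.mem_sup.mp hx
        obtain ⟨c, rfl⟩ := Submodule.mem_span_singleton.mp hz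
        rw [Matrix.mulVec_add, Matrix.mulVec_smul, hfix w hw, coe_mul_mulVec, hh1, map_add,
          map_smul]

/-- Characteristic two: for `Q x ≠ 0` and `f(x, y) = f(x, y') = 1`, `Q y' = Q y`, some
isometry fixes `x`, sends `y'` to `y` and fixes everything orthogonal to `x`, `y`, `y'`. -/
theorem step2_gen (Q : QuadraticForm F (ι → F)) (h2 : (2 : F) = 0)
    (x y y' : ι → F) (hx : Q x ≠ 0)
    (hxy : QuadraticMap.polar (⇑Q) x y = 1) (hxy' : QuadraticMap.polar (⇑Q) x y' = 1)
    (hQy' : Q y' = Q y) :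
    ∃ h : ↥(Cfsg.isometryGroup F (⇑Q)),
      ((h : Matrix.GeneralLinearGroup ι F) : Matrix ι ι F) *ᵥ x = x ∧
      ((h : Matrix.GeneralLinearGroup ι F) : Matrix ι ι F) *ᵥ y' = y ∧
      ∀ w : ι → F, QuadraticMap.polar (⇑Q) x w = 0 → QuadraticMap.polar (⇑Q) y w = 0 →
        QuadraticMap.polar (⇑Q) y' w = 0 →
        ((h : Matrix.GeneralLinearGroup ι F) : Matrix ι ι F) *ᵥ w = w := by
  have hxx : QuadraticMap.polar (⇑Q) x x = 0 := polar_self_two Q h2 x
  have h2y : Q y + Q y = 0 := by linear_combination (Q y) * h2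
  by_cases hyy : QuadraticMap.polar (⇑Q) y y' = 0
  · set z := Cfsg.reflectionMatrix (⇑Q) x *ᵥ y with hz
    have hzeq : z = y - (Q x)⁻¹ • x := by
      rw [hz, reflectionMatrix_mulVec, hxy, mul_one]
    have hQz : Q z = Q y := reflection_isometry Q x y
    have hrz : Cfsg.reflectionMatrix (⇑Q) x *ᵥ z = y := by
      rw [hz, Matrix.mulVec_mulVec, reflectionMatrix_mul_self, Matrix.one_mulVec]
    have hzy' : QuadraticMap.polar (⇑Q) y' z = -(Q x)⁻¹ := by
      rw [hzeq, QuadraticMap.polar_sub_right, QuadraticMap.polar_smul_right,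
        QuadraticMap.polar_comm (⇑Q) y' y, hyy, QuadraticMap.polar_comm (⇑Q) y' x, hxy']
      simp
    have hne : Q (y' - z) ≠ 0 := by
      rw [Q_sub', hQy', hQz, hzy']
      have : Q y + Q y - -(Q x)⁻¹ = (Q x)⁻¹ := by rw [h2y]; ring
      rw [this]
      exact inv_ne_zero hx
    have hxd : QuadraticMap.polar (⇑Q) (y' - z) x = 0 := by
      rw [QuadraticMap.polar_sub_left, QuadraticMap.polar_comm (⇑Q) y' x, hxy', hzeq,
        QuadraticMap.polar_sub_left, QuadraticMap.polar_smul_left, hxx,
        QuadraticMap.polar_comm (⇑Q) y x, hxy]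
      simp
    refine ⟨reflG Q x * reflG Q (y' - z), ?_, ?_, ?_⟩
    · apply double_refl_fix
      · exact hxx
      · exact hxd
    · rw [coe_mul_mulVec, reflG_coe, reflG_coe, reflection_map Q y' z (hQy'.trans hQz.symm) hne,
        hrz]
    · intro w hw1 hw2 hw3
      apply double_refl_fix
      · exact hw1
      · rw [QuadraticMap.polar_sub_left, hw3, hzeq, QuadraticMap.polar_sub_left,
          QuadraticMap.polar_smul_left, hw1, hw2]
        simp
  · have hne : Q (y' - y) ≠ 0 := by
      rw [Q_sub', hQy', QuadraticMap.polar_comm]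
      have : Q y + Q y - QuadraticMap.polar (⇑Q) y y' = -QuadraticMap.polar (⇑Q) y y' := by
        rw [h2y]; ring
      rw [this]
      exact neg_ne_zero.mpr hyy
    refine ⟨reflG Q (y' - y), ?_, ?_, ?_⟩
    · rw [reflG_coe, reflectionMatrix_mulVec, QuadraticMap.polar_sub_left,
        QuadraticMap.polar_comm (⇑Q) y' x, hxy', QuadraticMap.polar_comm (⇑Q) y x, hxy]
      simp
    · rw [reflG_coe]
      exact reflection_map Q y' y hQy' hne
    · intro w hw1 hw2 hw3
      rw [reflG_coe, reflectionMatrix_mulVec, QuadraticMap.polar_sub_left, hw3, hw2]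
      simp

theorem coe_inv_polar (Q : QuadraticForm F (ι → F)) (g : ↥(Cfsg.isometryGroup F (⇑Q)))
    (a b : ι → F) :
    QuadraticMap.polar (⇑Q) a ((((g⁻¹ : ↥(Cfsg.isometryGroup F (⇑Q))) :
      Matrix.GeneralLinearGroup ι F) : Matrix ι ι F) *ᵥ b)
      = QuadraticMap.polar (⇑Q) (((g : Matrix.GeneralLinearGroup ι F) : Matrix ι ι F) *ᵥ a) b := by
  have := isometry_polar Q g a ((((g⁻¹ : ↥(Cfsg.isometryGroup F (⇑Q))) :
      Matrix.GeneralLinearGroup ι F) : Matrix ι ι F) *ᵥ b)
  rw [coe_mulVec_inv_cancel] at this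
  exact this.symm

/-- Witt's extension theorem for non-degenerate subspaces, characteristic two (inductive
form). -/
theorem witt_nondeg_two_aux [Fintype F] (Q : QuadraticForm F (ι → F)) (h2 : (2 : F) = 0)
    (hQ : (QuadraticMap.polarBilin Q).Nondegenerate) {m : ℕ} (hV : finrank F (ι → F) = 2 * m)
    (hex : Fintype.card F ≠ 2 ∨ m ≠ 2)
    (U : Submodule F (ι → F))
    (hU : U ⊓ LinearMap.BilinForm.orthogonal (QuadraticMap.polarBilin Q) U = ⊥)
    (e : (ι → F) →ₗ[F] (ι → F)) (he : ∀ u ∈ U, Q (e u) = Q u) :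
    ∀ (k : ℕ) (X : Submodule F (ι → F)) (g : ↥(Cfsg.isometryGroup F (⇑Q))), X ≤ U →
      X ⊓ LinearMap.BilinForm.orthogonal (QuadraticMap.polarBilin Q) X = ⊥ →
      finrank F U ≤ finrank F X + k →
      (∀ x ∈ X, ((g : Matrix.GeneralLinearGroup ι F) : Matrix ι ι F) *ᵥ x = e x) →
      ∃ g' : ↥(Cfsg.isometryGroup F (⇑Q)),
        ∀ u ∈ U, ((g' : Matrix.GeneralLinearGroup ι F) : Matrix ι ι F) *ᵥ u = e u := by
  intro k
  induction k with
  | zero =>
    intro X g hXU hX hk hg
    have : X = U := Submodule.eq_of_le_of_finrank_le hXU (by omega)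
    subst this
    exact ⟨g, hg⟩
  | succ k ih =>
    intro X g hXU hX hk hg
    by_cases hne : X = U
    · subst hne
      exact ⟨g, hg⟩
    · obtain ⟨x, hxU, hxX, hQx⟩ := exists_anisotropic_compl Q U X hU hX hXU hne
      have hpe := fun {u u' : ι → F} (hu : u ∈ U) (hu' : u' ∈ U) =>
        polar_map_of_isometry_on Q U e he hu hu'
      -- a partner `y` of `x` inside `U ∩ X^⊥`
      obtain ⟨u', hu'U, hu'⟩ : ∃ u' ∈ U, QuadraticMap.polar (⇑Q) x u' ≠ 0 := by
        by_contra hcon
        push Not at hcon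
        have hmem : x ∈ U ⊓ LinearMap.BilinForm.orthogonal (QuadraticMap.polarBilin Q) U :=
          Submodule.mem_inf.mpr ⟨hxU, LinearMap.BilinForm.mem_orthogonal_iff.mpr (fun n hn => by
            show QuadraticMap.polar (⇑Q) n x = 0
            rw [QuadraticMap.polar_comm]; exact hcon n hn)⟩
        rw [hU, Submodule.mem_bot] at hmem
        rw [hmem] at hQx
        exact hQx (QuadraticMap.map_zero Q)
      obtain ⟨x', hx', y₀, hy₀, rfl⟩ := exists_decomp Q X hX u'
      have hy₀U : y₀ ∈ U := by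
        have := U.sub_mem hu'U (hXU hx')
        simpa using this
      have hxy₀ : QuadraticMap.polar (⇑Q) x y₀ ≠ 0 := by
        rw [QuadraticMap.polar_add_right, QuadraticMap.polar_comm (⇑Q) x x', hxX x' hx',
          zero_add] at hu'
        exact hu'
      obtain ⟨y, hydef⟩ : ∃ y : ι → F, y = (QuadraticMap.polar (⇑Q) x y₀)⁻¹ • y₀ := ⟨_, rfl⟩
      have hyU : y ∈ U := by rw [hydef]; exact U.smul_mem _ hy₀U
      have hyX : ∀ w ∈ X, QuadraticMap.polar (⇑Q) w y = 0 := by
        intro w hw
        rw [hydef, QuadraticMap.polar_smul_right, hy₀ w hw, smul_zero]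
      have hxy : QuadraticMap.polar (⇑Q) x y = 1 := by
        rw [hydef, QuadraticMap.polar_smul_right, smul_eq_mul, inv_mul_cancel₀ hxy₀]
      -- first step: make the isometry agree with `e` at `x`
      obtain ⟨a, hadef⟩ : ∃ a : ι → F, a = (((g⁻¹ : ↥(Cfsg.isometryGroup F (⇑Q))) :
          Matrix.GeneralLinearGroup ι F) : Matrix ι ι F) *ᵥ e x := ⟨_, rfl⟩
      have haX : a ∈ LinearMap.BilinForm.orthogonal (QuadraticMap.polarBilin Q) X := by
        rw [LinearMap.BilinForm.mem_orthogonal_iff]
        intro w hw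
        show QuadraticMap.polar (⇑Q) w a = 0
        rw [hadef, coe_inv_polar, hg w hw, hpe (hXU hw) hxU]
        exact hxX w hw
      have hxX' : x ∈ LinearMap.BilinForm.orthogonal (QuadraticMap.polarBilin Q) X :=
        LinearMap.BilinForm.mem_orthogonal_iff.mpr (fun w hw => hxX w hw)
      have hQa : Q a = Q x := by
        rw [hadef, isometry_apply g⁻¹ (e x), he x hxU]
      obtain ⟨h₁, -, hh₁, hh₁X⟩ := cd2_step1 Q h2 hQ hV hex X hX a x haX hxX' hQa.symm
        (by rw [hQa]; exact hQx)
      obtain ⟨g₁, hg₁def⟩ : ∃ g₁ : ↥(Cfsg.isometryGroup F (⇑Q)), g₁ = g * h₁ := ⟨_, rfl⟩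
      have hg₁x : ((g₁ : Matrix.GeneralLinearGroup ι F) : Matrix ι ι F) *ᵥ x = e x := by
        rw [hg₁def, coe_mul_mulVec, hh₁, hadef, coe_mulVec_inv_cancel]
      have hg₁X : ∀ w ∈ X, ((g₁ : Matrix.GeneralLinearGroup ι F) : Matrix ι ι F) *ᵥ w = e w := by
        intro w hw
        rw [hg₁def, coe_mul_mulVec, hh₁X w hw, hg w hw]
      -- second step: make it agree at `y`
      obtain ⟨y', hy'def⟩ : ∃ y' : ι → F, y' = (((g₁⁻¹ : ↥(Cfsg.isometryGroup F (⇑Q))) :
          Matrix.GeneralLinearGroup ι F) : Matrix ι ι F) *ᵥ e y := ⟨_, rfl⟩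
      have hxy' : QuadraticMap.polar (⇑Q) x y' = 1 := by
        rw [hy'def, coe_inv_polar, hg₁x, hpe hxU hyU, hxy]
      have hQy' : Q y' = Q y := by
        rw [hy'def, isometry_apply g₁⁻¹ (e y), he y hyU]
      have hy'X : ∀ w ∈ X, QuadraticMap.polar (⇑Q) w y' = 0 := by
        intro w hw
        rw [hy'def, coe_inv_polar, hg₁X w hw, hpe (hXU hw) hyU]
        exact hyX w hw
      obtain ⟨h₂, hh₂x, hh₂y, hh₂w⟩ := step2_gen Q h2 x y' y hQx hxy' hxy hQy'.symm
      obtain ⟨g₂, hg₂def⟩ : ∃ g₂ : ↥(Cfsg.isometryGroup F (⇑Q)), g₂ = g₁ * h₂ := ⟨_, rfl⟩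
      have hg₂x : ((g₂ : Matrix.GeneralLinearGroup ι F) : Matrix ι ι F) *ᵥ x = e x := by
        rw [hg₂def, coe_mul_mulVec, hh₂x, hg₁x]
      have hg₂y : ((g₂ : Matrix.GeneralLinearGroup ι F) : Matrix ι ι F) *ᵥ y = e y := by
        rw [hg₂def, coe_mul_mulVec, hh₂y, hy'def, coe_mulVec_inv_cancel]
      have hg₂X : ∀ w ∈ X, ((g₂ : Matrix.GeneralLinearGroup ι F) : Matrix ι ι F) *ᵥ w = e w := by
        intro w hw
        rw [hg₂def, coe_mul_mulVec, hh₂w w (by rw [QuadraticMap.polar_comm]; exact hxX w hw)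
          (by rw [QuadraticMap.polar_comm]; exact hy'X w hw)
          (by rw [QuadraticMap.polar_comm]; exact hyX w hw), hg₁X w hw]
      have hxnX : x ∉ X := by
        intro hx
        have hmem : x ∈ X ⊓ LinearMap.BilinForm.orthogonal (QuadraticMap.polarBilin Q) X :=
          Submodule.mem_inf.mpr ⟨hx, hxX'⟩
        rw [hX, Submodule.mem_bot] at hmem
        rw [hmem] at hQx
        exact hQx (QuadraticMap.map_zero Q)
      have hxx : QuadraticMap.polar (⇑Q) x x = 0 := polar_self_two Q h2 x
      have hyy : QuadraticMap.polar (⇑Q) y y = 0 := polar_self_two Q h2 y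
      have hynX : y ∉ X ⊔ Submodule.span F {x} := by
        intro hy
        obtain ⟨w, hw, z, hz, hsum⟩ := Submodule.mem_sup.mp hy
        obtain ⟨c, rfl⟩ := Submodule.mem_span_singleton.mp hz
        have : QuadraticMap.polar (⇑Q) x y = 0 := by
          rw [← hsum, QuadraticMap.polar_add_right, QuadraticMap.polar_smul_right, hxx,
            QuadraticMap.polar_comm (⇑Q) x w, hxX w hw]
          simp
        rw [hxy] at this
        exact one_ne_zero this
      apply ih (X ⊔ Submodule.span F {x} ⊔ Submodule.span F {y}) g₂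
      · exact sup_le (sup_le hXU ((Submodule.span_singleton_le_iff_mem x U).mpr hxU))
          ((Submodule.span_singleton_le_iff_mem y U).mpr hyU)
      · rw [eq_bot_iff]
        intro v hv
        obtain ⟨hv1, hv2⟩ := Submodule.mem_inf.mp hv
        obtain ⟨v₁, hv₁, z, hz, rfl⟩ := Submodule.mem_sup.mp hv1
        obtain ⟨d, rfl⟩ := Submodule.mem_span_singleton.mp hz
        obtain ⟨w, hw, z', hz', rfl⟩ := Submodule.mem_sup.mp hv₁
        obtain ⟨c, rfl⟩ := Submodule.mem_span_singleton.mp hz'
        have hxv : QuadraticMap.polar (⇑Q) x (w + c • x + d • y) = 0 :=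
          (LinearMap.BilinForm.mem_orthogonal_iff.mp hv2) x
            (Submodule.mem_sup_left (Submodule.mem_sup_right (Submodule.mem_span_singleton_self x)))
        have hyv : QuadraticMap.polar (⇑Q) y (w + c • x + d • y) = 0 :=
          (LinearMap.BilinForm.mem_orthogonal_iff.mp hv2) y
            (Submodule.mem_sup_right (Submodule.mem_span_singleton_self y))
        rw [QuadraticMap.polar_add_right, QuadraticMap.polar_add_right,
          QuadraticMap.polar_smul_right, QuadraticMap.polar_smul_right, hxx, hxy,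
          QuadraticMap.polar_comm (⇑Q) x w, hxX w hw] at hxv
        rw [QuadraticMap.polar_add_right, QuadraticMap.polar_add_right,
          QuadraticMap.polar_smul_right, QuadraticMap.polar_smul_right, hyy,
          QuadraticMap.polar_comm (⇑Q) y x, hxy,
          QuadraticMap.polar_comm (⇑Q) y w, hyX w hw] at hyv
        have hd : d = 0 := by simpa using hxv
        have hc : c = 0 := by simpa using hyv
        subst hd hc
        rw [zero_smul, zero_smul, add_zero, add_zero] at hv2 ⊢
        have : w ∈ X ⊓ LinearMap.BilinForm.orthogonal (QuadraticMap.polarBilin Q) X :=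
          Submodule.mem_inf.mpr ⟨hw, LinearMap.BilinForm.orthogonal_le
            (le_sup_of_le_left le_sup_left) hv2⟩
        rw [hX] at this
        exact this
      · rw [finrank_sup_span_singleton _ hynX, finrank_sup_span_singleton X hxnX]
        omega
      · intro v hv
        obtain ⟨v₁, hv₁, z, hz, rfl⟩ := Submodule.mem_sup.mp hv
        obtain ⟨d, rfl⟩ := Submodule.mem_span_singleton.mp hz
        obtain ⟨w, hw, z', hz', rfl⟩ := Submodule.mem_sup.mp hv₁
        obtain ⟨c, rfl⟩ := Submodule.mem_span_singleton.mp hz'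
        rw [Matrix.mulVec_add, Matrix.mulVec_add, Matrix.mulVec_smul, Matrix.mulVec_smul,
          hg₂X w hw, hg₂x, hg₂y, map_add, map_add, map_smul, map_smul]

end

end Cfsg.Agent.H49
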