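import Mathlib
import Cfsg.Agent.H49.WittND
import Cfsg.Agent.H49.StdBasis

set_option autoImplicit false

namespace Cfsg.Agent.H49

open Module Matrix

section
variable {ι : Type} [Fintype ι] [DecidableEq ι] {F : Type*} [Field F]

/-- **Witt's extension theorem** for non-degenerate subspaces over a finite field (excluding
`O₄(2)`): a linear map that is isometric on a non-degenerate subspace `U` agrees on `U` with an
isometry of the whole space. -/
theorem witt_nondeg [Fintype F] (Q : QuadraticForm F (ι → F))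
    (hQ : (QuadraticMap.polarBilin Q).Nondegenerate)
    (hex : Fintype.card F ≠ 2 ∨ finrank F (ι → F) ≠ 4)
    (U : Submodule F (ι → F))
    (hU : U ⊓ LinearMap.BilinForm.orthogonal (QuadraticMap.polarBilin Q) U = ⊥)
    (e : (ι → F) →ₗ[F] (ι → F)) (he : ∀ u ∈ U, Q (e u) = Q u) :
    ∃ g : ↥(Cfsg.isometryGroup F (⇑Q)),
      ∀ u ∈ U, ((g : Matrix.GeneralLinearGroup ι F) : Matrix ι ι F) *ᵥ u = e u := by
  have h0 : ∀ x ∈ (⊥ : Submodule F (ι → F)),
      (((1 : ↥(Cfsg.isometryGroup F (⇑Q))) : Matrix.GeneralLinearGroup ι F) : Matrix ι ι F) *ᵥ x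
        = e x := by
    intro x hx
    rw [(Submodule.mem_bot F).mp hx, Matrix.mulVec_zero, map_zero]
  by_cases h2 : (2 : F) = 0
  · obtain ⟨m, hm⟩ := even_finrank_char_two h2 Q hQ
    have hex' : Fintype.card F ≠ 2 ∨ m ≠ 2 := by
      rcases hex with h | h
      · exact Or.inl h
      · right; omega
    exact witt_nondeg_two_aux Q h2 hQ hm hex' U hU e he (finrank F U) ⊥ 1 bot_le (bot_inf_eq _)
      (by omega) h0
  · exact witt_nondeg_odd_aux Q h2 U hU e he (finrank F U) ⊥ 1 bot_le (bot_inf_eq _) (by omega) h0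

/-- A non-degenerate subspace of dimension at least two over a finite field represents every
scalar. -/
theorem exists_Q_eq_of_nondeg [Finite F] (Q : QuadraticForm F (ι → F)) (X : Submodule F (ι → F))
    (hX : X ⊓ LinearMap.BilinForm.orthogonal (QuadraticMap.polarBilin Q) X = ⊥)
    (h2X : 2 ≤ finrank F X) (c : F) : ∃ x ∈ X, Q x = c := by
  by_cases h5 : ∀ a ∈ X, Q a = 0 → a = 0
  · exact exists_Q_eq Q X h5 h2X c
  · push Not at h5
    obtain ⟨v, hvX, hQv, hv0⟩ := h5
    obtain ⟨w, hwX, hvw⟩ : ∃ w ∈ X, QuadraticMap.polar (⇑Q) w v ≠ 0 := by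
      by_contra hcon
      push Not at hcon
      have hmem : v ∈ X ⊓ LinearMap.BilinForm.orthogonal (QuadraticMap.polarBilin Q) X :=
        Submodule.mem_inf.mpr ⟨hvX, LinearMap.BilinForm.mem_orthogonal_iff.mpr
          (fun n hn => hcon n hn)⟩
      rw [hX, Submodule.mem_bot] at hmem
      exact hv0 hmem
    refine ⟨w + ((c - Q w) / QuadraticMap.polar (⇑Q) w v) • v,
      X.add_mem hwX (X.smul_mem _ hvX), ?_⟩
    rw [Q_add', QuadraticMap.map_smul, hQv, QuadraticMap.polar_smul_right, smul_eq_mul,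
      smul_eq_mul]
    field_simp
    ring

theorem reflG_map_of_mem (Q : QuadraticForm F (ι → F)) (W : Submodule F (ι → F)) (x : ι → F)
    (hx : x ∈ W) :
    W.map (Matrix.mulVecLin (((reflG Q x : ↥(Cfsg.isometryGroup F (⇑Q))) :
      Matrix.GeneralLinearGroup ι F) : Matrix ι ι F)) = W := by
  apply map_eq_of_forall_mem
  intro w hw
  rw [reflG_coe, reflectionMatrix_mulVec]
  exact W.sub_mem hw (W.smul_mem _ hx)

theorem reflG_map_of_orth (Q : QuadraticForm F (ι → F)) (W : Submodule F (ι → F)) (x : ι → F)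
    (hx : x ∈ LinearMap.BilinForm.orthogonal (QuadraticMap.polarBilin Q) W) :
    W.map (Matrix.mulVecLin (((reflG Q x : ↥(Cfsg.isometryGroup F (⇑Q))) :
      Matrix.GeneralLinearGroup ι F) : Matrix ι ι F)) = W := by
  apply map_eq_of_forall_mem
  intro w hw
  rw [reflG_fix Q x w (by
    rw [QuadraticMap.polar_comm]
    exact (LinearMap.BilinForm.mem_orthogonal_iff.mp hx) w hw)]
  exact hw

/-- `Ω` is transitive on non-degenerate subspaces of a given isometry type, in dimension at
least three over a finite field (excluding `O₄(2)`). -/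
theorem exists_commutator_map_nondeg [Fintype F] (Q : QuadraticForm F (ι → F))
    (hQ : (QuadraticMap.polarBilin Q).Nondegenerate)
    (hn : 3 ≤ finrank F (ι → F))
    (hex : Fintype.card F ≠ 2 ∨ finrank F (ι → F) ≠ 4)
    (U W : Submodule F (ι → F))
    (hU : U ⊓ LinearMap.BilinForm.orthogonal (QuadraticMap.polarBilin Q) U = ⊥)
    (hW : W ⊓ LinearMap.BilinForm.orthogonal (QuadraticMap.polarBilin Q) W = ⊥)
    (e : U ≃ₗ[F] W) (he : ∀ u : U, Q (e u : ι → F) = Q (u : ι → F)) :
    ∃ g : ↥(Cfsg.isometryGroup F (⇑Q)), g ∈ commutator ↥(Cfsg.isometryGroup F (⇑Q)) ∧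
      U.map (Matrix.mulVecLin ((g : Matrix.GeneralLinearGroup ι F) : Matrix ι ι F)) = W := by
  classical
  obtain ⟨e', he'⟩ := LinearMap.exists_extend (W.subtype ∘ₗ e.toLinearMap)
  have he'' : ∀ u (hu : u ∈ U), e' u = (e ⟨u, hu⟩ : ι → F) := by
    intro u hu
    have := LinearMap.congr_fun he' ⟨u, hu⟩
    simpa using this
  obtain ⟨g₀, hg₀⟩ := witt_nondeg Q hQ hex U hU e' (by
    intro u hu
    rw [he'' u hu]
    exact he ⟨u, hu⟩)
  have hg₀U : U.map (Matrix.mulVecLin ((g₀ : Matrix.GeneralLinearGroup ι F) : Matrix ι ι F))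
      = W := by
    apply Submodule.eq_of_le_of_finrank_eq
    · rintro _ ⟨u, hu, rfl⟩
      rw [Matrix.mulVecLin_apply, hg₀ u hu, he'' u hu]
      exact (e ⟨u, hu⟩).2
    · rw [finrank_map_iso]
      exact e.finrank_eq
  -- a non-degenerate subspace `X` of dimension at least two whose reflections stabilise `W`
  obtain ⟨X, hX, h2X, hXW⟩ : ∃ X : Submodule F (ι → F),
      X ⊓ LinearMap.BilinForm.orthogonal (QuadraticMap.polarBilin Q) X = ⊥ ∧
      2 ≤ finrank F X ∧ ∀ x ∈ X, W.map (Matrix.mulVecLin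
        (((reflG Q x : ↥(Cfsg.isometryGroup F (⇑Q))) :
          Matrix.GeneralLinearGroup ι F) : Matrix ι ι F)) = W := by
    by_cases hW2 : 2 ≤ finrank F W
    · exact ⟨W, hW, hW2, fun x hx => reflG_map_of_mem Q W x hx⟩
    · refine ⟨LinearMap.BilinForm.orthogonal (QuadraticMap.polarBilin Q) W, ?_, ?_,
        fun x hx => reflG_map_of_orth Q W x hx⟩
      · rw [LinearMap.BilinForm.orthogonal_orthogonal hQ (polarBilin_isRefl Q), inf_comm]
        exact hW
      · rw [LinearMap.BilinForm.finrank_orthogonal hQ]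
        omega
  obtain ⟨x, hxX, hQx⟩ := exists_Q_eq_of_nondeg Q X hX h2X 1
  have hx0 : Q x ≠ 0 := by rw [hQx]; exact one_ne_zero
  by_cases h2 : (2 : F) = 0
  · obtain ⟨m, hm⟩ := even_finrank_char_two h2 Q hQ
    have hex' : Fintype.card F ≠ 2 ∨ m ≠ 2 := by
      rcases hex with h | h
      · exact Or.inl h
      · right; omega
    rcases mem_commutator_or_two Q h2 hQ hm hex' g₀ with h | h
    · exact ⟨g₀, h, hg₀U⟩
    · refine ⟨reflG Q x * g₀, h _ ⟨x, hx0, rfl⟩, ?_⟩
      rw [map_mul_sub, hg₀U, hXW x hxX]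
  · have hF : ringChar F ≠ 2 := by
      intro h
      apply h2
      have := CharP.cast_eq_zero F (ringChar F)
      rw [h] at this
      exact_mod_cast this
    obtain ⟨d, hd'⟩ := FiniteField.exists_nonsquare hF
    have hd0 : d ≠ 0 := by
      rintro rfl
      exact hd' ⟨0, by simp⟩
    obtain ⟨y, hyX, hQy⟩ := exists_Q_eq_of_nondeg Q X hX h2X d
    have hy0 : Q y ≠ 0 := by rw [hQy]; exact hd0
    have hrdet : (((reflG Q x : ↥(Cfsg.isometryGroup F (⇑Q))) :
        Matrix.GeneralLinearGroup ι F) : Matrix ι ι F).det = -1 := by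
      rw [reflG_coe, det_reflectionMatrix Q x hx0]
    have hLdet : (((reflG Q x * reflG Q y : ↥(Cfsg.isometryGroup F (⇑Q))) :
        Matrix.GeneralLinearGroup ι F) : Matrix ι ι F).det = 1 := by
      rw [det_mul_iso, reflG_coe, reflG_coe, det_reflectionMatrix Q x hx0,
        det_reflectionMatrix Q y hy0]
      ring
    have hLspin : spinSign Q (reflG Q x * reflG Q y) = -1 := by
      have key := spinSign_prod_reflG Q h2 [x, y] (by
        intro v hv
        simp only [List.mem_cons, List.not_mem_nil, or_false] at hv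
        rcases hv with rfl | rfl
        · exact hx0
        · exact hy0)
      simp only [List.map_cons, List.map_nil, List.prod_cons, List.prod_nil, mul_one,
        List.length_cons, List.length_nil, hQx, hQy] at key
      apply Units.ext
      rw [key, one_mul, quadraticChar_neg_one_iff_not_isSquare.mpr hd']
      norm_num
    obtain ⟨h, hh, hmem⟩ := adjust_odd Q h2 hQ (reflG Q x) (reflG Q x * reflG Q y) hrdet hLdet
      hLspin g₀
    refine ⟨h * g₀, hmem, ?_⟩
    rw [map_mul_sub, hg₀U]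
    rcases hh with rfl | rfl | rfl | rfl
    · exact map_one_sub W
    · exact hXW x hxX
    · rw [map_mul_sub, hXW y hyX, hXW x hxX]
    · rw [map_mul_sub, hXW x hxX, map_mul_sub, hXW y hyX, hXW x hxX]

end

end Cfsg.Agent.H49
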