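import Mathlib
import Cfsg.Agent.H49.PlusModel
import Cfsg.Agent.H49.Disc

set_option autoImplicit false
set_option linter.unusedSectionVars false
set_option linter.unusedSimpArgs false
set_option linter.unusedVariables false

/-! Helper lemmas (helper49): over a finite field any two anisotropic binary quadratic forms
`x² + xy + ζ y²` are isometric; consequently two non-degenerate quadratic forms of the same
even dimension and the same type are isometric. -/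

namespace Cfsg.Agent.H49

open Module Matrix

section
variable {K : Type*} [Field K] [Fintype K]

theorem exists_artin_schreier_two (h2 : (2 : K) = 0) (ζ ζ₁ : K)
    (hζ : ∀ t : K, t ^ 2 + t + ζ ≠ 0) (hζ₁ : ∀ t : K, t ^ 2 + t + ζ₁ ≠ 0) :
    ∃ s : K, s ^ 2 + s = ζ + ζ₁ := by
  classical
  obtain ⟨℘, h℘⟩ : ∃ ℘ : K →+ K, ∀ s, ℘ s = s ^ 2 + s :=
    ⟨AddMonoidHom.mk' (fun s => s ^ 2 + s) (fun a b => by linear_combination (a * b) * h2),
      fun s => rfl⟩
  have hker : Nat.card ↥℘.ker = 2 := by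
    rw [Nat.card_eq_two_iff]
    refine ⟨⟨0, by rw [AddMonoidHom.mem_ker, h℘]; ring⟩,
      ⟨1, by rw [AddMonoidHom.mem_ker, h℘]; linear_combination h2⟩, ?_, ?_⟩
    · intro h
      have := congrArg Subtype.val h
      exact zero_ne_one this
    · ext ⟨s, hs⟩
      simp only [Set.mem_insert_iff, Set.mem_singleton_iff, Set.mem_univ, iff_true]
      rw [AddMonoidHom.mem_ker, h℘] at hs
      have h1 : s * (s + 1) = 0 := by linear_combination hs
      rcases mul_eq_zero.mp h1 with h | h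
      · left
        exact Subtype.ext h
      · right
        apply Subtype.ext
        show s = 1
        linear_combination h - h2
  have hidx : ℘.range.index = 2 := by
    have e1 := AddSubgroup.index_ker ℘
    have e2 := AddSubgroup.card_mul_index ℘.ker
    have e3 := AddSubgroup.card_mul_index ℘.range
    rw [hker, e1] at e2
    have hpos : 0 < Nat.card ↥℘.range := Nat.card_pos
    have e4 : Nat.card ↥℘.range * ℘.range.index = Nat.card ↥℘.range * 2 := by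
      rw [e3, ← e2]
      ring
    exact Nat.eq_of_mul_eq_mul_left hpos e4
  have hnot : ∀ z : K, (∀ t : K, t ^ 2 + t + z ≠ 0) → z ∉ ℘.range := by
    intro z hz hmem
    obtain ⟨s, hs⟩ := hmem
    rw [h℘] at hs
    apply hz s
    linear_combination hs + z * h2
  have hmem : ζ + ζ₁ ∈ ℘.range := by
    rw [AddSubgroup.add_mem_iff_of_index_two hidx]
    constructor
    · intro h
      exact absurd h (hnot ζ hζ)
    · intro h
      exact absurd h (hnot ζ₁ hζ₁)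
  obtain ⟨s, hs⟩ := hmem
  exact ⟨s, by rw [← h℘]; exact hs⟩

theorem not_isSquare_disc (h2 : (2 : K) ≠ 0) (ζ : K) (hζ : ∀ t : K, t ^ 2 + t + ζ ≠ 0) :
    ¬ IsSquare (1 - 4 * ζ) := by
  rintro ⟨d, hd⟩
  apply hζ ((-1 + d) / 2)
  field_simp
  linear_combination -hd

/-- Over a finite field, two anisotropic binary forms `x² + xy + ζ y²` are isometric. -/
theorem exists_plane_iso (ζ ζ₁ : K)
    (hζ : ∀ t : K, t ^ 2 + t + ζ ≠ 0) (hζ₁ : ∀ t : K, t ^ 2 + t + ζ₁ ≠ 0) :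
    ∃ s u : K, 2 * s + u = 1 ∧ s ^ 2 + s * u + ζ * u ^ 2 = ζ₁ := by
  have key : ∃ s : K, (4 * ζ - 1) * (s ^ 2 - s) = ζ₁ - ζ := by
    by_cases h2 : (2 : K) = 0
    · obtain ⟨s, hs⟩ := exists_artin_schreier_two h2 ζ ζ₁ hζ hζ₁
      refine ⟨s, ?_⟩
      linear_combination (-1) * hs + (2 * ζ * (s ^ 2 - s) + s - ζ₁) * h2
    · have hd := not_isSquare_disc h2 ζ hζ
      have hd₁ := not_isSquare_disc h2 ζ₁ hζ₁
      have hd0 : (1 - 4 * ζ) ≠ 0 := by
        intro h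
        exact hd ⟨0, by rw [h]; ring⟩
      have hd₁0 : (1 - 4 * ζ₁) ≠ 0 := by
        intro h
        exact hd₁ ⟨0, by rw [h]; ring⟩
      obtain ⟨c, hc⟩ := (isSquare_mul_nonsquare_iff hd₁0 hd).mpr hd₁
      refine ⟨(1 + c / (1 - 4 * ζ)) / 2, ?_⟩
      field_simp
      linear_combination (1 - 4 * ζ) * hc
  obtain ⟨s, hs⟩ := key
  refine ⟨s, 1 - 2 * s, by ring, ?_⟩
  linear_combination hs

/-- Two standard elliptic forms over a finite field are isometric. -/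
theorem exists_QMin_iso (k : ℕ) (ζ ζ₁ : K)
    (hζ : ∀ t : K, t ^ 2 + t + ζ ≠ 0) (hζ₁ : ∀ t : K, t ^ 2 + t + ζ₁ ≠ 0) :
    ∃ S : ((Fin k ⊕ Fin k) ⊕ Fin 2 → K) →ₗ[K] ((Fin k ⊕ Fin k) ⊕ Fin 2 → K),
      ∀ v, QMin k K 1 ζ (S v) = QMin k K 1 ζ₁ v := by
  obtain ⟨s, u, h1, h2⟩ := exists_plane_iso ζ ζ₁ hζ hζ₁
  refine ⟨{ toFun := fun v => Sum.elim (v ∘ Sum.inl)
              ![v (Sum.inr 0) + s * v (Sum.inr 1), u * v (Sum.inr 1)]
            map_add' := ?_
            map_smul' := ?_ }, ?_⟩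
  · intro v w
    funext j
    rcases j with j | j
    · rfl
    · obtain rfl | rfl : j = 0 ∨ j = 1 := by fin_cases j <;> simp
      · simp
        ring
      · simp
        ring
  · intro c v
    funext j
    rcases j with j | j
    · rfl
    · obtain rfl | rfl : j = 0 ∨ j = 1 := by fin_cases j <;> simp
      · simp
        ring
      · simp
        ring
  · intro v
    rw [QMin_formula, QMin_formula]
    show (∑ i : Fin k, v (Sum.inl (Sum.inl i)) * v (Sum.inl (Sum.inr i)))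
      + ((v (Sum.inr 0) + s * v (Sum.inr 1)) ^ 2
        + 1 * (v (Sum.inr 0) + s * v (Sum.inr 1)) * (u * v (Sum.inr 1))
        + ζ * (u * v (Sum.inr 1)) ^ 2) = _
    linear_combination (v (Sum.inr 0) * v (Sum.inr 1)) * h1 + (v (Sum.inr 1)) ^ 2 * h2

/-- Two forms with hyperbolic models are isometric. -/
theorem iso_of_hyp {m : ℕ} (Q0 Q0' : QuadraticForm K (Fin m ⊕ Fin m → K))
    (T T₁ : (Fin m ⊕ Fin m → K) ≃ₗ[K] (Fin m ⊕ Fin m → K))
    (hT : ∀ u, Q0 (T u) = QP m K u) (hT₁ : ∀ u, Q0' (T₁ u) = QP m K u) :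
    ∃ T₀ : (Fin m ⊕ Fin m → K) →ₗ[K] (Fin m ⊕ Fin m → K), ∀ u, Q0 (T₀ u) = Q0' u := by
  refine ⟨T.toLinearMap.comp T₁.symm.toLinearMap, fun u => ?_⟩
  show Q0 (T (T₁.symm u)) = Q0' u
  rw [hT, ← hT₁, LinearEquiv.apply_symm_apply]

/-- Two forms with elliptic models are isometric. -/
theorem iso_of_ell {m : ℕ} (Q0 Q0' : QuadraticForm K (Fin m ⊕ Fin m → K)) (ζ ζ₁ : K)
    (hζ : ∀ t : K, t ^ 2 + t + ζ ≠ 0) (hζ₁ : ∀ t : K, t ^ 2 + t + ζ₁ ≠ 0)
    (T T₁ : ((Fin (m - 1) ⊕ Fin (m - 1)) ⊕ Fin 2 → K) ≃ₗ[K] (Fin m ⊕ Fin m → K))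
    (hT : ∀ u, Q0 (T u) = QMin (m - 1) K 1 ζ u)
    (hT₁ : ∀ u, Q0' (T₁ u) = QMin (m - 1) K 1 ζ₁ u) :
    ∃ T₀ : (Fin m ⊕ Fin m → K) →ₗ[K] (Fin m ⊕ Fin m → K), ∀ u, Q0 (T₀ u) = Q0' u := by
  obtain ⟨S, hS⟩ := exists_QMin_iso (m - 1) ζ ζ₁ hζ hζ₁
  refine ⟨T.toLinearMap.comp (S.comp T₁.symm.toLinearMap), fun u => ?_⟩
  show Q0 (T (S (T₁.symm u))) = Q0' u
  rw [hT, hS, ← hT₁, LinearEquiv.apply_symm_apply]

end

end Cfsg.Agent.H49
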