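import Mathlib
import Cfsg.Agent.H85.PtExDefs
import Cfsg.Agent.H49.PlusModel
import Cfsg.Agent.H49.InvOmega

/-!
# S5973-EX-TRANSP (helper49, for helper85's S5973-EXEVEN sub-tree)

A nondegenerate quadratic space of dimension `2 d` over a finite field with a totally singular
subspace of dimension `d` is isometric to the standard plus-type space.
-/

set_option autoImplicit false

namespace Cfsg.Agent.H49.PtEx

open Cfsg.Agent.H49 Cfsg.Agent.H77.Tm Module

universe u

theorem transP : Cfsg.Agent.H85.PtEx.StTransP.{u} := by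
  intro F _ _ V _ _ _ Q d hnd hfr hM
  obtain ⟨M, hM, hMd⟩ := hM
  classical
  have hfr' : finrank F V = finrank F (Fin d ⊕ Fin d → F) := by rw [hfr, finrank_plus]
  let e₀ : V ≃ₗ[F] (Fin d ⊕ Fin d → F) := LinearEquiv.ofFinrankEq V _ hfr'
  let Q0 : QuadraticForm F (Fin d ⊕ Fin d → F) := Q.comp e₀.symm.toLinearMap
  have hQ0v : ∀ v, Q0 (e₀ v) = Q v := by
    intro v
    show Q (e₀.symm (e₀ v)) = Q v
    rw [LinearEquiv.symm_apply_apply]
  have hpol : ∀ x y, QuadraticMap.polar (⇑Q0) x y
      = QuadraticMap.polar (⇑Q) (e₀.symm x) (e₀.symm y) := by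
    intro x y
    simp only [QuadraticMap.polar]
    show Q (e₀.symm (x + y)) - Q (e₀.symm x) - Q (e₀.symm y) = _
    rw [map_add]
  have key : ∀ x : Fin d ⊕ Fin d → F, (∀ y, QuadraticMap.polar (⇑Q0) x y = 0) → x = 0 := by
    intro x hx
    have h1 : e₀.symm x = 0 := by
      apply hnd
      intro y
      have := hx (e₀ y)
      rw [hpol, LinearEquiv.symm_apply_apply] at this
      exact this
    simpa using h1
  have hQ0 : (QuadraticMap.polarBilin Q0).Nondegenerate := by
    constructor
    · intro x hx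
      exact key x hx
    · intro y hy
      apply key y
      intro x
      rw [QuadraticMap.polar_comm]
      exact hy x
  rcases even_model Q0 hQ0 with ⟨T, hT⟩ | ⟨ζ, T, hζ, hT⟩
  · refine ⟨e₀.trans T.symm, fun v => ?_⟩
    have h1 := hT (T.symm (e₀ v))
    rw [LinearEquiv.apply_symm_apply, hQ0v] at h1
    rw [LinearEquiv.trans_apply, ← QP_coe]
    exact h1.symm
  · exfalso
    -- the anisotropic binary form
    have hab : ∀ z₁ z₂ : F, z₁ ^ 2 + 1 * z₁ * z₂ + ζ * z₂ ^ 2 = 0 → z₁ = 0 ∧ z₂ = 0 := by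
      intro z₁ z₂ h
      by_cases hz : z₂ = 0
      · subst hz
        have : z₁ ^ 2 = 0 := by simpa using h
        exact ⟨by simpa using this, rfl⟩
      · exfalso
        apply hζ (z₁ / z₂)
        field_simp
        linear_combination h
    have hd := disc_ne_zero_of_aniso (1 : F) ζ hab
    -- transport `M`
    let f : V ≃ₗ[F] ((Fin (d - 1) ⊕ Fin (d - 1)) ⊕ Fin 2 → F) := e₀.trans T.symm
    have hf : ∀ v, QMin (d - 1) F 1 ζ (f v) = Q v := by
      intro v
      have h1 := hT (T.symm (e₀ v))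
      rw [LinearEquiv.apply_symm_apply, hQ0v] at h1
      exact h1.symm
    have hts : IsTS (QMin (d - 1) F 1 ζ) (M.map f.toLinearMap) := by
      intro x hx
      obtain ⟨v, hv, rfl⟩ := Submodule.mem_map.mp hx
      show QMin (d - 1) F 1 ζ (f v) = 0
      rw [hf]
      exact hM v hv
    have hle := QMin_ts_le (d - 1) (1 : F) ζ hab hd _ hts
    have hdim : finrank F (M.map f.toLinearMap) = d :=
      ((Submodule.equivMapOfInjective f.toLinearMap f.injective M).finrank_eq.symm).trans hMd
    have h2 : finrank F ((Fin (d - 1) ⊕ Fin (d - 1)) ⊕ Fin 2 → F) = 2 * (d - 1 + 1) :=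
      finrank_minus (d - 1)
    have h3 := f.finrank_eq
    rw [hfr, h2] at h3
    omega

example : Cfsg.Agent.H85.PtEx.StTransP.{u} := transP

end Cfsg.Agent.H49.PtEx

#print axioms Cfsg.Agent.H49.PtEx.transP
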