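import Mathlib
import Cfsg.Agent.H49.SimDiag
import Cfsg.Agent.H49.SplitCount
import Cfsg.Agent.H49.Transv3
import Cfsg.Agent.H49.Witt
import Cfsg.Agent.H17.FiniteQuad

set_option autoImplicit false
set_option linter.unusedSectionVars false

/-! Helper lemmas (helper49): centralisers of similarity-induced involutory graph automorphisms
of `PΩ` (even dimension, odd characteristic) inside the inner-diagonal group. -/

namespace Cfsg.Agent.H49

open Module Matrix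

section
variable {ι : Type} [Fintype ι] [DecidableEq ι] {F : Type*} [Field F] [Fintype F] [DecidableEq F]

theorem scalSim_mul (Q : QuadraticForm F (ι → F)) (l c : Fˣ) :
    scalSim Q l * scalSim Q c = scalSim Q (l * c) :=
  Subtype.ext (scalGL_mul l c).symm

/-- A similarity with non-square multiplier does not commute, modulo scalars, with a similarity
with square multiplier and non-trivial sign (when `-1 ∈ Ω`). -/
theorem cHom_not_commute (Q : QuadraticForm F (ι → F)) (h2 : (2 : F) ≠ 0)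
    (hQ : (QuadraticMap.polarBilin Q).Nondegenerate) (h3 : HasTS3 Q) (hne : ∃ v, Q v ≠ 0) {k : ℕ}
    (hk : Fintype.card ι = 2 * k) (hneg : spinSign Q (negG Q) = 1)
    (δ x : ↥(Cfsg.Geo.quadSimilarityGroup (⇑Q))) (hδ : ¬ IsSquare (simMul (⇑Q) δ : F))
    (hx : epsHom Q hne x = 1) (hsx : sgnD Q h2 hQ hne hk x ≠ 1) :
    cHom (⇑Q) δ * cHom (⇑Q) x ≠ cHom (⇑Q) x * cHom (⇑Q) δ := by
  intro hcomm
  have h1 : cHom (⇑Q) (δ * x * δ⁻¹ * x⁻¹) = 1 := by
    rw [map_mul, map_mul, map_mul, map_inv, map_inv, hcomm]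
    group
  obtain ⟨l, hl⟩ := eq_scalSim_of_cHom_eq_one Q hQ h3 hne _ h1
  have h4 : δ * x * δ⁻¹ = scalSim Q l * x := by
    rw [← hl]; group
  have h5 := alphaT_conj Q h2 hQ hne hk hneg δ hδ x hx
  rw [h4] at h5
  obtain ⟨c, x₀, rfl⟩ := exists_inclO_of_eps Q hne x hx
  rw [← mul_assoc, scalSim_mul, alphaT_spec Q hne hneg, alphaT_spec Q hne hneg] at h5
  apply hsx
  exact mul_left_cancel (a := spinSign Q x₀) (by rw [mul_one]; exact h5.symm)

theorem eps_of_commute (Q : QuadraticForm F (ι → F)) (h2 : (2 : F) ≠ 0)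
    (hQ : (QuadraticMap.polarBilin Q).Nondegenerate) (h3 : HasTS3 Q) (hne : ∃ v, Q v ≠ 0) {k : ℕ}
    (hk : Fintype.card ι = 2 * k) (hneg : spinSign Q (negG Q) = 1)
    (y g : ↥(Cfsg.Geo.quadSimilarityGroup (⇑Q))) (hy : sgnD Q h2 hQ hne hk y = 1)
    (hg : sgnD Q h2 hQ hne hk g ≠ 1)
    (hc : cHom (⇑Q) y * cHom (⇑Q) g = cHom (⇑Q) g * cHom (⇑Q) y) : epsHom Q hne y = 1 := by
  by_contra hne1
  have hy2 : ¬ IsSquare (simMul (⇑Q) y : F) := fun h => hne1 ((epsHom_eq_one_iff Q hne y).mpr h)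
  have hye : epsHom Q hne y = -1 := epsHom_neg Q hne y hy2
  rcases Int.units_eq_one_or (epsHom Q hne g) with hge | hge
  · exact cHom_not_commute Q h2 hQ h3 hne hk hneg y g hy2 hge hg hc
  · have hg2 : ¬ IsSquare (simMul (⇑Q) g : F) := by
      intro h
      rw [(epsHom_eq_one_iff Q hne g).mpr h] at hge
      exact absurd hge (by decide)
    apply cHom_not_commute Q h2 hQ h3 hne hk hneg g (y * g) hg2
    · rw [map_mul, hye, hge]; decide
    · rw [map_mul, hy, one_mul]; exact hg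
    · rw [map_mul, ← mul_assoc, ← hc]

/-- The centraliser in `Inndiag` of a graph automorphism lies in the image of `PSO`. -/
theorem centralizer_le_pso (Q : QuadraticForm F (ι → F)) (h2 : (2 : F) ≠ 0)
    (hQ : (QuadraticMap.polarBilin Q).Nondegenerate) (h3 : HasTS3 Q) (hne : ∃ v, Q v ≠ 0) {k : ℕ}
    (hk : Fintype.card ι = 2 * k) (hneg : spinSign Q (negG Q) = 1)
    (g : ↥(Cfsg.Geo.quadSimilarityGroup (⇑Q))) (hg : sgnD Q h2 hQ hne hk g ≠ 1) :
    (sgnD Q h2 hQ hne hk).ker.map (cHom (⇑Q)) ⊓ Subgroup.centralizer {cHom (⇑Q) g}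
      ≤ Cfsg.psoAut F (⇑Q) := by
  rintro _ ⟨⟨y, hy, rfl⟩, hc⟩
  have hc1 : cHom (⇑Q) y ∈ Subgroup.centralizer {cHom (⇑Q) g} := hc
  rw [Subgroup.mem_centralizer_iff] at hc1
  have hc' : cHom (⇑Q) g * cHom (⇑Q) y = cHom (⇑Q) y * cHom (⇑Q) g := hc1 _ rfl
  have hy1 : sgnD Q h2 hQ hne hk y = 1 := MonoidHom.mem_ker.mp hy
  have he := eps_of_commute Q h2 hQ h3 hne hk hneg y g hy1 hg hc'.symm
  obtain ⟨l, y₀, rfl⟩ := exists_inclO_of_eps Q hne y he
  have hdet : ((y₀ : Matrix.GeneralLinearGroup ι F) : Matrix ι ι F).det = 1 := by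
    rw [map_mul, sgnD_scalSim, one_mul, sgnD_inclO_iff] at hy1
    exact hy1
  rw [psoAut_eq]
  refine ⟨inclO Q y₀, ?_, ?_⟩
  · show ((inclO Q y₀ : ↥(Cfsg.Geo.quadSimilarityGroup (⇑Q))) : Matrix.GeneralLinearGroup ι F)
      ∈ Cfsg.specialIsometryGL F (⇑Q)
    exact ⟨y₀.2, (Cfsg.Agent.H95.mem_specialLinear_iff _).mpr hdet⟩
  · rw [map_mul, cHom_scalSim, one_mul]

/-- An isometry with non-trivial spinor sign does not induce an inner automorphism
(when `-1 ∈ Ω`). -/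
theorem cHom_inclO_not_mem_inn (Q : QuadraticForm F (ι → F)) (h2 : (2 : F) ≠ 0)
    (hQ : (QuadraticMap.polarBilin Q).Nondegenerate) (h3 : HasTS3 Q) (hne : ∃ v, Q v ≠ 0)
    (hneg : spinSign Q (negG Q) = 1) (x₀ : ↥(Cfsg.isometryGroup F (⇑Q)))
    (hx : spinSign Q x₀ ≠ 1) :
    cHom (⇑Q) (inclO Q x₀) ∉ Cfsg.Inn (Cfsg.POmega F (⇑Q)) := by
  rw [inn_eq]
  rintro ⟨t, ⟨t₀, ht₀, htt⟩, hte⟩
  have ht' : t = inclO Q t₀ := Subtype.ext htt.symm
  have h1 : cHom (⇑Q) (inclO Q x₀ * t⁻¹) = 1 := by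
    rw [map_mul, map_inv, hte]
    group
  obtain ⟨l, hl⟩ := eq_scalSim_of_cHom_eq_one Q hQ h3 hne _ h1
  have h2' : inclO Q x₀ = scalSim Q l * inclO Q t₀ := by
    rw [← hl, ht']; group
  have h3' := alphaT_inclO Q hne hneg x₀
  rw [h2', alphaT_spec Q hne hneg] at h3'
  apply hx
  rw [← h3']
  exact ((mem_commutator_iff_spinSign_det Q h2 hQ t₀).mp ht₀).1

/-- An isometry whose square is `-1` has trivial sign: it is half the square of the similarity
`1 + g`. -/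
theorem sgnD_of_sq_eq_neg (Q : QuadraticForm F (ι → F)) (h2 : (2 : F) ≠ 0)
    (hQ : (QuadraticMap.polarBilin Q).Nondegenerate) (hne : ∃ v, Q v ≠ 0) {k : ℕ}
    (hk : Fintype.card ι = 2 * k) (g₀ : ↥(Cfsg.isometryGroup F (⇑Q)))
    (hg : g₀ * g₀ = negG Q) : sgnD Q h2 hQ hne hk (inclO Q g₀) = 1 := by
  obtain ⟨G, hG⟩ : ∃ G : Matrix ι ι F, G = ((g₀ : Matrix.GeneralLinearGroup ι F) : Matrix ι ι F) :=
    ⟨_, rfl⟩
  have hGG : G * G = -1 := by
    have := congrArg (fun x : ↥(Cfsg.isometryGroup F (⇑Q)) =>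
      ((x : Matrix.GeneralLinearGroup ι F) : Matrix ι ι F)) hg
    rw [hG]
    exact this
  have hpol : ∀ v : ι → F, QuadraticMap.polar (⇑Q) v (G *ᵥ v) = 0 := by
    intro v
    have e := isometry_polar Q g₀ v (G *ᵥ v)
    rw [← hG, Matrix.mulVec_mulVec, hGG, Matrix.neg_mulVec, Matrix.one_mulVec,
      QuadraticMap.polar_neg_right, QuadraticMap.polar_comm] at e
    have : (2 : F) * QuadraticMap.polar (⇑Q) v (G *ᵥ v) = 0 := by linear_combination (-1 : F) * e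
    rcases mul_eq_zero.mp this with h | h
    · exact absurd h h2
    · exact h
  have e1 : (1 + G) * ((2 : F)⁻¹ • (1 - G)) = 1 := by
    rw [Matrix.mul_smul]
    have : (1 + G) * (1 - G) = (2 : F) • (1 : Matrix ι ι F) := by
      calc (1 + G) * (1 - G) = 1 - G * G := by noncomm_ring
        _ = (2 : F) • (1 : Matrix ι ι F) := by rw [hGG, sub_neg_eq_add, two_smul]
    rw [this, smul_smul, inv_mul_cancel₀ h2, one_smul]
  have e2 : ((2 : F)⁻¹ • (1 - G)) * (1 + G) = 1 := by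
    rw [Matrix.smul_mul]
    have : (1 - G) * (1 + G) = (2 : F) • (1 : Matrix ι ι F) := by
      calc (1 - G) * (1 + G) = 1 - G * G := by noncomm_ring
        _ = (2 : F) • (1 : Matrix ι ι F) := by rw [hGG, sub_neg_eq_add, two_smul]
    rw [this, smul_smul, inv_mul_cancel₀ h2, one_smul]
  obtain ⟨hU, hhU⟩ : ∃ u : Matrix.GeneralLinearGroup ι F, (u : Matrix ι ι F) = 1 + G :=
    ⟨⟨1 + G, (2 : F)⁻¹ • (1 - G), e1, e2⟩, rfl⟩
  have hmem : hU ∈ Cfsg.Geo.quadSimilarityGroup (⇑Q) := by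
    refine ⟨Units.mk0 2 h2, fun v => ?_⟩
    rw [hhU, Matrix.add_mulVec, Matrix.one_mulVec, Q_add', hpol v, hG, isometry_apply g₀ v,
      Units.val_mk0]
    ring
  have hsq : (⟨hU, hmem⟩ : ↥(Cfsg.Geo.quadSimilarityGroup (⇑Q))) * ⟨hU, hmem⟩
      = scalSim Q (Units.mk0 2 h2) * inclO Q g₀ := by
    apply Subtype.ext
    apply Units.ext
    show (hU : Matrix ι ι F) * (hU : Matrix ι ι F)
      = ((scalGL ι (Units.mk0 2 h2) : Matrix.GeneralLinearGroup ι F) : Matrix ι ι F)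
        * ((g₀ : Matrix.GeneralLinearGroup ι F) : Matrix ι ι F)
    rw [hhU, scalGL_coe, Units.val_mk0, ← hG, Matrix.smul_mul, Matrix.one_mul]
    calc (1 + G) * (1 + G) = 1 + G + G + G * G := by noncomm_ring
      _ = (2 : F) • G := by rw [hGG, two_smul]; abel
  have h5 := congrArg (sgnD Q h2 hQ hne hk) hsq
  rw [map_mul, Int.units_mul_self, map_mul, sgnD_scalSim, one_mul] at h5
  exact h5.symm

end

end Cfsg.Agent.H49
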