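import Mathlib
import Cfsg.Agent.H49.GraphInv

set_option autoImplicit false
set_option linter.unusedSectionVars false

/-! Helper lemmas (helper49): isometries of determinant one and non-trivial spinor sign
commuting with a similarity whose square is a scalar. -/

namespace Cfsg.Agent.H49

open Module Matrix

section
variable {ι : Type} [Fintype ι] [DecidableEq ι] {F : Type*} [Field F] [Fintype F] [DecidableEq F]

/-- A subspace of dimension at least two on which the polar form is non-degenerate represents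
every scalar (odd characteristic, finite field). -/
theorem exists_Q_eq_of_nondeg_sub (Q : QuadraticForm F (ι → F)) (h2 : (2 : F) ≠ 0)
    (E : Submodule F (ι → F))
    (hE : ∀ a ∈ E, (∀ b ∈ E, QuadraticMap.polar (⇑Q) a b = 0) → a = 0)
    (hdim : 2 ≤ finrank F E) (c : F) : ∃ x ∈ E, Q x = c := by
  -- a non-singular vector
  have h1 : ∃ e₁ ∈ E, Q e₁ ≠ 0 := by
    by_contra hcon
    push Not at hcon
    have hbot : E = ⊥ := by
      rw [Submodule.eq_bot_iff]
      intro a ha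
      apply hE a ha
      intro b hb
      unfold QuadraticMap.polar
      rw [hcon _ (E.add_mem ha hb), hcon a ha, hcon b hb]
      ring
    rw [hbot, finrank_bot] at hdim
    omega
  obtain ⟨e₁, he₁, hQ₁⟩ := h1
  have hp11 : QuadraticMap.polar (⇑Q) e₁ e₁ ≠ 0 := by
    rw [polar_self']
    exact mul_ne_zero h2 hQ₁
  -- an orthogonal non-singular vector
  have h3 : ∃ e₂ ∈ E, QuadraticMap.polar (⇑Q) e₁ e₂ = 0 ∧ Q e₂ ≠ 0 := by
    by_contra hcon
    push Not at hcon
    -- a non-zero vector of `E` orthogonal to `e₁`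
    obtain ⟨φ, hφ⟩ : ∃ φ : ↥E →ₗ[F] F, φ = (QuadraticMap.polarBilin Q e₁).domRestrict E :=
      ⟨_, rfl⟩
    have hrk := LinearMap.finrank_range_add_finrank_ker φ
    have hr1 : finrank F (LinearMap.range φ) ≤ 1 := by
      have := Submodule.finrank_le (LinearMap.range φ)
      rwa [Module.finrank_self] at this
    have hker : 0 < finrank F (LinearMap.ker φ) := by omega
    have hkb : LinearMap.ker φ ≠ ⊥ := by
      intro h
      rw [h, finrank_bot] at hker
      omega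
    obtain ⟨a, ha, ha0⟩ := Submodule.exists_mem_ne_zero_of_ne_bot hkb
    have haE : (a : ι → F) ∈ E := a.2
    have hφa : QuadraticMap.polar (⇑Q) e₁ (a : ι → F) = 0 := by
      have := LinearMap.mem_ker.mp ha
      rw [hφ] at this
      exact this
    have hane : (a : ι → F) ≠ 0 := by
      intro h
      apply ha0
      apply Subtype.ext
      exact h
    apply hane
    apply hE _ haE
    intro b hb
    obtain ⟨t, ht⟩ : ∃ t : F, t = QuadraticMap.polar (⇑Q) e₁ b / QuadraticMap.polar (⇑Q) e₁ e₁ :=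
      ⟨_, rfl⟩
    have hb' : b - t • e₁ ∈ E := E.sub_mem hb (E.smul_mem _ he₁)
    have hb'o : QuadraticMap.polar (⇑Q) e₁ (b - t • e₁) = 0 := by
      rw [QuadraticMap.polar_sub_right, QuadraticMap.polar_smul_right, smul_eq_mul, ht]
      field_simp
      ring
    have hsum : QuadraticMap.polar (⇑Q) e₁ ((a : ι → F) + (b - t • e₁)) = 0 := by
      rw [QuadraticMap.polar_add_right, hφa, hb'o, add_zero]
    have e1 : QuadraticMap.polar (⇑Q) (a : ι → F) (b - t • e₁) = 0 := by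
      unfold QuadraticMap.polar
      rw [hcon _ (E.add_mem haE hb') hsum, hcon _ haE hφa, hcon _ hb' hb'o]
      ring
    rw [QuadraticMap.polar_sub_right, QuadraticMap.polar_smul_right, smul_eq_mul,
      QuadraticMap.polar_comm (⇑Q) (a : ι → F) e₁, hφa, mul_zero, sub_zero] at e1
    exact e1
  obtain ⟨e₂, he₂, h12, hQ₂⟩ := h3
  obtain ⟨s, t, hst⟩ := Cfsg.Agent.H17.exists_sq_sum_eq h2 hQ₁ hQ₂ c
  refine ⟨s • e₁ + t • e₂, E.add_mem (E.smul_mem _ he₁) (E.smul_mem _ he₂), ?_⟩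
  rw [Q_add', QuadraticMap.map_smul, QuadraticMap.map_smul, QuadraticMap.polar_smul_left,
    QuadraticMap.polar_smul_right, h12]
  simp only [smul_eq_mul]
  linear_combination hst

/-- The eigenspace of an isometry for the eigenvalue `e`. -/
def eigSub (Q : QuadraticForm F (ι → F)) (g₀ : ↥(Cfsg.isometryGroup F (⇑Q))) (e : F) :
    Submodule F (ι → F) :=
  LinearMap.ker (Matrix.mulVecLin ((g₀ : Matrix.GeneralLinearGroup ι F) : Matrix ι ι F)
    - e • LinearMap.id)

theorem mem_eigSub (Q : QuadraticForm F (ι → F)) (g₀ : ↥(Cfsg.isometryGroup F (⇑Q))) (e : F)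
    (v : ι → F) : v ∈ eigSub Q g₀ e
      ↔ ((g₀ : Matrix.GeneralLinearGroup ι F) : Matrix ι ι F) *ᵥ v = e • v := by
  rw [eigSub, LinearMap.mem_ker, LinearMap.sub_apply, LinearMap.smul_apply, LinearMap.id_apply,
    Matrix.mulVecLin_apply, sub_eq_zero]

theorem eigSub_nondeg (Q : QuadraticForm F (ι → F)) (h2 : (2 : F) ≠ 0)
    (hQ : (QuadraticMap.polarBilin Q).Nondegenerate) (g₀ : ↥(Cfsg.isometryGroup F (⇑Q)))
    (hg : g₀ * g₀ = 1) (e : F) (he : e * e = 1) :
    ∀ a ∈ eigSub Q g₀ e, (∀ b ∈ eigSub Q g₀ e, QuadraticMap.polar (⇑Q) a b = 0) → a = 0 := by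
  intro a ha hab
  rw [mem_eigSub] at ha
  have hGG : ∀ z : ι → F, ((g₀ : Matrix.GeneralLinearGroup ι F) : Matrix ι ι F) *ᵥ
      (((g₀ : Matrix.GeneralLinearGroup ι F) : Matrix ι ι F) *ᵥ z) = z := by
    intro z
    rw [← coe_mul_mulVec, hg]
    simp
  apply hQ.1 a
  intro z
  show QuadraticMap.polar (⇑Q) a z = 0
  obtain ⟨Gz, hGz⟩ : ∃ y, y = ((g₀ : Matrix.GeneralLinearGroup ι F) : Matrix ι ι F) *ᵥ z :=
    ⟨_, rfl⟩
  have h1 : z + e • Gz ∈ eigSub Q g₀ e := by
    rw [mem_eigSub, Matrix.mulVec_add, Matrix.mulVec_smul, hGz, hGG, smul_add, smul_smul, he,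
      one_smul, add_comm]
  have h2' : QuadraticMap.polar (⇑Q) a (z - e • Gz) = 0 := by
    have e1 := isometry_polar Q g₀ a (z - e • Gz)
    rw [ha, Matrix.mulVec_sub, Matrix.mulVec_smul, hGz, hGG, ← hGz,
      QuadraticMap.polar_smul_left, smul_eq_mul] at e1
    have e2 : Gz - e • z = -(e • (z - e • Gz)) := by
      rw [smul_sub, smul_smul, he, one_smul]
      abel
    rw [e2, QuadraticMap.polar_neg_right, QuadraticMap.polar_smul_right, smul_eq_mul] at e1
    have e3 : (2 : F) * QuadraticMap.polar (⇑Q) a (z - e • Gz) = 0 := by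
      linear_combination (-1 : F) * e1 - QuadraticMap.polar (⇑Q) a (z - e • Gz) * he
    rcases mul_eq_zero.mp e3 with h | h
    · exact absurd h h2
    · exact h
  have h3 := hab _ h1
  have h4 : (2 : F) * QuadraticMap.polar (⇑Q) a z = 0 := by
    have : QuadraticMap.polar (⇑Q) a ((z + e • Gz) + (z - e • Gz))
        = (2 : F) * QuadraticMap.polar (⇑Q) a z := by
      have e5 : (z + e • Gz) + (z - e • Gz) = (2 : F) • z := by
        rw [two_smul]; abel
      rw [e5, QuadraticMap.polar_smul_right, smul_eq_mul]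
    rw [← this, QuadraticMap.polar_add_right, h3, h2', add_zero]
  rcases mul_eq_zero.mp h4 with h | h
  · exact absurd h h2
  · exact h

theorem eigSub_sup (Q : QuadraticForm F (ι → F)) (h2 : (2 : F) ≠ 0)
    (g₀ : ↥(Cfsg.isometryGroup F (⇑Q))) (hg : g₀ * g₀ = 1) :
    eigSub Q g₀ 1 ⊔ eigSub Q g₀ (-1) = ⊤ := by
  have hGG : ∀ z : ι → F, ((g₀ : Matrix.GeneralLinearGroup ι F) : Matrix ι ι F) *ᵥ
      (((g₀ : Matrix.GeneralLinearGroup ι F) : Matrix ι ι F) *ᵥ z) = z := by
    intro z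
    rw [← coe_mul_mulVec, hg]
    simp
  rw [eq_top_iff]
  intro z _
  obtain ⟨Gz, hGz⟩ : ∃ y, y = ((g₀ : Matrix.GeneralLinearGroup ι F) : Matrix ι ι F) *ᵥ z :=
    ⟨_, rfl⟩
  have h1 : (2 : F)⁻¹ • (z + Gz) ∈ eigSub Q g₀ 1 := by
    rw [mem_eigSub, Matrix.mulVec_smul, Matrix.mulVec_add, hGz, hGG, one_smul, add_comm]
  have h3 : (2 : F)⁻¹ • (z - Gz) ∈ eigSub Q g₀ (-1) := by
    rw [mem_eigSub, Matrix.mulVec_smul, Matrix.mulVec_sub, hGz, hGG, neg_one_smul, ← smul_neg,
      neg_sub]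
  have h4 : z = (2 : F)⁻¹ • (z + Gz) + (2 : F)⁻¹ • (z - Gz) := by
    rw [← smul_add]
    have : z + Gz + (z - Gz) = (2 : F) • z := by rw [two_smul]; abel
    rw [this, smul_smul, inv_mul_cancel₀ h2, one_smul]
  rw [h4]
  exact Submodule.add_mem_sup h1 h3

theorem reflG_comm_of_eig (Q : QuadraticForm F (ι → F)) (g₀ : ↥(Cfsg.isometryGroup F (⇑Q)))
    (e : F) (he : e ≠ 0) (v : ι → F) (hv : v ∈ eigSub Q g₀ e) :
    g₀ * reflG Q v = reflG Q v * g₀ := by
  rw [mem_eigSub] at hv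
  have key := conj_reflG Q g₀ v
  rw [hv, reflG_smul Q v he] at key
  calc g₀ * reflG Q v = (g₀ * reflG Q v * g₀⁻¹) * g₀ := by group
    _ = reflG Q v * g₀ := by rw [key]

/-- An involutory isometry commutes with a product of two reflections of determinant one and
non-trivial spinor sign. -/
theorem exists_comm_of_invol (Q : QuadraticForm F (ι → F)) (h2 : (2 : F) ≠ 0)
    (hQ : (QuadraticMap.polarBilin Q).Nondegenerate) (hcard : 3 ≤ Fintype.card ι)
    (g₀ : ↥(Cfsg.isometryGroup F (⇑Q))) (hg : g₀ * g₀ = 1) :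
    ∃ x₀ : ↥(Cfsg.isometryGroup F (⇑Q)),
      ((x₀ : Matrix.GeneralLinearGroup ι F) : Matrix ι ι F).det = 1 ∧ spinSign Q x₀ = -1 ∧
      g₀ * x₀ = x₀ * g₀ := by
  have hsup := eigSub_sup Q h2 g₀ hg
  have hle := Submodule.finrank_add_le_finrank_add_finrank (eigSub Q g₀ 1) (eigSub Q g₀ (-1))
  rw [hsup, finrank_top, Module.finrank_fintype_fun_eq_card] at hle
  obtain ⟨e, he, hdim⟩ : ∃ e : F, e * e = 1 ∧ 2 ≤ finrank F (eigSub Q g₀ e) := by
    by_cases h : 2 ≤ finrank F (eigSub Q g₀ 1)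
    · exact ⟨1, one_mul 1, h⟩
    · exact ⟨-1, by ring, by omega⟩
  have he0 : e ≠ 0 := by
    rintro rfl
    rw [mul_zero] at he
    exact zero_ne_one he
  have hnd := eigSub_nondeg Q h2 hQ g₀ hg e he
  obtain ⟨ν, hν⟩ := exists_nonsquare_of_two_ne_zero (F := F) h2
  obtain ⟨v, hv, hQv⟩ := exists_Q_eq_of_nondeg_sub Q h2 _ hnd hdim 1
  obtain ⟨w, hw, hQw⟩ := exists_Q_eq_of_nondeg_sub Q h2 _ hnd hdim ν
  have hν0 : ν ≠ 0 := by
    rintro rfl
    exact hν ⟨0, by simp⟩
  refine ⟨reflG Q v * reflG Q w, ?_, ?_, ?_⟩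
  · rw [det_mul_iso, reflG_coe, reflG_coe, det_reflectionMatrix Q v (by rw [hQv]; exact one_ne_zero),
      det_reflectionMatrix Q w (by rw [hQw]; exact hν0)]
    ring
  · rw [map_mul, spinSign_reflG Q h2 v (by rw [hQv]; exact one_ne_zero),
      spinSign_reflG Q h2 w (by rw [hQw]; exact hν0), hQv, hQw, if_pos ⟨1, (one_mul 1).symm⟩,
      if_neg hν, mul_one]
  · rw [← mul_assoc, reflG_comm_of_eig Q g₀ e he0 v hv, mul_assoc,
      reflG_comm_of_eig Q g₀ e he0 w hw, mul_assoc]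

end

end Cfsg.Agent.H49
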