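import Mathlib
import Cfsg.Agent.H49.AutOdd
import Cfsg.Agent.H49.AutOut2

set_option autoImplicit false
set_option linter.unusedSectionVars false
set_option linter.unusedSimpArgs false
set_option linter.unusedVariables false

/-! Helper lemmas (helper49): `Out(Ω_{2m+1}(q)) ≅ C₂ × C_f`. -/

namespace Cfsg.Agent.H49

open Module Matrix

section
variable {F : Type*} [Field F] [Fintype F]

/-- `Out(Ω_{2m+1}(q)) ≅ C₂ × C_f` for `q = p^f` odd and `m ≥ 3`. -/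
theorem out_odd {p f m : ℕ} [Fact p.Prime] (hf : 1 ≤ f) (hF : Fintype.card F = p ^ f)
    (hp : p ≠ 2) (hm : 3 ≤ m) :
    Nonempty (Cfsg.Out (Cfsg.POmega F (Cfsg.quadFormOdd m F))
      ≃* Multiplicative (ZMod 2 × ZMod f)) := by
  classical
  have hpodd : Odd p := (Fact.out : p.Prime).odd_of_ne_two hp
  have hoddF : Odd (Fintype.card F) := by rw [hF]; exact hpodd.pow
  have h2 : (2 : F) ≠ 0 := two_ne_zero_of_odd_card hoddF
  have hQ := QOdd_nondeg (F := F) m h2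
  have h3 := hasTS3_QOdd (F := F) m hm
  have hcard : Fintype.card (Unit ⊕ (Fin m ⊕ Fin m)) = 2 * m + 1 := by
    simp
    ring
  have htop : ∀ β : MulAut (Cfsg.POmega F (⇑(QOdd m F))),
      β ∈ Cfsg.gammaPOmega F (⇑(QOdd m F)) := by
    intro β
    have ht : Cfsg.gammaPOmega F (⇑(QOdd m F)) = ⊤ := gamma_top_odd hoddF hm
    rw [ht]
    exact Subgroup.mem_top β
  obtain ⟨Ψ, hΨ⟩ := exists_sigHom (QOdd m F) hQ h3 htop
  have hker := sigHom_ker (QOdd m F) htop Ψ hΨ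
  obtain ⟨s, hs⟩ := exists_fieldHom (⇑(QOdd m F)) (fun σ => pair_odd_sigma m σ)
  have hsec : ∀ σ : RingAut F, Ψ (s σ) = σ := fun σ => hΨ (s σ) 1 σ (pair_odd_sigma m σ) (hs σ)
  obtain ⟨heq, -⟩ := card_pgoAut_odd (QOdd m F) h2 hQ h3 hcard
  have hN : Cfsg.Inn (Cfsg.POmega F (⇑(QOdd m F))) ≤ Ψ.ker := by
    rw [hker, heq]
    exact inn_le_psoAut (⇑(QOdd m F))
  have hidx : (Cfsg.Inn (Cfsg.POmega F (⇑(QOdd m F)))).relIndex Ψ.ker = 2 := by
    rw [hker, heq]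
    exact relIndex_inn_psoAut_odd (QOdd m F) h2 hQ h3 hcard
  obtain ⟨hC, hcardC⟩ := ringAut_card (F := F) p f hf hF
  exact quot_equiv_two_prod (Cfsg.Inn (Cfsg.POmega F (⇑(QOdd m F)))) Ψ s hsec hN hidx f hC hcardC

end

end Cfsg.Agent.H49
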