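import Mathlib
import Cfsg.Agent.H49.AutOut2

set_option autoImplicit false
set_option linter.unusedSectionVars false
set_option linter.unusedSimpArgs false
set_option linter.unusedVariables false

/-! Helper lemmas (helper49): group-theoretic lemmas for outer automorphism groups with a
cyclic quotient. -/

namespace Cfsg.Agent.H49

section Grp
variable {A C : Type*} [Group A] [Group C]

/-- An element whose image has order `f` and whose `f`-th power is an involution has order
`2f`. -/
theorem orderOf_eq_two_mul (ψ : A →* C) (x : A) (f : ℕ) (hf : 0 < f)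
    (hord : orderOf (ψ x) = f) (h1 : x ^ f ≠ 1) (h2 : (x ^ f) ^ 2 = 1) :
    orderOf x = 2 * f := by
  apply Nat.dvd_antisymm
  · apply orderOf_dvd_of_pow_eq_one
    rw [mul_comm, pow_mul]
    exact h2
  · have hk : x ^ orderOf x = 1 := pow_orderOf_eq_one x
    have h3 : (ψ x) ^ orderOf x = 1 := by rw [← map_pow, hk, map_one]
    have h4 : f ∣ orderOf x := by
      rw [← hord]
      exact orderOf_dvd_of_pow_eq_one h3
    obtain ⟨j, hj⟩ := h4
    have h5 : (x ^ f) ^ j = 1 := by rw [← pow_mul, ← hj]; exact hk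
    have h6 : orderOf (x ^ f) = 2 := orderOf_eq_prime h2 h1
    have h7 : 2 ∣ j := by
      rw [← h6]
      exact orderOf_dvd_of_pow_eq_one h5
    obtain ⟨i, hi⟩ := h7
    exact ⟨i, by rw [hj, hi]; ring⟩

theorem lift_surjective (N : Subgroup A) [N.Normal] (Ψ : A →* C) (hN : N ≤ Ψ.ker)
    (hsurj : Function.Surjective Ψ) : Function.Surjective (QuotientGroup.lift N Ψ hN) := by
  intro c
  obtain ⟨a, rfl⟩ := hsurj c
  exact ⟨QuotientGroup.mk a, rfl⟩

/-- The quotient is cyclic of order `2f` when the kernel has index-two image and the `f`-th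
power of a lift of a generator is not in `N`. -/
theorem quot_cyclic_of_pow (N : Subgroup A) [N.Normal] (Ψ : A →* C)
    (hsurj : Function.Surjective Ψ) (hN : N ≤ Ψ.ker) (hidx : N.relIndex Ψ.ker = 2) (f : ℕ)
    (hf : 1 ≤ f) (hcard : Nat.card C = f) (φ : A) (hord : orderOf (Ψ φ) = f)
    (hφ : φ ^ f ∉ N) :
    IsCyclic (A ⧸ N) ∧ Nat.card (A ⧸ N) = 2 * f := by
  have hK : Nat.card ↥(QuotientGroup.lift N Ψ hN).ker = 2 := by
    rw [card_ker_lift, hidx]
  have hcardQ : Nat.card (A ⧸ N) = 2 * f := by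
    rw [card_of_surj _ (lift_surjective N Ψ hN hsurj), hK, hcard]
  haveI : Finite (A ⧸ N) := Nat.finite_of_card_ne_zero (by rw [hcardQ]; omega)
  have hx1 : (QuotientGroup.mk φ : A ⧸ N) ^ f ∈ (QuotientGroup.lift N Ψ hN).ker := by
    rw [MonoidHom.mem_ker, map_pow]
    show (Ψ φ) ^ f = 1
    rw [← hord]
    exact pow_orderOf_eq_one _
  have hx2 : (QuotientGroup.mk φ : A ⧸ N) ^ f ≠ 1 := by
    intro h
    apply hφ
    rw [← QuotientGroup.eq_one_iff]
    exact h
  have hx3 : ((QuotientGroup.mk φ : A ⧸ N) ^ f) ^ 2 = 1 := by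
    have := pow_card_eq_one' (G := ↥(QuotientGroup.lift N Ψ hN).ker)
      (x := ⟨(QuotientGroup.mk φ : A ⧸ N) ^ f, hx1⟩)
    rw [hK] at this
    exact congrArg Subtype.val this
  have ho := orderOf_eq_two_mul (QuotientGroup.lift N Ψ hN) (QuotientGroup.mk φ : A ⧸ N) f
    (by omega) hord hx2 hx3
  exact ⟨isCyclic_of_orderOf_eq_card _ (by rw [ho, hcardQ]), hcardQ⟩

end Grp

end Cfsg.Agent.H49
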