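import Mathlib
import Cfsg.Agent.H49.AutOut3

set_option autoImplicit false
set_option linter.unusedSectionVars false
set_option linter.unusedSimpArgs false
set_option linter.unusedVariables false
set_option linter.style.haveILetI false

/-! Helper lemmas (helper49): more group-theoretic lemmas for outer automorphism groups with a
cyclic quotient: the cases `C₂ × C_{2f}` and `D × C_f`. -/

namespace Cfsg.Agent.H49

section Grp
variable {A C : Type*} [Group A] [Group C]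

theorem nonempty_cyc_equiv {G : Type*} [Group G] (hc : IsCyclic G) (n : ℕ)
    (hn : Nat.card G = n) : Nonempty (G ≃* Multiplicative (ZMod n)) := by
  subst hn
  exact ⟨(zmodCyclicMulEquiv hc).symm⟩

theorem rel_index_of_hom {B : Type*} [Group B] (P N : Subgroup A) (φ : ↥P →* B)
    (hs : Function.Surjective φ) (hk : φ.ker = N.subgroupOf P) : N.relIndex P = Nat.card B := by
  rw [Subgroup.relIndex, ← hk, Subgroup.index_ker, MonoidHom.range_eq_top.mpr hs,
    Subgroup.card_top]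

theorem card_map_mk (N K : Subgroup A) [N.Normal] :
    Nat.card ↥(K.map (QuotientGroup.mk' N)) = N.relIndex K := by
  have h2 := Subgroup.relIndex_comap (H := (⊥ : Subgroup (A ⧸ N))) (QuotientGroup.mk' N) K
  rw [MonoidHom.comap_bot, QuotientGroup.ker_mk', Subgroup.relIndex_bot_left] at h2
  exact h2.symm

theorem mem_ker_lift (N : Subgroup A) [N.Normal] (Ψ : A →* C) (hN : N ≤ Ψ.ker) (y : A ⧸ N)
    (hy : y ∈ (QuotientGroup.lift N Ψ hN).ker) : ∃ a ∈ Ψ.ker, y = QuotientGroup.mk a := by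
  obtain ⟨a, rfl⟩ := QuotientGroup.mk_surjective y
  exact ⟨a, hy, rfl⟩

/-- `C₂ × C_{2f}`: the kernel modulo `N` is a four-group centralised by a lift `φ` of a
generator whose `f`-th power is not in `N`. -/
theorem quot_equiv_two_prod_two (N P : Subgroup A) [N.Normal] (Ψ : A →* C)
    (hsurj : Function.Surjective Ψ) (hP : Ψ.ker = P) (hN : N ≤ P)
    (χ : ↥P →* Multiplicative (ZMod 2 × ZMod 2)) (hχs : Function.Surjective χ)
    (hχk : χ.ker = N.subgroupOf P)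
    (f : ℕ) (hf : 1 ≤ f) (hcard : Nat.card C = f) (φ : A) (hord : orderOf (Ψ φ) = f)
    (hcomm : ∀ x ∈ P, φ * x * φ⁻¹ * x⁻¹ ∈ N) (hφ : φ ^ f ∉ N) :
    Nonempty (A ⧸ N ≃* Multiplicative (ZMod 2 × ZMod (2 * f))) := by
  classical
  subst hP
  have hK4 : Nat.card ↥(QuotientGroup.lift N Ψ hN).ker = 4 := by
    rw [card_ker_lift, rel_index_of_hom _ _ χ hχs hχk, Nat.card_eq_fintype_card]
    rfl
  have hcardQ : Nat.card (A ⧸ N) = 4 * f := by
    rw [card_of_surj _ (lift_surjective N Ψ hN hsurj), hK4, hcard]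
  haveI : Finite (A ⧸ N) := Nat.finite_of_card_ne_zero (by rw [hcardQ]; omega)
  have hV : ∀ v : Multiplicative (ZMod 2 × ZMod 2), v * v = 1 := by decide
  have hsq : ∀ y ∈ (QuotientGroup.lift N Ψ hN).ker, y * y = 1 := by
    intro y hy
    obtain ⟨a, ha, rfl⟩ := mem_ker_lift N Ψ hN y hy
    have h1 : (⟨a, ha⟩ * ⟨a, ha⟩ : ↥Ψ.ker) ∈ χ.ker := by
      rw [MonoidHom.mem_ker, map_mul, hV]
    rw [hχk, Subgroup.mem_subgroupOf] at h1
    exact (QuotientGroup.eq_one_iff (a * a)).mpr h1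
  have hxc : ∀ y ∈ (QuotientGroup.lift N Ψ hN).ker,
      (QuotientGroup.mk φ : A ⧸ N) * y = y * QuotientGroup.mk φ := by
    intro y hy
    obtain ⟨a, ha, rfl⟩ := mem_ker_lift N Ψ hN y hy
    have h1 := (QuotientGroup.eq_one_iff (φ * a * φ⁻¹ * a⁻¹)).mpr (hcomm a ha)
    have h2 : (QuotientGroup.mk φ : A ⧸ N) * QuotientGroup.mk a * (QuotientGroup.mk φ)⁻¹
        * (QuotientGroup.mk a)⁻¹ = 1 := h1
    calc (QuotientGroup.mk φ : A ⧸ N) * QuotientGroup.mk a
        = ((QuotientGroup.mk φ : A ⧸ N) * QuotientGroup.mk a * (QuotientGroup.mk φ)⁻¹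
          * (QuotientGroup.mk a)⁻¹) * (QuotientGroup.mk a * QuotientGroup.mk φ) := by group
      _ = QuotientGroup.mk a * QuotientGroup.mk φ := by rw [h2, one_mul]
  obtain ⟨x, hx⟩ : ∃ x : A ⧸ N, x = QuotientGroup.mk φ := ⟨_, rfl⟩
  rw [← hx] at hxc
  have hψx : (QuotientGroup.lift N Ψ hN) x = Ψ φ := by rw [hx]; rfl
  have hr1 : x ^ f ∈ (QuotientGroup.lift N Ψ hN).ker := by
    rw [MonoidHom.mem_ker, map_pow, hψx, ← hord]
    exact pow_orderOf_eq_one _
  have hr2 : x ^ f ≠ 1 := by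
    intro h
    apply hφ
    rw [← QuotientGroup.eq_one_iff]
    rw [hx] at h
    exact h
  have hr3 : (x ^ f) ^ 2 = 1 := by
    rw [pow_two]
    exact hsq _ hr1
  have ho : orderOf x = 2 * f :=
    orderOf_eq_two_mul (QuotientGroup.lift N Ψ hN) x f (by omega) (by rw [hψx]; exact hord)
      hr2 hr3
  obtain ⟨d, hdK, hd1, hdr⟩ : ∃ d ∈ (QuotientGroup.lift N Ψ hN).ker, d ≠ 1 ∧ d ≠ x ^ f := by
    by_contra hcon
    push Not at hcon
    have hinj : Function.Injective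
        (fun y : ↥(QuotientGroup.lift N Ψ hN).ker => decide ((y : A ⧸ N) = 1)) := by
      intro y y' hyy
      simp only [decide_eq_decide] at hyy
      apply Subtype.ext
      by_cases h1 : (y : A ⧸ N) = 1
      · rw [h1, hyy.mp h1]
      · have h1' : ¬ (y' : A ⧸ N) = 1 := fun h => h1 (hyy.mpr h)
        rw [hcon y y.2 h1, hcon y' y'.2 h1']
    have := Nat.card_le_card_of_injective _ hinj
    rw [hK4, Nat.card_eq_fintype_card, Fintype.card_bool] at this
    omega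
  have hd2 : d * d = 1 := hsq d hdK
  have hod : orderOf d = 2 := orderOf_eq_prime (by rw [pow_two]; exact hd2) hd1
  have hdx : Commute d x := (hxc d hdK).symm
  have hpow2 : ∀ (y : A ⧸ N), y * y = 1 → ∀ i : ℤ, y ^ i = 1 ∨ y ^ i = y := by
    intro y hy i
    rcases Int.even_or_odd' i with ⟨t, rfl | rfl⟩
    · left
      rw [zpow_mul, zpow_ofNat, pow_two, hy, one_zpow]
    · right
      rw [zpow_add, zpow_mul, zpow_ofNat, pow_two, hy, one_zpow, one_mul, zpow_one]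
  have hdnot : d ∉ Subgroup.zpowers x := by
    intro hmem
    obtain ⟨j, hj⟩ := Subgroup.mem_zpowers_iff.mp hmem
    have h1 : (Ψ φ) ^ j = 1 := by
      rw [← hψx, ← map_zpow, hj]
      exact hdK
    rw [← orderOf_dvd_iff_zpow_eq_one, hord] at h1
    obtain ⟨i, rfl⟩ := h1
    rw [zpow_mul, zpow_natCast] at hj
    rcases hpow2 (x ^ f) (by rw [← pow_two]; exact hr3) i with h | h
    · exact hd1 (hj.symm.trans h)
    · exact hdr (hj.symm.trans h)
  have hcomm' : ∀ h₁ ∈ Subgroup.zpowers d, ∀ h₂ ∈ Subgroup.zpowers x, h₂ * h₁ = h₁ * h₂ := by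
    intro h₁ hh₁ h₂ hh₂
    obtain ⟨i, rfl⟩ := Subgroup.mem_zpowers_iff.mp hh₁
    obtain ⟨j, rfl⟩ := Subgroup.mem_zpowers_iff.mp hh₂
    exact ((hdx.zpow_zpow i j).eq).symm
  obtain ⟨Φ, hΦ⟩ : ∃ Φ : ↥(Subgroup.zpowers d) × ↥(Subgroup.zpowers x) →* A ⧸ N,
      ∀ p, Φ p = (p.1 : A ⧸ N) * (p.2 : A ⧸ N) := by
    refine ⟨MonoidHom.mk' (fun p => (p.1 : A ⧸ N) * (p.2 : A ⧸ N)) ?_, fun p => rfl⟩
    rintro ⟨h₁, h₂⟩ ⟨h₁', h₂'⟩
    show ((h₁ * h₁' : ↥(Subgroup.zpowers d)) : A ⧸ N) * ((h₂ * h₂' : ↥(Subgroup.zpowers x)) : A ⧸ N)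
      = (h₁ : A ⧸ N) * (h₂ : A ⧸ N) * ((h₁' : A ⧸ N) * (h₂' : A ⧸ N))
    rw [Subgroup.coe_mul, Subgroup.coe_mul]
    have := hcomm' h₁' h₁'.2 h₂ h₂.2
    calc (h₁ : A ⧸ N) * (h₁' : A ⧸ N) * ((h₂ : A ⧸ N) * (h₂' : A ⧸ N))
        = (h₁ : A ⧸ N) * ((h₁' : A ⧸ N) * (h₂ : A ⧸ N)) * (h₂' : A ⧸ N) := by group
      _ = (h₁ : A ⧸ N) * ((h₂ : A ⧸ N) * (h₁' : A ⧸ N)) * (h₂' : A ⧸ N) := by rw [this]
      _ = _ := by group
  have hinj : Function.Injective Φ := by
    rw [injective_iff_map_eq_one]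
    rintro ⟨h₁, h₂⟩ h
    rw [hΦ] at h
    have h1 : (h₁ : A ⧸ N) = (h₂ : A ⧸ N)⁻¹ := eq_inv_of_mul_eq_one_left h
    have h2 : (h₁ : A ⧸ N) ∈ Subgroup.zpowers x := by
      rw [h1]
      exact Subgroup.inv_mem _ h₂.2
    obtain ⟨i, hi⟩ := Subgroup.mem_zpowers_iff.mp h₁.2
    have h3 : (h₁ : A ⧸ N) = 1 := by
      rcases hpow2 d hd2 i with h' | h'
      · rw [← hi, h']
      · exfalso
        apply hdnot
        rw [← h', hi]
        exact h2
    have h4 : (h₂ : A ⧸ N) = 1 := by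
      rw [h3] at h1
      exact inv_eq_one.mp h1.symm
    exact Prod.ext (Subtype.ext h3) (Subtype.ext h4)
  have hbij : Function.Bijective Φ := by
    rw [Nat.bijective_iff_injective_and_card]
    refine ⟨hinj, ?_⟩
    rw [Nat.card_prod, Nat.card_zpowers, Nat.card_zpowers, hod, ho, hcardQ]
    ring
  obtain ⟨e1⟩ := nonempty_cyc_equiv (Subgroup.isCyclic_zpowers d) 2
    (by rw [Nat.card_zpowers, hod])
  obtain ⟨e2⟩ := nonempty_cyc_equiv (Subgroup.isCyclic_zpowers x) (2 * f)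
    (by rw [Nat.card_zpowers, ho])
  exact ⟨((MulEquiv.ofBijective Φ hbij).symm.trans (MulEquiv.prodCongr e1 e2)).trans
    (MulEquiv.prodMultiplicative (G := ZMod 2) (H := ZMod (2 * f))).symm⟩

/-- `D × C_f` for odd `f`: a lift `φ` of a generator acts trivially on the kernel modulo a
subgroup `K₂` in which `N` has index two. -/
theorem quot_equiv_prod_of_odd {D : Type*} [Group D] (N P K₂ : Subgroup A) [N.Normal]
    (Ψ : A →* C) (hsurj : Function.Surjective Ψ) (hP : Ψ.ker = P) (hN : N ≤ K₂) (hK₂ : K₂ ≤ P)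
    (hidx : N.relIndex K₂ = 2)
    (χ : ↥P →* D) (hχs : Function.Surjective χ) (hχk : χ.ker = N.subgroupOf P)
    (hD : Nat.card D = 8)
    (f : ℕ) (hf : Odd f) (hC : IsCyclic C) (hcard : Nat.card C = f) (φ : A)
    (hord : orderOf (Ψ φ) = f)
    (hcomm : ∀ x ∈ P, φ * x * φ⁻¹ * x⁻¹ ∈ K₂) :
    Nonempty (A ⧸ N ≃* D × Multiplicative (ZMod f)) := by
  classical
  subst hP
  have hNP : N ≤ Ψ.ker := le_trans hN hK₂
  have hf0 : 0 < f := hf.pos
  haveI : Finite C := Nat.finite_of_card_ne_zero (by rw [hcard]; omega)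
  have hK8 : Nat.card ↥(QuotientGroup.lift N Ψ hNP).ker = 8 := by
    rw [card_ker_lift, rel_index_of_hom _ _ χ hχs hχk, hD]
  have hZ2 : Nat.card ↥(K₂.map (QuotientGroup.mk' N)) = 2 := by
    rw [card_map_mk, hidx]
  obtain ⟨x, hx⟩ : ∃ x : A ⧸ N, x = QuotientGroup.mk φ := ⟨_, rfl⟩
  have hψx : (QuotientGroup.lift N Ψ hNP) x = Ψ φ := by rw [hx]; rfl
  -- conjugation by `x` fixes the image of `K₂` pointwise
  have hconjK : ∀ k ∈ K₂, φ * k * φ⁻¹ ∈ K₂ := by
    intro k hk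
    have h1 := hcomm k (hK₂ hk)
    have h2 := Subgroup.mul_mem _ h1 hk
    have e : φ * k * φ⁻¹ * k⁻¹ * k = φ * k * φ⁻¹ := by group
    rw [e] at h2
    exact h2
  have hfixZ : ∀ z ∈ K₂.map (QuotientGroup.mk' N), x * z * x⁻¹ = z := by
    rintro z ⟨k, hk, rfl⟩
    have hmem : x * (QuotientGroup.mk' N k) * x⁻¹ ∈ K₂.map (QuotientGroup.mk' N) := by
      rw [hx]
      exact ⟨φ * k * φ⁻¹, hconjK k hk, rfl⟩
    by_cases h1 : (QuotientGroup.mk' N k) = 1
    · rw [h1]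
      group
    · obtain ⟨y, -, hy⟩ := (Nat.card_eq_two_iff' (1 : ↥(K₂.map (QuotientGroup.mk' N)))).mp hZ2
      have e1 : (⟨QuotientGroup.mk' N k, ⟨k, hk, rfl⟩⟩ : ↥(K₂.map (QuotientGroup.mk' N))) = y :=
        hy _ (fun h => h1 (congrArg Subtype.val h))
      have e2 : (⟨x * (QuotientGroup.mk' N k) * x⁻¹, hmem⟩ : ↥(K₂.map (QuotientGroup.mk' N)))
          = y := hy _ (fun h => h1 (by
        have h' : x * (QuotientGroup.mk' N k) * x⁻¹ = 1 := congrArg Subtype.val h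
        calc (QuotientGroup.mk' N k) = x⁻¹ * (x * (QuotientGroup.mk' N k) * x⁻¹) * x := by group
          _ = 1 := by rw [h']; group))
      exact congrArg Subtype.val (e2.trans e1.symm)
  have hsqZ : ∀ z ∈ K₂.map (QuotientGroup.mk' N), z * z = 1 := by
    intro z hz
    have := pow_card_eq_one' (G := ↥(K₂.map (QuotientGroup.mk' N))) (x := ⟨z, hz⟩)
    rw [hZ2, pow_two] at this
    exact congrArg Subtype.val this
  -- `x * x` centralises the kernel
  have hxx : ∀ y ∈ (QuotientGroup.lift N Ψ hNP).ker, Commute (x * x) y := by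
    intro y hy
    obtain ⟨a, ha, rfl⟩ := mem_ker_lift N Ψ hNP y hy
    obtain ⟨z, hz⟩ : ∃ z : A ⧸ N, z = QuotientGroup.mk (φ * a * φ⁻¹ * a⁻¹) := ⟨_, rfl⟩
    have hzmem : z ∈ K₂.map (QuotientGroup.mk' N) := by
      rw [hz]
      exact ⟨_, hcomm a ha, rfl⟩
    have h1 : x * QuotientGroup.mk a * x⁻¹ = z * QuotientGroup.mk a := by
      rw [hz, hx]
      show (QuotientGroup.mk φ : A ⧸ N) * QuotientGroup.mk a * (QuotientGroup.mk φ)⁻¹
        = (QuotientGroup.mk φ : A ⧸ N) * QuotientGroup.mk a * (QuotientGroup.mk φ)⁻¹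
          * (QuotientGroup.mk a)⁻¹ * QuotientGroup.mk a
      group
    have h2 := hfixZ z hzmem
    have h3 := hsqZ z hzmem
    show x * x * QuotientGroup.mk a = QuotientGroup.mk a * (x * x)
    calc x * x * (QuotientGroup.mk a : A ⧸ N)
        = x * (x * QuotientGroup.mk a * x⁻¹) * x := by group
      _ = x * (z * QuotientGroup.mk a) * x := by rw [h1]
      _ = (x * z * x⁻¹) * (x * QuotientGroup.mk a * x⁻¹) * (x * x) := by group
      _ = z * (z * QuotientGroup.mk a) * (x * x) := by rw [h2, h1]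
      _ = (z * z) * QuotientGroup.mk a * (x * x) := by group
      _ = QuotientGroup.mk a * (x * x) := by rw [h3, one_mul]
  obtain ⟨e, he⟩ : ∃ e : A ⧸ N, e = (x * x) ^ 4 := ⟨_, rfl⟩
  have hex : e = x ^ 8 := by rw [he, ← pow_two, ← pow_mul]
  have hecomm : ∀ y ∈ (QuotientGroup.lift N Ψ hNP).ker, Commute e y := by
    intro y hy
    rw [he]
    exact (hxx y hy).pow_left 4
  obtain ⟨c₈, hc₈⟩ : ∃ c : C, c = (Ψ φ) ^ 8 := ⟨_, rfl⟩
  have hoc : orderOf c₈ = f := by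
    rw [hc₈, Nat.Coprime.orderOf_pow, hord]
    rw [hord]
    exact Nat.Coprime.pow_right 3 (Nat.coprime_two_right.mpr hf)
  have hgen : ∀ c : C, c ∈ Subgroup.zpowers c₈ := by
    have htop : Subgroup.zpowers c₈ = ⊤ :=
      Subgroup.eq_top_of_card_eq _ (by rw [Nat.card_zpowers, hoc, hcard])
    intro c
    rw [htop]
    exact Subgroup.mem_top c
  have hxf : x ^ f ∈ (QuotientGroup.lift N Ψ hNP).ker := by
    rw [MonoidHom.mem_ker, map_pow, hψx, ← hord]
    exact pow_orderOf_eq_one _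
  have hef : e ^ f = 1 := by
    rw [hex, ← pow_mul, mul_comm, pow_mul]
    have := pow_card_eq_one' (G := ↥(QuotientGroup.lift N Ψ hNP).ker) (x := ⟨x ^ f, hxf⟩)
    rw [hK8] at this
    exact congrArg Subtype.val this
  have hdvd : orderOf e ∣ orderOf c₈ := by
    rw [hoc]
    exact orderOf_dvd_of_pow_eq_one hef
  obtain ⟨s, hs⟩ : ∃ s : C →* A ⧸ N, s c₈ = e :=
    ⟨monoidHomOfForallMemZpowers hgen hdvd, monoidHomOfForallMemZpowers_apply_gen hgen hdvd⟩
  have hψe : (QuotientGroup.lift N Ψ hNP) e = c₈ := by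
    rw [hex, map_pow, hψx, hc₈]
  have hsec : ∀ c, (QuotientGroup.lift N Ψ hNP) (s c) = c := by
    have h1 : (QuotientGroup.lift N Ψ hNP).comp s = MonoidHom.id C := by
      rw [MonoidHom.eq_iff_eq_on_generator hgen]
      show (QuotientGroup.lift N Ψ hNP) (s c₈) = c₈
      rw [hs, hψe]
    intro c
    exact DFunLike.congr_fun h1 c
  have hcen : ∀ k ∈ (QuotientGroup.lift N Ψ hNP).ker, ∀ c : C, s c * k = k * s c := by
    intro k hk c
    obtain ⟨j, rfl⟩ := Subgroup.mem_zpowers_iff.mp (hgen c)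
    rw [map_zpow, hs]
    exact ((hecomm k hk).zpow_left j).eq
  obtain ⟨E⟩ := nonempty_prod_of_section (QuotientGroup.lift N Ψ hNP) s hsec hcen
  -- the kernel is `D`
  obtain ⟨ρ, hρ⟩ : ∃ ρ : ↥Ψ.ker →* ↥(QuotientGroup.lift N Ψ hNP).ker,
      ∀ a, (ρ a : A ⧸ N) = QuotientGroup.mk (a : A) :=
    ⟨MonoidHom.mk' (fun a => ⟨QuotientGroup.mk (a : A), a.2⟩) (fun a b => rfl), fun a => rfl⟩
  have hρs : Function.Surjective ρ := by
    intro y
    obtain ⟨a, ha, hya⟩ := mem_ker_lift N Ψ hNP y.1 y.2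
    exact ⟨⟨a, ha⟩, Subtype.ext (by rw [hρ, hya])⟩
  have hρk : ρ.ker = N.subgroupOf Ψ.ker := by
    ext a
    rw [MonoidHom.mem_ker, Subgroup.mem_subgroupOf, ← QuotientGroup.eq_one_iff, ← hρ]
    exact ⟨fun h => congrArg Subtype.val h, fun h => Subtype.ext h⟩
  have eK : ↥(QuotientGroup.lift N Ψ hNP).ker ≃* D :=
    (QuotientGroup.quotientKerEquivOfSurjective ρ hρs).symm.trans
      ((QuotientGroup.quotientMulEquivOfEq (hρk.trans hχk.symm)).trans
        (QuotientGroup.quotientKerEquivOfSurjective χ hχs))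
  obtain ⟨eC⟩ := nonempty_cyc_equiv hC f hcard
  exact ⟨E.trans (MulEquiv.prodCongr eK eC)⟩

end Grp

end Cfsg.Agent.H49
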