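import Mathlib

set_option autoImplicit false

/-! Helper lemmas (helper49): the determinant of a similarity `M` of a non-degenerate form in
even dimension `2k` is `ν ^ k` as soon as `M² - ν` is invertible (Cayley's argument over a field
containing a square root of the multiplier `ν`). -/

namespace Cfsg.Agent.H49

open Matrix

theorem det_of_sim_cayley {n : Type*} [Fintype n] [DecidableEq n] {F : Type*} [Field F]
    (G M : Matrix n n F) (ν : F) (hG : G.det ≠ 0) (hM : Mᵀ * G * M = ν • G) {k : ℕ}
    (hk : Fintype.card n = 2 * k) (hdet : (M * M - ν • (1 : Matrix n n F)).det ≠ 0) :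
    M.det = ν ^ k := by
  obtain ⟨t, ht⟩ := IsAlgClosed.exists_pow_nat_eq
    (algebraMap F (AlgebraicClosure F) ν) (n := 2) (by norm_num)
  obtain ⟨φ, hφ⟩ : ∃ φ : F →+* AlgebraicClosure F, φ = algebraMap F (AlgebraicClosure F) :=
    ⟨_, rfl⟩
  rw [← hφ] at ht
  obtain ⟨M', hM'def⟩ : ∃ M' : Matrix n n (AlgebraicClosure F), M' = φ.mapMatrix M := ⟨_, rfl⟩
  obtain ⟨G', hG'def⟩ : ∃ G' : Matrix n n (AlgebraicClosure F), G' = φ.mapMatrix G := ⟨_, rfl⟩
  have hG' : G'.det ≠ 0 := by
    rw [hG'def, ← RingHom.map_det]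
    exact (map_ne_zero φ).mpr hG
  have hsm : ∀ (c : F) (X : Matrix n n F), φ.mapMatrix (c • X) = φ c • φ.mapMatrix X := by
    intro c X
    ext i j
    simp
  have hM' : M'ᵀ * G' * M' = φ ν • G' := by
    have e := congrArg φ.mapMatrix hM
    rw [map_mul, map_mul, hsm] at e
    rw [hM'def, hG'def, ← e]
    rfl
  have hfac : (M' - t • (1 : Matrix n n (AlgebraicClosure F))) * (M' + t • 1)
      = φ.mapMatrix (M * M - ν • (1 : Matrix n n F)) := by
    rw [map_sub, map_mul, hsm, map_one, ← hM'def, ← ht]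
    simp only [mul_add, sub_mul, Matrix.mul_smul, Matrix.smul_mul, Matrix.mul_one,
      Matrix.one_mul, smul_smul]
    rw [pow_two]
    abel
  have hd1 : (M' - t • (1 : Matrix n n (AlgebraicClosure F))).det ≠ 0 := by
    intro h0
    have e := congrArg Matrix.det hfac
    rw [Matrix.det_mul, h0, zero_mul, ← RingHom.map_det] at e
    exact hdet ((map_eq_zero φ).mp e.symm)
  have key : M'ᵀ * G' * (M' - t • (1 : Matrix n n (AlgebraicClosure F)))
      = (-t) • ((M' - t • (1 : Matrix n n (AlgebraicClosure F)))ᵀ * G') := by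
    rw [mul_sub, hM', Matrix.transpose_sub, Matrix.transpose_smul, Matrix.transpose_one, sub_mul,
      Matrix.mul_smul, Matrix.mul_one, Matrix.smul_mul, Matrix.one_mul, smul_sub, smul_smul,
      ← ht]
    rw [show -t * t = -(t ^ 2) by ring, neg_smul, neg_smul, sub_neg_eq_add]
    abel
  have hdet2 := congrArg Matrix.det key
  rw [Matrix.det_mul, Matrix.det_mul, Matrix.det_transpose, Matrix.det_smul, Matrix.det_mul,
    Matrix.det_transpose, hk] at hdet2
  have h3 : M'.det = (φ ν) ^ k := by
    apply mul_right_cancel₀ hG'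
    apply mul_right_cancel₀ hd1
    have e1 : (-t) ^ (2 * k) = (φ ν) ^ k := by
      rw [pow_mul, neg_pow_two, ht]
    rw [hdet2, e1]
    ring
  rw [hM'def, ← RingHom.map_det, ← map_pow] at h3
  exact φ.injective h3

end Cfsg.Agent.H49
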