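import Mathlib

set_option autoImplicit false

namespace Cfsg.Agent.H49

open Module

universe u v

/-- Over a finite field of characteristic two, a non-degenerate symmetric bilinear form that is not
alternating has an orthonormal basis. -/
theorem exists_orthonormal_basis_char_two {F : Type v} [Field F] [Finite F] [CharP F 2] (n : ℕ) :
    ∀ {V : Type u} [AddCommGroup V] [Module F V] [FiniteDimensional F V]
      (B : LinearMap.BilinForm F V), Module.finrank F V = n → B.IsSymm → B.Nondegenerate →
      (n ≠ 0 → ∃ v : V, B v v ≠ 0) →
      ∃ b : Module.Basis (Fin n) F V, ∀ i j, B (b i) (b j) = if i = j then 1 else 0 := by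
  induction n with
  | zero =>
    intro V _ _ _ B hV _ _ _
    exact ⟨basisOfFinrankZero hV, fun i => i.elim0⟩
  | succ n ih =>
    intro V _ _ _ B hV hS hB hna
    have hsymm : ∀ a b : V, B a b = B b a := fun a b => (hS.eq b a).symm
    have hchar : ringChar F = 2 := ringChar.eq F 2
    -- Step A: a vector of norm one
    obtain ⟨v0, hv0⟩ := hna (Nat.succ_ne_zero n)
    obtain ⟨s, hs⟩ := FiniteField.isSquare_of_char_two hchar (B v0 v0)
    have hs0 : s ≠ 0 := by
      rintro rfl
      simp at hs
      exact hv0 hs
    have hx0 : B (s⁻¹ • v0) (s⁻¹ • v0) = 1 := by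
      simp only [map_smul, LinearMap.smul_apply, smul_eq_mul]
      rw [hs]
      field_simp
    -- Step B: make the orthogonal complement non-alternating
    have stepB : ∃ x : V, B x x = 1 ∧
        (n ≠ 0 → ∃ w ∈ B.orthogonal (F ∙ x), B w w ≠ 0) := by
      set x := s⁻¹ • v0 with hx
      have hx1 : B x x ≠ 0 := by rw [hx0]; exact one_ne_zero
      by_cases halt : ∃ w ∈ B.orthogonal (F ∙ x), B w w ≠ 0
      · exact ⟨x, hx0, fun _ => halt⟩
      · push Not at halt
        by_cases hn : n = 0
        · exact ⟨x, hx0, fun h => absurd hn h⟩
        · set W := B.orthogonal (F ∙ x) with hW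
          have hWnd : (B.restrict W).Nondegenerate :=
            B.restrict_nondegenerate_orthogonal_spanSingleton hB hS.isRefl hx1
          have hWrank : Module.finrank F W = n := by
            rw [hW, LinearMap.BilinForm.finrank_orthogonal hB, hV,
              finrank_span_singleton (fun h => hx1 (by rw [h]; simp))]
            rfl
          have hpos : 0 < Module.finrank F W := by rw [hWrank]; exact Nat.pos_of_ne_zero hn
          obtain ⟨w, hw⟩ := Module.finrank_pos_iff_exists_ne_zero.mp hpos
          have hex : ∃ w' : W, B.restrict W w w' ≠ 0 := by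
            by_contra hcon
            push Not at hcon
            exact hw (hWnd.1 w hcon)
          obtain ⟨w', hw'⟩ := hex
          have hw'' : B (w : V) (w' : V) ≠ 0 := hw'
          set w2 : V := (B (w : V) (w' : V))⁻¹ • (w' : V) with hw2
          have hw2mem : w2 ∈ W := W.smul_mem _ w'.2
          have hww2 : B (w : V) w2 = 1 := by
            rw [hw2, map_smul, smul_eq_mul, inv_mul_cancel₀ hw'']
          have hxw : ∀ y ∈ W, B x y = 0 := by
            intro y hy
            exact (LinearMap.BilinForm.mem_orthogonal_iff.mp hy) x (Submodule.mem_span_singleton_self x)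
          have h11 : (1 : F) + 1 = 0 := CharTwo.add_self_eq_zero 1
          refine ⟨x + (w : V), ?_, fun _ => ⟨x + w2, ?_, ?_⟩⟩
          · simp only [map_add, LinearMap.add_apply]
            rw [hx0, hxw w w.2, hsymm (w : V) x, hxw w w.2, halt w w.2]
            simp
          · rw [LinearMap.BilinForm.mem_orthogonal_iff]
            intro y hy
            obtain ⟨c, rfl⟩ := Submodule.mem_span_singleton.mp hy
            show B (c • (x + (w : V))) (x + w2) = 0
            simp only [map_add, map_smul, LinearMap.add_apply, LinearMap.smul_apply, smul_eq_mul]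
            rw [hx0, hxw w2 hw2mem, hsymm (w : V) x, hxw w w.2, hww2]
            linear_combination c * h11
          · simp only [map_add, LinearMap.add_apply]
            rw [hx0, hxw w2 hw2mem, hsymm w2 x, hxw w2 hw2mem, halt w2 hw2mem]
            simp
    -- Step C: induction
    obtain ⟨x, hx0, hxalt⟩ := stepB
    have hx1 : B x x ≠ 0 := by rw [hx0]; exact one_ne_zero
    set W := B.orthogonal (F ∙ x) with hW
    have hWnd : (B.restrict W).Nondegenerate :=
      B.restrict_nondegenerate_orthogonal_spanSingleton hB hS.isRefl hx1
    have hWrank : Module.finrank F W = n := by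
      rw [hW, LinearMap.BilinForm.finrank_orthogonal hB, hV,
        finrank_span_singleton (fun h => hx1 (by rw [h]; simp))]
      rfl
    have hWsymm : (B.restrict W).IsSymm := ⟨fun a b => hS.eq a b⟩
    obtain ⟨v', hv'⟩ := ih (B.restrict W) hWrank hWsymm hWnd (by
      intro hn
      obtain ⟨w, hw, hww⟩ := hxalt hn
      exact ⟨⟨w, hw⟩, hww⟩)
    have hxw : ∀ y ∈ W, B x y = 0 := by
      intro y hy
      exact (LinearMap.BilinForm.mem_orthogonal_iff.mp hy) x (Submodule.mem_span_singleton_self x)
    let b := Basis.mkFinCons x v'
      (by
        rintro c y hy hc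
        rw [add_eq_zero_iff_neg_eq] at hc
        rw [← hc, Submodule.neg_mem_iff] at hy
        have := (LinearMap.BilinForm.isCompl_span_singleton_orthogonal hx1).disjoint
        rw [Submodule.disjoint_def] at this
        have := this (c • x) (Submodule.smul_mem _ _ <| Submodule.mem_span_singleton_self _) hy
        exact (smul_eq_zero.1 this).resolve_right fun h => hx1 <| h.symm ▸ map_zero _)
      (by
        intro y
        refine ⟨-B x y / B x x, ?_⟩
        rw [hW, LinearMap.BilinForm.mem_orthogonal_iff]
        intro z hz
        obtain ⟨c, rfl⟩ := Submodule.mem_span_singleton.1 hz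
        show B (c • x) (y + (-B x y / B x x) • x) = 0
        rw [map_smul, LinearMap.smul_apply, map_add, map_smul, smul_eq_mul, smul_eq_mul,
          div_mul_cancel₀ _ hx1, add_neg_cancel, mul_zero])
    refine ⟨b, ?_⟩
    have hb : (b : Fin (n + 1) → V) = Fin.cons x ((↑) ∘ v') := Basis.coe_mkFinCons _ _ _ _
    intro i j
    rw [hb]
    refine Fin.cases ?_ (fun i => ?_) i <;> refine Fin.cases ?_ (fun j => ?_) j
    · simp [hx0]
    · simp only [Fin.cons_zero, Fin.cons_succ, Function.comp_apply]
      rw [hxw _ (v' j).2]
      simp [Fin.succ_ne_zero, eq_comm]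
    · simp only [Fin.cons_zero, Fin.cons_succ, Function.comp_apply]
      rw [hsymm, hxw _ (v' i).2]
      simp [Fin.succ_ne_zero]
    · simp only [Fin.cons_succ, Function.comp_apply]
      have := hv' i j
      simp only [Fin.succ_inj]
      exact this

end Cfsg.Agent.H49
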