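import Mathlib

set_option autoImplicit false
set_option linter.unusedSectionVars false

/-! Helper lemma (helper49): the determinant of a matrix with scalar square that is conjugate
to its negative. -/

namespace Cfsg.Agent.H49

open Polynomial Matrix

theorem det_of_sq_scalar_conj_neg {n : Type} [Fintype n] [DecidableEq n] {F : Type*} [Field F]
    (h2 : (2 : F) ≠ 0) (M : Matrix n n F) (l : F) (hM : M * M = l • (1 : Matrix n n F))
    (Y : (Matrix n n F)ˣ) (hY : Y.val * M * Y.val⁻¹ = -M) {k : ℕ}
    (hk : Fintype.card n = 2 * k) : M.det = (-l) ^ k := by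
  have hp : (-M).charpoly = M.charpoly := by rw [← hY, Matrix.charpoly_units_conj]
  obtain ⟨A, hA⟩ : ∃ A : Matrix n n F[X], A = (C : F →+* F[X]).mapMatrix M := ⟨_, rfl⟩
  have hS : Matrix.scalar n (X : F[X]) = (X : F[X]) • (1 : Matrix n n F[X]) := by
    rw [Matrix.smul_one_eq_diagonal]
    rfl
  have hAA : A * A = (C l : F[X]) • (1 : Matrix n n F[X]) := by
    rw [hA, ← map_mul, hM]
    ext i j
    simp [Matrix.one_apply]
    split_ifs <;> simp
  have hc1 : charmatrix M = (X : F[X]) • (1 : Matrix n n F[X]) - A := by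
    rw [hA, ← hS]; rfl
  have hc2 : charmatrix (-M) = (X : F[X]) • (1 : Matrix n n F[X]) + A := by
    have : charmatrix (-M) = Matrix.scalar n (X : F[X]) - (C : F →+* F[X]).mapMatrix (-M) := rfl
    rw [this, hS, map_neg, sub_neg_eq_add, hA]
  have hprod : M.charpoly * (-M).charpoly = (X ^ 2 - C l) ^ (Fintype.card n) := by
    unfold Matrix.charpoly
    rw [← Matrix.det_mul, hc1, hc2]
    have : ((X : F[X]) • (1 : Matrix n n F[X]) - A) * ((X : F[X]) • (1 : Matrix n n F[X]) + A)
        = (X ^ 2 - C l : F[X]) • (1 : Matrix n n F[X]) := by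
      rw [sub_mul, mul_add, mul_add, hAA, Matrix.smul_mul, Matrix.smul_mul, Matrix.one_mul,
        Matrix.one_mul, Matrix.mul_smul, Matrix.mul_one, sub_smul, smul_smul, ← sq]
      abel
    rw [this, Matrix.det_smul, Matrix.det_one, mul_one]
  rw [hp, ← sq, hk, pow_mul, pow_right_comm] at hprod
  have hq : ((X ^ 2 - C l : F[X]) ^ k).Monic := (monic_X_pow_sub_C l (by norm_num)).pow k
  rcases sq_eq_sq_iff_eq_or_eq_neg.mp hprod with h | h
  · rw [Matrix.det_eq_sign_charpoly_coeff, h, hk, coeff_zero_eq_eval_zero, eval_pow, eval_sub,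
      eval_pow, eval_X, eval_C, pow_mul]
    simp
  · exfalso
    have h1 := (Matrix.charpoly_monic M).leadingCoeff
    rw [h, leadingCoeff_neg, hq.leadingCoeff] at h1
    apply h2
    linear_combination (-1 : F) * h1

end Cfsg.Agent.H49
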