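import Mathlib
import Cfsg.Agent.H49.SimClass
import Cfsg.Agent.H49.SimGO
import Cfsg.Agent.H49.Refl
import Cfsg.Agent.H49.Plus
import Cfsg.Agent.H49.SemiAut

set_option autoImplicit false
set_option linter.unusedSectionVars false
set_option linter.unusedSimpArgs false
set_option linter.unusedVariables false

/-! Helper lemmas (helper49): the two classes of maximal totally singular subspaces of a
hyperbolic quadratic space in arbitrary characteristic: class-preserving similarities form a
subgroup, reflections interchange the classes, and field automorphisms preserve them. -/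

namespace Cfsg.Agent.H49

open Module Matrix

section
variable {ι : Type} [Fintype ι] [DecidableEq ι] {F : Type*} [Field F]

theorem map_mul_sim (Qf : (ι → F) → F) (g h : ↥(Cfsg.Geo.quadSimilarityGroup Qf))
    (E : Submodule F (ι → F)) :
    E.map (Matrix.mulVecLin (((g * h : ↥(Cfsg.Geo.quadSimilarityGroup Qf)) :
        Matrix.GeneralLinearGroup ι F) : Matrix ι ι F))
      = (E.map (Matrix.mulVecLin ((h : Matrix.GeneralLinearGroup ι F) : Matrix ι ι F))).map
          (Matrix.mulVecLin ((g : Matrix.GeneralLinearGroup ι F) : Matrix ι ι F)) := by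
  rw [← Submodule.map_comp, ← Matrix.mulVecLin_mul]
  rfl

/-- Class preservation is multiplicative. -/
theorem pres_mul_iff (Q : QuadraticForm F (ι → F))
    (hQ : (QuadraticMap.polarBilin Q).Nondegenerate) {m : ℕ}
    (hV : finrank F (ι → F) = 2 * m) (E : Submodule F (ι → F)) (hE : IsTS Q E)
    (dE : finrank F E = m) (g h : ↥(Cfsg.Geo.quadSimilarityGroup (⇑Q))) :
    Cfsg.PreservesSingularClasses (⇑Q) (((g * h : ↥(Cfsg.Geo.quadSimilarityGroup (⇑Q))) :
        Matrix.GeneralLinearGroup ι F) : Matrix ι ι F)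
      ↔ (Cfsg.PreservesSingularClasses (⇑Q) ((g : Matrix.GeneralLinearGroup ι F) : Matrix ι ι F)
        ↔ Cfsg.PreservesSingularClasses (⇑Q)
          ((h : Matrix.GeneralLinearGroup ι F) : Matrix ι ι F)) := by
  rw [preserves_iff_even Q hQ hV E hE dE, preserves_iff_even Q hQ hV E hE dE,
    preserves_iff_even Q hQ hV E hE dE, map_mul_sim]
  have hgE := hE.map_sim g
  have hhE := hE.map_sim h
  have hghE := hhE.map_sim g
  have dgE := (finrank_map_sim (⇑Q) g E).trans dE
  have dhE := (finrank_map_sim (⇑Q) h E).trans dE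
  have dghE := (finrank_map_sim (⇑Q) g _).trans dhE
  have h1 := ts_even_trans hQ hV hE hgE hghE dE dgE dghE
  have h3 : finrank F (E.map (Matrix.mulVecLin ((g : Matrix.GeneralLinearGroup ι F) :
        Matrix ι ι F))
      ⊓ (E.map (Matrix.mulVecLin ((h : Matrix.GeneralLinearGroup ι F) : Matrix ι ι F))).map
        (Matrix.mulVecLin ((g : Matrix.GeneralLinearGroup ι F) : Matrix ι ι F))
        : Submodule F (ι → F))
      = finrank F (E ⊓ E.map (Matrix.mulVecLin ((h : Matrix.GeneralLinearGroup ι F) :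
        Matrix ι ι F)) : Submodule F (ι → F)) := by
    rw [← Submodule.map_inf _ (sim_mulVecLin_injective (⇑Q) g), finrank_map_sim]
  rw [h3] at h1
  exact h1

theorem pres_one (Q : QuadraticForm F (ι → F))
    (hQ : (QuadraticMap.polarBilin Q).Nondegenerate) {m : ℕ}
    (hV : finrank F (ι → F) = 2 * m) (E : Submodule F (ι → F)) (hE : IsTS Q E)
    (dE : finrank F E = m) :
    Cfsg.PreservesSingularClasses (⇑Q) (((1 : ↥(Cfsg.Geo.quadSimilarityGroup (⇑Q))) :
        Matrix.GeneralLinearGroup ι F) : Matrix ι ι F) := by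
  rw [preserves_iff_even Q hQ hV E hE dE]
  have : E.map (Matrix.mulVecLin (((1 : ↥(Cfsg.Geo.quadSimilarityGroup (⇑Q))) :
      Matrix.GeneralLinearGroup ι F) : Matrix ι ι F)) = E := by
    have e : (((1 : ↥(Cfsg.Geo.quadSimilarityGroup (⇑Q))) :
      Matrix.GeneralLinearGroup ι F) : Matrix ι ι F) = 1 := rfl
    rw [e, Matrix.mulVecLin_one, Submodule.map_id]
  rw [this, inf_idem, dE, Nat.sub_self]
  exact ⟨0, rfl⟩

theorem pres_inv_iff (Q : QuadraticForm F (ι → F))
    (hQ : (QuadraticMap.polarBilin Q).Nondegenerate) {m : ℕ}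
    (hV : finrank F (ι → F) = 2 * m) (E : Submodule F (ι → F)) (hE : IsTS Q E)
    (dE : finrank F E = m) (g : ↥(Cfsg.Geo.quadSimilarityGroup (⇑Q))) :
    Cfsg.PreservesSingularClasses (⇑Q) (((g⁻¹ : ↥(Cfsg.Geo.quadSimilarityGroup (⇑Q))) :
        Matrix.GeneralLinearGroup ι F) : Matrix ι ι F)
      ↔ Cfsg.PreservesSingularClasses (⇑Q)
        ((g : Matrix.GeneralLinearGroup ι F) : Matrix ι ι F) := by
  have h := pres_mul_iff Q hQ hV E hE dE g g⁻¹
  rw [mul_inv_cancel] at h
  have h1 := pres_one Q hQ hV E hE dE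
  tauto

theorem pres_scalSim (Q : QuadraticForm F (ι → F))
    (hQ : (QuadraticMap.polarBilin Q).Nondegenerate) {m : ℕ}
    (hV : finrank F (ι → F) = 2 * m) (E : Submodule F (ι → F)) (hE : IsTS Q E)
    (dE : finrank F E = m) (l : Fˣ) :
    Cfsg.PreservesSingularClasses (⇑Q) (((scalSim Q l : ↥(Cfsg.Geo.quadSimilarityGroup (⇑Q))) :
        Matrix.GeneralLinearGroup ι F) : Matrix ι ι F) := by
  rw [preserves_iff_even Q hQ hV E hE dE]
  have : E.map (Matrix.mulVecLin (((scalSim Q l : ↥(Cfsg.Geo.quadSimilarityGroup (⇑Q))) :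
      Matrix.GeneralLinearGroup ι F) : Matrix ι ι F)) = E := by
    ext x
    rw [Submodule.mem_map]
    constructor
    · rintro ⟨u, hu, rfl⟩
      rw [Matrix.mulVecLin_apply, scalSim_coe, scalGL_mulVec]
      exact E.smul_mem _ hu
    · intro hx
      refine ⟨(l : F)⁻¹ • x, E.smul_mem _ hx, ?_⟩
      rw [Matrix.mulVecLin_apply, scalSim_coe, scalGL_mulVec, smul_smul,
        mul_inv_cancel₀ l.ne_zero, one_smul]
  rw [this, inf_idem, dE, Nat.sub_self]
  exact ⟨0, rfl⟩

/-- Class preservation only depends on the similarity up to scalars. -/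
theorem pres_scal_mul_iff (Q : QuadraticForm F (ι → F))
    (hQ : (QuadraticMap.polarBilin Q).Nondegenerate) {m : ℕ}
    (hV : finrank F (ι → F) = 2 * m) (E : Submodule F (ι → F)) (hE : IsTS Q E)
    (dE : finrank F E = m) (l : Fˣ) (g : ↥(Cfsg.Geo.quadSimilarityGroup (⇑Q))) :
    Cfsg.PreservesSingularClasses (⇑Q)
        (((scalSim Q l * g : ↥(Cfsg.Geo.quadSimilarityGroup (⇑Q))) :
        Matrix.GeneralLinearGroup ι F) : Matrix ι ι F)
      ↔ Cfsg.PreservesSingularClasses (⇑Q)
        ((g : Matrix.GeneralLinearGroup ι F) : Matrix ι ι F) := by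
  have h := pres_mul_iff Q hQ hV E hE dE (scalSim Q l) g
  have h1 := pres_scalSim Q hQ hV E hE dE l
  tauto

/-- A reflection interchanges the two classes. -/
theorem not_pres_refl (Q : QuadraticForm F (ι → F))
    (hQ : (QuadraticMap.polarBilin Q).Nondegenerate) {m : ℕ}
    (hV : finrank F (ι → F) = 2 * m) (E : Submodule F (ι → F)) (hE : IsTS Q E)
    (dE : finrank F E = m) (v : ι → F) (hv : Q v ≠ 0) :
    ¬ Cfsg.PreservesSingularClasses (⇑Q)
      (((inclO Q (reflG Q v) : ↥(Cfsg.Geo.quadSimilarityGroup (⇑Q))) :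
        Matrix.GeneralLinearGroup ι F) : Matrix ι ι F) := by
  rw [preserves_iff_even Q hQ hV E hE dE]
  have hker : E ⊓ E.map (Matrix.mulVecLin
        (((inclO Q (reflG Q v) : ↥(Cfsg.Geo.quadSimilarityGroup (⇑Q))) :
        Matrix.GeneralLinearGroup ι F) : Matrix ι ι F))
      = E ⊓ LinearMap.ker (QuadraticMap.polarBilin Q v) := by
    ext x
    rw [Submodule.mem_inf, Submodule.mem_inf, Submodule.mem_map, LinearMap.mem_ker]
    constructor
    · rintro ⟨hxE, u, hu, hux⟩
      refine ⟨hxE, ?_⟩
      have hux' : u - ((Q v)⁻¹ * QuadraticMap.polar (⇑Q) v u) • v = x := by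
        rw [← reflectionMatrix_mulVec]
        exact hux
      have hc : (Q v)⁻¹ * QuadraticMap.polar (⇑Q) v u = 0 := by
        by_contra hc
        have hvE : v ∈ E := by
          have e : v = ((Q v)⁻¹ * QuadraticMap.polar (⇑Q) v u)⁻¹ • (u - x) := by
            rw [← hux', sub_sub_cancel, smul_smul, inv_mul_cancel₀ hc, one_smul]
          rw [e]
          exact E.smul_mem _ (E.sub_mem hu hxE)
        exact hv (hE v hvE)
      rw [hc, zero_smul, sub_zero] at hux'
      rw [← hux']
      exact (mul_eq_zero.mp hc).resolve_left (inv_ne_zero hv)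
    · rintro ⟨hxE, hx⟩
      refine ⟨hxE, x, hxE, ?_⟩
      have hx' : QuadraticMap.polar (⇑Q) v x = 0 := hx
      show Cfsg.reflectionMatrix (⇑Q) v *ᵥ x = x
      rw [reflectionMatrix_mulVec, hx', mul_zero, zero_smul, sub_zero]
  rw [hker]
  have h1 := finrank_inf_ker_polar (Q := Q) hV E dE v
  have h2 : finrank F (E ⊓ LinearMap.ker (QuadraticMap.polarBilin Q v) : Submodule F (ι → F))
      ≤ m := by
    rw [← dE]
    exact Submodule.finrank_mono inf_le_left
  have h3 : finrank F (E ⊓ LinearMap.ker (QuadraticMap.polarBilin Q v) : Submodule F (ι → F))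
      ≠ m := by
    intro h
    have h4 : E ⊓ LinearMap.ker (QuadraticMap.polarBilin Q v) = E :=
      Submodule.eq_of_le_of_finrank_eq inf_le_left (by rw [h, dE])
    have h5 : v ∈ E := by
      apply hE.mem_of_orthogonal hQ hV dE
      intro u hu
      have h6 : u ∈ E ⊓ LinearMap.ker (QuadraticMap.polarBilin Q v) := by rw [h4]; exact hu
      have h7 : QuadraticMap.polar (⇑Q) v u = 0 := LinearMap.mem_ker.mp h6.2
      rw [QuadraticMap.polar_comm]
      exact h7
    exact hv (hE v h5)
  rw [Nat.even_iff]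
  omega

end

section
variable {ι : Type} [Fintype ι] [DecidableEq ι] {F : Type*} [Field F]

/-- The image of a subspace under the coordinatewise action of a field automorphism. -/
def sigSub (σ : RingAut F) (W : Submodule F (ι → F)) : Submodule F (ι → F) where
  carrier := {w | (fun i => σ.symm (w i)) ∈ W}
  add_mem' := by
    intro a b ha hb
    have e : (fun i => σ.symm ((a + b) i)) = (fun i => σ.symm (a i)) + (fun i => σ.symm (b i)) := by
      funext i
      simp
    show (fun i => σ.symm ((a + b) i)) ∈ W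
    rw [e]
    exact W.add_mem ha hb
  zero_mem' := by
    show (fun i => σ.symm ((0 : ι → F) i)) ∈ W
    have e : (fun i => σ.symm ((0 : ι → F) i)) = 0 := by
      funext i
      simp
    rw [e]
    exact W.zero_mem
  smul_mem' := by
    intro c a ha
    show (fun i => σ.symm ((c • a) i)) ∈ W
    have e : (fun i => σ.symm ((c • a) i)) = σ.symm c • (fun i => σ.symm (a i)) := by
      funext i
      simp
    rw [e]
    exact W.smul_mem _ ha

theorem mem_sigSub (σ : RingAut F) (W : Submodule F (ι → F)) (w : ι → F) :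
    w ∈ sigSub σ W ↔ (fun i => σ.symm (w i)) ∈ W := Iff.rfl

theorem sigma_mem_sigSub (σ : RingAut F) (W : Submodule F (ι → F)) {u : ι → F} (hu : u ∈ W) :
    (fun i => σ (u i)) ∈ sigSub σ W := by
  rw [mem_sigSub]
  have e : (fun i => σ.symm (σ (u i))) = u := by
    funext i
    simp
  rw [e]
  exact hu

theorem sigSub_inf (σ : RingAut F) (W W' : Submodule F (ι → F)) :
    sigSub σ (W ⊓ W') = sigSub σ W ⊓ sigSub σ W' := by
  ext w
  rw [mem_sigSub, Submodule.mem_inf, Submodule.mem_inf, mem_sigSub, mem_sigSub]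

theorem finrank_sigSub [Fintype F] (σ : RingAut F) (W : Submodule F (ι → F)) :
    finrank F (sigSub σ W) = finrank F W := by
  classical
  have : Fintype ↥W := Fintype.ofFinite _
  have : Fintype ↥(sigSub σ W) := Fintype.ofFinite _
  have h1 := Module.card_eq_pow_finrank (K := F) (V := ↥W)
  have h2 := Module.card_eq_pow_finrank (K := F) (V := ↥(sigSub σ W))
  have e : ↥W ≃ ↥(sigSub σ W) :=
    { toFun := fun u => ⟨fun i => σ (u.1 i), sigma_mem_sigSub σ W u.2⟩
      invFun := fun w => ⟨fun i => σ.symm (w.1 i), w.2⟩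
      left_inv := by
        intro u
        apply Subtype.ext
        funext i
        simp
      right_inv := by
        intro w
        apply Subtype.ext
        funext i
        simp }
  have h3 := Fintype.card_congr e
  rw [h1, h2] at h3
  exact (Nat.pow_right_injective Fintype.one_lt_card h3).symm

theorem sigSub_map (σ : RingAut F) (W : Submodule F (ι → F)) (M : Matrix ι ι F) :
    sigSub σ (W.map (Matrix.mulVecLin M)) = (sigSub σ W).map (Matrix.mulVecLin (M.map σ)) := by
  ext w
  rw [mem_sigSub, Submodule.mem_map, Submodule.mem_map]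
  constructor
  · rintro ⟨u, hu, huw⟩
    refine ⟨fun i => σ (u i), sigma_mem_sigSub σ W hu, ?_⟩
    rw [Matrix.mulVecLin_apply] at huw ⊢
    rw [sigma_mulVec, huw]
    funext i
    simp
  · rintro ⟨u', hu', rfl⟩
    refine ⟨fun i => σ.symm (u' i), hu', ?_⟩
    rw [Matrix.mulVecLin_apply, Matrix.mulVecLin_apply]
    have e : M = (M.map σ).map σ.symm := by
      ext i k
      simp
    conv_lhs => rw [e]
    exact sigma_mulVec σ.symm (M.map σ) u'

theorem isTS_sigSub (Q : QuadraticForm F (ι → F)) (σ : RingAut F)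
    (hσQ : ∀ v : ι → F, Q (fun i => σ (v i)) = σ (Q v)) {W : Submodule F (ι → F)}
    (hW : IsTS Q W) : IsTS Q (sigSub σ W) := by
  intro w hw
  rw [mem_sigSub] at hw
  have e : w = fun i => σ ((fun i => σ.symm (w i)) i) := by
    funext i
    simp
  rw [e, hσQ, hW _ hw, map_zero]

end

section
variable {F : Type*} [Field F] (m : ℕ)

theorem sigSub_U0 (σ : RingAut F) : sigSub σ (U0 m F) = U0 m F := by
  ext w
  rw [mem_sigSub, mem_U0, mem_U0]
  constructor
  · intro h i
    have := h i
    simpa using this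
  · intro h i
    rw [h i, map_zero]

theorem QP_sigma (σ : F ≃+* F) (v : Fin m ⊕ Fin m → F) :
    QP m F (fun i => σ (v i)) = σ (QP m F v) := by
  rw [QP_apply, QP_apply, map_sum]
  apply Finset.sum_congr rfl
  intro i _
  rw [map_mul]

/-- The coordinatewise action of a field automorphism preserves the two classes. -/
theorem sigma_same_class [Fintype F] (σ : RingAut F) (E' : Submodule F (Fin m ⊕ Fin m → F))
    (hE' : IsTS (QP m F) E') (dE' : finrank F E' = m) :
    Even (m - finrank F (E' ⊓ sigSub σ E' : Submodule F (Fin m ⊕ Fin m → F))) := by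
  have hσE' := isTS_sigSub (QP m F) σ (QP_sigma m σ) hE'
  have dσE' := (finrank_sigSub σ E').trans dE'
  have h1 := ts_even_trans (QP_nondeg m F) (finrank_plus m F) hE' (U0_ts m F) hσE' dE'
    (finrank_U0 m F) dσE'
  have h2 : finrank F (U0 m F ⊓ sigSub σ E' : Submodule F (Fin m ⊕ Fin m → F))
      = finrank F (E' ⊓ U0 m F : Submodule F (Fin m ⊕ Fin m → F)) := by
    conv_lhs => rw [← sigSub_U0 m σ, ← sigSub_inf, finrank_sigSub, inf_comm]
  rw [h2] at h1
  tauto

/-- Applying a field automorphism to the entries does not change whether a similarity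
preserves the two classes. -/
theorem pres_map_sigma [Fintype F] (σ : RingAut F)
    (g g' : ↥(Cfsg.Geo.quadSimilarityGroup (⇑(QP m F))))
    (hg : ((g' : Matrix.GeneralLinearGroup (Fin m ⊕ Fin m) F) :
        Matrix (Fin m ⊕ Fin m) (Fin m ⊕ Fin m) F)
      = ((g : Matrix.GeneralLinearGroup (Fin m ⊕ Fin m) F) :
        Matrix (Fin m ⊕ Fin m) (Fin m ⊕ Fin m) F).map σ) :
    Cfsg.PreservesSingularClasses (⇑(QP m F))
        ((g' : Matrix.GeneralLinearGroup (Fin m ⊕ Fin m) F) :
          Matrix (Fin m ⊕ Fin m) (Fin m ⊕ Fin m) F)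
      ↔ Cfsg.PreservesSingularClasses (⇑(QP m F))
        ((g : Matrix.GeneralLinearGroup (Fin m ⊕ Fin m) F) :
          Matrix (Fin m ⊕ Fin m) (Fin m ⊕ Fin m) F) := by
  rw [preserves_iff_even (QP m F) (QP_nondeg m F) (finrank_plus m F) (U0 m F) (U0_ts m F)
      (finrank_U0 m F),
    preserves_iff_even (QP m F) (QP_nondeg m F) (finrank_plus m F) (U0 m F) (U0_ts m F)
      (finrank_U0 m F), hg]
  have h2 : finrank F (U0 m F ⊓ (U0 m F).map (Matrix.mulVecLin
        (((g : Matrix.GeneralLinearGroup (Fin m ⊕ Fin m) F) :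
          Matrix (Fin m ⊕ Fin m) (Fin m ⊕ Fin m) F).map σ))
          : Submodule F (Fin m ⊕ Fin m → F))
      = finrank F (U0 m F ⊓ (U0 m F).map (Matrix.mulVecLin
        ((g : Matrix.GeneralLinearGroup (Fin m ⊕ Fin m) F) :
          Matrix (Fin m ⊕ Fin m) (Fin m ⊕ Fin m) F)) : Submodule F (Fin m ⊕ Fin m → F)) := by
    have e : (U0 m F).map (Matrix.mulVecLin
        (((g : Matrix.GeneralLinearGroup (Fin m ⊕ Fin m) F) :
          Matrix (Fin m ⊕ Fin m) (Fin m ⊕ Fin m) F).map σ))
        = sigSub σ ((U0 m F).map (Matrix.mulVecLin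
        ((g : Matrix.GeneralLinearGroup (Fin m ⊕ Fin m) F) :
          Matrix (Fin m ⊕ Fin m) (Fin m ⊕ Fin m) F))) := by
      rw [sigSub_map, sigSub_U0]
    rw [e]
    conv_lhs => rw [← sigSub_U0 m σ, ← sigSub_inf, finrank_sigSub, sigSub_U0]
  rw [h2]

end

end Cfsg.Agent.H49
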