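import Mathlib
import Cfsg.Agent.H49.ClsPar
import Cfsg.Agent.H49.FieldDesc
import Cfsg.Agent.H49.SimpleForms
import Cfsg.Agent.H49.AutInst
import Cfsg.Agent.H49.AutOdd
import Cfsg.Agent.H49.SimQuot2

set_option autoImplicit false
set_option linter.unusedSectionVars false
set_option linter.unusedSimpArgs false
set_option linter.unusedVariables false

/-! Helper lemmas (helper49): the inner-diagonal group of the plus-type orthogonal group in
arbitrary characteristic as the image of the class-preserving similarities; it is normal in the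
automorphism group. -/

namespace Cfsg.Agent.H49

open Module Matrix

/-- The class-preserving similarities of the plus-type form. -/
def presSub (m : ℕ) (F : Type*) [Field F] :
    Subgroup ↥(Cfsg.Geo.quadSimilarityGroup (⇑(QP m F))) where
  carrier := {g | Cfsg.PreservesSingularClasses (⇑(QP m F))
    ((g : Matrix.GeneralLinearGroup (Fin m ⊕ Fin m) F) :
      Matrix (Fin m ⊕ Fin m) (Fin m ⊕ Fin m) F)}
  mul_mem' := by
    intro a b ha hb
    exact (pres_mul_iff (QP m F) (QP_nondeg m F) (finrank_plus m F) (U0 m F) (U0_ts m F)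
      (finrank_U0 m F) a b).mpr ⟨fun _ => hb, fun _ => ha⟩
  one_mem' := pres_one (QP m F) (QP_nondeg m F) (finrank_plus m F) (U0 m F) (U0_ts m F)
    (finrank_U0 m F)
  inv_mem' := by
    intro a ha
    exact (pres_inv_iff (QP m F) (QP_nondeg m F) (finrank_plus m F) (U0 m F) (U0_ts m F)
      (finrank_U0 m F) a).mpr ha

section
variable {F : Type*} [Field F] (m : ℕ)

theorem mem_presSub (g : ↥(Cfsg.Geo.quadSimilarityGroup (⇑(QP m F)))) :
    g ∈ presSub m F ↔ Cfsg.PreservesSingularClasses (⇑(QP m F))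
      ((g : Matrix.GeneralLinearGroup (Fin m ⊕ Fin m) F) :
        Matrix (Fin m ⊕ Fin m) (Fin m ⊕ Fin m) F) := Iff.rfl

theorem presSub_mul_iff (a b : ↥(Cfsg.Geo.quadSimilarityGroup (⇑(QP m F)))) :
    a * b ∈ presSub m F ↔ (a ∈ presSub m F ↔ b ∈ presSub m F) :=
  pres_mul_iff (QP m F) (QP_nondeg m F) (finrank_plus m F) (U0 m F) (U0_ts m F)
    (finrank_U0 m F) a b

theorem presSub_conj_iff (a b : ↥(Cfsg.Geo.quadSimilarityGroup (⇑(QP m F)))) :
    a * b * a⁻¹ ∈ presSub m F ↔ b ∈ presSub m F := by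
  rw [presSub_mul_iff, presSub_mul_iff, Subgroup.inv_mem_iff]
  by_cases ha : a ∈ presSub m F <;> by_cases hb : b ∈ presSub m F <;> simp only [ha, hb] <;> decide

theorem scalSim_mem_presSub (l : Fˣ) : scalSim (QP m F) l ∈ presSub m F :=
  pres_scalSim (QP m F) (QP_nondeg m F) (finrank_plus m F) (U0 m F) (U0_ts m F)
    (finrank_U0 m F) l

theorem refl_not_mem_presSub (v : Fin m ⊕ Fin m → F) (hv : QP m F v ≠ 0) :
    inclO (QP m F) (reflG (QP m F) v) ∉ presSub m F :=
  not_pres_refl (QP m F) (QP_nondeg m F) (finrank_plus m F) (U0 m F) (U0_ts m F)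
    (finrank_U0 m F) v hv

/-- `Inndiag(PΩ⁺)` is the image of the class-preserving similarities. -/
theorem inndiagPlus_eq_pres :
    Cfsg.inndiagPOmegaPlus m F = (presSub m F).map (cHom (⇑(QP m F))) := by
  unfold Cfsg.inndiagPOmegaPlus Cfsg.autSubgroupOf
  have : {β : MulAut (Cfsg.POmega F (Cfsg.quadFormPlus m F)) |
        Cfsg.IsInnerDiagonalAutPOmegaPlus m β}
      = (((presSub m F).map (cHom (⇑(QP m F))) :
          Subgroup (MulAut (Cfsg.POmega F (Cfsg.quadFormPlus m F)))) :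
            Set (MulAut (Cfsg.POmega F (Cfsg.quadFormPlus m F)))) := by
    ext β
    constructor
    · rintro ⟨g, hg, hP, hβ⟩
      exact ⟨⟨g, hg⟩, hP, ((isInduced_iff (⇑(QP m F)) ⟨g, hg⟩ β).mp hβ).symm⟩
    · rintro ⟨g, hg, rfl⟩
      exact ⟨g.1, g.2, hg, (isInduced_iff (⇑(QP m F)) g _).mpr rfl⟩
  rw [this, Subgroup.closure_eq]
  rfl

end

section
variable {F : Type*} [Field F] [Fintype F] (m : ℕ)

theorem QP_ne (hm : 3 ≤ m) : ∃ v, QP m F v ≠ 0 := by
  classical
  obtain ⟨x, hx⟩ := exists_Q_eq_of_ts3 (QP m F) (QP_nondeg m F) (hasTS3_QP m hm) 1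
  exact ⟨x, by rw [hx]; exact one_ne_zero⟩

/-- A similarity induces an inner-diagonal automorphism iff it preserves the classes. -/
theorem cHom_mem_presMap_iff (hm : 3 ≤ m) (g : ↥(Cfsg.Geo.quadSimilarityGroup (⇑(QP m F)))) :
    cHom (⇑(QP m F)) g ∈ (presSub m F).map (cHom (⇑(QP m F))) ↔ g ∈ presSub m F := by
  classical
  constructor
  · rintro ⟨g', hg', e⟩
    have h1 : cHom (⇑(QP m F)) (g'⁻¹ * g) = 1 := by
      rw [map_mul, map_inv, e, inv_mul_cancel]
    obtain ⟨l, hl⟩ := eq_scalSim_of_cHom_eq_one (QP m F) (QP_nondeg m F) (hasTS3_QP m hm)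
      (QP_ne m hm) _ h1
    have hg : g = g' * scalSim (QP m F) l := by
      rw [← hl]
      group
    rw [hg]
    exact (presSub m F).mul_mem hg' (scalSim_mem_presSub m l)
  · intro h
    exact ⟨g, h, rfl⟩

/-- The inner-diagonal group is normalised by every automorphism induced by a
semisimilarity. -/
theorem presMap_conj_of_induced (h : Matrix.GeneralLinearGroup (Fin m ⊕ Fin m) F) (τ : F ≃+* F)
    (hp : Cfsg.IsSemisimilarityPair (⇑(QP m F)) h τ)
    (g : ↥(Cfsg.Geo.quadSimilarityGroup (⇑(QP m F)))) (hg : g ∈ presSub m F) :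
    semiConjSim (QP m F) hp g ∈ presSub m F := by
  have hmem : h ∈ Cfsg.Geo.quadSimilarityGroup (⇑(QP m F)) := by
    obtain ⟨c, hc⟩ := hp
    refine ⟨c, fun w => ?_⟩
    have e : w = fun i => τ ((fun i => τ.symm (w i)) i) := by
      funext i
      simp
    have h1 := hc (fun i => τ.symm (w i))
    rw [← e] at h1
    rw [h1, ← QP_sigma m τ, ← e]
  obtain ⟨hs, hhs⟩ : ∃ hs : ↥(Cfsg.Geo.quadSimilarityGroup (⇑(QP m F))), hs = ⟨h, hmem⟩ :=
    ⟨_, rfl⟩
  obtain ⟨gτ, hgτ⟩ : ∃ gτ : ↥(Cfsg.Geo.quadSimilarityGroup (⇑(QP m F))),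
      gτ = hs⁻¹ * semiConjSim (QP m F) hp g * hs := ⟨_, rfl⟩
  have hmat : ((gτ : Matrix.GeneralLinearGroup (Fin m ⊕ Fin m) F) :
        Matrix (Fin m ⊕ Fin m) (Fin m ⊕ Fin m) F)
      = ((g : Matrix.GeneralLinearGroup (Fin m ⊕ Fin m) F) :
        Matrix (Fin m ⊕ Fin m) (Fin m ⊕ Fin m) F).map τ := by
    have e : (gτ : Matrix.GeneralLinearGroup (Fin m ⊕ Fin m) F)
        = Matrix.GeneralLinearGroup.map (τ : F →+* F) g.1 := by
      rw [hgτ, hhs]
      show h⁻¹ * (h * Matrix.GeneralLinearGroup.map (τ : F →+* F) g.1 * h⁻¹) * h = _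
      group
    rw [e]
    rfl
  have h1 : gτ ∈ presSub m F := by
    rw [mem_presSub, pres_map_sigma m τ g gτ hmat]
    exact hg
  have e2 : semiConjSim (QP m F) hp g = hs * gτ * hs⁻¹ := by
    rw [hgτ]
    group
  rw [e2, presSub_conj_iff]
  exact h1

/-- The inner-diagonal group is normal in the automorphism group. -/
theorem presMap_conj_mem (hm : 5 ≤ m)
    (α β : MulAut (Cfsg.POmega F (⇑(QP m F))))
    (hβ : β ∈ (presSub m F).map (cHom (⇑(QP m F)))) :
    α * β * α⁻¹ ∈ (presSub m F).map (cHom (⇑(QP m F))) := by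
  classical
  have hα : α ∈ Cfsg.gammaPOmega F (⇑(QP m F)) := by
    have ht : Cfsg.gammaPOmega F (⇑(QP m F)) = ⊤ := gamma_top_plus hm
    rw [ht]
    exact Subgroup.mem_top α
  have hle : Cfsg.gammaPOmega F (⇑(QP m F))
      ≤ Subgroup.normalizer (((presSub m F).map (cHom (⇑(QP m F))) :
          Subgroup (MulAut (Cfsg.POmega F (⇑(QP m F))))) :
            Set (MulAut (Cfsg.POmega F (⇑(QP m F))))) := by
    unfold Cfsg.gammaPOmega Cfsg.autSubgroupOf
    rw [Subgroup.closure_le]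
    rintro γ ⟨h, τ, hp, hi⟩
    apply Subgroup.mem_normalizer_fintype
    rintro n ⟨g, hg, rfl⟩
    rw [conj_cHom (QP m F) hp hi g]
    exact ⟨_, presMap_conj_of_induced m h τ hp g hg, rfl⟩
  have h1 := hle hα
  exact (Subgroup.mem_normalizer_iff.mp h1 β).mp hβ

end

end Cfsg.Agent.H49
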