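import Mathlib
import Cfsg.Agent.H49.PlusInn
import Cfsg.Agent.H49.InvOmega
import Cfsg.Agent.H49.SimMinusK
import Cfsg.Agent.H49.GalDesc

set_option autoImplicit false
set_option linter.unusedSectionVars false
set_option linter.unusedSimpArgs false
set_option linter.unusedVariables false

/-! Helper lemmas (helper49): a semisimilarity of the plus-type form whose descended form over
the fixed field is elliptic interchanges the two classes of maximal totally singular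
subspaces. -/

namespace Cfsg.Agent.H49

open Module Matrix GalDesc

section
variable {F : Type*} [Field F]

theorem QMin_sigma (k : ℕ) (a b : F) (σ : F ≃+* F) (ha : σ a = a) (hb : σ b = b)
    (v : (Fin k ⊕ Fin k) ⊕ Fin 2 → F) :
    QMin k F a b (fun i => σ (v i)) = σ (QMin k F a b v) := by
  rw [QMin_coe]
  unfold Cfsg.quadFormMinus
  rw [map_add, map_add, map_add, map_sum, map_mul, map_mul, map_mul, map_pow, map_pow, ha, hb]
  congr 1
  apply Finset.sum_congr rfl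
  intro i _
  rw [map_mul]

set_option maxHeartbeats 1600000 in
/-- Elliptic descended form: the semisimilarity interchanges the two classes. -/
theorem not_pres_of_elliptic [Fintype F] {m : ℕ} (hm : 1 ≤ m) (σ : RingAut F) {r : ℕ}
    (hr : orderOf σ = r) (hr0 : 0 < r)
    (A : ↥(Cfsg.Geo.quadSimilarityGroup (⇑(QP m F))))
    (P : Matrix.GeneralLinearGroup (Fin m ⊕ Fin m) F)
    (hP : ((A : Matrix.GeneralLinearGroup (Fin m ⊕ Fin m) F) : Matrix (Fin m ⊕ Fin m) (Fin m ⊕ Fin m) F) * (P : Matrix (Fin m ⊕ Fin m) (Fin m ⊕ Fin m) F).map σ = (P : Matrix (Fin m ⊕ Fin m) (Fin m ⊕ Fin m) F))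
    (e : F) (he : e ≠ 0)
    (C : Matrix (Fin m ⊕ Fin m) ((Fin (m - 1) ⊕ Fin (m - 1)) ⊕ Fin 2) F)
    (hCσ : C.map σ = C)
    (ζ : F) (hζσ : σ ζ = ζ) (hζ : ∀ t : F, σ t = t → t ^ 2 + t + ζ ≠ 0)
    (hval : ∀ v : (Fin (m - 1) ⊕ Fin (m - 1)) ⊕ Fin 2 → F,
      QP m F ((P : Matrix (Fin m ⊕ Fin m) (Fin m ⊕ Fin m) F) *ᵥ (C *ᵥ v)) = e * QMin (m - 1) F 1 ζ v) :
    A ∉ presSub m F := by
  classical
  intro hA
  have hd : (1 : F) ^ 2 - 4 * ζ ≠ 0 := by
    intro h
    apply hζ (-2 * ζ) (by rw [map_mul, map_neg, map_ofNat, hζσ])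
    linear_combination (-ζ) * h
  have hQ3 := QMin_nondeg (m - 1) (1 : F) ζ hd
  obtain ⟨M, hM⟩ : ∃ M : ((Fin (m - 1) ⊕ Fin (m - 1)) ⊕ Fin 2 → F) →ₗ[F] (Fin m ⊕ Fin m → F),
      ∀ v, M v = (P : Matrix (Fin m ⊕ Fin m) (Fin m ⊕ Fin m) F) *ᵥ (C *ᵥ v) :=
    ⟨(Matrix.mulVecLin (P : Matrix (Fin m ⊕ Fin m) (Fin m ⊕ Fin m) F)).comp (Matrix.mulVecLin C), fun v => rfl⟩
  have hMQ : ∀ v, QP m F (M v) = e * QMin (m - 1) F 1 ζ v := fun v => by
    rw [hM]
    exact hval v
  have hMpol : ∀ v w, QuadraticMap.polar (⇑(QP m F)) (M v) (M w)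
      = e * QuadraticMap.polar (⇑(QMin (m - 1) F 1 ζ)) v w := by
    intro v w
    simp only [QuadraticMap.polar]
    rw [← map_add, hMQ, hMQ, hMQ]
    ring
  have hMinj : Function.Injective M := by
    rw [injective_iff_map_eq_zero]
    intro v hv
    apply hQ3.1
    intro w
    have h1 := hMpol v w
    rw [hv, QuadraticMap.polar_zero_left] at h1
    exact (mul_eq_zero.mp h1.symm).resolve_left he
  have hcard : finrank F ((Fin (m - 1) ⊕ Fin (m - 1)) ⊕ Fin 2 → F) = 2 * m := by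
    rw [Module.finrank_fintype_fun_eq_card]
    simp
    omega
  have hMsurj : Function.Surjective M := by
    apply (LinearMap.injective_iff_surjective_of_finrank_eq_finrank ?_).mp hMinj
    rw [hcard, finrank_plus]
  obtain ⟨Y, hY⟩ : ∃ Y : Submodule F ((Fin (m - 1) ⊕ Fin (m - 1)) ⊕ Fin 2 → F),
      Y = (U0 m F).comap M := ⟨_, rfl⟩
  have hYts : IsTS (QMin (m - 1) F 1 ζ) Y := by
    intro v hv
    rw [hY, Submodule.mem_comap] at hv
    have h1 := hMQ v
    rw [U0_ts m F _ hv] at h1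
    exact (mul_eq_zero.mp h1.symm).resolve_left he
  have hYd : finrank F Y = m := by
    have h1 : Y.map M = U0 m F := by
      rw [hY]
      exact Submodule.map_comap_eq_of_surjective hMsurj _
    have h2 := (Submodule.equivMapOfInjective M hMinj Y).finrank_eq
    rw [h1, finrank_U0] at h2
    exact h2
  have hiso : ∃ z₁ z₂ : F, z₁ ^ 2 + 1 * z₁ * z₂ + ζ * z₂ ^ 2 = 0 ∧ ¬ (z₁ = 0 ∧ z₂ = 0) := by
    by_contra hcon
    push Not at hcon
    have h1 := QMin_ts_le (m - 1) (1 : F) ζ hcon hd Y hYts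
    omega
  obtain ⟨z₁, z₂, hz, hz0⟩ := hiso
  obtain ⟨E₁, hE₁⟩ : ∃ E₁ : Submodule F ((Fin (m - 1) ⊕ Fin (m - 1)) ⊕ Fin 2 → F),
      E₁ = (U0 (m - 1) F).map (extLeft (Fin (m - 1) ⊕ Fin (m - 1)) (Fin 2) F) := ⟨_, rfl⟩
  have hmem : ∀ y ∈ E₁, ∃ u ∈ U0 (m - 1) F, y = Sum.elim u 0 := by
    intro y hy
    rw [hE₁] at hy
    obtain ⟨u, hu, rfl⟩ := Submodule.mem_map.mp hy
    exact ⟨u, hu, rfl⟩
  have hts₁ : IsTS (QMin (m - 1) F 1 ζ) E₁ := by
    intro y hy
    obtain ⟨u, hu, rfl⟩ := hmem y hy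
    rw [QMin_apply_inl]
    exact U0_ts (m - 1) F u hu
  have d₁ : finrank F E₁ = m - 1 := by
    rw [hE₁, ← (Submodule.equivMapOfInjective _ extLeft_injective (U0 (m - 1) F)).finrank_eq]
    exact finrank_U0 (m - 1) F
  obtain ⟨x, hx⟩ : ∃ x : (Fin (m - 1) ⊕ Fin (m - 1)) ⊕ Fin 2 → F,
      x = Sum.elim (0 : Fin (m - 1) ⊕ Fin (m - 1) → F) ![z₁, z₂] := ⟨_, rfl⟩
  have hQx : QMin (m - 1) F 1 ζ x = 0 := by
    rw [hx, QMin_apply_inr, binQ_apply]
    simp only [Matrix.cons_val_zero, Matrix.cons_val_one, Matrix.cons_val_fin_one]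
    linear_combination hz
  have hxE : x ∉ E₁ := by
    intro h
    obtain ⟨u, -, hu⟩ := hmem x h
    have h0 := congrFun hu (Sum.inr (0 : Fin 2))
    have h1 := congrFun hu (Sum.inr (1 : Fin 2))
    rw [hx] at h0 h1
    simp at h0 h1
    exact hz0 ⟨h0, h1⟩
  have hpol : ∀ u ∈ E₁, QuadraticMap.polar (⇑(QMin (m - 1) F 1 ζ)) u x = 0 := by
    intro y hy
    obtain ⟨u, hu, rfl⟩ := hmem y hy
    rw [hx]
    show QuadraticMap.polar (⇑(sumQ (QP (m - 1) F) (binQ 1 ζ))) _ _ = 0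
    rw [polar_sumQ, Sum.elim_comp_inl, Sum.elim_comp_inl, Sum.elim_comp_inr, Sum.elim_comp_inr,
      QuadraticMap.polar_zero_right, QuadraticMap.polar_zero_left, add_zero]
  obtain ⟨W, hW⟩ : ∃ W : Submodule F ((Fin (m - 1) ⊕ Fin (m - 1)) ⊕ Fin 2 → F),
      W = E₁ ⊔ Submodule.span F {x} := ⟨_, rfl⟩
  have hWts : IsTS (QMin (m - 1) F 1 ζ) W := by
    rw [hW]
    exact hts₁.sup_span hQx hpol
  have hWd : finrank F W = m := by
    rw [hW, finrank_sup_span_singleton E₁ hxE, d₁]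
    omega
  have hσQ3 : ∀ v : (Fin (m - 1) ⊕ Fin (m - 1)) ⊕ Fin 2 → F,
      QMin (m - 1) F 1 ζ (fun i => σ (v i)) = σ (QMin (m - 1) F 1 ζ v) :=
    QMin_sigma (m - 1) 1 ζ σ (map_one σ) hζσ
  have hσWts := isTS_sigSub (QMin (m - 1) F 1 ζ) σ hσQ3 hWts
  have hσWd := (finrank_sigSub σ W).trans hWd
  have hE₁W : E₁ ≤ W := by
    rw [hW]
    exact le_sup_left
  have hE₁σ : E₁ ≤ sigSub σ W := by
    intro y hy
    obtain ⟨u, hu, rfl⟩ := hmem y hy
    rw [mem_sigSub]
    apply hE₁W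
    rw [hE₁]
    refine Submodule.mem_map.mpr ⟨fun i => σ.symm (u i), ?_, ?_⟩
    · rw [mem_U0] at hu ⊢
      intro i
      rw [hu i, map_zero]
    · funext j
      rcases j with j | j <;> simp [extLeft]
  have hne : sigSub σ W ≠ W := by
    intro heq
    have hxW : x ∈ W := by
      rw [hW]
      exact Submodule.mem_sup_right (Submodule.mem_span_singleton_self x)
    have hσx : (fun i => σ (x i)) ∈ W := by
      rw [← heq]
      exact sigma_mem_sigSub σ W hxW
    rw [hW] at hσx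
    obtain ⟨u, hu, z, hzs, huz⟩ := Submodule.mem_sup.mp hσx
    obtain ⟨c, rfl⟩ := Submodule.mem_span_singleton.mp hzs
    obtain ⟨u', -, rfl⟩ := hmem u hu
    have h0 := congrFun huz (Sum.inr (0 : Fin 2))
    have h1 := congrFun huz (Sum.inr (1 : Fin 2))
    rw [hx] at h0 h1
    simp at h0 h1
    have hiter : ∀ k : ℕ, (σ ^ k) z₁ = nrmF σ k c * z₁ ∧ (σ ^ k) z₂ = nrmF σ k c * z₂ := by
      intro k
      induction k with
      | zero =>
        rw [nrmF_zero]
        simp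
      | succ k ih =>
        rw [pow_succ', nrmF_succ]
        constructor
        · show σ ((σ ^ k) z₁) = _
          rw [ih.1, map_mul, ← h0]
          ring
        · show σ ((σ ^ k) z₂) = _
          rw [ih.2, map_mul, ← h1]
          ring
    have hσr : σ ^ r = 1 := by rw [← hr]; exact pow_orderOf_eq_one σ
    have hN : nrmF σ r c = 1 := by
      have h2 := hiter r
      rw [hσr] at h2
      by_cases hz1 : z₁ = 0
      · have hz2 : z₂ ≠ 0 := fun h => hz0 ⟨hz1, h⟩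
        have h3 : z₂ = nrmF σ r c * z₂ := h2.2
        have h4 : (nrmF σ r c - 1) * z₂ = 0 := by linear_combination -h3
        exact sub_eq_zero.mp ((mul_eq_zero.mp h4).resolve_right hz2)
      · have h3 : z₁ = nrmF σ r c * z₁ := h2.1
        have h4 : (nrmF σ r c - 1) * z₁ = 0 := by linear_combination -h3
        exact sub_eq_zero.mp ((mul_eq_zero.mp h4).resolve_right hz1)
    obtain ⟨ε, hε0, hε⟩ := exists_h90_cyc σ hr hr0 c hN
    have ht1 : σ (ε * z₁) = ε * z₁ := by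
      rw [map_mul, ← h0]
      linear_combination z₁ * hε
    have ht2 : σ (ε * z₂) = ε * z₂ := by
      rw [map_mul, ← h1]
      linear_combination z₂ * hε
    by_cases hz2 : z₂ = 0
    · have hz1 : z₁ = 0 := by
        rw [hz2] at hz
        simpa using hz
      exact hz0 ⟨hz1, hz2⟩
    · apply hζ (ε * z₁ / (ε * z₂)) (by rw [map_div₀, ht1, ht2])
      have e1 : ε * z₁ / (ε * z₂) = z₁ / z₂ := by
        field_simp
      rw [e1]
      field_simp
      linear_combination hz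
  have hinf : finrank F (W ⊓ sigSub σ W :
      Submodule F ((Fin (m - 1) ⊕ Fin (m - 1)) ⊕ Fin 2 → F)) + 1 = m := by
    have h1 : m - 1 ≤ finrank F (W ⊓ sigSub σ W :
        Submodule F ((Fin (m - 1) ⊕ Fin (m - 1)) ⊕ Fin 2 → F)) := by
      have h0 := Submodule.finrank_mono (le_inf hE₁W hE₁σ)
      omega
    have h2 : finrank F (W ⊓ sigSub σ W :
        Submodule F ((Fin (m - 1) ⊕ Fin (m - 1)) ⊕ Fin 2 → F)) ≤ m := by
      have h0 := Submodule.finrank_mono (inf_le_left : W ⊓ sigSub σ W ≤ W)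
      omega
    have h3 : finrank F (W ⊓ sigSub σ W :
        Submodule F ((Fin (m - 1) ⊕ Fin (m - 1)) ⊕ Fin 2 → F)) ≠ m := by
      intro h
      have e1 : W ⊓ sigSub σ W = W :=
        Submodule.eq_of_le_of_finrank_eq inf_le_left (by rw [h, hWd])
      have e2 : W ⊓ sigSub σ W = sigSub σ W :=
        Submodule.eq_of_le_of_finrank_eq inf_le_right (by rw [h, hσWd])
      exact hne (e2.symm.trans e1)
    omega
  obtain ⟨E', hE'⟩ : ∃ E' : Submodule F (Fin m ⊕ Fin m → F), E' = W.map M := ⟨_, rfl⟩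
  have hE'ts : IsTS (QP m F) E' := by
    intro y hy
    rw [hE'] at hy
    obtain ⟨w, hw, rfl⟩ := Submodule.mem_map.mp hy
    rw [hMQ, hWts w hw, mul_zero]
  have hE'd : finrank F E' = m := by
    have h0 := (Submodule.equivMapOfInjective M hMinj W).finrank_eq
    rw [hE', ← h0]
    exact hWd
  have hMσ : ∀ w : (Fin (m - 1) ⊕ Fin (m - 1)) ⊕ Fin 2 → F,
      ((A : Matrix.GeneralLinearGroup (Fin m ⊕ Fin m) F) : Matrix (Fin m ⊕ Fin m) (Fin m ⊕ Fin m) F) *ᵥ (fun i => σ (M w i)) = M (fun i => σ (w i)) := by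
    intro w
    rw [hM, hM]
    have e1 : (fun i => σ (((P : Matrix (Fin m ⊕ Fin m) (Fin m ⊕ Fin m) F) *ᵥ (C *ᵥ w)) i))
        = ((P : Matrix (Fin m ⊕ Fin m) (Fin m ⊕ Fin m) F).map σ) *ᵥ (C *ᵥ (fun i => σ (w i))) := by
      rw [← sigma_mulVec]
      congr 1
      funext i
      have h1 : σ ((C *ᵥ w) i) = ((C.map σ) *ᵥ (fun i => σ (w i))) i :=
        RingHom.map_mulVec (σ : F →+* F) C w i
      rw [hCσ] at h1
      exact h1
    rw [e1, Matrix.mulVec_mulVec, hP]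
  have hAσE' : (sigSub σ E').map (Matrix.mulVecLin ((A : Matrix.GeneralLinearGroup (Fin m ⊕ Fin m) F) : Matrix (Fin m ⊕ Fin m) (Fin m ⊕ Fin m) F)) = (sigSub σ W).map M := by
    ext y
    rw [Submodule.mem_map, Submodule.mem_map]
    constructor
    · rintro ⟨u, hu, rfl⟩
      rw [mem_sigSub, hE'] at hu
      obtain ⟨w, hw, hwu⟩ := Submodule.mem_map.mp hu
      refine ⟨fun i => σ (w i), sigma_mem_sigSub σ W hw, ?_⟩
      rw [← hMσ, hwu, Matrix.mulVecLin_apply]
      congr 1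
      funext i
      simp
    · rintro ⟨w, hw, rfl⟩
      rw [mem_sigSub] at hw
      refine ⟨fun i => σ (M (fun i => σ.symm (w i)) i),
        sigma_mem_sigSub σ E' (by rw [hE']; exact Submodule.mem_map_of_mem hw), ?_⟩
      rw [Matrix.mulVecLin_apply, hMσ]
      congr 1
      funext i
      simp
  have hdim : finrank F (E' ⊓ (sigSub σ E').map (Matrix.mulVecLin ((A : Matrix.GeneralLinearGroup (Fin m ⊕ Fin m) F) : Matrix (Fin m ⊕ Fin m) (Fin m ⊕ Fin m) F)) :
      Submodule F (Fin m ⊕ Fin m → F)) + 1 = m := by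
    have h0 := (Submodule.equivMapOfInjective M hMinj (W ⊓ sigSub σ W)).finrank_eq
    rw [hAσE', hE', ← Submodule.map_inf _ hMinj, ← h0]
    exact hinf
  have hσE'ts := isTS_sigSub (QP m F) σ (QP_sigma m σ) hE'ts
  have hσE'd := (finrank_sigSub σ E').trans hE'd
  have hAσts := hσE'ts.map_sim A
  have hAσd := (finrank_map_sim (⇑(QP m F)) A (sigSub σ E')).trans hσE'd
  have h1 := ts_even_trans (QP_nondeg m F) (finrank_plus m F) hE'ts hσE'ts hAσts hE'd hσE'd hAσd
  have h2 := sigma_same_class m σ E' hE'ts hE'd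
  have h3 := (preserves_iff_even (QP m F) (QP_nondeg m F) (finrank_plus m F) (sigSub σ E')
    hσE'ts hσE'd A).mp hA
  have h4 := h1.mpr ⟨fun _ => h3, fun _ => h2⟩
  rw [Nat.even_iff] at h4
  omega

end

end Cfsg.Agent.H49
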