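import Mathlib
import Cfsg.Agent.H49.PlusInn
import Cfsg.Agent.H49.PlusEll
import Cfsg.Agent.H49.PlusModel
import Cfsg.Agent.H49.PlusPlane
import Cfsg.Agent.H49.FieldBC

set_option autoImplicit false
set_option linter.unusedSectionVars false
set_option linter.unusedSimpArgs false
set_option linter.unusedVariables false

/-! Helper lemmas (helper49): field and graph-field automorphisms of prime order of the
plus-type orthogonal groups: conjugacy inside the coset of the inner-diagonal group. -/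

namespace Cfsg.Agent.H49

open Module Matrix GalDesc

section
variable {ι : Type} [Fintype ι] [DecidableEq ι] {F : Type*} [Field F]

/-- Transport of a reflection along a similarity between two forms. -/
theorem refl_transport (Q Q' : QuadraticForm F (ι → F)) (M : Matrix ι ι F) (c : F) (hc : c ≠ 0)
    (hM : ∀ y, Q (M *ᵥ y) = c * Q' y) (u : ι → F) :
    M * Cfsg.reflectionMatrix (⇑Q') u = Cfsg.reflectionMatrix (⇑Q) (M *ᵥ u) * M := by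
  apply Matrix.toLin'.injective
  apply LinearMap.ext
  intro x
  rw [Matrix.toLin'_apply, Matrix.toLin'_apply, ← Matrix.mulVec_mulVec, ← Matrix.mulVec_mulVec,
    reflectionMatrix_mulVec, reflectionMatrix_mulVec, Matrix.mulVec_sub, Matrix.mulVec_smul]
  have hpol : QuadraticMap.polar (⇑Q) (M *ᵥ u) (M *ᵥ x) = c * QuadraticMap.polar (⇑Q') u x := by
    simp only [QuadraticMap.polar]
    rw [← Matrix.mulVec_add, hM, hM, hM]
    ring
  rw [hpol, hM, mul_inv, mul_mul_mul_comm, inv_mul_cancel₀ hc, one_mul]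

/-- A non-degenerate quadratic form on a non-zero space has a non-singular vector. -/
theorem exists_nonsing (Q : QuadraticForm F (ι → F))
    (hQ : (QuadraticMap.polarBilin Q).Nondegenerate) (x : ι → F) (hx : x ≠ 0) :
    ∃ u, Q u ≠ 0 := by
  by_contra hcon
  push Not at hcon
  apply hx
  apply hQ.1
  intro y
  show QuadraticMap.polar (⇑Q) x y = 0
  simp only [QuadraticMap.polar]
  rw [hcon, hcon, hcon]
  ring

end

section
variable {F : Type*} [Field F] [Fintype F]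

/-- The descended form attached to a solution of Lang's equation. -/
theorem exists_kform {m : ℕ} (hm : 3 ≤ m) (σ : RingAut F) {r : ℕ} (hr : orderOf σ = r)
    (hr0 : 0 < r) (A : ↥(Cfsg.Geo.quadSimilarityGroup (⇑(QP m F))))
    (P : Matrix.GeneralLinearGroup (Fin m ⊕ Fin m) F)
    (hP : ((A : Matrix.GeneralLinearGroup (Fin m ⊕ Fin m) F) : Matrix (Fin m ⊕ Fin m) (Fin m ⊕ Fin m) F) * (P : Matrix (Fin m ⊕ Fin m) (Fin m ⊕ Fin m) F).map σ = (P : Matrix (Fin m ⊕ Fin m) (Fin m ⊕ Fin m) F)) :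
    ∃ (e : F) (Q2 : QuadraticForm F (Fin m ⊕ Fin m → F))
      (Q0 : QuadraticForm ↥(fixF σ) (Fin m ⊕ Fin m → ↥(fixF σ))), e ≠ 0 ∧
      (∀ w, Q2 w = e⁻¹ * QP m F ((P : Matrix (Fin m ⊕ Fin m) (Fin m ⊕ Fin m) F) *ᵥ w)) ∧
      (QuadraticMap.polarBilin Q2).Nondegenerate ∧
      (QuadraticMap.polarBilin Q0).Nondegenerate ∧
      ∀ w : Fin m ⊕ Fin m → ↥(fixF σ), ((Q0 w : ↥(fixF σ)) : F) = Q2 (fun i => (w i : F)) := by
  classical
  have hA : ∀ v, QP m F (((A : Matrix.GeneralLinearGroup (Fin m ⊕ Fin m) F) : Matrix (Fin m ⊕ Fin m) (Fin m ⊕ Fin m) F) *ᵥ v) = (simMul (⇑(QP m F)) A : F) * QP m F v :=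
    simMul_spec (⇑(QP m F)) A
  obtain ⟨e, he0, he⟩ := exists_equivariant (QP m F) (QP_ne m hm) σ hr hr0 (QP_sigma m σ)
    ((A : Matrix.GeneralLinearGroup (Fin m ⊕ Fin m) F) : Matrix (Fin m ⊕ Fin m) (Fin m ⊕ Fin m) F) _ hA P hP
  obtain ⟨Q2, hQ2⟩ : ∃ Q2 : QuadraticForm F (Fin m ⊕ Fin m → F),
      ∀ w, Q2 w = e⁻¹ * QP m F ((P : Matrix (Fin m ⊕ Fin m) (Fin m ⊕ Fin m) F) *ᵥ w) :=
    ⟨e⁻¹ • (QP m F).comp (Matrix.toLin' (P : Matrix (Fin m ⊕ Fin m) (Fin m ⊕ Fin m) F)), fun w => rfl⟩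
  have hQ2nd := nondeg_of_transport (QP m F) Q2 (QP_nondeg m F) P e he0 hQ2
  have hQ2σ : ∀ w : Fin m ⊕ Fin m → F, Q2 (fun i => σ (w i)) = σ (Q2 w) := by
    intro w
    rw [hQ2, hQ2]
    exact he w
  have hK : ∀ a : F, σ a = a ↔ a ∈ fixF σ := fun a => (mem_fixF σ a).symm
  obtain ⟨Q0, hQ0⟩ := exists_fixed_form σ (fixF σ) hK Q2 hQ2σ
  have hQ0nd := fixed_form_nondeg (fixF σ) Q2 hQ2nd Q0 hQ0
  exact ⟨e, Q2, Q0, he0, hQ2, hQ2nd, hQ0nd, hQ0⟩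

/-- From an isometry of descended forms to a fixed invertible matrix. -/
theorem exists_fixed_gl {ι : Type} [Fintype ι] [DecidableEq ι] (σ : RingAut F)
    (Q2 Q1 : QuadraticForm F (ι → F))
    (Q0 Q0' : QuadraticForm ↥(fixF σ) (ι → ↥(fixF σ)))
    (hQ0 : ∀ w : ι → ↥(fixF σ), ((Q0 w : ↥(fixF σ)) : F) = Q2 (fun i => (w i : F)))
    (hQ0' : ∀ w : ι → ↥(fixF σ), ((Q0' w : ↥(fixF σ)) : F) = Q1 (fun i => (w i : F)))
    (hQ1 : (QuadraticMap.polarBilin Q1).Nondegenerate)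
    (T₀ : (ι → ↥(fixF σ)) →ₗ[↥(fixF σ)] (ι → ↥(fixF σ))) (hT₀ : ∀ u, Q0 (T₀ u) = Q0' u) :
    ∃ B : Matrix.GeneralLinearGroup ι F,
      Matrix.GeneralLinearGroup.map (σ : F →+* F) B = B ∧
      ∀ v, Q2 ((B : Matrix ι ι F) *ᵥ v) = Q1 v := by
  have hK : ∀ a : F, σ a = a ↔ a ∈ fixF σ := fun a => (mem_fixF σ a).symm
  obtain ⟨C, hCσ, hC⟩ := exists_model_matrix σ (fixF σ) hK Q2 Q0 hQ0 Q1 Q0' hQ0' T₀ hT₀
  obtain ⟨B, hB⟩ := isUnit_of_form_eq Q2 Q1 hQ1 C hC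
  refine ⟨B, ?_, ?_⟩
  · apply Units.ext
    rw [glMap_val, hB]
    exact hCσ
  · intro v
    rw [hB]
    exact hC v

end

section
variable {F : Type*} [Field F] [Fintype F]

/-- Hyperbolic descended form: the semisimilarity preserves the two classes. -/
theorem pres_of_hyp {m : ℕ} (hm : 3 ≤ m) (σ : RingAut F)
    (A : ↥(Cfsg.Geo.quadSimilarityGroup (⇑(QP m F))))
    (P : Matrix.GeneralLinearGroup (Fin m ⊕ Fin m) F)
    (hP : ((A : Matrix.GeneralLinearGroup (Fin m ⊕ Fin m) F) : Matrix (Fin m ⊕ Fin m) (Fin m ⊕ Fin m) F) * (P : Matrix (Fin m ⊕ Fin m) (Fin m ⊕ Fin m) F).map σ = (P : Matrix (Fin m ⊕ Fin m) (Fin m ⊕ Fin m) F))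
    (e : F) (he : e ≠ 0) (Q2 : QuadraticForm F (Fin m ⊕ Fin m → F))
    (hQ2 : ∀ w, Q2 w = e⁻¹ * QP m F ((P : Matrix (Fin m ⊕ Fin m) (Fin m ⊕ Fin m) F) *ᵥ w))
    (Q0 : QuadraticForm ↥(fixF σ) (Fin m ⊕ Fin m → ↥(fixF σ)))
    (hQ0 : ∀ w : Fin m ⊕ Fin m → ↥(fixF σ), ((Q0 w : ↥(fixF σ)) : F) = Q2 (fun i => (w i : F)))
    (T : (Fin m ⊕ Fin m → ↥(fixF σ)) ≃ₗ[↥(fixF σ)] (Fin m ⊕ Fin m → ↥(fixF σ)))
    (hT : ∀ u, Q0 (T u) = QP m ↥(fixF σ) u) : A ∈ presSub m F := by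
  classical
  obtain ⟨B, hBσ, hB⟩ := exists_fixed_gl σ Q2 (QP m F) Q0 (QP m ↥(fixF σ)) hQ0
    (QP_coe_sub m (fixF σ)) (QP_nondeg m F) T.toLinearMap hT
  have hsim : ∀ v, QP m F (((P * B : Matrix.GeneralLinearGroup (Fin m ⊕ Fin m) F) :
      Matrix (Fin m ⊕ Fin m) (Fin m ⊕ Fin m) F) *ᵥ v) = e * QP m F v := by
    intro v
    have h1 := hB v
    rw [hQ2] at h1
    rw [Units.val_mul, ← Matrix.mulVec_mulVec, ← h1, ← mul_assoc, mul_inv_cancel₀ he, one_mul]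
  obtain ⟨P', hP'⟩ : ∃ P' : ↥(Cfsg.Geo.quadSimilarityGroup (⇑(QP m F))),
      (P' : Matrix.GeneralLinearGroup (Fin m ⊕ Fin m) F) = P * B :=
    ⟨⟨P * B, ⟨Units.mk0 e he, fun v => hsim v⟩⟩, rfl⟩
  have hp1 : Cfsg.IsSemisimilarityPair (⇑(QP m F))
      (1 : Matrix.GeneralLinearGroup (Fin m ⊕ Fin m) F) σ := pair_plus_sigma (F := F) m σ
  have e1 : A * semiConjSim (QP m F) hp1 P' = P' := by
    apply Subtype.ext
    apply Units.ext
    show ((A : Matrix.GeneralLinearGroup (Fin m ⊕ Fin m) F) : Matrix (Fin m ⊕ Fin m) (Fin m ⊕ Fin m) F) * (((1 : Matrix.GeneralLinearGroup (Fin m ⊕ Fin m) F)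
      * Matrix.GeneralLinearGroup.map (σ : F →+* F) P'.1
      * (1 : Matrix.GeneralLinearGroup (Fin m ⊕ Fin m) F)⁻¹ :
        Matrix.GeneralLinearGroup (Fin m ⊕ Fin m) F) :
        Matrix (Fin m ⊕ Fin m) (Fin m ⊕ Fin m) F)
      = ((P' : Matrix.GeneralLinearGroup (Fin m ⊕ Fin m) F) :
        Matrix (Fin m ⊕ Fin m) (Fin m ⊕ Fin m) F)
    rw [one_mul, inv_one, mul_one, hP', map_mul, hBσ, Units.val_mul, Units.val_mul, glMap_val,
      ← Matrix.mul_assoc, hP]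
  have h1 : semiConjSim (QP m F) hp1 P' ∈ presSub m F ↔ P' ∈ presSub m F := by
    rw [mem_presSub, mem_presSub]
    apply pres_map_sigma m σ P' (semiConjSim (QP m F) hp1 P')
    show (((1 : Matrix.GeneralLinearGroup (Fin m ⊕ Fin m) F)
      * Matrix.GeneralLinearGroup.map (σ : F →+* F) P'.1
      * (1 : Matrix.GeneralLinearGroup (Fin m ⊕ Fin m) F)⁻¹ :
        Matrix.GeneralLinearGroup (Fin m ⊕ Fin m) F) :
        Matrix (Fin m ⊕ Fin m) (Fin m ⊕ Fin m) F) = _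
    rw [one_mul, inv_one, mul_one]
    rfl
  have h2 := presSub_mul_iff m A (semiConjSim (QP m F) hp1 P')
  rw [e1] at h2
  by_cases hP'm : P' ∈ presSub m F
  · exact (h2.mp hP'm).mpr (h1.mpr hP'm)
  · by_contra hA
    apply hP'm
    apply h2.mpr
    constructor
    · intro h
      exact absurd h hA
    · intro h
      exact absurd (h1.mp h) hP'm

/-- Elliptic descended form: the semisimilarity interchanges the two classes. -/
theorem not_pres_of_ell {m : ℕ} (hm : 3 ≤ m) (σ : RingAut F) {r : ℕ} (hr : orderOf σ = r)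
    (hr0 : 0 < r)
    (A : ↥(Cfsg.Geo.quadSimilarityGroup (⇑(QP m F))))
    (P : Matrix.GeneralLinearGroup (Fin m ⊕ Fin m) F)
    (hP : ((A : Matrix.GeneralLinearGroup (Fin m ⊕ Fin m) F) : Matrix (Fin m ⊕ Fin m) (Fin m ⊕ Fin m) F) * (P : Matrix (Fin m ⊕ Fin m) (Fin m ⊕ Fin m) F).map σ = (P : Matrix (Fin m ⊕ Fin m) (Fin m ⊕ Fin m) F))
    (e : F) (he : e ≠ 0) (Q2 : QuadraticForm F (Fin m ⊕ Fin m → F))
    (hQ2 : ∀ w, Q2 w = e⁻¹ * QP m F ((P : Matrix (Fin m ⊕ Fin m) (Fin m ⊕ Fin m) F) *ᵥ w))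
    (Q0 : QuadraticForm ↥(fixF σ) (Fin m ⊕ Fin m → ↥(fixF σ)))
    (hQ0 : ∀ w : Fin m ⊕ Fin m → ↥(fixF σ), ((Q0 w : ↥(fixF σ)) : F) = Q2 (fun i => (w i : F)))
    (ζ : ↥(fixF σ))
    (T : ((Fin (m - 1) ⊕ Fin (m - 1)) ⊕ Fin 2 → ↥(fixF σ)) ≃ₗ[↥(fixF σ)]
      (Fin m ⊕ Fin m → ↥(fixF σ)))
    (hζ : ∀ t : ↥(fixF σ), t ^ 2 + t + ζ ≠ 0)
    (hT : ∀ u, Q0 (T u) = QMin (m - 1) ↥(fixF σ) 1 ζ u) : A ∉ presSub m F := by
  classical
  have hK : ∀ a : F, σ a = a ↔ a ∈ fixF σ := fun a => (mem_fixF σ a).symm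
  have hcompat : ∀ w : (Fin (m - 1) ⊕ Fin (m - 1)) ⊕ Fin 2 → ↥(fixF σ),
      ((QMin (m - 1) ↥(fixF σ) 1 ζ w : ↥(fixF σ)) : F)
        = QMin (m - 1) F 1 (ζ : F) (fun i => (w i : F)) := by
    intro w
    have h1 := QMin_coe_sub (m - 1) (fixF σ) 1 ζ w
    rw [h1]
    rfl
  obtain ⟨C, hCσ, hC⟩ := exists_model_matrix σ (fixF σ) hK Q2 Q0 hQ0
    (QMin (m - 1) F 1 (ζ : F)) (QMin (m - 1) ↥(fixF σ) 1 ζ) hcompat T.toLinearMap hT
  apply not_pres_of_elliptic (by omega) σ hr hr0 A P hP e he C hCσ (ζ : F)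
    ((mem_fixF σ _).mp ζ.2)
  · intro t ht h0
    apply hζ ⟨t, (mem_fixF σ t).mpr ht⟩
    apply Subtype.ext
    push_cast
    exact h0
  · intro v
    have h1 := hC v
    rw [hQ2] at h1
    rw [← h1, ← mul_assoc, mul_inv_cancel₀ he, one_mul]

end

section
variable {F : Type*} [Field F] [Fintype F]

set_option maxHeartbeats 1600000 in
/-- Lang's theorem for the class-preserving similarities, relative to a second semisimilarity
of the same kind. -/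
theorem exists_lang_pres {m : ℕ} (hm : 3 ≤ m) (σ : RingAut F) {r : ℕ} (hr : orderOf σ = r)
    (hr0 : 0 < r)
    (A A₁ : ↥(Cfsg.Geo.quadSimilarityGroup (⇑(QP m F))))
    (P P₁ : Matrix.GeneralLinearGroup (Fin m ⊕ Fin m) F)
    (hP : ((A : Matrix.GeneralLinearGroup (Fin m ⊕ Fin m) F) : Matrix (Fin m ⊕ Fin m) (Fin m ⊕ Fin m) F) * (P : Matrix (Fin m ⊕ Fin m) (Fin m ⊕ Fin m) F).map σ = (P : Matrix (Fin m ⊕ Fin m) (Fin m ⊕ Fin m) F))
    (hP₁ : ((A₁ : Matrix.GeneralLinearGroup (Fin m ⊕ Fin m) F) : Matrix (Fin m ⊕ Fin m) (Fin m ⊕ Fin m) F) * (P₁ : Matrix (Fin m ⊕ Fin m) (Fin m ⊕ Fin m) F).map σ = (P₁ : Matrix (Fin m ⊕ Fin m) (Fin m ⊕ Fin m) F))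
    (hAA : A ∈ presSub m F ↔ A₁ ∈ presSub m F) :
    ∃ h : ↥(Cfsg.Geo.quadSimilarityGroup (⇑(QP m F))), h ∈ presSub m F ∧
      (A : Matrix.GeneralLinearGroup (Fin m ⊕ Fin m) F)
        * Matrix.GeneralLinearGroup.map (σ : F →+* F) h.1
        * (A₁ : Matrix.GeneralLinearGroup (Fin m ⊕ Fin m) F)⁻¹
        = (h : Matrix.GeneralLinearGroup (Fin m ⊕ Fin m) F) := by
  classical
  have : Fintype ↥(fixF σ) := Fintype.ofFinite _
  obtain ⟨e, Q2, Q0, he, hQ2, hQ2nd, hQ0nd, hQ0⟩ := exists_kform hm σ hr hr0 A P hP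
  obtain ⟨e₁, Q1, Q0', he₁, hQ1, hQ1nd, hQ0'nd, hQ0'⟩ := exists_kform hm σ hr hr0 A₁ P₁ hP₁
  have hT₀ : ∃ T₀ : (Fin m ⊕ Fin m → ↥(fixF σ)) →ₗ[↥(fixF σ)] (Fin m ⊕ Fin m → ↥(fixF σ)),
      ∀ u, Q0 (T₀ u) = Q0' u := by
    rcases even_model Q0 hQ0nd with ⟨T, hT⟩ | ⟨ζ, T, hζ, hT⟩ <;>
      rcases even_model Q0' hQ0'nd with ⟨T₁, hT₁⟩ | ⟨ζ₁, T₁, hζ₁, hT₁⟩
    · exact iso_of_hyp Q0 Q0' T T₁ hT hT₁
    · exfalso
      have h1 := pres_of_hyp hm σ A P hP e he Q2 hQ2 Q0 hQ0 T hT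
      have h2 := not_pres_of_ell hm σ hr hr0 A₁ P₁ hP₁ e₁ he₁ Q1 hQ1 Q0' hQ0' ζ₁ T₁ hζ₁ hT₁
      exact h2 (hAA.mp h1)
    · exfalso
      have h1 := pres_of_hyp hm σ A₁ P₁ hP₁ e₁ he₁ Q1 hQ1 Q0' hQ0' T₁ hT₁
      have h2 := not_pres_of_ell hm σ hr hr0 A P hP e he Q2 hQ2 Q0 hQ0 ζ T hζ hT
      exact h2 (hAA.mpr h1)
    · exact iso_of_ell Q0 Q0' ζ ζ₁ hζ hζ₁ T T₁ hT hT₁
  obtain ⟨T₀, hT₀⟩ := hT₀
  obtain ⟨B, hBσ, hB⟩ := exists_fixed_gl σ Q2 Q1 Q0 Q0' hQ0 hQ0' hQ1nd T₀ hT₀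
  -- the candidate `P B P₁⁻¹`
  have hsim : ∀ w, QP m F (((P * B * P₁⁻¹ : Matrix.GeneralLinearGroup (Fin m ⊕ Fin m) F) :
      Matrix (Fin m ⊕ Fin m) (Fin m ⊕ Fin m) F) *ᵥ w) = (e * e₁⁻¹) * QP m F w := by
    intro w
    have h1 := hB (((P₁⁻¹ : Matrix.GeneralLinearGroup (Fin m ⊕ Fin m) F) :
      Matrix (Fin m ⊕ Fin m) (Fin m ⊕ Fin m) F) *ᵥ w)
    have hcancel : (P₁ : Matrix (Fin m ⊕ Fin m) (Fin m ⊕ Fin m) F) *ᵥ
        (((P₁⁻¹ : Matrix.GeneralLinearGroup (Fin m ⊕ Fin m) F) :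
          Matrix (Fin m ⊕ Fin m) (Fin m ⊕ Fin m) F) *ᵥ w) = w := by
      rw [Matrix.mulVec_mulVec, ← Units.val_mul, mul_inv_cancel, Units.val_one,
        Matrix.one_mulVec]
    rw [hQ2, hQ1, hcancel] at h1
    rw [Units.val_mul, Units.val_mul, ← Matrix.mulVec_mulVec, ← Matrix.mulVec_mulVec, mul_assoc,
      ← h1, ← mul_assoc, mul_inv_cancel₀ he, one_mul]
  obtain ⟨h₀, hh₀⟩ : ∃ h₀ : ↥(Cfsg.Geo.quadSimilarityGroup (⇑(QP m F))),
      (h₀ : Matrix.GeneralLinearGroup (Fin m ⊕ Fin m) F) = P * B * P₁⁻¹ :=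
    ⟨⟨P * B * P₁⁻¹, ⟨Units.mk0 (e * e₁⁻¹) (mul_ne_zero he (inv_ne_zero he₁)),
      fun w => hsim w⟩⟩, rfl⟩
  have hPg : (A : Matrix.GeneralLinearGroup (Fin m ⊕ Fin m) F)
      * Matrix.GeneralLinearGroup.map (σ : F →+* F) P = P := by
    apply Units.ext
    rw [Units.val_mul, glMap_val]
    exact hP
  have hP₁g : (A₁ : Matrix.GeneralLinearGroup (Fin m ⊕ Fin m) F)
      * Matrix.GeneralLinearGroup.map (σ : F →+* F) P₁ = P₁ := by
    apply Units.ext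
    rw [Units.val_mul, glMap_val]
    exact hP₁
  have heq₀ : (A : Matrix.GeneralLinearGroup (Fin m ⊕ Fin m) F)
      * Matrix.GeneralLinearGroup.map (σ : F →+* F) h₀.1
      * (A₁ : Matrix.GeneralLinearGroup (Fin m ⊕ Fin m) F)⁻¹
      = (h₀ : Matrix.GeneralLinearGroup (Fin m ⊕ Fin m) F) := by
    rw [hh₀, map_mul, map_mul, map_inv, hBσ]
    conv_rhs => rw [← hPg, ← hP₁g]
    group
  by_cases hmem : h₀ ∈ presSub m F
  · exact ⟨h₀, hmem, heq₀⟩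
  · -- correct by a reflection commuting with the second semisimilarity
    obtain ⟨u₀, hu₀⟩ : ∃ u₀ : Fin m ⊕ Fin m → ↥(fixF σ), Q0' u₀ ≠ 0 := by
      apply exists_nonsing Q0' hQ0'nd (Pi.single (Sum.inl ⟨0, by omega⟩) 1)
      intro h
      have := congrFun h (Sum.inl ⟨0, by omega⟩)
      simp at this
    obtain ⟨u, hu⟩ : ∃ u : Fin m ⊕ Fin m → F, u = fun i => (u₀ i : F) := ⟨_, rfl⟩
    have huσ : (fun i => σ (u i)) = u := by
      funext i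
      rw [hu]
      exact (mem_fixF σ _).mp (u₀ i).2
    obtain ⟨w, hw⟩ : ∃ w : Fin m ⊕ Fin m → F, w = (P₁ : Matrix (Fin m ⊕ Fin m) (Fin m ⊕ Fin m) F) *ᵥ u := ⟨_, rfl⟩
    have hQw : QP m F w ≠ 0 := by
      have h1 := hQ0' u₀
      rw [hQ1, ← hu, ← hw] at h1
      intro h0
      rw [h0, mul_zero] at h1
      apply hu₀
      apply Subtype.ext
      rw [h1]
      rfl
    obtain ⟨ρ, hρ⟩ : ∃ ρ : ↥(Cfsg.Geo.quadSimilarityGroup (⇑(QP m F))),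
        ρ = inclO (QP m F) (reflG (QP m F) w) := ⟨_, rfl⟩
    have hρmem : ρ ∉ presSub m F := by
      rw [hρ]
      exact refl_not_mem_presSub m w hQw
    have hρmat : ((ρ : Matrix.GeneralLinearGroup (Fin m ⊕ Fin m) F) :
        Matrix (Fin m ⊕ Fin m) (Fin m ⊕ Fin m) F) = Cfsg.reflectionMatrix (⇑(QP m F)) w := by
      rw [hρ]
      rfl
    have hσw : ((A₁ : Matrix.GeneralLinearGroup (Fin m ⊕ Fin m) F) : Matrix (Fin m ⊕ Fin m) (Fin m ⊕ Fin m) F) *ᵥ (fun i => σ (w i)) = w := by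
      rw [hw, ← sigma_mulVec, huσ, Matrix.mulVec_mulVec, hP₁]
    have hcomm : (A₁ : Matrix.GeneralLinearGroup (Fin m ⊕ Fin m) F)
        * Matrix.GeneralLinearGroup.map (σ : F →+* F) ρ.1
        = (ρ : Matrix.GeneralLinearGroup (Fin m ⊕ Fin m) F)
          * (A₁ : Matrix.GeneralLinearGroup (Fin m ⊕ Fin m) F) := by
      apply Units.ext
      rw [Units.val_mul, Units.val_mul, glMap_val, hρmat]
      have hc : FormCompat (σ : F →+* F) (QP m F) (QP m F) := fun v => QP_sigma m σ v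
      have e1 : (Cfsg.reflectionMatrix (⇑(QP m F)) w).map σ
          = Cfsg.reflectionMatrix (⇑(QP m F)) (fun i => σ (w i)) := bc_reflectionMatrix hc w
      rw [e1, refl_transport (QP m F) (QP m F) ((A₁ : Matrix.GeneralLinearGroup (Fin m ⊕ Fin m) F) : Matrix (Fin m ⊕ Fin m) (Fin m ⊕ Fin m) F) (simMul (⇑(QP m F)) A₁ : F)
        (simMul (⇑(QP m F)) A₁).ne_zero (simMul_spec (⇑(QP m F)) A₁), hσw]
    refine ⟨h₀ * ρ, ?_, ?_⟩
    · rw [presSub_mul_iff]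
      constructor
      · intro h
        exact absurd h hmem
      · intro h
        exact absurd h hρmem
    · show (A : Matrix.GeneralLinearGroup (Fin m ⊕ Fin m) F)
        * Matrix.GeneralLinearGroup.map (σ : F →+* F) (h₀.1 * ρ.1)
        * (A₁ : Matrix.GeneralLinearGroup (Fin m ⊕ Fin m) F)⁻¹ = h₀.1 * ρ.1
      rw [map_mul]
      have e2 : (A : Matrix.GeneralLinearGroup (Fin m ⊕ Fin m) F)
          * (Matrix.GeneralLinearGroup.map (σ : F →+* F) h₀.1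
            * Matrix.GeneralLinearGroup.map (σ : F →+* F) ρ.1)
          * (A₁ : Matrix.GeneralLinearGroup (Fin m ⊕ Fin m) F)⁻¹
          = ((A : Matrix.GeneralLinearGroup (Fin m ⊕ Fin m) F)
            * Matrix.GeneralLinearGroup.map (σ : F →+* F) h₀.1
            * (A₁ : Matrix.GeneralLinearGroup (Fin m ⊕ Fin m) F)⁻¹)
            * ((A₁ : Matrix.GeneralLinearGroup (Fin m ⊕ Fin m) F)
              * Matrix.GeneralLinearGroup.map (σ : F →+* F) ρ.1)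
            * (A₁ : Matrix.GeneralLinearGroup (Fin m ⊕ Fin m) F)⁻¹ := by group
      rw [e2, heq₀, hcomm]
      group

end

end Cfsg.Agent.H49
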