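import Mathlib
import Cfsg.Agent.H49.PlusField
import Cfsg.Agent.H49.FieldDesc
import Cfsg.Agent.H49.AutInst
import Cfsg.Agent.H49.AutOdd

set_option autoImplicit false
set_option linter.unusedSectionVars false
set_option linter.unusedSimpArgs false
set_option linter.unusedVariables false

/-! Helper lemmas (helper49): field and graph-field automorphisms of prime order of the
plus-type orthogonal groups: conjugacy inside the coset of the inner-diagonal group (final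
assembly). -/

namespace Cfsg.Agent.H49

open Module Matrix GalDesc

section
variable {ι : Type} [Fintype ι] [DecidableEq ι] {F : Type*} [Field F]

theorem glMap_refl (g : Matrix.GeneralLinearGroup ι F) :
    Matrix.GeneralLinearGroup.map ((RingEquiv.refl F : F ≃+* F) : F →+* F) g = g := by
  apply Units.ext
  ext i j
  rfl

end

section
variable {F : Type*} [Field F] [Fintype F]

set_option maxHeartbeats 1600000 in
/-- The coset statement for a semisimilarity `(R, σ)` with `R` a similarity. -/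
theorem plus_coset_core {m : ℕ} (hm : 5 ≤ m)
    (x δ α Φ : MulAut (Cfsg.POmega F (⇑(QP m F))))
    (σ : RingAut F) (hσ : σ ≠ 1)
    (R : ↥(Cfsg.Geo.quadSimilarityGroup (⇑(QP m F))))
    (hpR : Cfsg.IsSemisimilarityPair (⇑(QP m F)) R.1 σ)
    (hiR : Cfsg.IsInducedBySemilinearPOmega (⇑(QP m F)) R.1 σ Φ)
    (hαx : α * x * α⁻¹ = Φ) {r : ℕ} (hr : r.Prime)
    (hxr : orderOf x = r) (hδ : δ ∈ (presSub m F).map (cHom (⇑(QP m F))))
    (ho : orderOf (δ * x) = r) :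
    Cfsg.IsConjUnder ((presSub m F).map (cHom (⇑(QP m F)))) x (δ * x) := by
  classical
  have hQ := QP_nondeg m F
  have h3 := hasTS3_QP (F := F) m (by omega)
  have hne := QP_ne (F := F) m (by omega)
  have htop : ∀ β : MulAut (Cfsg.POmega F (⇑(QP m F))),
      β ∈ Cfsg.gammaPOmega F (⇑(QP m F)) := by
    intro β
    have ht : Cfsg.gammaPOmega F (⇑(QP m F)) = ⊤ := gamma_top_plus hm
    rw [ht]
    exact Subgroup.mem_top β
  have : Fact r.Prime := ⟨hr⟩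
  obtain ⟨Ψ, hΨ⟩ := exists_sigHom (QP m F) hQ h3 htop
  have hΨφ : Ψ Φ = σ := hΨ Φ R.1 σ hpR hiR
  have hxr1 : x ^ r = 1 := by rw [← hxr]; exact pow_orderOf_eq_one x
  have hΦr : Φ ^ r = 1 := by
    rw [← hαx, conj_pow, hxr1, mul_one, mul_inv_cancel]
  have hσr : σ ^ r = 1 := by rw [← hΨφ, ← map_pow, hΦr, map_one]
  have hord : orderOf σ = r := orderOf_eq_prime hσr hσ
  obtain ⟨g, hgmem, hg⟩ := presMap_conj_mem m hm α δ hδ
  have hx0 : Cfsg.IsInducedBySemilinearPOmega (⇑(QP m F)) g.1 (RingEquiv.refl F)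
      (cHom (⇑(QP m F)) g) :=
    (isInduced_iff (⇑(QP m F)) g (cHom (⇑(QP m F)) g)).mpr rfl
  have hpx0 : Cfsg.IsSemisimilarityPair (⇑(QP m F)) g.1 (RingEquiv.refl F) := by
    obtain ⟨c, hc⟩ := g.2
    exact ⟨c, fun v => hc v⟩
  have e1 : (g.1 : Matrix.GeneralLinearGroup (Fin m ⊕ Fin m) F)
      * Matrix.GeneralLinearGroup.map ((RingEquiv.refl F : F ≃+* F) : F →+* F) R.1
      = g.1 * R.1 := by
    rw [glMap_refl]
  have e2 : (σ : F ≃+* F).trans (RingEquiv.refl F) = σ := RingEquiv.ext (fun _ => rfl)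
  have hpg : Cfsg.IsSemisimilarityPair (⇑(QP m F)) (g.1 * R.1) σ := by
    have h := pair_mul hpx0 hpR
    rw [e1, e2] at h
    exact h
  have hig : Cfsg.IsInducedBySemilinearPOmega (⇑(QP m F)) (g.1 * R.1) σ
      (cHom (⇑(QP m F)) g * Φ) := by
    have h := induced_mul hx0 hiR hpR
    rw [e1, e2] at h
    exact h
  have hpow : (cHom (⇑(QP m F)) g * Φ) ^ r = 1 := by
    have e3 : cHom (⇑(QP m F)) g * Φ = α * (δ * x) * α⁻¹ := by
      rw [hg, ← hαx]
      group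
    have hdx : (δ * x) ^ r = 1 := by rw [← ho]; exact pow_orderOf_eq_one _
    rw [e3, conj_pow, hdx, mul_one, mul_inv_cancel]
  obtain ⟨P, t, ht0, hP⟩ := exists_lang_of_pow (QP m F) hQ h3 hne σ hord hr.pos (g.1 * R.1)
    hpg hig hpow
  obtain ⟨P₁, t₁, ht₁, hP₁⟩ := exists_lang_of_pow (QP m F) hQ h3 hne σ hord hr.pos R.1
    hpR hiR hΦr
  obtain ⟨A, hA⟩ : ∃ A : ↥(Cfsg.Geo.quadSimilarityGroup (⇑(QP m F))),
      A = scalSim (QP m F) (Units.mk0 t ht0) * g * R := ⟨_, rfl⟩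
  obtain ⟨A₁, hA₁⟩ : ∃ A₁ : ↥(Cfsg.Geo.quadSimilarityGroup (⇑(QP m F))),
      A₁ = scalSim (QP m F) (Units.mk0 t₁ ht₁) * R := ⟨_, rfl⟩
  have hPA : ((A : Matrix.GeneralLinearGroup (Fin m ⊕ Fin m) F) : Matrix (Fin m ⊕ Fin m) (Fin m ⊕ Fin m) F) * (P : Matrix (Fin m ⊕ Fin m) (Fin m ⊕ Fin m) F).map σ = (P : Matrix (Fin m ⊕ Fin m) (Fin m ⊕ Fin m) F) := by
    have e : ((A : Matrix.GeneralLinearGroup (Fin m ⊕ Fin m) F) : Matrix (Fin m ⊕ Fin m) (Fin m ⊕ Fin m) F) = t • ((g.1 * R.1 : Matrix.GeneralLinearGroup (Fin m ⊕ Fin m) F) : Matrix (Fin m ⊕ Fin m) (Fin m ⊕ Fin m) F) := by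
      rw [hA]
      show ((scalGL (Fin m ⊕ Fin m) (Units.mk0 t ht0) * g.1 * R.1 : Matrix.GeneralLinearGroup (Fin m ⊕ Fin m) F) : Matrix (Fin m ⊕ Fin m) (Fin m ⊕ Fin m) F) = _
      rw [mul_assoc, Units.val_mul, scalGL_coe, Matrix.smul_mul, Matrix.one_mul]
      rfl
    rw [e]
    exact hP
  have hPA₁ : ((A₁ : Matrix.GeneralLinearGroup (Fin m ⊕ Fin m) F) : Matrix (Fin m ⊕ Fin m) (Fin m ⊕ Fin m) F) * (P₁ : Matrix (Fin m ⊕ Fin m) (Fin m ⊕ Fin m) F).map σ = (P₁ : Matrix (Fin m ⊕ Fin m) (Fin m ⊕ Fin m) F) := by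
    have e : ((A₁ : Matrix.GeneralLinearGroup (Fin m ⊕ Fin m) F) : Matrix (Fin m ⊕ Fin m) (Fin m ⊕ Fin m) F) = t₁ • ((R.1 : Matrix.GeneralLinearGroup (Fin m ⊕ Fin m) F) : Matrix (Fin m ⊕ Fin m) (Fin m ⊕ Fin m) F) := by
      rw [hA₁]
      show ((scalGL (Fin m ⊕ Fin m) (Units.mk0 t₁ ht₁) * R.1 : Matrix.GeneralLinearGroup (Fin m ⊕ Fin m) F) : Matrix (Fin m ⊕ Fin m) (Fin m ⊕ Fin m) F) = _
      rw [Units.val_mul, scalGL_coe, Matrix.smul_mul, Matrix.one_mul]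
      rfl
    rw [e]
    exact hP₁
  have hsg : scalSim (QP m F) (Units.mk0 t ht0) * g ∈ presSub m F :=
    Subgroup.mul_mem _ (scalSim_mem_presSub m _) hgmem
  have hAA : A ∈ presSub m F ↔ A₁ ∈ presSub m F := by
    have hs₁ := scalSim_mem_presSub (F := F) m (Units.mk0 t₁ ht₁)
    have e1 : A ∈ presSub m F ↔ R ∈ presSub m F := by
      rw [hA, presSub_mul_iff m (scalSim (QP m F) (Units.mk0 t ht0) * g) R]
      exact ⟨fun h => h.mp hsg, fun h => ⟨fun _ => h, fun _ => hsg⟩⟩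
    have e2 : A₁ ∈ presSub m F ↔ R ∈ presSub m F := by
      rw [hA₁, presSub_mul_iff m (scalSim (QP m F) (Units.mk0 t₁ ht₁)) R]
      exact ⟨fun h => h.mp hs₁, fun h => ⟨fun _ => h, fun _ => hs₁⟩⟩
    exact e1.trans e2.symm
  obtain ⟨h, hmem, hh⟩ := exists_lang_pres (by omega) σ hord hr.pos A A₁ P P₁ hPA hPA₁ hAA
  have hsim : scalSim (QP m F) (Units.mk0 t ht0) * g * semiConjSim (QP m F) hpR h
      * (scalSim (QP m F) (Units.mk0 t₁ ht₁))⁻¹ = h := by
    apply Subtype.ext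
    rw [← hh, hA, hA₁]
    show (scalGL (Fin m ⊕ Fin m) (Units.mk0 t ht0) * g.1
        * (R.1 * Matrix.GeneralLinearGroup.map (σ : F →+* F) h.1 * R.1⁻¹)
        * (scalGL (Fin m ⊕ Fin m) (Units.mk0 t₁ ht₁))⁻¹ : Matrix.GeneralLinearGroup (Fin m ⊕ Fin m) F)
      = scalGL (Fin m ⊕ Fin m) (Units.mk0 t ht0) * g.1 * R.1
        * Matrix.GeneralLinearGroup.map (σ : F →+* F) h.1
        * (scalGL (Fin m ⊕ Fin m) (Units.mk0 t₁ ht₁) * R.1)⁻¹
    group
  have hc := congrArg (cHom (⇑(QP m F))) hsim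
  rw [map_mul, map_mul, map_mul, map_inv, cHom_scalSim, cHom_scalSim, one_mul, inv_one, mul_one,
    ← conj_cHom (QP m F) hpR hiR h] at hc
  have e4 : cHom (⇑(QP m F)) g * Φ
      = cHom (⇑(QP m F)) h * Φ * (cHom (⇑(QP m F)) h)⁻¹ := by
    calc cHom (⇑(QP m F)) g * Φ
        = (cHom (⇑(QP m F)) g * (Φ * cHom (⇑(QP m F)) h * Φ⁻¹)) * Φ
          * (cHom (⇑(QP m F)) h)⁻¹ := by group
      _ = cHom (⇑(QP m F)) h * Φ * (cHom (⇑(QP m F)) h)⁻¹ := by rw [hc]
  refine ⟨α⁻¹ * cHom (⇑(QP m F)) h * α, ?_, ?_⟩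
  · have h5 := presMap_conj_mem m hm α⁻¹ _ (Subgroup.mem_map_of_mem (cHom (⇑(QP m F))) hmem)
    rw [inv_inv] at h5
    exact h5
  · have e5 : δ * x = α⁻¹ * ((α * δ * α⁻¹) * (α * x * α⁻¹)) * α := by group
    rw [e5, ← hg, hαx, e4, ← hαx]
    group

set_option maxHeartbeats 1600000 in
/-- Field and graph-field automorphisms of prime order of `PΩ⁺_{2m}(q)`, `m ≥ 5`: an element of
the coset of the inner-diagonal group with the same order is conjugate under the inner-diagonal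
group. -/
theorem plus_field_coset_Q {m : ℕ} (hm : 5 ≤ m)
    (x δ : MulAut (Cfsg.POmega F (⇑(QP m F))))
    (hx : Cfsg.IsFieldAutClassPOmega (⇑(QP m F)) x ∨ Cfsg.IsGraphFieldAutClassPOmegaPlus m x)
    {r : ℕ} (hr : r.Prime) (hxr : orderOf x = r)
    (hδ : δ ∈ (presSub m F).map (cHom (⇑(QP m F))))
    (ho : orderOf (δ * x) = r) :
    Cfsg.IsConjUnder ((presSub m F).map (cHom (⇑(QP m F)))) x (δ * x) := by
  classical
  rcases hx with hx | hx
  · obtain ⟨α, φ, σ, hσ, hφ, hαx⟩ := hx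
    have hp1 : Cfsg.IsSemisimilarityPair (⇑(QP m F))
        (1 : Matrix.GeneralLinearGroup (Fin m ⊕ Fin m) F) σ := pair_plus_sigma (F := F) m σ
    have hi1 : Cfsg.IsInducedBySemilinearPOmega (⇑(QP m F))
        (1 : Matrix.GeneralLinearGroup (Fin m ⊕ Fin m) F) σ φ := by
      intro s s' hss'
      apply hφ s s'
      rw [hss', Units.val_one, inv_one, Units.val_one, Matrix.one_mul, Matrix.mul_one]
    exact plus_coset_core hm x δ α φ σ hσ 1 hp1 hi1 hαx hr hxr hδ ho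
  · obtain ⟨α, γ, φ, σ, v, rM, hσ, hv, hσv, hrM, hγ, hφ, hαx⟩ := hx
    have hp1 : Cfsg.IsSemisimilarityPair (⇑(QP m F))
        (1 : Matrix.GeneralLinearGroup (Fin m ⊕ Fin m) F) σ := pair_plus_sigma (F := F) m σ
    have hi1 : Cfsg.IsInducedBySemilinearPOmega (⇑(QP m F))
        (1 : Matrix.GeneralLinearGroup (Fin m ⊕ Fin m) F) σ φ := by
      intro s s' hss'
      apply hφ s s'
      rw [hss', Units.val_one, inv_one, Units.val_one, Matrix.one_mul, Matrix.mul_one]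
    obtain ⟨R, hR⟩ : ∃ R : ↥(Cfsg.Geo.quadSimilarityGroup (⇑(QP m F))),
        R = inclO (QP m F) (reflG (QP m F) v) := ⟨_, rfl⟩
    have hrR : rM = R.1 := by
      apply Units.ext
      rw [hrM, hR]
      rfl
    have hpR0 : Cfsg.IsSemisimilarityPair (⇑(QP m F)) R.1 (RingEquiv.refl F) := by
      obtain ⟨c, hc⟩ := R.2
      exact ⟨c, fun v => hc v⟩
    have hγ' : Cfsg.IsInducedBySemilinearPOmega (⇑(QP m F)) R.1 (RingEquiv.refl F) γ := by
      rw [← hrR]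
      exact hγ
    have e1 : (R.1 : Matrix.GeneralLinearGroup (Fin m ⊕ Fin m) F)
        * Matrix.GeneralLinearGroup.map ((RingEquiv.refl F : F ≃+* F) : F →+* F)
          (1 : Matrix.GeneralLinearGroup (Fin m ⊕ Fin m) F) = R.1 := by
      rw [map_one, mul_one]
    have e2 : (σ : F ≃+* F).trans (RingEquiv.refl F) = σ := RingEquiv.ext (fun _ => rfl)
    have hpR : Cfsg.IsSemisimilarityPair (⇑(QP m F)) R.1 σ := by
      have h := pair_mul hpR0 hp1
      rw [e1, e2] at h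
      exact h
    have hiR : Cfsg.IsInducedBySemilinearPOmega (⇑(QP m F)) R.1 σ (γ * φ) := by
      have h := induced_mul hγ' hi1 hp1
      rw [e1, e2] at h
      exact h
    exact plus_coset_core hm x δ α (γ * φ) σ hσ R hpR hiR hαx hr hxr hδ ho

set_option maxHeartbeats 1600000 in
theorem plus_field_coset {m : ℕ} (hm : 5 ≤ m)
    (x δ : MulAut (Cfsg.POmega F (Cfsg.quadFormPlus m F)))
    (hx : Cfsg.IsFieldAutClassPOmega (Cfsg.quadFormPlus m F) x
      ∨ Cfsg.IsGraphFieldAutClassPOmegaPlus m x)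
    {r : ℕ} (hr : r.Prime) (hxr : orderOf x = r) (hδ : δ ∈ Cfsg.inndiagPOmegaPlus m F)
    (ho : orderOf (δ * x) = r) :
    Cfsg.IsConjUnder (Cfsg.inndiagPOmegaPlus m F) x (δ * x) := by
  rw [inndiagPlus_eq_pres] at hδ ⊢
  have key := plus_field_coset_Q hm x δ hx hr hxr hδ ho
  exact key

end

end Cfsg.Agent.H49
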