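import Mathlib
import Cfsg.Agent.H49.PlusInn
import Cfsg.Agent.H49.AutOut1
import Cfsg.Agent.H49.PlusFieldFin

set_option autoImplicit false
set_option linter.unusedSectionVars false
set_option linter.unusedSimpArgs false
set_option linter.unusedVariables false

/-! Helper lemmas (helper49): the class character of the similarity group of the plus-type
form, the induced homomorphism on the automorphism group of `PΩ⁺`, and the coset of the
inner-diagonal group containing the involutory graph-field automorphisms. -/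

namespace Cfsg.Agent.H49

open Module Matrix

open Classical in
/-- The character of the similarity group with kernel the class-preserving similarities. -/
noncomputable def presChar (m : ℕ) (F : Type*) [Field F] :
    ↥(Cfsg.Geo.quadSimilarityGroup (⇑(QP m F))) →* ℤˣ :=
  MonoidHom.mk' (fun g => if g ∈ presSub m F then 1 else -1) (by
    intro a b
    have h := presSub_mul_iff m a b
    by_cases ha : a ∈ presSub m F
    · by_cases hb : b ∈ presSub m F
      · have hab : a * b ∈ presSub m F := h.mpr ⟨fun _ => hb, fun _ => ha⟩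
        simp only [if_pos ha, if_pos hb, if_pos hab, mul_one]
      · have hab : a * b ∉ presSub m F := fun h' => hb ((h.mp h').mp ha)
        simp only [if_pos ha, if_neg hb, if_neg hab, one_mul]
    · by_cases hb : b ∈ presSub m F
      · have hab : a * b ∉ presSub m F := fun h' => ha ((h.mp h').mpr hb)
        simp only [if_neg ha, if_pos hb, if_neg hab, mul_one]
      · have hab : a * b ∈ presSub m F :=
          h.mpr ⟨fun h' => absurd h' ha, fun h' => absurd h' hb⟩
        simp only [if_neg ha, if_neg hb, if_pos hab]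
        decide)

section
variable {F : Type*} [Field F] (m : ℕ)

theorem presChar_eq_one_iff (g : ↥(Cfsg.Geo.quadSimilarityGroup (⇑(QP m F)))) :
    presChar m F g = 1 ↔ g ∈ presSub m F := by
  classical
  show (if g ∈ presSub m F then (1 : ℤˣ) else -1) = 1 ↔ _
  by_cases h : g ∈ presSub m F
  · rw [if_pos h]
    exact ⟨fun _ => h, fun _ => rfl⟩
  · rw [if_neg h]
    exact ⟨fun h' => absurd h' (by decide), fun h' => absurd h' h⟩

theorem presChar_congr (a b : ↥(Cfsg.Geo.quadSimilarityGroup (⇑(QP m F))))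
    (h : a ∈ presSub m F ↔ b ∈ presSub m F) : presChar m F a = presChar m F b := by
  rcases Int.units_eq_one_or (presChar m F a) with ha | ha <;>
    rcases Int.units_eq_one_or (presChar m F b) with hb | hb
  · rw [ha, hb]
  · exfalso
    have := (presChar_eq_one_iff m b).mpr (h.mp ((presChar_eq_one_iff m a).mp ha))
    rw [hb] at this
    exact absurd this (by decide)
  · exfalso
    have := (presChar_eq_one_iff m a).mpr (h.mpr ((presChar_eq_one_iff m b).mp hb))
    rw [ha] at this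
    exact absurd this (by decide)
  · rw [ha, hb]

theorem presChar_scalSim (l : Fˣ) : presChar m F (scalSim (QP m F) l) = 1 :=
  (presChar_eq_one_iff m _).mpr (scalSim_mem_presSub m l)

theorem presChar_refl (v : Fin m ⊕ Fin m → F) (hv : QP m F v ≠ 0) :
    presChar m F (inclO (QP m F) (reflG (QP m F) v)) = -1 := by
  rcases Int.units_eq_one_or (presChar m F (inclO (QP m F) (reflG (QP m F) v))) with h | h
  · exact absurd ((presChar_eq_one_iff m _).mp h) (refl_not_mem_presSub m v hv)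
  · exact h

/-- The matrix of a semisimilarity of the plus-type form is a similarity. -/
theorem pair_mem_sim (h : Matrix.GeneralLinearGroup (Fin m ⊕ Fin m) F) (τ : F ≃+* F)
    (hp : Cfsg.IsSemisimilarityPair (⇑(QP m F)) h τ) :
    h ∈ Cfsg.Geo.quadSimilarityGroup (⇑(QP m F)) := by
  obtain ⟨c, hc⟩ := hp
  refine ⟨c, fun w => ?_⟩
  have e : w = fun i => τ ((fun i => τ.symm (w i)) i) := by
    funext i
    simp
  have h1 := hc (fun i => τ.symm (w i))
  rw [← e] at h1
  rw [h1, ← QP_sigma m τ, ← e]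

end

section
variable {F : Type*} [Field F] [Fintype F] (m : ℕ)

theorem presChar_map (σ : F ≃+* F) (g : ↥(Cfsg.Geo.quadSimilarityGroup (⇑(QP m F))))
    (h : Matrix.GeneralLinearGroup.map (σ : F →+* F) g.1
      ∈ Cfsg.Geo.quadSimilarityGroup (⇑(QP m F))) :
    presChar m F ⟨Matrix.GeneralLinearGroup.map (σ : F →+* F) g.1, h⟩ = presChar m F g := by
  apply presChar_congr
  exact pres_map_sigma m σ g ⟨Matrix.GeneralLinearGroup.map (σ : F →+* F) g.1, h⟩ rfl

theorem pairChar_mul {g₁ g₂ : Matrix.GeneralLinearGroup (Fin m ⊕ Fin m) F} {σ₁ σ₂ : F ≃+* F}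
    (h₁ : Cfsg.IsSemisimilarityPair (⇑(QP m F)) g₁ σ₁)
    (h₂ : Cfsg.IsSemisimilarityPair (⇑(QP m F)) g₂ σ₂) :
    presChar m F ⟨g₁ * Matrix.GeneralLinearGroup.map (σ₁ : F →+* F) g₂,
        pair_mem_sim m _ _ (pair_mul h₁ h₂)⟩
      = presChar m F ⟨g₁, pair_mem_sim m _ _ h₁⟩ * presChar m F ⟨g₂, pair_mem_sim m _ _ h₂⟩ := by
  have hm2 : Matrix.GeneralLinearGroup.map (σ₁ : F →+* F) g₂
      ∈ Cfsg.Geo.quadSimilarityGroup (⇑(QP m F)) := by
    have := Subgroup.mul_mem _ (Subgroup.inv_mem _ (pair_mem_sim m _ _ h₁))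
      (pair_mem_sim m _ _ (pair_mul h₁ h₂))
    rwa [inv_mul_cancel_left] at this
  have e : (⟨g₁ * Matrix.GeneralLinearGroup.map (σ₁ : F →+* F) g₂,
        pair_mem_sim m _ _ (pair_mul h₁ h₂)⟩ : ↥(Cfsg.Geo.quadSimilarityGroup (⇑(QP m F))))
      = ⟨g₁, pair_mem_sim m _ _ h₁⟩ * ⟨Matrix.GeneralLinearGroup.map (σ₁ : F →+* F) g₂, hm2⟩ :=
    Subtype.ext rfl
  rw [e, map_mul]
  congr 1
  exact presChar_map m σ₁ ⟨g₂, pair_mem_sim m _ _ h₂⟩ hm2

theorem pairChar_inv {g : Matrix.GeneralLinearGroup (Fin m ⊕ Fin m) F} {σ : F ≃+* F}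
    (h : Cfsg.IsSemisimilarityPair (⇑(QP m F)) g σ) :
    presChar m F ⟨Matrix.GeneralLinearGroup.map (σ.symm : F →+* F) g⁻¹,
        pair_mem_sim m _ _ (pair_inv h)⟩
      = presChar m F ⟨g, pair_mem_sim m _ _ h⟩ := by
  have hinv : g⁻¹ ∈ Cfsg.Geo.quadSimilarityGroup (⇑(QP m F)) :=
    Subgroup.inv_mem _ (pair_mem_sim m _ _ h)
  refine (presChar_map m σ.symm ⟨g⁻¹, hinv⟩ (pair_mem_sim m _ _ (pair_inv h))).trans ?_
  have e : (⟨g⁻¹, hinv⟩ : ↥(Cfsg.Geo.quadSimilarityGroup (⇑(QP m F))))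
      = (⟨g, pair_mem_sim m _ _ h⟩ : ↥(Cfsg.Geo.quadSimilarityGroup (⇑(QP m F))))⁻¹ :=
    Subtype.ext rfl
  rw [e, map_inv, Int.units_inv_eq_self]

/-- The class character of a semisimilarity depends only on the induced automorphism. -/
theorem pairChar_unique (hm : 3 ≤ m) {g g' : Matrix.GeneralLinearGroup (Fin m ⊕ Fin m) F}
    {σ σ' : F ≃+* F} {β : MulAut (Cfsg.POmega F (⇑(QP m F)))}
    (hp : Cfsg.IsSemisimilarityPair (⇑(QP m F)) g σ)
    (hi : Cfsg.IsInducedBySemilinearPOmega (⇑(QP m F)) g σ β)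
    (hp' : Cfsg.IsSemisimilarityPair (⇑(QP m F)) g' σ')
    (hi' : Cfsg.IsInducedBySemilinearPOmega (⇑(QP m F)) g' σ' β) :
    presChar m F ⟨g, pair_mem_sim m _ _ hp⟩ = presChar m F ⟨g', pair_mem_sim m _ _ hp'⟩ := by
  classical
  have hσ : σ = σ' := sigma_unique (QP m F) (QP_nondeg m F) (hasTS3_QP m hm) hp hi hp' hi'
  subst hσ
  have p2 := pair_inv hp'
  have i2 := induced_inv hi'
  have p3 := pair_mul hp p2
  have i3 := induced_mul hi i2 p2
  rw [mul_inv_cancel] at i3
  have e : σ.symm.trans σ = RingEquiv.refl F := RingEquiv.ext (fun x => σ.apply_symm_apply x)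
  have h1 := pairChar_mul m hp p2
  rw [pairChar_inv m hp'] at h1
  have h2 : presChar m F ⟨g * Matrix.GeneralLinearGroup.map (σ : F →+* F)
      (Matrix.GeneralLinearGroup.map (σ.symm : F →+* F) g'⁻¹), pair_mem_sim m _ _ p3⟩ = 1 := by
    have i4 : Cfsg.IsInducedBySemilinearPOmega (⇑(QP m F))
        (g * Matrix.GeneralLinearGroup.map (σ : F →+* F)
          (Matrix.GeneralLinearGroup.map (σ.symm : F →+* F) g'⁻¹)) (RingEquiv.refl F)
        (1 : MulAut (Cfsg.POmega F (⇑(QP m F)))) := by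
      rw [← e]
      exact i3
    have h5 := (isInduced_iff (⇑(QP m F)) ⟨_, pair_mem_sim m _ _ p3⟩ 1).mp i4
    have h6 : cHom (⇑(QP m F)) ⟨_, pair_mem_sim m _ _ p3⟩ = 1 := h5.symm
    obtain ⟨l, hl⟩ := eq_scalSim_of_cHom_eq_one (QP m F) (QP_nondeg m F) (hasTS3_QP m hm)
      (QP_ne m hm) _ h6
    rw [hl]
    exact presChar_scalSim m l
  rw [h2] at h1
  have h3 : presChar m F ⟨g, pair_mem_sim m _ _ hp⟩
      = (presChar m F ⟨g', pair_mem_sim m _ _ hp'⟩)⁻¹ := eq_inv_of_mul_eq_one_left h1.symm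
  rw [h3, Int.units_inv_eq_self]

/-- The class homomorphism on the automorphism group. -/
theorem exists_clsHom (hm : 3 ≤ m)
    (htop : ∀ β : MulAut (Cfsg.POmega F (⇑(QP m F))), β ∈ Cfsg.gammaPOmega F (⇑(QP m F))) :
    ∃ κ : MulAut (Cfsg.POmega F (⇑(QP m F))) →* ℤˣ,
      ∀ (β : MulAut (Cfsg.POmega F (⇑(QP m F))))
        (g : Matrix.GeneralLinearGroup (Fin m ⊕ Fin m) F) (σ : F ≃+* F)
        (hp : Cfsg.IsSemisimilarityPair (⇑(QP m F)) g σ),
        Cfsg.IsInducedBySemilinearPOmega (⇑(QP m F)) g σ β →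
        κ β = presChar m F ⟨g, pair_mem_sim m g σ hp⟩ := by
  classical
  have hex : ∀ β : MulAut (Cfsg.POmega F (⇑(QP m F))), ∃ σ : F ≃+* F,
      ∃ g : Matrix.GeneralLinearGroup (Fin m ⊕ Fin m) F,
        Cfsg.IsSemisimilarityPair (⇑(QP m F)) g σ ∧
        Cfsg.IsInducedBySemilinearPOmega (⇑(QP m F)) g σ β := by
    intro β
    obtain ⟨g, σ, hp, hi⟩ := exists_pair_of_mem_gamma (⇑(QP m F)) β (htop β)
    exact ⟨σ, g, hp, hi⟩
  choose sg gg hsg using hex
  have hspec : ∀ (β : MulAut (Cfsg.POmega F (⇑(QP m F))))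
      (g : Matrix.GeneralLinearGroup (Fin m ⊕ Fin m) F) (σ : F ≃+* F)
      (hp : Cfsg.IsSemisimilarityPair (⇑(QP m F)) g σ),
      Cfsg.IsInducedBySemilinearPOmega (⇑(QP m F)) g σ β →
      presChar m F ⟨gg β, pair_mem_sim m _ _ (hsg β).1⟩
        = presChar m F ⟨g, pair_mem_sim m g σ hp⟩ :=
    fun β g σ hp hi => pairChar_unique m hm (hsg β).1 (hsg β).2 hp hi
  refine ⟨MonoidHom.mk' (fun β => presChar m F ⟨gg β, pair_mem_sim m _ _ (hsg β).1⟩) ?_, hspec⟩
  intro β₁ β₂
  have h := hspec (β₁ * β₂) _ _ (pair_mul (hsg β₁).1 (hsg β₂).1)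
    (induced_mul (hsg β₁).2 (hsg β₂).2 (hsg β₂).1)
  exact h.trans (pairChar_mul m (hsg β₁).1 (hsg β₂).1)

end

end Cfsg.Agent.H49
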