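import Mathlib
import Cfsg.Agent.H49.SumForm
import Cfsg.Agent.H49.CD
import Cfsg.Agent.H49.CD2
import Cfsg.Agent.H49.Invol
import Cfsg.Agent.H49.Omega2

set_option autoImplicit false

namespace Cfsg.Agent.H49

open Module Matrix

section
variable {ι : Type} [Fintype ι] [DecidableEq ι] {F : Type*} [Field F]

omit [Fintype ι] [DecidableEq ι] in
theorem swap_sumQ (Q : QuadraticForm F (ι → F)) (v : ι ⊕ ι → F) :
    sumQ Q Q (v ∘ Equiv.sumComm ι ι) = sumQ Q Q v := by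
  rw [sumQ_apply, sumQ_apply, add_comm]
  rfl

/-- The isometry of `Q ⊕ Q` swapping the two summands. -/
def swapIso (Q : QuadraticForm F (ι → F)) : ↥(Cfsg.isometryGroup F (⇑(sumQ Q Q))) :=
  permIso (⇑(sumQ Q Q)) (Equiv.sumComm ι ι) (swap_sumQ Q)

theorem swapIso_mulVec (Q : QuadraticForm F (ι → F)) (v : ι ⊕ ι → F) :
    (((swapIso Q : ↥(Cfsg.isometryGroup F (⇑(sumQ Q Q)))) : Matrix.GeneralLinearGroup (ι ⊕ ι) F) :
      Matrix (ι ⊕ ι) (ι ⊕ ι) F) *ᵥ v = v ∘ Equiv.sumComm ι ι :=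
  permIso_mulVec _ _ _ v

theorem swapIso_mul (Q : QuadraticForm F (ι → F)) (g : ↥(Cfsg.isometryGroup F (⇑Q))) :
    swapIso Q * blockIsoQ Q Q (g, 1) = blockIsoQ Q Q (1, g) * swapIso Q := by
  apply isometry_ext
  intro x
  rw [coe_mul_mulVec, coe_mul_mulVec, swapIso_mulVec, swapIso_mulVec]
  funext k
  rcases k with i | i
  · have h1 := congrFun (blockIsoQ_mulVec_inr Q Q (g, 1) x) i
    have h2 := congrFun (blockIsoQ_mulVec_inl Q Q (1, g) (x ∘ Equiv.sumComm ι ι)) i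
    rw [one_coe_mulVec] at h1 h2
    exact h1.trans h2.symm
  · have h1 := congrFun (blockIsoQ_mulVec_inl Q Q (g, 1) x) i
    have h2 := congrFun (blockIsoQ_mulVec_inr Q Q (1, g) (x ∘ Equiv.sumComm ι ι)) i
    exact h1.trans h2.symm

/-- If `O(Q ⊕ Q)` is generated by reflections then `diag(g, g)` lies in its commutator
subgroup. -/
theorem diag_mem_commutator (Q : QuadraticForm F (ι → F))
    (hgen : Subgroup.closure (reflSet (sumQ Q Q)) = ⊤) (g : ↥(Cfsg.isometryGroup F (⇑Q))) :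
    blockIsoQ Q Q (g, g) ∈ commutator ↥(Cfsg.isometryGroup F (⇑(sumQ Q Q))) := by
  have key := mul_conj_mem_commutator (reflSet (sumQ Q Q)) (reflSet_invol _) hgen
    (blockIsoQ Q Q (g, 1)) (swapIso Q)
  have e : blockIsoQ Q Q (g, 1) * swapIso Q * blockIsoQ Q Q (g, 1) * (swapIso Q)⁻¹
      = blockIsoQ Q Q (g, g) := by
    rw [mul_assoc (blockIsoQ Q Q (g, 1)) (swapIso Q), swapIso_mul, ← mul_assoc,
      mul_inv_cancel_right, ← map_mul, Prod.mk_mul_mk, mul_one, one_mul]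
  rw [e] at key
  exact key

/-- `diag(g, g) ∈ Ω(Q ⊕ Q)` over a finite field, excluding `O⁺₄(2)`. -/
theorem diag_mem_commutator_finite [Fintype F] (Q : QuadraticForm F (ι → F))
    (hQ : (QuadraticMap.polarBilin Q).Nondegenerate)
    (hex : Fintype.card F ≠ 2 ∨ Fintype.card ι ≠ 2) (g : ↥(Cfsg.isometryGroup F (⇑Q))) :
    blockIsoQ Q Q (g, g) ∈ commutator ↥(Cfsg.isometryGroup F (⇑(sumQ Q Q))) := by
  apply diag_mem_commutator
  by_cases h2 : (2 : F) = 0
  · refine closure_reflSet_eq_top_two (sumQ Q Q) h2 (sumQ_nondeg hQ hQ)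
      (m := Fintype.card ι) ?_ hex
    rw [finrank_sum_fun, two_mul]
  · exact closure_reflSet_eq_top (sumQ Q Q) h2 (sumQ_nondeg hQ hQ)

end

end Cfsg.Agent.H49
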