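import Mathlib
import Cfsg.Agent.H49.FieldCent

set_option autoImplicit false
set_option linter.unusedSectionVars false
set_option linter.unusedSimpArgs false
set_option linter.unusedVariables false

/-! Helper lemmas (helper49): the centraliser of the standard field automorphism in the image
of a subgroup of the similarity group which is compatible with base change. -/

namespace Cfsg.Agent.H49

open Module Matrix GalDesc

section
variable {ι : Type} [Fintype ι] [DecidableEq ι] {F₀ : Type*} {F : Type*} [Field F₀] [Field F]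
  [Fintype F₀] [Fintype F]

/-- A similarity over the small field induces the identity over the big field iff it induces
the identity over the small field. -/
theorem cHom_bcSim_eq_one_iff [Nonempty ι] {j : F₀ →+* F} {Q₀ : QuadraticForm F₀ (ι → F₀)}
    {Q : QuadraticForm F (ι → F)} (hc : FormCompat j Q₀ Q)
    (hQ : (QuadraticMap.polarBilin Q).Nondegenerate) (h3 : HasTS3 Q) (hne : ∃ v, Q v ≠ 0)
    (hQ₀ : (QuadraticMap.polarBilin Q₀).Nondegenerate) (h3₀ : HasTS3 Q₀) (hne₀ : ∃ v, Q₀ v ≠ 0)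
    (g₀ : ↥(Cfsg.Geo.quadSimilarityGroup (⇑Q₀))) :
    cHom (⇑Q) (bcSim hc g₀) = 1 ↔ cHom (⇑Q₀) g₀ = 1 := by
  classical
  constructor
  · intro h1
    obtain ⟨l, hl⟩ := eq_scalSim_of_cHom_eq_one Q hQ h3 hne _ h1
    have hmat : ((g₀ : Matrix.GeneralLinearGroup ι F₀) : Matrix ι ι F₀).map j
        = (l : F) • (1 : Matrix ι ι F) := by
      have := congrArg (fun x : ↥(Cfsg.Geo.quadSimilarityGroup (⇑Q)) =>
        ((x : Matrix.GeneralLinearGroup ι F) : Matrix ι ι F)) hl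
      rw [← scalGL_coe, ← bcSim_val hc]
      exact this
    obtain ⟨i₀⟩ := ‹Nonempty ι›
    obtain ⟨l₀, hl₀⟩ : ∃ l₀ : F₀, l₀ = ((g₀ : Matrix.GeneralLinearGroup ι F₀) : Matrix ι ι F₀)
        i₀ i₀ := ⟨_, rfl⟩
    have hjl : j l₀ = l := by
      have := congrFun (congrFun hmat i₀) i₀
      rw [Matrix.map_apply, Matrix.smul_apply, Matrix.one_apply_eq, smul_eq_mul, mul_one] at this
      rw [hl₀]
      exact this
    have hl₀0 : l₀ ≠ 0 := by
      rintro rfl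
      rw [map_zero] at hjl
      exact l.ne_zero hjl.symm
    have hg : g₀ = scalSim Q₀ (Units.mk0 l₀ hl₀0) := by
      apply Subtype.ext
      apply Units.ext
      show ((g₀ : Matrix.GeneralLinearGroup ι F₀) : Matrix ι ι F₀)
        = ((scalGL ι (Units.mk0 l₀ hl₀0) : Matrix.GeneralLinearGroup ι F₀) : Matrix ι ι F₀)
      rw [scalGL_coe, Units.val_mk0]
      ext i k
      apply j.injective
      have := congrFun (congrFun hmat i) k
      rw [Matrix.map_apply, Matrix.smul_apply, smul_eq_mul] at this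
      rw [this, Matrix.smul_apply, smul_eq_mul, map_mul, hjl]
      by_cases hik : i = k
      · subst hik
        rw [Matrix.one_apply_eq, Matrix.one_apply_eq, map_one]
      · rw [Matrix.one_apply_ne hik, Matrix.one_apply_ne hik, map_zero]
    rw [hg, cHom_scalSim]
  · intro h1
    obtain ⟨l₀, hl₀⟩ := eq_scalSim_of_cHom_eq_one Q₀ hQ₀ h3₀ hne₀ _ h1
    have hg : bcSim hc g₀ = scalSim Q (Units.map (j : F₀ →* F) l₀) := by
      apply Subtype.ext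
      apply Units.ext
      rw [bcSim_val, hl₀]
      show ((scalGL ι l₀ : Matrix.GeneralLinearGroup ι F₀) : Matrix ι ι F₀).map j
        = ((scalGL ι (Units.map (j : F₀ →* F) l₀) : Matrix.GeneralLinearGroup ι F) :
          Matrix ι ι F)
      rw [scalGL_coe, scalGL_coe]
      ext i k
      rw [Matrix.map_apply, Matrix.smul_apply, Matrix.smul_apply, smul_eq_mul, smul_eq_mul,
        map_mul]
      by_cases hik : i = k
      · subst hik
        rw [Matrix.one_apply_eq, Matrix.one_apply_eq, map_one]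
        rfl
      · rw [Matrix.one_apply_ne hik, Matrix.one_apply_ne hik, map_zero, mul_zero, mul_zero]
    rw [hg, cHom_scalSim]

set_option maxHeartbeats 1600000 in
/-- The centraliser of the standard field automorphism in the image of a subgroup of the
similarity group compatible with base change is the image of the corresponding subgroup over
the fixed field. -/
theorem cent_phi_equiv_sub [Nonempty ι] {j : F₀ →+* F} {Q₀ : QuadraticForm F₀ (ι → F₀)}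
    {Q : QuadraticForm F (ι → F)} (hc : FormCompat j Q₀ Q)
    (hQ : (QuadraticMap.polarBilin Q).Nondegenerate) (h3 : HasTS3 Q) (hne : ∃ v, Q v ≠ 0)
    (hQ₀ : (QuadraticMap.polarBilin Q₀).Nondegenerate) (h3₀ : HasTS3 Q₀) (hne₀ : ∃ v, Q₀ v ≠ 0)
    (σ : RingAut F) {r : ℕ} (hr : orderOf σ = r) (hr0 : 0 < r)
    (hj : ∀ a : F, σ a = a ↔ ∃ a₀ : F₀, j a₀ = a)
    (hσQ : ∀ v : ι → F, Q (fun i => σ (v i)) = σ (Q v))
    (hp1 : Cfsg.IsSemisimilarityPair (⇑Q) (1 : Matrix.GeneralLinearGroup ι F) σ)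
    {φ : MulAut (Cfsg.POmega F (⇑Q))}
    (hi1 : Cfsg.IsInducedBySemilinearPOmega (⇑Q) (1 : Matrix.GeneralLinearGroup ι F) σ φ)
    (Kp : Subgroup ↥(Cfsg.Geo.quadSimilarityGroup (⇑Q)))
    (Kp₀ : Subgroup ↥(Cfsg.Geo.quadSimilarityGroup (⇑Q₀)))
    (hscal : ∀ l : Fˣ, scalSim Q l ∈ Kp)
    (hcompat : ∀ g₀ : ↥(Cfsg.Geo.quadSimilarityGroup (⇑Q₀)), g₀ ∈ Kp₀ ↔ bcSim hc g₀ ∈ Kp) :
    (∀ g₀ ∈ Kp₀, cHom (⇑Q) (bcSim hc g₀)
      ∈ Kp.map (cHom (⇑Q)) ⊓ Subgroup.centralizer {φ}) ∧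
    Nonempty (↥(Kp.map (cHom (⇑Q)) ⊓ Subgroup.centralizer {φ}) ≃* ↥(Kp₀.map (cHom (⇑Q₀)))) := by
  classical
  have hmem : ∀ g₀ ∈ Kp₀, cHom (⇑Q) (bcSim hc g₀)
      ∈ Kp.map (cHom (⇑Q)) ⊓ Subgroup.centralizer {φ} := by
    intro g₀ hg₀
    have h1 := bc_mem_cent hc σ hj hp1 hi1 g₀
    rw [Subgroup.mem_inf] at h1 ⊢
    exact ⟨⟨bcSim hc g₀, (hcompat g₀).mp hg₀, rfl⟩, h1.2⟩
  have hsurj : ∀ y ∈ Kp.map (cHom (⇑Q)) ⊓ Subgroup.centralizer {φ},
      ∃ g₀ ∈ Kp₀, cHom (⇑Q) (bcSim hc g₀) = y := by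
    intro y hy
    rw [Subgroup.mem_inf] at hy
    obtain ⟨⟨h, hh, rfl⟩, hy2⟩ := hy
    rw [Subgroup.mem_centralizer_iff] at hy2
    have hcomm := hy2 φ rfl
    obtain ⟨e, he0, he⟩ := fixed_of_cent Q hQ h3 hne σ hr hr0 hp1 hi1 h hcomm
    have hval : (((scalSim Q (Units.mk0 e he0) * h : ↥(Cfsg.Geo.quadSimilarityGroup (⇑Q))) :
        Matrix.GeneralLinearGroup ι F) : Matrix ι ι F)
        = e • ((h : Matrix.GeneralLinearGroup ι F) : Matrix ι ι F) := by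
      show ((scalGL ι (Units.mk0 e he0) : Matrix.GeneralLinearGroup ι F) : Matrix ι ι F)
        * ((h : Matrix.GeneralLinearGroup ι F) : Matrix ι ι F) = _
      rw [scalGL_coe, Units.val_mk0, Matrix.smul_mul, Matrix.one_mul]
    obtain ⟨g₀, hg₀⟩ := exists_bc_of_fixed hc hne σ hj hσQ (scalSim Q (Units.mk0 e he0) * h)
      (by rw [hval]; exact he)
    refine ⟨g₀, ?_, ?_⟩
    · rw [hcompat, hg₀]
      exact Subgroup.mul_mem _ (hscal _) hh
    · rw [hg₀, map_mul, cHom_scalSim, one_mul]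
  refine ⟨hmem, ?_⟩
  obtain ⟨Φ, hΦ⟩ : ∃ Φ : ↥Kp₀ →* ↥(Kp.map (cHom (⇑Q)) ⊓ Subgroup.centralizer {φ}),
      ∀ g₀ : ↥Kp₀, ((Φ g₀ : ↥(Kp.map (cHom (⇑Q)) ⊓ Subgroup.centralizer {φ})) :
        MulAut (Cfsg.POmega F (⇑Q))) = cHom (⇑Q) (bcSim hc g₀.1) :=
    ⟨((cHom (⇑Q)).comp ((bcSim hc).comp Kp₀.subtype)).codRestrict _
      (fun g₀ => hmem g₀.1 g₀.2), fun g₀ => rfl⟩
  obtain ⟨Ψ₀, hΨ₀⟩ : ∃ Ψ₀ : ↥Kp₀ →* ↥(Kp₀.map (cHom (⇑Q₀))),
      ∀ g₀ : ↥Kp₀, ((Ψ₀ g₀ : ↥(Kp₀.map (cHom (⇑Q₀)))) : MulAut (Cfsg.POmega F₀ (⇑Q₀)))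
        = cHom (⇑Q₀) g₀.1 :=
    ⟨((cHom (⇑Q₀)).comp Kp₀.subtype).codRestrict _ (fun g₀ => ⟨g₀.1, g₀.2, rfl⟩),
      fun g₀ => rfl⟩
  have hΦsurj : Function.Surjective Φ := by
    rintro ⟨y, hy⟩
    obtain ⟨g₀, hg₀m, hg₀⟩ := hsurj y hy
    exact ⟨⟨g₀, hg₀m⟩, Subtype.ext ((hΦ ⟨g₀, hg₀m⟩).trans hg₀)⟩
  have hΨ₀surj : Function.Surjective Ψ₀ := by
    rintro ⟨y, ⟨g₀, hg₀m, hg₀⟩⟩
    exact ⟨⟨g₀, hg₀m⟩, Subtype.ext ((hΨ₀ ⟨g₀, hg₀m⟩).trans hg₀)⟩
  have hker : Φ.ker = Ψ₀.ker := by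
    ext g₀
    rw [MonoidHom.mem_ker, MonoidHom.mem_ker, Subtype.ext_iff, Subtype.ext_iff, hΦ, hΨ₀]
    exact cHom_bcSim_eq_one_iff hc hQ h3 hne hQ₀ h3₀ hne₀ g₀.1
  exact equiv_of_surj_same_ker Φ Ψ₀ hΦsurj hΨ₀surj hker

end

end Cfsg.Agent.H49
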