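import Mathlib
import Cfsg.Agent.H49.ClsHom
import Cfsg.Agent.H49.FieldAutCyc

set_option autoImplicit false
set_option linter.unusedSectionVars false
set_option linter.unusedSimpArgs false
set_option linter.unusedVariables false

/-! Helper lemmas (helper49): involutory graph-field automorphisms of the plus-type orthogonal
groups lie in one coset of the inner-diagonal group and are conjugate under it. -/

namespace Cfsg.Agent.H49

open Module Matrix

/-- A finite cyclic group has at most one involution. -/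
theorem invol_unique {G : Type*} [Group G] [Finite G] [IsCyclic G] (a b : G)
    (ha : orderOf a = 2) (hb : orderOf b = 2) : a = b := by
  classical
  have : Fintype G := Fintype.ofFinite G
  by_contra hne
  have h := IsCyclic.card_pow_eq_one_le (α := G) (n := 2) (by norm_num)
  have ha1 : a ≠ 1 := by
    rintro rfl
    rw [orderOf_one] at ha
    omega
  have hb1 : b ≠ 1 := by
    rintro rfl
    rw [orderOf_one] at hb
    omega
  have ha2 : a ^ 2 = 1 := by
    rw [← ha]
    exact pow_orderOf_eq_one a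
  have hb2 : b ^ 2 = 1 := by
    rw [← hb]
    exact pow_orderOf_eq_one b
  have hsub : ({1, a, b} : Finset G) ⊆ Finset.univ.filter (fun x : G => x ^ 2 = 1) := by
    intro x hx
    simp only [Finset.mem_insert, Finset.mem_singleton] at hx
    rw [Finset.mem_filter]
    refine ⟨Finset.mem_univ _, ?_⟩
    rcases hx with rfl | rfl | rfl
    · exact one_pow 2
    · exact ha2
    · exact hb2
  have hcard : ({1, a, b} : Finset G).card = 3 := by
    rw [Finset.card_insert_of_notMem, Finset.card_insert_of_notMem, Finset.card_singleton]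
    · simpa using hne
    · simp only [Finset.mem_insert, Finset.mem_singleton]
      push Not
      exact ⟨ha1.symm, hb1.symm⟩
  have := Finset.card_le_card hsub
  omega

section
variable {F : Type*} [Field F] [Fintype F]

/-- The data of a graph-field automorphism: a conjugate is induced by a reflection composed
with a field automorphism. -/
theorem gf_data {m : ℕ} (x : MulAut (Cfsg.POmega F (⇑(QP m F))))
    (hx : Cfsg.IsGraphFieldAutClassPOmegaPlus m x) :
    ∃ (α Φ : MulAut (Cfsg.POmega F (⇑(QP m F)))) (σ : RingAut F) (v : Fin m ⊕ Fin m → F),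
      σ ≠ 1 ∧ QP m F v ≠ 0 ∧ (∀ i, σ (v i) = v i) ∧
      Cfsg.IsSemisimilarityPair (⇑(QP m F)) (inclO (QP m F) (reflG (QP m F) v)).1 σ ∧
      Cfsg.IsInducedBySemilinearPOmega (⇑(QP m F)) (inclO (QP m F) (reflG (QP m F) v)).1 σ Φ ∧
      α * x * α⁻¹ = Φ := by
  classical
  obtain ⟨α, γ, φ, σ, v, rM, hσ, hv, hσv, hrM, hγ, hφ, hαx⟩ := hx
  have hp1 : Cfsg.IsSemisimilarityPair (⇑(QP m F))
      (1 : Matrix.GeneralLinearGroup (Fin m ⊕ Fin m) F) σ := pair_plus_sigma (F := F) m σ
  have hi1 : Cfsg.IsInducedBySemilinearPOmega (⇑(QP m F))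
      (1 : Matrix.GeneralLinearGroup (Fin m ⊕ Fin m) F) σ φ := by
    intro s s' hss'
    apply hφ s s'
    rw [hss', Units.val_one, inv_one, Units.val_one, Matrix.one_mul, Matrix.mul_one]
  obtain ⟨R, hR⟩ : ∃ R : ↥(Cfsg.Geo.quadSimilarityGroup (⇑(QP m F))),
      R = inclO (QP m F) (reflG (QP m F) v) := ⟨_, rfl⟩
  have hrR : rM = R.1 := by
    apply Units.ext
    rw [hrM, hR]
    rfl
  have hpR0 : Cfsg.IsSemisimilarityPair (⇑(QP m F)) R.1 (RingEquiv.refl F) := by
    obtain ⟨c, hc⟩ := R.2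
    exact ⟨c, fun v => hc v⟩
  have hγ' : Cfsg.IsInducedBySemilinearPOmega (⇑(QP m F)) R.1 (RingEquiv.refl F) γ := by
    rw [← hrR]
    exact hγ
  have e1 : (R.1 : Matrix.GeneralLinearGroup (Fin m ⊕ Fin m) F)
      * Matrix.GeneralLinearGroup.map ((RingEquiv.refl F : F ≃+* F) : F →+* F)
        (1 : Matrix.GeneralLinearGroup (Fin m ⊕ Fin m) F) = R.1 := by
    rw [map_one, mul_one]
  have e2 : (σ : F ≃+* F).trans (RingEquiv.refl F) = σ := RingEquiv.ext (fun _ => rfl)
  have hpR : Cfsg.IsSemisimilarityPair (⇑(QP m F)) R.1 σ := by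
    have h := pair_mul hpR0 hp1
    rw [e1, e2] at h
    exact h
  have hiR : Cfsg.IsInducedBySemilinearPOmega (⇑(QP m F)) R.1 σ (γ * φ) := by
    have h := induced_mul hγ' hi1 hp1
    rw [e1, e2] at h
    exact h
  rw [hR] at hpR hiR
  exact ⟨α, γ * φ, σ, v, hσ, hv, hσv, hpR, hiR, hαx⟩

set_option maxHeartbeats 1600000 in
/-- Two involutory graph-field automorphisms differ by an inner-diagonal automorphism. -/
theorem gf_same_coset {p f : ℕ} [Fact p.Prime] (hF : Fintype.card F = p ^ f) (hf : 1 ≤ f)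
    {m : ℕ} (hm : 5 ≤ m) (x y : MulAut (Cfsg.POmega F (⇑(QP m F))))
    (hx : Cfsg.IsGraphFieldAutClassPOmegaPlus m x) (hx2 : orderOf x = 2)
    (hy : Cfsg.IsGraphFieldAutClassPOmegaPlus m y) (hy2 : orderOf y = 2) :
    y * x⁻¹ ∈ (presSub m F).map (cHom (⇑(QP m F))) := by
  classical
  have hQ := QP_nondeg m F
  have h3 := hasTS3_QP (F := F) m (by omega)
  have hne := QP_ne (F := F) m (by omega)
  have htop : ∀ β : MulAut (Cfsg.POmega F (⇑(QP m F))),
      β ∈ Cfsg.gammaPOmega F (⇑(QP m F)) := by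
    intro β
    have ht : Cfsg.gammaPOmega F (⇑(QP m F)) = ⊤ := gamma_top_plus hm
    rw [ht]
    exact Subgroup.mem_top β
  obtain ⟨Ψ, hΨ⟩ := exists_sigHom (QP m F) hQ h3 htop
  obtain ⟨κ, hκ⟩ := exists_clsHom m (by omega) htop
  obtain ⟨hcyc, hcard⟩ := ringAut_card (F := F) p f hf hF
  have hinv : ∀ z : MulAut (Cfsg.POmega F (⇑(QP m F))),
      Cfsg.IsGraphFieldAutClassPOmegaPlus m z → orderOf z = 2 →
      κ z = -1 ∧ orderOf (Ψ z) = 2 := by
    intro z hz hz2
    obtain ⟨α, Φ, σ, v, hσ, hv, hσv, hpR, hiR, hαz⟩ := gf_data z hz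
    have hκΦ : κ Φ = -1 := by
      rw [hκ Φ _ σ hpR hiR]
      exact presChar_refl m v hv
    have hΨΦ : Ψ Φ = σ := hΨ Φ _ σ hpR hiR
    have hκz : κ Φ = κ z := by
      rw [← hαz, map_mul, map_mul, map_inv, mul_right_comm, mul_inv_cancel, one_mul]
    refine ⟨hκz.symm.trans hκΦ, ?_⟩
    have hz1 : z ^ 2 = 1 := by
      rw [← hz2]
      exact pow_orderOf_eq_one z
    have hΨz2 : Ψ z ^ 2 = 1 := by rw [← map_pow, hz1, map_one]
    have hΨz1 : Ψ z ≠ 1 := by
      intro h
      apply hσ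
      rw [← hΨΦ, ← hαz, map_mul, map_mul, h, mul_one, map_inv, mul_inv_cancel]
    have : Fact (Nat.Prime 2) := ⟨Nat.prime_two⟩
    exact orderOf_eq_prime hΨz2 hΨz1
  obtain ⟨hκx, hΨx⟩ := hinv x hx hx2
  obtain ⟨hκy, hΨy⟩ := hinv y hy hy2
  have hfin : Finite (RingAut F) :=
    Finite.of_injective (fun e : RingAut F => (e : F → F)) DFunLike.coe_injective
  have hΨeq : Ψ x = Ψ y := invol_unique _ _ hΨx hΨy
  have hΨ1 : Ψ (y * x⁻¹) = 1 := by rw [map_mul, map_inv, hΨeq, mul_inv_cancel]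
  have hκ1 : κ (y * x⁻¹) = 1 := by
    rw [map_mul, map_inv, hκx, hκy]
    decide
  obtain ⟨g, τ, hp, hi⟩ := exists_pair_of_mem_gamma (⇑(QP m F)) (y * x⁻¹) (htop _)
  have hτ : τ = RingEquiv.refl F := by
    have h := hΨ _ g τ hp hi
    rw [hΨ1] at h
    exact h.symm
  subst hτ
  have hg := hκ _ g _ hp hi
  rw [hκ1] at hg
  have hmem := (presChar_eq_one_iff m _).mp hg.symm
  refine ⟨⟨g, pair_mem_sim m g _ hp⟩, hmem, ?_⟩
  exact ((isInduced_iff (⇑(QP m F)) ⟨g, pair_mem_sim m g _ hp⟩ _).mp hi).symm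

set_option maxHeartbeats 1600000 in
/-- Involutory graph-field automorphisms of `PΩ⁺_{2m}(q)`, `m ≥ 5`, are conjugate under the
inner-diagonal group. -/
theorem gf_conj {p f : ℕ} [Fact p.Prime] (hF : Fintype.card F = p ^ f) (hf : 1 ≤ f)
    {m : ℕ} (hm : 5 ≤ m) (x y : MulAut (Cfsg.POmega F (Cfsg.quadFormPlus m F)))
    (hx : Cfsg.IsGraphFieldAutClassPOmegaPlus m x) (hx2 : orderOf x = 2)
    (hy : Cfsg.IsGraphFieldAutClassPOmegaPlus m y) (hy2 : orderOf y = 2) :
    Cfsg.IsConjUnder (Cfsg.inndiagPOmegaPlus m F) x y := by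
  have hδ : y * x⁻¹ ∈ Cfsg.inndiagPOmegaPlus m F := by
    rw [inndiagPlus_eq_pres]
    exact gf_same_coset hF hf hm x y hx hx2 hy hy2
  have e : y * x⁻¹ * x = y := inv_mul_cancel_right y x
  have key := plus_field_coset hm x (y * x⁻¹) (Or.inr hx) Nat.prime_two hx2 hδ
    (by rw [e]; exact hy2)
  rw [e] at key
  exact key

end

end Cfsg.Agent.H49
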