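import Mathlib
import Cfsg.Agent.H49.GFCoset
import Cfsg.Agent.H49.PlusFieldFin
import Cfsg.Agent.H49.GalDesc2
import Cfsg.Agent.H49.MinusForm

set_option autoImplicit false
set_option linter.unusedSectionVars false
set_option linter.unusedSimpArgs false
set_option linter.unusedVariables false

/-! Helper lemmas (helper49): the descent model of an involutory graph-field automorphism of a
plus-type orthogonal group: a rectangular similarity onto a minus-type form defined over the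
fixed field turning the automorphism into the standard field automorphism. -/

namespace Cfsg.Agent.H49

open Module Matrix GalDesc

section
universe u₀ u
variable {F : Type u} [Field F] [Fintype F]

set_option maxHeartbeats 3200000 in
theorem gf_model {p f : ℕ} [Fact p.Prime] (hF : Fintype.card F = p ^ f) (hf : 1 ≤ f)
    {m : ℕ} (hm : 5 ≤ m) (x : MulAut (Cfsg.POmega F (⇑(QP m F))))
    (hx : Cfsg.IsGraphFieldAutClassPOmegaPlus m x) (hx2 : orderOf x = 2)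
    (F₀ : Type u₀) [Field F₀] [Fintype F₀] (hF₀ : Fintype.card F₀ = p ^ (f / 2)) :
    Even f ∧ ∃ (j : F₀ →+* F) (σ : RingAut F) (ζ₀ : F₀)
      (M : Matrix (Fin m ⊕ Fin m) ((Fin (m - 1) ⊕ Fin (m - 1)) ⊕ Fin 2) F) (Mi : Matrix ((Fin (m - 1) ⊕ Fin (m - 1)) ⊕ Fin 2) (Fin m ⊕ Fin m) F) (e : F)
      (α Φ : MulAut (Cfsg.POmega F (⇑(QP m F))))
      (R : Matrix.GeneralLinearGroup (Fin m ⊕ Fin m) F) (t : F),
      orderOf σ = 2 ∧ (∀ a : F, σ a = a ↔ ∃ a₀ : F₀, j a₀ = a) ∧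
      (∀ z₁ z₂ : F₀, z₁ ^ 2 + 1 * z₁ * z₂ + ζ₀ * z₂ ^ 2 = 0 → z₁ = 0 ∧ z₂ = 0) ∧
      M * Mi = 1 ∧ Mi * M = 1 ∧ e ≠ 0 ∧
      (∀ v, (⇑(QP m F)) (M *ᵥ v) = e * (⇑(QMin (m - 1) F (j 1) (j ζ₀))) v) ∧
      α * x * α⁻¹ = Φ ∧ Cfsg.IsInducedBySemilinearPOmega (⇑(QP m F)) R σ Φ ∧ t ≠ 0 ∧
      (t • (R : Matrix (Fin m ⊕ Fin m) (Fin m ⊕ Fin m) F)) * M.map σ = M := by
  classical
  have hQ := QP_nondeg m F
  have h3 := hasTS3_QP (F := F) m (by omega)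
  have hne := QP_ne (F := F) m (by omega)
  have htop : ∀ β : MulAut (Cfsg.POmega F (⇑(QP m F))),
      β ∈ Cfsg.gammaPOmega F (⇑(QP m F)) := by
    intro β
    have ht : Cfsg.gammaPOmega F (⇑(QP m F)) = ⊤ := gamma_top_plus hm
    rw [ht]
    exact Subgroup.mem_top β
  obtain ⟨Ψ, hΨ⟩ := exists_sigHom (QP m F) hQ h3 htop
  obtain ⟨α, Φ, σ, v, hσ, hv, hσv, hpR, hiR, hαx⟩ := gf_data x hx
  obtain ⟨R, hR⟩ : ∃ R : ↥(Cfsg.Geo.quadSimilarityGroup (⇑(QP m F))),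
      R = inclO (QP m F) (reflG (QP m F) v) := ⟨_, rfl⟩
  rw [← hR] at hpR hiR
  have hΨΦ : Ψ Φ = σ := hΨ Φ R.1 σ hpR hiR
  have hx1 : x ^ 2 = 1 := by
    rw [← hx2]
    exact pow_orderOf_eq_one x
  have hΦ2 : Φ ^ 2 = 1 := by
    rw [← hαx, conj_pow, hx1, mul_one, mul_inv_cancel]
  have hσ2 : σ ^ 2 = 1 := by rw [← hΨΦ, ← map_pow, hΦ2, map_one]
  have hprime : Fact (Nat.Prime 2) := ⟨Nat.prime_two⟩
  have hord : orderOf σ = 2 := orderOf_eq_prime hσ2 hσ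
  have hdvd : 2 ∣ f := by
    have hc := (ringAut_card (F := F) p f hf hF).2
    rw [← hc, ← hord]
    exact orderOf_dvd_natCard _
  obtain ⟨P₁, t₁, ht₁, hP₁⟩ := exists_lang_of_pow (QP m F) hQ h3 hne σ hord (by norm_num) R.1
    hpR hiR hΦ2
  obtain ⟨A₁, hA₁⟩ : ∃ A₁ : ↥(Cfsg.Geo.quadSimilarityGroup (⇑(QP m F))),
      A₁ = scalSim (QP m F) (Units.mk0 t₁ ht₁) * R := ⟨_, rfl⟩
  have hA₁val : ((A₁ : Matrix.GeneralLinearGroup (Fin m ⊕ Fin m) F) : Matrix (Fin m ⊕ Fin m) (Fin m ⊕ Fin m) F)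
      = t₁ • ((R.1 : Matrix.GeneralLinearGroup (Fin m ⊕ Fin m) F) : Matrix (Fin m ⊕ Fin m) (Fin m ⊕ Fin m) F) := by
    rw [hA₁]
    show ((scalGL (Fin m ⊕ Fin m) (Units.mk0 t₁ ht₁) * R.1 :
      Matrix.GeneralLinearGroup (Fin m ⊕ Fin m) F) : Matrix (Fin m ⊕ Fin m) (Fin m ⊕ Fin m) F) = _
    rw [Units.val_mul, scalGL_coe, Matrix.smul_mul, Matrix.one_mul]
    rfl
  have hPA₁ : ((A₁ : Matrix.GeneralLinearGroup (Fin m ⊕ Fin m) F) : Matrix (Fin m ⊕ Fin m) (Fin m ⊕ Fin m) F)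
      * (P₁ : Matrix (Fin m ⊕ Fin m) (Fin m ⊕ Fin m) F).map σ = (P₁ : Matrix (Fin m ⊕ Fin m) (Fin m ⊕ Fin m) F) := by
    rw [hA₁val]
    exact hP₁
  have hA₁np : A₁ ∉ presSub m F := by
    rw [hA₁, presSub_mul_iff]
    intro h
    have h' := h.mp (scalSim_mem_presSub m _)
    rw [hR] at h'
    exact refl_not_mem_presSub m v hv h'
  have hfinK : Fintype ↥(fixF σ) := Fintype.ofFinite _
  obtain ⟨e, Q1, Q0', he, hQ1, hQ1nd, hQ0'nd, hQ0'⟩ := exists_kform (by omega) σ hord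
    (by norm_num) A₁ P₁ hPA₁
  rcases even_model Q0' hQ0'nd with ⟨T, hT⟩ | ⟨ζ, T, hζ, hT⟩
  · exact absurd (pres_of_hyp (by omega) σ A₁ P₁ hPA₁ e he Q1 hQ1 Q0' hQ0' T hT) hA₁np
  have hK : ∀ a : F, σ a = a ↔ a ∈ fixF σ := fun a => (mem_fixF σ a).symm
  have hQs : ∀ w : ((Fin (m - 1) ⊕ Fin (m - 1)) ⊕ Fin 2) → ↥(fixF σ), ((QMin (m - 1) ↥(fixF σ) 1 ζ w : ↥(fixF σ)) : F)
      = QMin (m - 1) F 1 (ζ : F) (fun i => (w i : F)) := by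
    intro w
    have h := QMin_coe_sub (m - 1) (fixF σ) 1 ζ w
    rw [h]
    rfl
  obtain ⟨C, hCσ, hC⟩ := exists_model_matrix σ (fixF σ) hK Q1 Q0' hQ0' (QMin (m - 1) F 1 (ζ : F))
    (QMin (m - 1) ↥(fixF σ) 1 ζ) hQs T.toLinearMap hT
  obtain ⟨j, hj⟩ := exists_emb_fix hF σ hord (by norm_num) F₀ hF₀
  obtain ⟨ζ₀, hζ₀⟩ := (hj (ζ : F)).mp ((mem_fixF σ _).mp ζ.2)
  have hab₀ : ∀ z₁ z₂ : F₀, z₁ ^ 2 + 1 * z₁ * z₂ + ζ₀ * z₂ ^ 2 = 0 → z₁ = 0 ∧ z₂ = 0 := by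
    intro z₁ z₂ hz
    by_cases hz2 : z₂ = 0
    · subst hz2
      refine ⟨?_, rfl⟩
      have h0 : z₁ ^ 2 = 0 := by linear_combination hz
      exact pow_eq_zero_iff (two_ne_zero) |>.mp h0
    · exfalso
      apply hζ ⟨j (z₁ / z₂), (mem_fixF σ _).mpr ((hj _).mpr ⟨_, rfl⟩)⟩
      apply Subtype.ext
      show (j (z₁ / z₂)) ^ 2 + j (z₁ / z₂) + (ζ : F) = 0
      rw [← hζ₀, ← map_pow, ← map_add, ← map_add]
      have h0 : (z₁ / z₂) ^ 2 + z₁ / z₂ + ζ₀ = 0 := by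
        field_simp
        linear_combination hz
      rw [h0, map_zero]
  have hd₀ := disc_ne_zero_of_aniso (1 : F₀) ζ₀ hab₀
  have hd : (j 1) ^ 2 - 4 * (j ζ₀) ≠ 0 := by
    intro h
    apply hd₀
    apply j.injective
    rw [map_sub, map_pow, map_mul, map_ofNat, map_zero]
    exact h
  have hQsnd := QMin_nondeg (m - 1) (j 1) (j ζ₀) hd
  have hC' : ∀ w : ((Fin (m - 1) ⊕ Fin (m - 1)) ⊕ Fin 2) → F, Q1 (C *ᵥ w) = QMin (m - 1) F (j 1) (j ζ₀) w := by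
    rw [map_one, hζ₀]
    exact hC
  obtain ⟨M, hMdef⟩ : ∃ M : Matrix (Fin m ⊕ Fin m) ((Fin (m - 1) ⊕ Fin (m - 1)) ⊕ Fin 2) F,
      M = (P₁ : Matrix (Fin m ⊕ Fin m) (Fin m ⊕ Fin m) F) * C := ⟨_, rfl⟩
  have hM : ∀ w, (⇑(QP m F)) (M *ᵥ w) = e * (⇑(QMin (m - 1) F (j 1) (j ζ₀))) w := by
    intro w
    rw [hMdef, ← Matrix.mulVec_mulVec]
    have h1 := hC' w
    rw [hQ1] at h1
    rw [← h1, ← mul_assoc, mul_inv_cancel₀ he, one_mul]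
  have hML : (t₁ • ((R.1 : Matrix.GeneralLinearGroup (Fin m ⊕ Fin m) F) : Matrix (Fin m ⊕ Fin m) (Fin m ⊕ Fin m) F))
      * M.map σ = M := by
    rw [hMdef, Matrix.map_mul, hCσ, ← Matrix.mul_assoc, hP₁]
  have hinj : Function.Injective (Matrix.mulVecLin M) := by
    rw [← LinearMap.ker_eq_bot, LinearMap.ker_eq_bot']
    intro w hw
    apply hQsnd.1
    intro y
    show QuadraticMap.polar (⇑(QMin (m - 1) F (j 1) (j ζ₀))) w y = 0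
    have h2 : e * QuadraticMap.polar (⇑(QMin (m - 1) F (j 1) (j ζ₀))) w y
        = QuadraticMap.polar (⇑(QP m F)) (M *ᵥ w) (M *ᵥ y) := by
      simp only [QuadraticMap.polar]
      rw [← Matrix.mulVec_add, hM, hM, hM]
      ring
    have h3' : M *ᵥ w = 0 := hw
    rw [h3', QuadraticMap.polar_zero_left] at h2
    exact (mul_eq_zero.mp h2).resolve_left he
  have hfr : finrank F (((Fin (m - 1) ⊕ Fin (m - 1)) ⊕ Fin 2) → F) = finrank F (Fin m ⊕ Fin m → F) := by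
    rw [finrank_minus, finrank_plus]
    omega
  obtain ⟨E, hE⟩ : ∃ E : (((Fin (m - 1) ⊕ Fin (m - 1)) ⊕ Fin 2) → F) ≃ₗ[F] (Fin m ⊕ Fin m → F), ∀ w, E w = M *ᵥ w :=
    ⟨LinearEquiv.ofBijective (Matrix.mulVecLin M)
      ⟨hinj, (LinearMap.injective_iff_surjective_of_finrank_eq_finrank hfr).mp hinj⟩,
      fun w => rfl⟩
  obtain ⟨Mi, hMi⟩ : ∃ Mi : Matrix ((Fin (m - 1) ⊕ Fin (m - 1)) ⊕ Fin 2) (Fin m ⊕ Fin m) F, ∀ w, Mi *ᵥ w = E.symm w :=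
    ⟨LinearMap.toMatrix' (E.symm : (Fin m ⊕ Fin m → F) →ₗ[F] (((Fin (m - 1) ⊕ Fin (m - 1)) ⊕ Fin 2) → F)), fun w => by
      rw [← Matrix.toLin'_apply, Matrix.toLin'_toMatrix']
      rfl⟩
  have h1 : M * Mi = 1 := by
    apply matrix_ext_mulVec
    intro w
    rw [← Matrix.mulVec_mulVec, hMi, ← hE, LinearEquiv.apply_symm_apply, Matrix.one_mulVec]
  have h2 : Mi * M = 1 := by
    apply matrix_ext_mulVec
    intro w
    rw [← Matrix.mulVec_mulVec, ← hE, hMi, LinearEquiv.symm_apply_apply, Matrix.one_mulVec]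
  exact ⟨even_iff_two_dvd.mpr hdvd, j, σ, ζ₀, M, Mi, e, α, Φ, R.1, t₁, hord, hj, hab₀, h1, h2,
    he, hM, hαx, hiR, ht₁, hML⟩

end

end Cfsg.Agent.H49
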