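import Mathlib
import Cfsg.Agent.H49.ClsPar
import Cfsg.Agent.H49.SimMinusK
import Cfsg.Agent.H49.FieldBC
import Cfsg.Agent.H49.PlusModel

set_option autoImplicit false
set_option linter.unusedSectionVars false
set_option linter.unusedSimpArgs false
set_option linter.unusedVariables false

/-! Helper lemmas (helper49): the class-preserving similarities of the minus-type form in
arbitrary characteristic: multiplying a class-interchanging similarity by a reflection gives a
class-preserving one; the inner-diagonal group consists of images of similarities. -/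

namespace Cfsg.Agent.H49

open Module Matrix

section
variable {F : Type*} [Field F]

theorem QMin_compat {K : Type*} [Field K] (j : F →+* K) (m : ℕ) (a b : F) :
    FormCompat j (QMin m F a b) (QMin m K (j a) (j b)) := by
  intro u
  rw [QMin_formula, QMin_formula]
  simp only [map_add, map_sum, map_mul, map_pow]

end

section
universe u
variable {F : Type u} [Field F] [Fintype F]

set_option maxHeartbeats 1600000 in
/-- A similarity of the minus-type form which does not preserve the classes of maximal totally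
singular subspaces over the quadratic extension becomes class-preserving after multiplication by
a reflection. -/
theorem presMinus_mul_refl (m : ℕ) (a b : F)
    (hab : ∀ z₁ z₂ : F, z₁ ^ 2 + a * z₁ * z₂ + b * z₂ ^ 2 = 0 → z₁ = 0 ∧ z₂ = 0)
    (h : ↥(Cfsg.Geo.quadSimilarityGroup (⇑(QMin m F a b))))
    (w : (Fin m ⊕ Fin m) ⊕ Fin 2 → F) (hw : QMin m F a b w ≠ 0)
    (hh : ¬ Cfsg.PreservesSingularClassesMinus m a b
        ((h : Matrix.GeneralLinearGroup ((Fin m ⊕ Fin m) ⊕ Fin 2) F) :
          Matrix ((Fin m ⊕ Fin m) ⊕ Fin 2) ((Fin m ⊕ Fin m) ⊕ Fin 2) F)) :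
    Cfsg.PreservesSingularClassesMinus m a b
        (((h * inclO (QMin m F a b) (reflG (QMin m F a b) w) :
            ↥(Cfsg.Geo.quadSimilarityGroup (⇑(QMin m F a b)))) :
          Matrix.GeneralLinearGroup ((Fin m ⊕ Fin m) ⊕ Fin 2) F) :
          Matrix ((Fin m ⊕ Fin m) ⊕ Fin 2) ((Fin m ⊕ Fin m) ⊕ Fin 2) F) := by
  classical
  obtain ⟨f, hf⟩ : ∃ f : Polynomial F,
      f = Polynomial.X ^ 2 + Polynomial.C a * Polynomial.X + Polynomial.C b := ⟨_, rfl⟩
  have hdeg : f.natDegree = 2 := by
    rw [hf]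
    compute_degree!
  have hirr : Irreducible f := by
    apply Polynomial.irreducible_of_degree_le_three_of_not_isRoot
    · rw [hdeg]
      decide
    · intro x hx
      rw [Polynomial.IsRoot, hf] at hx
      simp at hx
      have := hab x 1 (by linear_combination hx)
      exact one_ne_zero this.2
  have : Fact (Irreducible f) := ⟨hirr⟩
  have hfin : Module.finrank F (AdjoinRoot f) = 2 := by
    have := finrank_quotient_span_eq_natDegree (f := f)
    rw [hdeg] at this
    exact this
  have ht : (AdjoinRoot.root f) ^ 2 + algebraMap F (AdjoinRoot f) a * AdjoinRoot.root f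
      + algebraMap F (AdjoinRoot f) b = 0 := by
    have h1 := AdjoinRoot.eval₂_root f
    have h2 : Polynomial.eval₂ (AdjoinRoot.of f) (AdjoinRoot.root f)
        (Polynomial.X ^ 2 + Polynomial.C a * Polynomial.X + Polynomial.C b) = 0 := by
      rw [← hf]
      exact h1
    rw [Polynomial.eval₂_add, Polynomial.eval₂_add, Polynomial.eval₂_mul, Polynomial.eval₂_pow,
      Polynomial.eval₂_X, Polynomial.eval₂_C, Polynomial.eval₂_C] at h2
    exact h2
  obtain ⟨E, hE, dE⟩ := exists_ts_QMin m (algebraMap F (AdjoinRoot f) a)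
    (algebraMap F (AdjoinRoot f) b) (AdjoinRoot.root f) ht
  have hφ : Function.Injective (algebraMap F (AdjoinRoot f)) :=
    (algebraMap F (AdjoinRoot f)).injective
  have hd := disc_ne_zero_of_aniso a b hab
  have hdK : (algebraMap F (AdjoinRoot f) a) ^ 2 - 4 * algebraMap F (AdjoinRoot f) b ≠ 0 := by
    intro h0
    apply hd
    apply hφ
    rw [map_sub, map_pow, map_mul, map_ofNat, map_zero]
    exact h0
  have hQK := QMin_nondeg m (algebraMap F (AdjoinRoot f) a) (algebraMap F (AdjoinRoot f) b) hdK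
  have hV : finrank (AdjoinRoot f) ((Fin m ⊕ Fin m) ⊕ Fin 2 → AdjoinRoot f) = 2 * (m + 1) :=
    finrank_minus m
  have hc : FormCompat (algebraMap F (AdjoinRoot f)) (QMin m F a b)
      (QMin m (AdjoinRoot f) (algebraMap F (AdjoinRoot f) a) (algebraMap F (AdjoinRoot f) b)) :=
    QMin_compat _ m a b
  have hρ : bcSim hc (inclO (QMin m F a b) (reflG (QMin m F a b) w))
      = inclO (QMin m (AdjoinRoot f) (algebraMap F (AdjoinRoot f) a)
          (algebraMap F (AdjoinRoot f) b))
        (reflG (QMin m (AdjoinRoot f) (algebraMap F (AdjoinRoot f) a)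
          (algebraMap F (AdjoinRoot f) b)) (fun i => algebraMap F (AdjoinRoot f) (w i))) := by
    apply Subtype.ext
    apply Units.ext
    rw [bcSim_val]
    exact bc_reflectionMatrix hc w
  have hwK : QMin m (AdjoinRoot f) (algebraMap F (AdjoinRoot f) a)
      (algebraMap F (AdjoinRoot f) b) (fun i => algebraMap F (AdjoinRoot f) (w i)) ≠ 0 := by
    rw [hc w]
    exact (map_ne_zero _).mpr hw
  have h1 := not_pres_refl (QMin m (AdjoinRoot f) (algebraMap F (AdjoinRoot f) a)
    (algebraMap F (AdjoinRoot f) b)) hQK hV E hE dE _ hwK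
  rw [← hρ] at h1
  have h2 : ¬ Cfsg.PreservesSingularClasses
      (⇑(QMin m (AdjoinRoot f) (algebraMap F (AdjoinRoot f) a) (algebraMap F (AdjoinRoot f) b)))
      (((bcSim hc h : ↥(Cfsg.Geo.quadSimilarityGroup
        (⇑(QMin m (AdjoinRoot f) (algebraMap F (AdjoinRoot f) a)
          (algebraMap F (AdjoinRoot f) b))))) :
        Matrix.GeneralLinearGroup ((Fin m ⊕ Fin m) ⊕ Fin 2) (AdjoinRoot f)) :
        Matrix ((Fin m ⊕ Fin m) ⊕ Fin 2) ((Fin m ⊕ Fin m) ⊕ Fin 2) (AdjoinRoot f)) := by
    intro hp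
    exact hh ⟨AdjoinRoot f, inferInstance, inferInstance, hfin, hp⟩
  have h3 := pres_mul_iff (QMin m (AdjoinRoot f) (algebraMap F (AdjoinRoot f) a)
    (algebraMap F (AdjoinRoot f) b)) hQK hV E hE dE (bcSim hc h)
    (bcSim hc (inclO (QMin m F a b) (reflG (QMin m F a b) w)))
  rw [← map_mul] at h3
  refine ⟨AdjoinRoot f, inferInstance, inferInstance, hfin, ?_⟩
  exact h3.mpr ⟨fun hp => absurd hp h2, fun hp => absurd hp h1⟩

end

section
variable {ι : Type} [Fintype ι] [DecidableEq ι] {F : Type*} [Field F]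

/-- The subgroup generated by the automorphisms induced by the similarities satisfying a
predicate consists of automorphisms induced by similarities. -/
theorem autSubgroupOf_pred_exists (Qf : (ι → F) → F) (Pr : Matrix ι ι F → Prop)
    (δ : MulAut (Cfsg.POmega F Qf))
    (hδ : δ ∈ Cfsg.autSubgroupOf (fun β : Cfsg.POmega F Qf ≃* Cfsg.POmega F Qf =>
        ∃ g : Matrix.GeneralLinearGroup ι F, g ∈ Cfsg.Geo.quadSimilarityGroup Qf ∧
          Pr (g : Matrix ι ι F) ∧ Cfsg.IsInducedBySemilinearPOmega Qf g (RingEquiv.refl F) β)) :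
    ∃ d : ↥(Cfsg.Geo.quadSimilarityGroup Qf), cHom Qf d = δ := by
  have hle : Cfsg.autSubgroupOf (fun β : Cfsg.POmega F Qf ≃* Cfsg.POmega F Qf =>
        ∃ g : Matrix.GeneralLinearGroup ι F, g ∈ Cfsg.Geo.quadSimilarityGroup Qf ∧
          Pr (g : Matrix ι ι F) ∧ Cfsg.IsInducedBySemilinearPOmega Qf g (RingEquiv.refl F) β)
      ≤ (cHom Qf).range := by
    unfold Cfsg.autSubgroupOf
    rw [Subgroup.closure_le]
    rintro β ⟨g, hg, -, hind⟩
    exact ⟨⟨g, hg⟩, ((isInduced_iff Qf ⟨g, hg⟩ β).mp hind).symm⟩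
  exact hle hδ

theorem cHom_mem_autSubgroupOf_pred (Qf : (ι → F) → F) (Pr : Matrix ι ι F → Prop)
    (h : ↥(Cfsg.Geo.quadSimilarityGroup Qf))
    (hp : Pr ((h : Matrix.GeneralLinearGroup ι F) : Matrix ι ι F)) :
    cHom Qf h ∈ Cfsg.autSubgroupOf (fun β : Cfsg.POmega F Qf ≃* Cfsg.POmega F Qf =>
        ∃ g : Matrix.GeneralLinearGroup ι F, g ∈ Cfsg.Geo.quadSimilarityGroup Qf ∧
          Pr (g : Matrix ι ι F) ∧ Cfsg.IsInducedBySemilinearPOmega Qf g (RingEquiv.refl F) β) := by
  apply Subgroup.subset_closure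
  exact ⟨h.1, h.2, hp, (isInduced_iff Qf h _).mpr rfl⟩

end

end Cfsg.Agent.H49
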