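import Mathlib
import Cfsg.Agent.H49.MinusPres
import Cfsg.Agent.H49.Omega2
import Cfsg.Agent.H49.FieldOdd2

set_option autoImplicit false
set_option linter.unusedSectionVars false
set_option linter.unusedSimpArgs false
set_option linter.unusedVariables false

/-! Helper lemmas (helper49): the class-preserving similarities of the minus-type form form the
kernel of a sign character, in arbitrary characteristic, independently of the quadratic
extension used to define them. -/

namespace Cfsg.Agent.H49

open Module Matrix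

section
universe u
variable {F : Type u} [Field F] [Fintype F]

set_option maxHeartbeats 1600000 in
/-- A quadratic polynomial over a finite field has a root in every quadratic extension. -/
theorem exists_root_of_finrank_two (K : Type*) [Field K] [Algebra F K]
    (hfin : Module.finrank F K = 2) (a b : F) :
    ∃ t : K, t ^ 2 + algebraMap F K a * t + algebraMap F K b = 0 := by
  classical
  have : Module.Finite F K := Module.finite_of_finrank_pos (by rw [hfin]; norm_num)
  have : Finite K := Module.finite_of_finite F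
  let _ : Fintype K := Fintype.ofFinite K
  have hcard : Fintype.card F ^ 2 = Fintype.card K := by
    rw [Module.card_eq_pow_finrank (K := F) (V := K), hfin]
  obtain ⟨f, hf⟩ : ∃ f : Polynomial F,
      f = Polynomial.X ^ 2 + Polynomial.C a * Polynomial.X + Polynomial.C b := ⟨_, rfl⟩
  have hdeg : f.natDegree = 2 := by
    rw [hf]
    compute_degree!
  have hfmap : ∀ z : K, (f.map (algebraMap F K)).eval z
      = z ^ 2 + algebraMap F K a * z + algebraMap F K b := by
    intro z
    rw [hf]
    simp only [Polynomial.map_add, Polynomial.map_mul, Polynomial.map_pow, Polynomial.map_X,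
      Polynomial.map_C, Polynomial.eval_add, Polynomial.eval_mul, Polynomial.eval_pow,
      Polynomial.eval_X, Polynomial.eval_C]
  by_cases hroot : ∃ t : F, f.IsRoot t
  · obtain ⟨t, ht⟩ := hroot
    have ht' : f.eval t = 0 := ht
    refine ⟨algebraMap F K t, ?_⟩
    rw [← hfmap, Polynomial.eval_map, Polynomial.eval₂_at_apply, ht', map_zero]
  · have hirr : Irreducible f := by
      apply Polynomial.irreducible_of_degree_le_three_of_not_isRoot
      · rw [hdeg]
        decide
      · intro x hx
        exact hroot ⟨x, hx⟩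
    have : Fact (Irreducible f) := ⟨hirr⟩
    have hfin' : Module.finrank F (AdjoinRoot f) = 2 := by
      have := finrank_quotient_span_eq_natDegree (f := f)
      rw [hdeg] at this
      exact this
    have : Module.Finite F (AdjoinRoot f) :=
      Module.finite_of_finrank_pos (by rw [hfin']; norm_num)
    have : Finite (AdjoinRoot f) := Module.finite_of_finite F
    let _ : Fintype (AdjoinRoot f) := Fintype.ofFinite (AdjoinRoot f)
    have hcK : Fintype.card (AdjoinRoot f) = Fintype.card K := by
      rw [Module.card_eq_pow_finrank (K := F) (V := AdjoinRoot f), hfin', hcard]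
    have hpow : (AdjoinRoot.root f) ^ (Fintype.card K) = AdjoinRoot.root f := by
      rw [← hcK]
      exact FiniteField.pow_card _
    have hdvd : f ∣ Polynomial.X ^ (Fintype.card K) - Polynomial.X := by
      rw [← AdjoinRoot.mk_eq_zero, map_sub, map_pow, AdjoinRoot.mk_X, hpow, sub_self]
    obtain ⟨g, hg⟩ := hdvd
    have hmap : (Polynomial.X ^ Fintype.card K - Polynomial.X : Polynomial K)
        = f.map (algebraMap F K) * g.map (algebraMap F K) := by
      rw [← Polynomial.map_mul, ← hg]
      simp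
    by_contra hno
    push Not at hno
    have hg0 : ∀ z : K, (g.map (algebraMap F K)).eval z = 0 := by
      intro z
      have h1 : (Polynomial.X ^ Fintype.card K - Polynomial.X : Polynomial K).eval z = 0 := by
        rw [Polynomial.eval_sub, Polynomial.eval_pow, Polynomial.eval_X, FiniteField.pow_card,
          sub_self]
      rw [hmap, Polynomial.eval_mul, hfmap] at h1
      exact (mul_eq_zero.mp h1).resolve_left (hno z)
    have hX : (Polynomial.X ^ Fintype.card K - Polynomial.X : Polynomial K) ≠ 0 :=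
      FiniteField.X_pow_card_sub_X_ne_zero K Fintype.one_lt_card
    have hgne : g.map (algebraMap F K) ≠ 0 := by
      intro h0
      rw [h0, mul_zero] at hmap
      exact hX hmap
    have hfne : f.map (algebraMap F K) ≠ 0 := by
      intro h0
      rw [h0, zero_mul] at hmap
      exact hX hmap
    have hdf : (f.map (algebraMap F K)).natDegree = 2 := by
      rw [Polynomial.natDegree_map, hdeg]
    have hdX := FiniteField.X_pow_card_sub_X_natDegree_eq K (p := Fintype.card K)
      Fintype.one_lt_card
    rw [hmap, Polynomial.natDegree_mul hfne hgne, hdf] at hdX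
    apply hgne
    apply Polynomial.eq_zero_of_natDegree_lt_card_of_eval_eq_zero _ (f := id)
      Function.injective_id (fun i => hg0 i)
    omega

/-- The class-preservation predicate over a fixed quadratic extension. -/
def PresK (m : ℕ) (a b : F) (K : Type*) [Field K] [Algebra F K] (g : ↥(Cfsg.Geo.quadSimilarityGroup (⇑(QMin m F a b)))) : Prop :=
  Cfsg.PreservesSingularClasses (Cfsg.quadFormMinus m K (algebraMap F K a) (algebraMap F K b))
    (((g : Matrix.GeneralLinearGroup ((Fin m ⊕ Fin m) ⊕ Fin 2) F) : Matrix ((Fin m ⊕ Fin m) ⊕ Fin 2) ((Fin m ⊕ Fin m) ⊕ Fin 2) F).map (algebraMap F K))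

theorem QMin_ne (m : ℕ) (a b : F) : ∃ v, QMin m F a b v ≠ 0 := by
  refine ⟨Sum.elim (0 : Fin m ⊕ Fin m → F) ![1, 0], ?_⟩
  rw [QMin_apply_inr, binQ_apply]
  simp

/-- Over a quadratic extension the minus-type form is non-degenerate with a totally singular
subspace of half the dimension. -/
theorem minus_ext_data (m : ℕ) (a b : F) (hab : ∀ z₁ z₂ : F, z₁ ^ 2 + a * z₁ * z₂ + b * z₂ ^ 2 = 0 → z₁ = 0 ∧ z₂ = 0)
    (K : Type*) [Field K] [Algebra F K] (hfin : Module.finrank F K = 2) :
    (QuadraticMap.polarBilin (QMin m K (algebraMap F K a) (algebraMap F K b))).Nondegenerate ∧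
    ∃ E : Submodule K ((Fin m ⊕ Fin m) ⊕ Fin 2 → K), IsTS (QMin m K (algebraMap F K a) (algebraMap F K b)) E ∧ finrank K E = m + 1 := by
  obtain ⟨t, ht⟩ := exists_root_of_finrank_two K hfin a b
  have hφ : Function.Injective (algebraMap F K) := (algebraMap F K).injective
  have hd := disc_ne_zero_of_aniso a b hab
  have hdK : (algebraMap F K a) ^ 2 - 4 * algebraMap F K b ≠ 0 := by
    intro h0
    apply hd
    apply hφ
    rw [map_sub, map_pow, map_mul, map_ofNat, map_zero]
    exact h0
  exact ⟨QMin_nondeg m _ _ hdK, exists_ts_QMin m _ _ t ht⟩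

set_option maxHeartbeats 1600000 in
/-- The sign character of the similarity group attached to a quadratic extension. -/
theorem exists_presChar (m : ℕ) (a b : F) (hab : ∀ z₁ z₂ : F, z₁ ^ 2 + a * z₁ * z₂ + b * z₂ ^ 2 = 0 → z₁ = 0 ∧ z₂ = 0)
    (K : Type*) [Field K] [Algebra F K] (hfin : Module.finrank F K = 2) :
    ∃ χ : ↥(Cfsg.Geo.quadSimilarityGroup (⇑(QMin m F a b))) →* ℤˣ, (∀ g, χ g = 1 ↔ PresK m a b K g) ∧
      (∀ l : Fˣ, χ (scalSim (QMin m F a b) l) = 1) ∧
      (∀ w, QMin m F a b w ≠ 0 → χ (inclO (QMin m F a b) (reflG (QMin m F a b) w)) = -1) := by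
  classical
  have : Module.Finite F K := Module.finite_of_finrank_pos (by rw [hfin]; norm_num)
  have : Finite K := Module.finite_of_finite F
  let _ : Fintype K := Fintype.ofFinite K
  obtain ⟨hQK, E, hE, dE⟩ := minus_ext_data m a b hab K hfin
  have hV : finrank K ((Fin m ⊕ Fin m) ⊕ Fin 2 → K) = 2 * (m + 1) := finrank_minus m
  have hc : FormCompat (algebraMap F K) (QMin m F a b) (QMin m K (algebraMap F K a) (algebraMap F K b)) := QMin_compat _ m a b
  have hmul : ∀ g h : ↥(Cfsg.Geo.quadSimilarityGroup (⇑(QMin m F a b))), PresK m a b K (g * h) ↔ (PresK m a b K g ↔ PresK m a b K h) := by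
    intro g h
    have h3 := pres_mul_iff (QMin m K (algebraMap F K a) (algebraMap F K b)) hQK hV E hE dE (bcSim hc g) (bcSim hc h)
    rw [← map_mul] at h3
    exact h3
  have hscal : ∀ l : Fˣ, PresK m a b K (scalSim (QMin m F a b) l) := by
    intro l
    have h1 := pres_scalSim (QMin m K (algebraMap F K a) (algebraMap F K b)) hQK hV E hE dE (Units.map (algebraMap F K : F →* K) l)
    rw [← bcSim_scalSim hc l] at h1
    exact h1
  have hrefl : ∀ w, QMin m F a b w ≠ 0 →
      ¬ PresK m a b K (inclO (QMin m F a b) (reflG (QMin m F a b) w)) := by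
    intro w hw
    have hρ : bcSim hc (inclO (QMin m F a b) (reflG (QMin m F a b) w))
        = inclO (QMin m K (algebraMap F K a) (algebraMap F K b)) (reflG (QMin m K (algebraMap F K a) (algebraMap F K b)) (fun i => algebraMap F K (w i))) := by
      apply Subtype.ext
      apply Units.ext
      rw [bcSim_val]
      exact bc_reflectionMatrix hc w
    have hwK : (QMin m K (algebraMap F K a) (algebraMap F K b)) (fun i => algebraMap F K (w i)) ≠ 0 := by
      rw [hc w]
      exact (map_ne_zero _).mpr hw
    have h1 := not_pres_refl (QMin m K (algebraMap F K a) (algebraMap F K b)) hQK hV E hE dE _ hwK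
    rw [← hρ] at h1
    exact h1
  refine ⟨MonoidHom.mk' (fun g => if PresK m a b K g then 1 else -1) ?_, ?_, ?_, ?_⟩
  · intro g h
    by_cases hg : PresK m a b K g <;> by_cases hh : PresK m a b K h
    · have h1 : PresK m a b K (g * h) := (hmul g h).mpr ⟨fun _ => hh, fun _ => hg⟩
      rw [if_pos hg, if_pos hh, if_pos h1, mul_one]
    · have h1 : ¬ PresK m a b K (g * h) := fun h' => hh (((hmul g h).mp h').mp hg)
      rw [if_pos hg, if_neg hh, if_neg h1, one_mul]
    · have h1 : ¬ PresK m a b K (g * h) := fun h' => hg (((hmul g h).mp h').mpr hh)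
      rw [if_neg hg, if_pos hh, if_neg h1, mul_one]
    · have h1 : PresK m a b K (g * h) :=
        (hmul g h).mpr ⟨fun h' => absurd h' hg, fun h' => absurd h' hh⟩
      rw [if_neg hg, if_neg hh, if_pos h1]
      decide
  · intro g
    show (if PresK m a b K g then (1 : ℤˣ) else -1) = 1 ↔ _
    by_cases hg : PresK m a b K g
    · rw [if_pos hg]
      exact ⟨fun _ => hg, fun _ => rfl⟩
    · rw [if_neg hg]
      exact ⟨fun h => absurd h (by decide), fun h => absurd h hg⟩
  · intro l
    show (if PresK m a b K (scalSim (QMin m F a b) l) then (1 : ℤˣ) else -1) = 1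
    rw [if_pos (hscal l)]
  · intro w hw
    show (if PresK m a b K (inclO (QMin m F a b) (reflG (QMin m F a b) w)) then (1 : ℤˣ)
      else -1) = -1
    rw [if_neg (hrefl w hw)]

/-- In characteristic two a class-preserving similarity is a scalar times an element of `Ω`. -/
theorem presK_two (m : ℕ) (hm : 2 ≤ m) (a b : F) (hab : ∀ z₁ z₂ : F, z₁ ^ 2 + a * z₁ * z₂ + b * z₂ ^ 2 = 0 → z₁ = 0 ∧ z₂ = 0) (h2 : (2 : F) = 0)
    (K : Type*) [Field K] [Algebra F K] (hfin : Module.finrank F K = 2) (g : ↥(Cfsg.Geo.quadSimilarityGroup (⇑(QMin m F a b))))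
    (hg : PresK m a b K g) :
    ∃ (l : Fˣ) (s : ↥(Cfsg.isometryGroup F (⇑(QMin m F a b)))),
      s ∈ commutator ↥(Cfsg.isometryGroup F (⇑(QMin m F a b))) ∧
      g = scalSim (QMin m F a b) l * inclO (QMin m F a b) s := by
  classical
  obtain ⟨χ, hχ, hχs, hχr⟩ := exists_presChar m a b hab K hfin
  have hsq : IsSquare (simMul (⇑(QMin m F a b)) g : F) := by
    obtain ⟨d, hd⟩ := exists_sqrt_char_two h2 (simMul (⇑(QMin m F a b)) g : F)
    exact ⟨d, hd.symm⟩
  obtain ⟨l, g₀, rfl⟩ := exists_scal_mul_of_isSquare (QMin m F a b) g hsq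
  have hQ := QMin_nondeg m a b (disc_ne_zero_of_aniso a b hab)
  have hV : finrank F ((Fin m ⊕ Fin m) ⊕ Fin 2 → F) = 2 * (m + 1) := finrank_minus m
  rcases mem_commutator_or_two (QMin m F a b) h2 hQ hV (Or.inr (by omega)) g₀ with h | h
  · exact ⟨l, g₀, h, rfl⟩
  · exfalso
    obtain ⟨w, hw⟩ := QMin_ne m a b
    have h1 := h (reflG (QMin m F a b) w) ⟨w, hw, rfl⟩
    have h2' : χ (inclO (QMin m F a b) (reflG (QMin m F a b) w * g₀)) = 1 :=
      Abelianization.commutator_subset_ker (χ.comp (inclO (QMin m F a b))) h1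
    rw [map_mul, map_mul, hχr w hw] at h2'
    have h3 : χ (scalSim (QMin m F a b) l * inclO (QMin m F a b) g₀) = 1 := (hχ _).mpr hg
    rw [map_mul, hχs, one_mul] at h3
    rw [h3] at h2'
    exact absurd h2' (by decide)

end

section
universe u
variable {F : Type u} [Field F] [Fintype F]

/-- Class preservation does not depend on the quadratic extension. -/
theorem presK_indep (m : ℕ) (hm : 2 ≤ m) (a b : F) (hab : ∀ z₁ z₂ : F, z₁ ^ 2 + a * z₁ * z₂ + b * z₂ ^ 2 = 0 → z₁ = 0 ∧ z₂ = 0)
    (K K' : Type u) [Field K] [Algebra F K] [Field K'] [Algebra F K']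
    (hfin : Module.finrank F K = 2) (hfin' : Module.finrank F K' = 2) (g : ↥(Cfsg.Geo.quadSimilarityGroup (⇑(QMin m F a b))))
    (hg : PresK m a b K g) : PresK m a b K' g := by
  by_cases h2 : (2 : F) = 0
  · obtain ⟨l, s, hs, rfl⟩ := presK_two m hm a b hab h2 K hfin g hg
    obtain ⟨χ, hχ, hχs, hχr⟩ := exists_presChar m a b hab K' hfin'
    rw [← hχ, map_mul, hχs, one_mul]
    exact Abelianization.commutator_subset_ker (χ.comp (inclO (QMin m F a b))) hs
  · have hne := QMin_ne m a b
    exact (preserves_map_iff K' hfin' m a b hab h2 hne g).mpr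
      ((preserves_map_iff K hfin m a b hab h2 hne g).mp hg)

set_option maxHeartbeats 1600000 in
/-- The class-preserving similarities of the minus-type form are the kernel of a sign
character which is trivial on scalars and `-1` on reflections. -/
theorem exists_minusPres (m : ℕ) (hm : 2 ≤ m) (a b : F) (hab : ∀ z₁ z₂ : F, z₁ ^ 2 + a * z₁ * z₂ + b * z₂ ^ 2 = 0 → z₁ = 0 ∧ z₂ = 0) :
    ∃ χ : ↥(Cfsg.Geo.quadSimilarityGroup (⇑(QMin m F a b))) →* ℤˣ,
      (∀ g : ↥(Cfsg.Geo.quadSimilarityGroup (⇑(QMin m F a b))), χ g = 1 ↔ Cfsg.PreservesSingularClassesMinus m a b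
        ((g : Matrix.GeneralLinearGroup ((Fin m ⊕ Fin m) ⊕ Fin 2) F) : Matrix ((Fin m ⊕ Fin m) ⊕ Fin 2) ((Fin m ⊕ Fin m) ⊕ Fin 2) F)) ∧
      (∀ l : Fˣ, χ (scalSim (QMin m F a b) l) = 1) ∧
      (∀ w, QMin m F a b w ≠ 0 → χ (inclO (QMin m F a b) (reflG (QMin m F a b) w)) = -1) := by
  classical
  obtain ⟨f, hf⟩ : ∃ f : Polynomial F,
      f = Polynomial.X ^ 2 + Polynomial.C a * Polynomial.X + Polynomial.C b := ⟨_, rfl⟩
  have hdeg : f.natDegree = 2 := by
    rw [hf]
    compute_degree!
  have hirr : Irreducible f := by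
    apply Polynomial.irreducible_of_degree_le_three_of_not_isRoot
    · rw [hdeg]
      decide
    · intro x hx
      rw [Polynomial.IsRoot, hf] at hx
      simp at hx
      have := hab x 1 (by linear_combination hx)
      exact one_ne_zero this.2
  have : Fact (Irreducible f) := ⟨hirr⟩
  have hfin : Module.finrank F (AdjoinRoot f) = 2 := by
    have := finrank_quotient_span_eq_natDegree (f := f)
    rw [hdeg] at this
    exact this
  obtain ⟨χ, hχ, hχs, hχr⟩ := exists_presChar m a b hab (AdjoinRoot f) hfin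
  refine ⟨χ, fun g => ?_, hχs, hχr⟩
  rw [hχ]
  constructor
  · intro h
    exact ⟨AdjoinRoot f, inferInstance, inferInstance, hfin, h⟩
  · rintro ⟨K', instK, instA, hfin', hp⟩
    exact presK_indep m hm a b hab K' (AdjoinRoot f) hfin' hfin g hp

/-- In characteristic two a class-preserving similarity is a scalar times an element of `Ω`. -/
theorem presMinus_two (m : ℕ) (hm : 2 ≤ m) (a b : F) (hab : ∀ z₁ z₂ : F, z₁ ^ 2 + a * z₁ * z₂ + b * z₂ ^ 2 = 0 → z₁ = 0 ∧ z₂ = 0) (h2 : (2 : F) = 0) (g : ↥(Cfsg.Geo.quadSimilarityGroup (⇑(QMin m F a b))))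
    (hg : Cfsg.PreservesSingularClassesMinus m a b ((g : Matrix.GeneralLinearGroup ((Fin m ⊕ Fin m) ⊕ Fin 2) F) : Matrix ((Fin m ⊕ Fin m) ⊕ Fin 2) ((Fin m ⊕ Fin m) ⊕ Fin 2) F)) :
    ∃ (l : Fˣ) (s : ↥(Cfsg.isometryGroup F (⇑(QMin m F a b)))),
      s ∈ commutator ↥(Cfsg.isometryGroup F (⇑(QMin m F a b))) ∧
      g = scalSim (QMin m F a b) l * inclO (QMin m F a b) s := by
  obtain ⟨K', instK, instA, hfin', hp⟩ := hg
  exact presK_two m hm a b hab h2 K' hfin' g hp

end

end Cfsg.Agent.H49
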