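import Mathlib
import Cfsg.Agent.H49.MinusPresK
import Cfsg.Agent.H49.FieldLoc
import Cfsg.Agent.H49.FieldDesc

set_option autoImplicit false
set_option linter.unusedSectionVars false
set_option linter.unusedSimpArgs false
set_option linter.unusedVariables false

/-! Helper lemmas (helper49): class preservation for the minus-type form is compatible with
base change from a subfield and with conjugation by a similarity between two forms. -/

namespace Cfsg.Agent.H49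

open Module Matrix

section
variable {ι : Type} [Fintype ι] [DecidableEq ι] {F₀ : Type*} {F : Type*} [Field F₀] [Field F]

theorem simMul_bcSim {j : F₀ →+* F} {Q₀ : QuadraticForm F₀ (ι → F₀)}
    {Q : QuadraticForm F (ι → F)} (hc : FormCompat j Q₀ Q) (hne : ∃ v, Q v ≠ 0)
    (g₀ : ↥(Cfsg.Geo.quadSimilarityGroup (⇑Q₀))) :
    simMul (⇑Q) (bcSim hc g₀) = Units.map (j : F₀ →* F) (simMul (⇑Q₀) g₀) :=
  simMul_unique _ hne _ _ (fun v => bc_form hc _ _ (fun u => simMul_spec (⇑Q₀) g₀ u) v)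

theorem simD_bcSim {j : F₀ →+* F} {Q₀ : QuadraticForm F₀ (ι → F₀)}
    {Q : QuadraticForm F (ι → F)} (hc : FormCompat j Q₀ Q) (hne₀ : ∃ v, Q₀ v ≠ 0)
    (hne : ∃ v, Q v ≠ 0) (k : ℕ) (g₀ : ↥(Cfsg.Geo.quadSimilarityGroup (⇑Q₀))) :
    simD Q hne k (bcSim hc g₀) = Units.map (j : F₀ →* F) (simD Q₀ hne₀ k g₀) := by
  apply Units.ext
  rw [simD_val, simMul_bcSim hc hne, bcSim_val]
  show (((g₀ : Matrix.GeneralLinearGroup ι F₀) : Matrix ι ι F₀).map j).det
      * ((j (simMul (⇑Q₀) g₀ : F₀))⁻¹) ^ k = j ((simD Q₀ hne₀ k g₀ : F₀ˣ) : F₀)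
  rw [simD_val, map_mul, map_pow, map_inv₀, RingHom.map_det]
  rfl

/-- Base change of a matrix scaling one form into another. -/
theorem bc_form2 {j : F₀ →+* F} {Q₀ Q₀' : QuadraticForm F₀ (ι → F₀)}
    {Q Q' : QuadraticForm F (ι → F)} (hc : FormCompat j Q₀ Q) (hc' : FormCompat j Q₀' Q')
    (M : Matrix ι ι F₀) (μ : F₀) (hM : ∀ u, Q₀ (M *ᵥ u) = μ * Q₀' u) (v : ι → F) :
    Q ((M.map j) *ᵥ v) = j μ * Q' v := by
  apply form_eq_of_basis_images
  · intro i
    rw [← coe_single_hom j i, map_mulVec_coe, hc, hc', hM, map_mul]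
  · intro i k
    rw [← coe_single_hom j i, ← coe_single_hom j k, map_mulVec_coe, map_mulVec_coe, hc.polar,
      hc'.polar, ← map_mul]
    congr 1
    simp only [QuadraticMap.polar]
    rw [← Matrix.mulVec_add, hM, hM, hM]
    ring

end

section
variable {ι : Type} [Fintype ι] [DecidableEq ι] {K : Type*} [Field K]

/-- Class preservation is transported by a similarity between two forms. -/
theorem pres_conj_of_sim (Q Q' : QuadraticForm K (ι → K)) (M : Matrix.GeneralLinearGroup ι K)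
    (c : K) (hc : c ≠ 0) (hM : ∀ v, Q ((M : Matrix ι ι K) *ᵥ v) = c * Q' v) (g : Matrix ι ι K)
    (hp : Cfsg.PreservesSingularClasses (⇑Q') g) :
    Cfsg.PreservesSingularClasses (⇑Q)
      ((M : Matrix ι ι K) * g * ((M⁻¹ : Matrix.GeneralLinearGroup ι K) : Matrix ι ι K)) := by
  classical
  obtain ⟨L, hL⟩ : ∃ L : (ι → K) ≃ₗ[K] (ι → K), ∀ v, L v = (M : Matrix ι ι K) *ᵥ v := by
    refine ⟨LinearEquiv.ofLinearMap (f := Matrix.toLin' (M : Matrix ι ι K))
      (g := Matrix.toLin' ((M⁻¹ : Matrix.GeneralLinearGroup ι K) : Matrix ι ι K)) ?_ ?_,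
      fun v => ?_⟩
    · rw [← Matrix.toLin'_mul, ← Units.val_mul, mul_inv_cancel, Units.val_one, Matrix.toLin'_one]
    · rw [← Matrix.toLin'_mul, ← Units.val_mul, inv_mul_cancel, Units.val_one, Matrix.toLin'_one]
    · rfl
  have hLs : ∀ v, L.symm v = ((M⁻¹ : Matrix.GeneralLinearGroup ι K) : Matrix ι ι K) *ᵥ v := by
    intro v
    apply L.injective
    rw [LinearEquiv.apply_symm_apply, hL, Matrix.mulVec_mulVec, ← Units.val_mul, mul_inv_cancel,
      Units.val_one, Matrix.one_mulVec]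
  have hQ' : ∀ v, Q' v = c⁻¹ * Q (L v) := by
    intro v
    rw [hL, hM, ← mul_assoc, inv_mul_cancel₀ hc, one_mul]
  intro U hU
  obtain ⟨U', hU'⟩ : ∃ U' : Submodule K (ι → K), U' = U.map (L.symm : (ι → K) →ₗ[K] (ι → K)) :=
    ⟨_, rfl⟩
  have hUU' : U'.map (L : (ι → K) →ₗ[K] (ι → K)) = U := by
    rw [hU', ← Submodule.map_comp]
    have : (L : (ι → K) →ₗ[K] (ι → K)).comp (L.symm : (ι → K) →ₗ[K] (ι → K)) = LinearMap.id := by
      ext v
      simp
    rw [this, Submodule.map_id]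
  have hmax : Cfsg.IsMaxTotallySingular (⇑Q') U' := by
    constructor
    · intro w hw
      rw [hU'] at hw
      obtain ⟨u, hu, rfl⟩ := Submodule.mem_map.mp hw
      rw [hQ']
      show c⁻¹ * Q (L (L.symm u)) = 0
      rw [LinearEquiv.apply_symm_apply, hU.1 u hu, mul_zero]
    · intro W' hW' hle
      have hW : Cfsg.Geo.IsTotallySingularQuad (⇑Q) (W'.map (L : (ι → K) →ₗ[K] (ι → K))) := by
        intro w hw
        obtain ⟨w', hw', rfl⟩ := Submodule.mem_map.mp hw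
        show Q (L w') = 0
        rw [hL, hM, hW' w' hw', mul_zero]
      have hUW : U ≤ W'.map (L : (ι → K) →ₗ[K] (ι → K)) := by
        rw [← hUU']
        exact Submodule.map_mono hle
      have h1 := hU.2 _ hW hUW
      have h2 : W' = (W'.map (L : (ι → K) →ₗ[K] (ι → K))).map
          (L.symm : (ι → K) →ₗ[K] (ι → K)) := by
        rw [← Submodule.map_comp]
        have : (L.symm : (ι → K) →ₗ[K] (ι → K)).comp (L : (ι → K) →ₗ[K] (ι → K))
            = LinearMap.id := by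
          ext v
          simp
        rw [this, Submodule.map_id]
      rw [h2, h1, hU']
  have key := hp U' hmax
  unfold Cfsg.SameParityClass Cfsg.imageSubmodule at key ⊢
  have e1 : finrank K ↥U = finrank K ↥U' := by
    rw [← hUU']
    exact LinearEquiv.finrank_map_eq L U'
  have e2 : U.map (Matrix.toLin' ((M : Matrix ι ι K) * g
      * ((M⁻¹ : Matrix.GeneralLinearGroup ι K) : Matrix ι ι K)))
      = (U'.map (Matrix.toLin' g)).map (L : (ι → K) →ₗ[K] (ι → K)) := by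
    rw [hU', ← Submodule.map_comp, ← Submodule.map_comp]
    congr 1
    ext v
    simp only [LinearMap.comp_apply, Matrix.toLin'_apply, LinearEquiv.coe_coe, hL, hLs,
      Matrix.mulVec_mulVec, Matrix.mul_assoc]
  have e3 : finrank K ↥(U ⊓ U.map (Matrix.toLin' ((M : Matrix ι ι K) * g
      * ((M⁻¹ : Matrix.GeneralLinearGroup ι K) : Matrix ι ι K))))
      = finrank K ↥(U' ⊓ U'.map (Matrix.toLin' g)) := by
    rw [e2]
    conv_lhs => rw [← hUU']
    rw [← Submodule.map_inf _ L.injective]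
    exact LinearEquiv.finrank_map_eq L _
  rw [e1, e3]
  exact key

end

section
universe u₀ u
variable {F₀ : Type u₀} {F : Type u} [Field F₀] [Fintype F₀] [Field F] [Fintype F]

set_option maxHeartbeats 1600000 in
/-- Class preservation is compatible with base change from a subfield over which the binary
part stays anisotropic. -/
theorem presMinus_bc (j : F₀ →+* F) (m : ℕ) (hm : 2 ≤ m) (a₀ b₀ : F₀)
    (hab₀ : ∀ z₁ z₂ : F₀, z₁ ^ 2 + a₀ * z₁ * z₂ + b₀ * z₂ ^ 2 = 0 → z₁ = 0 ∧ z₂ = 0)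
    (hab : ∀ z₁ z₂ : F, z₁ ^ 2 + j a₀ * z₁ * z₂ + j b₀ * z₂ ^ 2 = 0 → z₁ = 0 ∧ z₂ = 0)
    (g₀ : ↥(Cfsg.Geo.quadSimilarityGroup (⇑(QMin m F₀ a₀ b₀)))) :
    Cfsg.PreservesSingularClassesMinus m a₀ b₀ ((g₀ : Matrix.GeneralLinearGroup ((Fin m ⊕ Fin m) ⊕ Fin 2) F₀) : Matrix ((Fin m ⊕ Fin m) ⊕ Fin 2) ((Fin m ⊕ Fin m) ⊕ Fin 2) F₀) ↔
    Cfsg.PreservesSingularClassesMinus m (j a₀) (j b₀)
      (((bcSim (QMin_compat j m a₀ b₀) g₀ :
        ↥(Cfsg.Geo.quadSimilarityGroup (⇑(QMin m F (j a₀) (j b₀))))) : Matrix.GeneralLinearGroup ((Fin m ⊕ Fin m) ⊕ Fin 2) F) : Matrix ((Fin m ⊕ Fin m) ⊕ Fin 2) ((Fin m ⊕ Fin m) ⊕ Fin 2) F) := by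
  classical
  have hc := QMin_compat j m a₀ b₀
  have fwd : ∀ g₀ : ↥(Cfsg.Geo.quadSimilarityGroup (⇑(QMin m F₀ a₀ b₀))),
      Cfsg.PreservesSingularClassesMinus m a₀ b₀ ((g₀ : Matrix.GeneralLinearGroup ((Fin m ⊕ Fin m) ⊕ Fin 2) F₀) : Matrix ((Fin m ⊕ Fin m) ⊕ Fin 2) ((Fin m ⊕ Fin m) ⊕ Fin 2) F₀) →
      Cfsg.PreservesSingularClassesMinus m (j a₀) (j b₀)
        (((bcSim hc g₀ : ↥(Cfsg.Geo.quadSimilarityGroup (⇑(QMin m F (j a₀) (j b₀))))) :
          Matrix.GeneralLinearGroup ((Fin m ⊕ Fin m) ⊕ Fin 2) F) : Matrix ((Fin m ⊕ Fin m) ⊕ Fin 2) ((Fin m ⊕ Fin m) ⊕ Fin 2) F) := by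
    intro g₀ hg
    by_cases h2 : (2 : F₀) = 0
    · obtain ⟨l, s, hs, rfl⟩ := presMinus_two m hm a₀ b₀ hab₀ h2 g₀ hg
      obtain ⟨χ, hχ, hχs, hχr⟩ := exists_minusPres m hm (j a₀) (j b₀) hab
      rw [← hχ, map_mul, map_mul, bcSim_scalSim hc, hχs, one_mul, ← inclO_bcO hc s]
      exact Abelianization.commutator_subset_ker (χ.comp (inclO (QMin m F (j a₀) (j b₀))))
        ((mapComm (bcO hc) ⟨s, hs⟩).2)
    · have h2F : (2 : F) ≠ 0 := by
        intro h
        apply h2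
        apply j.injective
        rw [map_ofNat, h, map_zero]
      have hne₀ := QMin_ne m a₀ b₀
      have hne := QMin_ne m (j a₀) (j b₀)
      rw [preservesMinus_iff m a₀ b₀ hab₀ h2 hne₀] at hg
      rw [preservesMinus_iff m (j a₀) (j b₀) hab h2F hne, simD_bcSim hc hne₀ hne, hg, map_one]
  constructor
  · exact fwd g₀
  · intro hg
    by_contra hn
    obtain ⟨w₀, hw₀⟩ := QMin_ne m a₀ b₀
    have h1 := presMinus_mul_refl m a₀ b₀ hab₀ g₀ w₀ hw₀ hn
    have h2 := fwd _ h1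
    obtain ⟨χ, hχ, hχs, hχr⟩ := exists_minusPres m hm (j a₀) (j b₀) hab
    rw [← hχ] at hg h2
    rw [map_mul, map_mul, hg, one_mul] at h2
    have hρ : bcSim hc (inclO (QMin m F₀ a₀ b₀) (reflG (QMin m F₀ a₀ b₀) w₀))
        = inclO (QMin m F (j a₀) (j b₀)) (reflG (QMin m F (j a₀) (j b₀))
          (fun i => j (w₀ i))) := by
      apply Subtype.ext
      apply Units.ext
      rw [bcSim_val]
      exact bc_reflectionMatrix hc w₀
    have hwF : QMin m F (j a₀) (j b₀) (fun i => j (w₀ i)) ≠ 0 := by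
      rw [hc w₀]
      exact (map_ne_zero _).mpr hw₀
    rw [hρ, hχr _ hwF] at h2
    exact absurd h2 (by decide)

end

section
universe u
variable {F : Type u} [Field F] [Fintype F]

set_option maxHeartbeats 1600000 in
/-- Class preservation is transported by a similarity between two minus-type forms. -/
theorem presMinus_conj (m : ℕ) (a b a' b' : F) (P : Matrix.GeneralLinearGroup ((Fin m ⊕ Fin m) ⊕ Fin 2) F) (e : F) (he : e ≠ 0)
    (hP : ∀ v, QMin m F a b ((P : Matrix ((Fin m ⊕ Fin m) ⊕ Fin 2) ((Fin m ⊕ Fin m) ⊕ Fin 2) F) *ᵥ v) = e * QMin m F a' b' v)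
    (g : ↥(Cfsg.Geo.quadSimilarityGroup (⇑(QMin m F a' b'))))
    (g' : ↥(Cfsg.Geo.quadSimilarityGroup (⇑(QMin m F a b))))
    (hg' : (g' : Matrix.GeneralLinearGroup ((Fin m ⊕ Fin m) ⊕ Fin 2) F) = P * g.1 * P⁻¹)
    (hp : Cfsg.PreservesSingularClassesMinus m a' b' ((g : Matrix.GeneralLinearGroup ((Fin m ⊕ Fin m) ⊕ Fin 2) F) : Matrix ((Fin m ⊕ Fin m) ⊕ Fin 2) ((Fin m ⊕ Fin m) ⊕ Fin 2) F)) :
    Cfsg.PreservesSingularClassesMinus m a b ((g' : Matrix.GeneralLinearGroup ((Fin m ⊕ Fin m) ⊕ Fin 2) F) : Matrix ((Fin m ⊕ Fin m) ⊕ Fin 2) ((Fin m ⊕ Fin m) ⊕ Fin 2) F) := by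
  classical
  obtain ⟨K, instK, instA, hfin, hpK⟩ := hp
  refine ⟨K, instK, instA, hfin, ?_⟩
  have hc := QMin_compat (algebraMap F K) m a b
  have hc' := QMin_compat (algebraMap F K) m a' b'
  have hPK : ∀ v, QMin m K (algebraMap F K a) (algebraMap F K b)
      (((P : Matrix ((Fin m ⊕ Fin m) ⊕ Fin 2) ((Fin m ⊕ Fin m) ⊕ Fin 2) F).map (algebraMap F K)) *ᵥ v)
      = algebraMap F K e * QMin m K (algebraMap F K a') (algebraMap F K b') v :=
    bc_form2 hc hc' _ e hP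
  have key := pres_conj_of_sim (QMin m K (algebraMap F K a) (algebraMap F K b))
    (QMin m K (algebraMap F K a') (algebraMap F K b'))
    (Matrix.GeneralLinearGroup.map (algebraMap F K) P) (algebraMap F K e)
    ((map_ne_zero _).mpr he) hPK _ hpK
  have e1 : ((g' : Matrix.GeneralLinearGroup ((Fin m ⊕ Fin m) ⊕ Fin 2) F) : Matrix ((Fin m ⊕ Fin m) ⊕ Fin 2) ((Fin m ⊕ Fin m) ⊕ Fin 2) F).map (algebraMap F K)
      = ((Matrix.GeneralLinearGroup.map (algebraMap F K) P :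
          Matrix.GeneralLinearGroup ((Fin m ⊕ Fin m) ⊕ Fin 2) K) : Matrix ((Fin m ⊕ Fin m) ⊕ Fin 2) ((Fin m ⊕ Fin m) ⊕ Fin 2) K)
        * ((g : Matrix.GeneralLinearGroup ((Fin m ⊕ Fin m) ⊕ Fin 2) F) : Matrix ((Fin m ⊕ Fin m) ⊕ Fin 2) ((Fin m ⊕ Fin m) ⊕ Fin 2) F).map (algebraMap F K)
        * (((Matrix.GeneralLinearGroup.map (algebraMap F K) P)⁻¹ :
          Matrix.GeneralLinearGroup ((Fin m ⊕ Fin m) ⊕ Fin 2) K) : Matrix ((Fin m ⊕ Fin m) ⊕ Fin 2) ((Fin m ⊕ Fin m) ⊕ Fin 2) K) := by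
    rw [hg', Units.val_mul, Units.val_mul, Matrix.map_mul, Matrix.map_mul, ← map_inv]
    rfl
  show Cfsg.PreservesSingularClasses
    (⇑(QMin m K (algebraMap F K a) (algebraMap F K b)))
    (((g' : Matrix.GeneralLinearGroup ((Fin m ⊕ Fin m) ⊕ Fin 2) F) : Matrix ((Fin m ⊕ Fin m) ⊕ Fin 2) ((Fin m ⊕ Fin m) ⊕ Fin 2) F).map (algebraMap F K))
  rw [e1]
  exact key

end

end Cfsg.Agent.H49
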