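import Mathlib
import Cfsg.Agent.H49.MinusPresK
import Cfsg.Agent.H49.MinusPresBC
import Cfsg.Agent.H49.FieldCentSub
import Cfsg.Agent.H49.FieldOdd2
import Cfsg.Agent.H49.SimMinus
import Cfsg.Agent.H49.SimMinusK
import Cfsg.Agent.H49.PlusEll

set_option autoImplicit false
set_option linter.unusedSectionVars false
set_option linter.unusedSimpArgs false
set_option linter.unusedVariables false

/-! Helper lemmas (helper49): the centraliser of the standard field automorphism of odd order in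
the inner-diagonal group of the minus-type orthogonal group, and the splitting of its class. -/

namespace Cfsg.Agent.H49

open Module Matrix GalDesc

section
variable {ι : Type} [Fintype ι] [DecidableEq ι] {F₀ : Type*} {F : Type*} [Field F₀] [Field F]
  [Fintype F₀] [Fintype F]

/-- Non-squares of the fixed field of an automorphism of odd order stay non-squares. -/
theorem nonsq_of_odd_ext (h2 : (2 : F) ≠ 0) (j : F₀ →+* F) (τ : RingAut F) {r : ℕ}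
    (hord : orderOf τ = r) (hrodd : Odd r) (hj : ∀ a : F, τ a = a ↔ ∃ a₀ : F₀, j a₀ = a)
    (ν₀ : F₀) (hν₀ : ¬ IsSquare ν₀) : ¬ IsSquare (j ν₀) := by
  rintro ⟨y, hy⟩
  have hy1 : τ (y * y) = y * y := by
    rw [← hy]
    exact (hj _).mpr ⟨_, rfl⟩
  have hy2 := fixed_sqrt_of_odd h2 τ hord hrodd y hy1
  obtain ⟨y₀, hy₀⟩ := (hj y).mp hy2
  apply hν₀
  refine ⟨y₀, ?_⟩
  apply j.injective
  rw [map_mul, hy₀, hy]

theorem bcO_reflG {j : F₀ →+* F} {Q₀ : QuadraticForm F₀ (ι → F₀)}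
    {Q : QuadraticForm F (ι → F)} (hc : FormCompat j Q₀ Q) (u₀ : ι → F₀) :
    bcO hc (reflG Q₀ u₀) = reflG Q (fun i => j (u₀ i)) := by
  apply Subtype.ext
  apply Units.ext
  rw [bcO_val, reflG_coe, reflG_coe, bc_reflectionMatrix hc]

set_option maxHeartbeats 1600000 in
/-- Odd characteristic: a similarity with `det = multiplier^k` is a scalar times an element of
`Ω` times a similarity of the same kind defined over the small field. -/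
theorem exists_decomp_odd (h2 : (2 : F) ≠ 0) {j : F₀ →+* F} {Q₀ : QuadraticForm F₀ (ι → F₀)}
    {Q : QuadraticForm F (ι → F)} (hc : FormCompat j Q₀ Q)
    (hQ : (QuadraticMap.polarBilin Q).Nondegenerate)
    (hQ₀ : (QuadraticMap.polarBilin Q₀).Nondegenerate) (h3₀ : HasTS3 Q₀)
    (hne : ∃ v, Q v ≠ 0) (hne₀ : ∃ v, Q₀ v ≠ 0) {k : ℕ} (hk : Fintype.card ι = 2 * k)
    (hns : ∀ ν₀ : F₀, ¬ IsSquare ν₀ → ¬ IsSquare (j ν₀))
    (δ₀ : ↥(Cfsg.Geo.quadSimilarityGroup (⇑Q₀)))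
    (hδ₀ns : ¬ IsSquare (simMul (⇑Q₀) δ₀ : F₀)) (hδ₀D : simD Q₀ hne₀ k δ₀ = 1)
    (g : ↥(Cfsg.Geo.quadSimilarityGroup (⇑Q))) (hg : simD Q hne k g = 1) :
    ∃ (g₀ : ↥(Cfsg.Geo.quadSimilarityGroup (⇑Q₀))) (l : Fˣ)
      (s : ↥(Cfsg.isometryGroup F (⇑Q))), simD Q₀ hne₀ k g₀ = 1 ∧
      s ∈ commutator ↥(Cfsg.isometryGroup F (⇑Q)) ∧
      g = scalSim Q l * inclO Q s * bcSim hc g₀ := by
  classical
  have h2₀ : (2 : F₀) ≠ 0 := by
    intro h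
    apply h2
    rw [← map_ofNat j 2, h, map_zero]
  obtain ⟨g₁, hg₁D, hsq⟩ : ∃ g₁ : ↥(Cfsg.Geo.quadSimilarityGroup (⇑Q₀)),
      simD Q₀ hne₀ k g₁ = 1 ∧ IsSquare (simMul (⇑Q) (g * (bcSim hc g₁)⁻¹) : F) := by
    by_cases hsq : IsSquare (simMul (⇑Q) g : F)
    · refine ⟨1, map_one _, ?_⟩
      rw [map_one, inv_one, mul_one]
      exact hsq
    · refine ⟨δ₀, hδ₀D, ?_⟩
      have e : simMul (⇑Q) (g * (bcSim hc δ₀)⁻¹)
          = simMul (⇑Q) g * (Units.map (j : F₀ →* F) (simMul (⇑Q₀) δ₀))⁻¹ := by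
        rw [← simMulHom_apply (⇑Q) hne, map_mul, map_inv, simMulHom_apply, simMulHom_apply,
          simMul_bcSim hc hne]
      rw [e, Units.val_mul, Units.val_inv_eq_inv_val]
      have hN : ¬ IsSquare ((j (simMul (⇑Q₀) δ₀ : F₀))⁻¹ : F) := by
        rw [isSquare_inv]
        exact hns _ hδ₀ns
      exact (isSquare_mul_nonsquare_iff (simMul (⇑Q) g).ne_zero hN).mpr hsq
  obtain ⟨l, s, hs⟩ := exists_scal_mul_of_isSquare Q (g * (bcSim hc g₁)⁻¹) hsq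
  have hD' : simD Q hne k (g * (bcSim hc g₁)⁻¹) = 1 := by
    rw [map_mul, map_inv, hg, simD_bcSim hc hne₀ hne, hg₁D, map_one, inv_one, mul_one]
  have hdet : ((s : Matrix.GeneralLinearGroup ι F) : Matrix ι ι F).det = 1 := by
    rw [hs, map_mul, simD_scalSim Q hne hk, one_mul] at hD'
    have := congrArg Units.val hD'
    rw [simD_inclO, Units.val_one] at this
    exact this
  have hgeq : g = scalSim Q l * inclO Q s * bcSim hc g₁ := by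
    rw [← hs]
    group
  by_cases hsp : spinSign Q s = 1
  · exact ⟨g₁, l, s, hg₁D, (mem_commutator_iff_spinSign_det Q h2 hQ s).mpr ⟨hsp, hdet⟩, hgeq⟩
  · have hsp' : spinSign Q s = -1 := (Int.units_eq_one_or _).resolve_left hsp
    obtain ⟨u₀, hu₀⟩ := exists_Q_eq_of_ts3 Q₀ hQ₀ h3₀ 1
    obtain ⟨ν₀, hν₀⟩ := exists_nonsquare_of_two_ne_zero (F := F₀) h2₀
    obtain ⟨v₀, hv₀⟩ := exists_Q_eq_of_ts3 Q₀ hQ₀ h3₀ ν₀
    have hν0 : ν₀ ≠ 0 := by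
      rintro rfl
      exact hν₀ ⟨0, by simp⟩
    have hu0 : Q₀ u₀ ≠ 0 := by rw [hu₀]; exact one_ne_zero
    have hv0 : Q₀ v₀ ≠ 0 := by rw [hv₀]; exact hν0
    obtain ⟨t₀, ht₀⟩ : ∃ t₀ : ↥(Cfsg.isometryGroup F₀ (⇑Q₀)),
        t₀ = reflG Q₀ u₀ * reflG Q₀ v₀ := ⟨_, rfl⟩
    have hQu : Q (fun i => j (u₀ i)) = 1 := by rw [hc, hu₀, map_one]
    have hQv : Q (fun i => j (v₀ i)) = j ν₀ := by rw [hc, hv₀]
    have hdt₀ : ((t₀ : Matrix.GeneralLinearGroup ι F₀) : Matrix ι ι F₀).det = 1 := by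
      rw [ht₀, det_mul_iso, reflG_coe, reflG_coe, det_reflectionMatrix Q₀ u₀ hu0,
        det_reflectionMatrix Q₀ v₀ hv0]
      ring
    have hspt : spinSign Q (bcO hc t₀) = -1 := by
      rw [ht₀, map_mul, bcO_reflG, bcO_reflG, map_mul,
        spinSign_reflG Q h2 _ (by rw [hQu]; exact one_ne_zero),
        spinSign_reflG Q h2 _ (by rw [hQv]; exact (map_ne_zero j).mpr hν0), hQu, hQv,
        if_pos ⟨1, by simp⟩, if_neg (hns ν₀ hν₀)]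
      rfl
    have hdt : (((bcO hc t₀ : ↥(Cfsg.isometryGroup F (⇑Q))) : Matrix.GeneralLinearGroup ι F) :
        Matrix ι ι F).det = 1 := by
      have h := RingHom.map_det j ((t₀ : Matrix.GeneralLinearGroup ι F₀) : Matrix ι ι F₀)
      rw [hdt₀, map_one] at h
      exact h.symm
    have hs' : s * (bcO hc t₀)⁻¹ ∈ commutator ↥(Cfsg.isometryGroup F (⇑Q)) := by
      rw [mem_commutator_iff_spinSign_det Q h2 hQ]
      constructor
      · rw [map_mul, map_inv, hsp', hspt]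
        rfl
      · have h := det_mul_iso (s * (bcO hc t₀)⁻¹) (bcO hc t₀)
        rw [inv_mul_cancel_right, hdet, hdt, mul_one] at h
        exact h.symm
    refine ⟨inclO Q₀ t₀ * g₁, l, s * (bcO hc t₀)⁻¹, ?_, hs', ?_⟩
    · rw [map_mul, hg₁D, mul_one]
      apply Units.ext
      rw [simD_inclO, Units.val_one]
      exact hdt₀
    · rw [map_mul (bcSim hc), ← inclO_bcO hc t₀, map_mul (inclO Q), map_inv, hgeq]
      group

end

section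
universe u₀ u
variable {F₀ : Type u₀} {F : Type u} [Field F₀] [Fintype F₀] [Field F] [Fintype F]

set_option maxHeartbeats 3200000 in
/-- The standard field automorphism of odd order of the minus-type group: its centraliser in
the inner-diagonal group is the inner-diagonal group over the fixed field, and the
inner-diagonal group is generated by the inner automorphisms and this centraliser. -/
theorem minus_std_cent (j : F₀ →+* F) {m : ℕ} (hm : 3 ≤ m) (a₀ b₀ : F₀)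
    (hab₀ : ∀ z₁ z₂ : F₀, z₁ ^ 2 + a₀ * z₁ * z₂ + b₀ * z₂ ^ 2 = 0 → z₁ = 0 ∧ z₂ = 0)
    (hab : ∀ z₁ z₂ : F, z₁ ^ 2 + j a₀ * z₁ * z₂ + j b₀ * z₂ ^ 2 = 0 → z₁ = 0 ∧ z₂ = 0)
    (τ : RingAut F) {r : ℕ} (hord : orderOf τ = r) (hrodd : Odd r)
    (hj : ∀ a : F, τ a = a ↔ ∃ a₀ : F₀, j a₀ = a)
    (φ : MulAut (Cfsg.POmega F (⇑(QMin m F (j a₀) (j b₀)))))
    (hi1 : Cfsg.IsInducedBySemilinearPOmega (⇑(QMin m F (j a₀) (j b₀)))
      (1 : Matrix.GeneralLinearGroup ((Fin m ⊕ Fin m) ⊕ Fin 2) F) τ φ) :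
    Nonempty (↥((Cfsg.autSubgroupOf (fun β : Cfsg.POmega F (⇑(QMin m F (j a₀) (j b₀))) ≃* Cfsg.POmega F (⇑(QMin m F (j a₀) (j b₀))) =>
        ∃ g : Matrix.GeneralLinearGroup ((Fin m ⊕ Fin m) ⊕ Fin 2) F, g ∈ Cfsg.Geo.quadSimilarityGroup (⇑(QMin m F (j a₀) (j b₀))) ∧
          Cfsg.PreservesSingularClassesMinus m (j a₀) (j b₀) (g : Matrix ((Fin m ⊕ Fin m) ⊕ Fin 2) ((Fin m ⊕ Fin m) ⊕ Fin 2) F) ∧
          Cfsg.IsInducedBySemilinearPOmega (⇑(QMin m F (j a₀) (j b₀))) g (RingEquiv.refl F) β)) ⊓ Subgroup.centralizer {φ}) ≃* ↥((Cfsg.autSubgroupOf (fun β : Cfsg.POmega F₀ (⇑(QMin m F₀ a₀ b₀)) ≃* Cfsg.POmega F₀ (⇑(QMin m F₀ a₀ b₀)) =>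
        ∃ g : Matrix.GeneralLinearGroup ((Fin m ⊕ Fin m) ⊕ Fin 2) F₀, g ∈ Cfsg.Geo.quadSimilarityGroup (⇑(QMin m F₀ a₀ b₀)) ∧
          Cfsg.PreservesSingularClassesMinus m a₀ b₀ (g : Matrix ((Fin m ⊕ Fin m) ⊕ Fin 2) ((Fin m ⊕ Fin m) ⊕ Fin 2) F₀) ∧
          Cfsg.IsInducedBySemilinearPOmega (⇑(QMin m F₀ a₀ b₀)) g (RingEquiv.refl F₀) β)))) ∧
    (Cfsg.autSubgroupOf (fun β : Cfsg.POmega F (⇑(QMin m F (j a₀) (j b₀))) ≃* Cfsg.POmega F (⇑(QMin m F (j a₀) (j b₀))) =>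
        ∃ g : Matrix.GeneralLinearGroup ((Fin m ⊕ Fin m) ⊕ Fin 2) F, g ∈ Cfsg.Geo.quadSimilarityGroup (⇑(QMin m F (j a₀) (j b₀))) ∧
          Cfsg.PreservesSingularClassesMinus m (j a₀) (j b₀) (g : Matrix ((Fin m ⊕ Fin m) ⊕ Fin 2) ((Fin m ⊕ Fin m) ⊕ Fin 2) F) ∧
          Cfsg.IsInducedBySemilinearPOmega (⇑(QMin m F (j a₀) (j b₀))) g (RingEquiv.refl F) β)) ≤ Cfsg.Inn (Cfsg.POmega F (⇑(QMin m F (j a₀) (j b₀))))
      ⊔ ((Cfsg.autSubgroupOf (fun β : Cfsg.POmega F (⇑(QMin m F (j a₀) (j b₀))) ≃* Cfsg.POmega F (⇑(QMin m F (j a₀) (j b₀))) =>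
        ∃ g : Matrix.GeneralLinearGroup ((Fin m ⊕ Fin m) ⊕ Fin 2) F, g ∈ Cfsg.Geo.quadSimilarityGroup (⇑(QMin m F (j a₀) (j b₀))) ∧
          Cfsg.PreservesSingularClassesMinus m (j a₀) (j b₀) (g : Matrix ((Fin m ⊕ Fin m) ⊕ Fin 2) ((Fin m ⊕ Fin m) ⊕ Fin 2) F) ∧
          Cfsg.IsInducedBySemilinearPOmega (⇑(QMin m F (j a₀) (j b₀))) g (RingEquiv.refl F) β)) ⊓ Subgroup.centralizer {φ}) := by
  classical
  have hm2 : 2 ≤ m := by omega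
  have hc := QMin_compat j m a₀ b₀
  have hd := disc_ne_zero_of_aniso (j a₀) (j b₀) hab
  have hd₀ := disc_ne_zero_of_aniso a₀ b₀ hab₀
  have hQ := QMin_nondeg m (j a₀) (j b₀) hd
  have hQ₀ := QMin_nondeg m a₀ b₀ hd₀
  have h3 := hasTS3_QMin (F := F) m hm (j a₀) (j b₀)
  have h3₀ := hasTS3_QMin (F := F₀) m hm a₀ b₀
  have hne := QMin_ne m (j a₀) (j b₀)
  have hne₀ := QMin_ne m a₀ b₀
  obtain ⟨χ, hχ, hχs, hχr⟩ := exists_minusPres m hm2 (j a₀) (j b₀) hab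
  obtain ⟨χ₀, hχ₀, hχ₀s, hχ₀r⟩ := exists_minusPres m hm2 a₀ b₀ hab₀
  have hDS := autSubgroupOf_pred_eq (⇑(QMin m F (j a₀) (j b₀)))
    (Cfsg.PreservesSingularClassesMinus m (j a₀) (j b₀)) χ.ker
    (fun g => by rw [MonoidHom.mem_ker]; exact (hχ g).symm)
  have hD0 := autSubgroupOf_pred_eq (⇑(QMin m F₀ a₀ b₀))
    (Cfsg.PreservesSingularClassesMinus m a₀ b₀) χ₀.ker
    (fun g => by rw [MonoidHom.mem_ker]; exact (hχ₀ g).symm)
  rw [hDS, hD0]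
  have hτa : τ (j a₀) = j a₀ := (hj _).mpr ⟨a₀, rfl⟩
  have hτb : τ (j b₀) = j b₀ := (hj _).mpr ⟨b₀, rfl⟩
  have hσQ : ∀ v : (Fin m ⊕ Fin m) ⊕ Fin 2 → F,
      QMin m F (j a₀) (j b₀) (fun i => τ (v i)) = τ (QMin m F (j a₀) (j b₀) v) :=
    fun v => QMin_sigma m (j a₀) (j b₀) τ hτa hτb v
  have hp1 : Cfsg.IsSemisimilarityPair (⇑(QMin m F (j a₀) (j b₀)))
      (1 : Matrix.GeneralLinearGroup ((Fin m ⊕ Fin m) ⊕ Fin 2) F) τ := by
    refine ⟨1, fun v => ?_⟩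
    rw [Units.val_one, Matrix.one_mulVec, Units.val_one, one_mul]
    exact hσQ v
  have hcompat : ∀ g₀ : ↥(Cfsg.Geo.quadSimilarityGroup (⇑(QMin m F₀ a₀ b₀))),
      g₀ ∈ χ₀.ker ↔ bcSim hc g₀ ∈ χ.ker := by
    intro g₀
    rw [MonoidHom.mem_ker, MonoidHom.mem_ker, hχ₀, hχ]
    exact presMinus_bc j m hm2 a₀ b₀ hab₀ hab g₀
  obtain ⟨hmem, hiso⟩ := cent_phi_equiv_sub hc hQ h3 hne hQ₀ h3₀ hne₀ τ hord hrodd.pos hj hσQ
    hp1 hi1 χ.ker χ₀.ker (fun l => MonoidHom.mem_ker.mpr (hχs l)) hcompat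
  refine ⟨hiso, ?_⟩
  have hdec : ∀ k : ↥(Cfsg.Geo.quadSimilarityGroup (⇑(QMin m F (j a₀) (j b₀)))), χ k = 1 →
      ∃ (g₀ : ↥(Cfsg.Geo.quadSimilarityGroup (⇑(QMin m F₀ a₀ b₀)))) (l : Fˣ)
        (s : ↥(Cfsg.isometryGroup F (⇑(QMin m F (j a₀) (j b₀))))), χ₀ g₀ = 1 ∧
        s ∈ commutator ↥(Cfsg.isometryGroup F (⇑(QMin m F (j a₀) (j b₀)))) ∧
        k = scalSim (QMin m F (j a₀) (j b₀)) l * inclO (QMin m F (j a₀) (j b₀)) s
          * bcSim hc g₀ := by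
    intro k hk
    by_cases h2 : (2 : F) = 0
    · obtain ⟨l, s, hs, hks⟩ := presMinus_two m hm2 (j a₀) (j b₀) hab h2 k ((hχ k).mp hk)
      exact ⟨1, l, s, map_one _, hs, by rw [map_one, mul_one]; exact hks⟩
    · have h2₀ : (2 : F₀) ≠ 0 := by
        intro h
        apply h2
        rw [← map_ofNat j 2, h, map_zero]
      have hcard : Fintype.card ((Fin m ⊕ Fin m) ⊕ Fin 2) = 2 * (m + 1) := by
        simp
        ring
      obtain ⟨δ₀, hδ₀ns, hδ₀D, -⟩ := exists_msim m a₀ b₀ hab₀ h2₀ hne₀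
      have hkD := (preservesMinus_iff m (j a₀) (j b₀) hab h2 hne k).mp ((hχ k).mp hk)
      obtain ⟨g₀, l, s, hg₀D, hs, hks⟩ := exists_decomp_odd h2 hc hQ hQ₀ h3₀ hne hne₀ hcard
        (nonsq_of_odd_ext h2 j τ hord hrodd hj) δ₀ hδ₀ns hδ₀D k hkD
      exact ⟨g₀, l, s,
        (hχ₀ g₀).mpr ((preservesMinus_iff m a₀ b₀ hab₀ h2₀ hne₀ g₀).mpr hg₀D), hs, hks⟩
  intro y hy
  obtain ⟨k, hk, rfl⟩ := hy
  obtain ⟨g₀, l, s, hg₀, hs, hks⟩ := hdec k (MonoidHom.mem_ker.mp hk)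
  rw [hks, map_mul, map_mul, cHom_scalSim, one_mul]
  apply Subgroup.mul_mem_sup
  · rw [inn_eq]
    exact ⟨inclO _ s, ⟨s, hs, rfl⟩, rfl⟩
  · exact hmem g₀ (MonoidHom.mem_ker.mpr hg₀)

end

end Cfsg.Agent.H49
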