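import Mathlib
import Cfsg.Agent.H49.FieldLoc
import Cfsg.Agent.H49.AutInst
import Cfsg.Agent.H49.AutOut1
import Cfsg.Agent.H49.GalDesc2
import Cfsg.Agent.H49.PlusEll
import Cfsg.Agent.H49.Invol
import Cfsg.Agent.H49.OmegaGen
import Cfsg.Agent.H49.TwoAut
import Cfsg.Agent.H49.SimMinusK

set_option autoImplicit false
set_option linter.unusedSectionVars false
set_option linter.unusedSimpArgs false
set_option linter.unusedVariables false

/-! Helper lemmas (helper49): a field automorphism of prime order of a minus-type orthogonal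
group has odd order and is not induced by a similarity. -/

namespace Cfsg.Agent.H49

open Module Matrix GalDesc

section
variable {F : Type*} [Field F] [Fintype F]

set_option maxHeartbeats 1600000 in
/-- A quadratic polynomial with coefficients in the fixed field of an involution of a finite
field has a root. -/
theorem exists_root_of_invol (σ : RingAut F) (hσ : orderOf σ = 2) (a b : F)
    (ha : σ a = a) (hb : σ b = b) : ∃ z : F, z ^ 2 + a * z + b = 0 := by
  classical
  have : Fintype ↥(fixF σ) := Fintype.ofFinite _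
  have hcard : Fintype.card ↥(fixF σ) ^ 2 = Fintype.card F := by
    have h := card_fixF σ hσ
    rw [Nat.card_eq_fintype_card, Nat.card_eq_fintype_card] at h
    exact h
  obtain ⟨a₀, ha₀⟩ : ∃ a₀ : ↥(fixF σ), (a₀ : F) = a := ⟨⟨a, (mem_fixF σ a).mpr ha⟩, rfl⟩
  obtain ⟨b₀, hb₀⟩ : ∃ b₀ : ↥(fixF σ), (b₀ : F) = b := ⟨⟨b, (mem_fixF σ b).mpr hb⟩, rfl⟩
  obtain ⟨f, hf⟩ : ∃ f : Polynomial ↥(fixF σ),
      f = Polynomial.X ^ 2 + Polynomial.C a₀ * Polynomial.X + Polynomial.C b₀ := ⟨_, rfl⟩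
  have hdeg : f.natDegree = 2 := by
    rw [hf]
    compute_degree!
  have hfmap : ∀ z : F, (f.map (algebraMap ↥(fixF σ) F)).eval z = z ^ 2 + a * z + b := by
    intro z
    rw [hf]
    simp only [Polynomial.map_add, Polynomial.map_mul, Polynomial.map_pow, Polynomial.map_X,
      Polynomial.map_C, Polynomial.eval_add, Polynomial.eval_mul, Polynomial.eval_pow,
      Polynomial.eval_X, Polynomial.eval_C]
    rw [← ha₀, ← hb₀]
    rfl
  by_cases hroot : ∃ t : ↥(fixF σ), f.IsRoot t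
  · obtain ⟨t, ht⟩ := hroot
    have ht' : f.eval t = 0 := ht
    refine ⟨algebraMap ↥(fixF σ) F t, ?_⟩
    rw [← hfmap, Polynomial.eval_map, Polynomial.eval₂_at_apply, ht', map_zero]
  · have hirr : Irreducible f := by
      apply Polynomial.irreducible_of_degree_le_three_of_not_isRoot
      · rw [hdeg]
        decide
      · intro x hx
        exact hroot ⟨x, hx⟩
    have : Fact (Irreducible f) := ⟨hirr⟩
    have hfin : Module.finrank ↥(fixF σ) (AdjoinRoot f) = 2 := by
      have := finrank_quotient_span_eq_natDegree (f := f)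
      rw [hdeg] at this
      exact this
    have : Module.Finite ↥(fixF σ) (AdjoinRoot f) :=
      Module.finite_of_finrank_pos (by rw [hfin]; norm_num)
    have : Finite (AdjoinRoot f) := Module.finite_of_finite ↥(fixF σ)
    let _ : Fintype (AdjoinRoot f) := Fintype.ofFinite (AdjoinRoot f)
    have hcK : Fintype.card (AdjoinRoot f) = Fintype.card F := by
      rw [Module.card_eq_pow_finrank (K := ↥(fixF σ)) (V := AdjoinRoot f), hfin, hcard]
    have hpow : (AdjoinRoot.root f) ^ (Fintype.card F) = AdjoinRoot.root f := by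
      rw [← hcK]
      exact FiniteField.pow_card _
    have hdvd : f ∣ Polynomial.X ^ (Fintype.card F) - Polynomial.X := by
      rw [← AdjoinRoot.mk_eq_zero, map_sub, map_pow, AdjoinRoot.mk_X, hpow, sub_self]
    obtain ⟨g, hg⟩ := hdvd
    have hmap : (Polynomial.X ^ Fintype.card F - Polynomial.X : Polynomial F)
        = f.map (algebraMap ↥(fixF σ) F) * g.map (algebraMap ↥(fixF σ) F) := by
      rw [← Polynomial.map_mul, ← hg]
      simp
    by_contra hno
    push Not at hno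
    have hg0 : ∀ z : F, (g.map (algebraMap ↥(fixF σ) F)).eval z = 0 := by
      intro z
      have h1 : (Polynomial.X ^ Fintype.card F - Polynomial.X : Polynomial F).eval z = 0 := by
        rw [Polynomial.eval_sub, Polynomial.eval_pow, Polynomial.eval_X, FiniteField.pow_card,
          sub_self]
      rw [hmap, Polynomial.eval_mul, hfmap] at h1
      exact (mul_eq_zero.mp h1).resolve_left (hno z)
    have hX : (Polynomial.X ^ Fintype.card F - Polynomial.X : Polynomial F) ≠ 0 :=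
      FiniteField.X_pow_card_sub_X_ne_zero F Fintype.one_lt_card
    have hgne : g.map (algebraMap ↥(fixF σ) F) ≠ 0 := by
      intro h0
      rw [h0, mul_zero] at hmap
      exact hX hmap
    have hfne : f.map (algebraMap ↥(fixF σ) F) ≠ 0 := by
      intro h0
      rw [h0, zero_mul] at hmap
      exact hX hmap
    have hdf : (f.map (algebraMap ↥(fixF σ) F)).natDegree = 2 := by
      rw [Polynomial.natDegree_map, hdeg]
    have hdX := FiniteField.X_pow_card_sub_X_natDegree_eq F (p := Fintype.card F)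
      Fintype.one_lt_card
    rw [hmap, Polynomial.natDegree_mul hfne hgne, hdf] at hdX
    apply hgne
    apply Polynomial.eq_zero_of_natDegree_lt_card_of_eval_eq_zero _ (f := id)
      Function.injective_id (fun i => hg0 i)
    omega

end

section
variable {ι : Type} [Fintype ι] [DecidableEq ι] {F : Type*} [Field F] [Fintype F]

/-- The fourth power of an automorphism induced by a similarity is inner. -/
theorem pgo_pow_four_mem_inn (Q : QuadraticForm F (ι → F))
    (hQ : (QuadraticMap.polarBilin Q).Nondegenerate) (hne : ∃ v, Q v ≠ 0)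
    (h5 : 5 ≤ finrank F (ι → F))
    (y : MulAut (Cfsg.POmega F (⇑Q))) (hy : y ∈ Cfsg.pgoAut F (⇑Q)) :
    y ^ 4 ∈ Cfsg.Inn (Cfsg.POmega F (⇑Q)) := by
  rw [pgoAut_eq] at hy
  obtain ⟨g, rfl⟩ := hy
  have hsq : IsSquare (simMul (⇑Q) (g * g) : F) := by
    have h1 : simMul (⇑Q) (g * g) = simMul (⇑Q) g * simMul (⇑Q) g :=
      map_mul (simMulHom (⇑Q) hne) g g
    rw [h1, Units.val_mul]
    exact ⟨_, rfl⟩
  obtain ⟨l, g₀, hg₀⟩ := exists_scal_mul_of_isSquare Q (g * g) hsq
  have hmem : g₀ * g₀ ∈ commutator ↥(Cfsg.isometryGroup F (⇑Q)) :=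
    sq_mem_commutator (reflSet Q) (reflSet_invol Q) (closure_reflSet_eq_top_all Q hQ h5) g₀
  have e1 : cHom (⇑Q) g ^ 4 = cHom (⇑Q) (inclO Q (g₀ * g₀)) := by
    have e2 : cHom (⇑Q) g ^ 4 = cHom (⇑Q) (g * g) * cHom (⇑Q) (g * g) := by
      rw [map_mul]
      simp only [pow_succ, pow_zero, one_mul, mul_assoc]
    rw [e2, hg₀, map_mul, cHom_scalSim, one_mul, ← map_mul, ← map_mul]
  rw [e1]
  have e3 := conj_mk_eq Q ⟨g₀ * g₀, hmem⟩
  rw [← e3]
  exact ⟨_, rfl⟩

end

section
variable {F : Type*} [Field F] [Fintype F]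

set_option maxHeartbeats 1600000 in
/-- A field automorphism of prime order of a minus-type orthogonal group is not induced by a
similarity. -/
theorem field_class_not_pgo {m : ℕ} (hm : 3 ≤ m) (a b : F)
    (hab : ∀ z₁ z₂ : F, z₁ ^ 2 + a * z₁ * z₂ + b * z₂ ^ 2 = 0 → z₁ = 0 ∧ z₂ = 0)
    (x : MulAut (Cfsg.POmega F (⇑(QMin m F a b))))
    (a' b' : F) (ψ : Cfsg.POmega F (⇑(QMin m F a b)) ≃* Cfsg.POmega F (⇑(QMin m F a' b')))
    (σ : F ≃+* F)
    (hab' : ∀ z₁ z₂ : F, z₁ ^ 2 + a' * z₁ * z₂ + b' * z₂ ^ 2 = 0 → z₁ = 0 ∧ z₂ = 0)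
    (hσ : σ ≠ RingEquiv.refl F) (ha' : σ a' = a') (hb' : σ b' = b')
    (hφ : Cfsg.IsFieldAutPOmegaOf (⇑(QMin m F a' b')) σ ((ψ.symm.trans x).trans ψ))
    {r : ℕ} (hr : r.Prime) (hxr : orderOf x = r) :
    x ∉ Cfsg.pgoAut F (⇑(QMin m F a b)) := by
  classical
  intro hxp
  have hd' := disc_ne_zero_of_aniso a' b' hab'
  have hQ' := QMin_nondeg m a' b' hd'
  have h3' := hasTS3_QMin (F := F) m hm a' b'
  have htop' : ∀ β : MulAut (Cfsg.POmega F (⇑(QMin m F a' b'))),
      β ∈ Cfsg.gammaPOmega F (⇑(QMin m F a' b')) := by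
    intro β
    have ht : Cfsg.gammaPOmega F (⇑(QMin m F a' b')) = ⊤ := gamma_top_minus hm a' b' hab'
    rw [ht]
    exact Subgroup.mem_top β
  obtain ⟨Ψ', hΨ'⟩ := exists_sigHom (QMin m F a' b') hQ' h3' htop'
  have hker' := sigHom_ker (QMin m F a' b') htop' Ψ' hΨ'
  obtain ⟨x', hx'⟩ : ∃ x' : MulAut (Cfsg.POmega F (⇑(QMin m F a' b'))),
      x' = MulAut.congr ψ x := ⟨_, rfl⟩
  have hx'eq : x' = (ψ.symm.trans x).trans ψ := by
    rw [hx']
    exact MulEquiv.ext (fun y => rfl)
  have hp1 : Cfsg.IsSemisimilarityPair (⇑(QMin m F a' b')) (1 : Matrix.GeneralLinearGroup ((Fin m ⊕ Fin m) ⊕ Fin 2) F) σ := by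
    refine ⟨1, fun v => ?_⟩
    rw [Units.val_one, Matrix.one_mulVec, Units.val_one, one_mul]
    exact QMin_sigma m a' b' σ ha' hb' v
  have hi1 : Cfsg.IsInducedBySemilinearPOmega (⇑(QMin m F a' b')) (1 : Matrix.GeneralLinearGroup ((Fin m ⊕ Fin m) ⊕ Fin 2) F) σ x' := by
    rw [hx'eq]
    intro s s' hss'
    apply hφ s s'
    rw [hss', Units.val_one, inv_one, Units.val_one, Matrix.one_mul, Matrix.mul_one]
  have hΨx : Ψ' x' = σ := hΨ' x' 1 σ hp1 hi1
  have hxr1 : x ^ r = 1 := by rw [← hxr]; exact pow_orderOf_eq_one x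
  have hx'r : x' ^ r = 1 := by rw [hx', ← map_pow, hxr1, map_one]
  have hσr : (σ : RingAut F) ^ r = 1 := by rw [← hΨx, ← map_pow, hx'r, map_one]
  have hσ1 : (σ : RingAut F) ≠ 1 := hσ
  have hord : orderOf (σ : RingAut F) = r := by
    have : Fact r.Prime := ⟨hr⟩
    exact orderOf_eq_prime hσr hσ1
  have hr2 : r ≠ 2 := by
    rintro rfl
    obtain ⟨z, hz⟩ := exists_root_of_invol σ hord a' b' ha' hb'
    have := hab' z 1 (by linear_combination hz)
    exact one_ne_zero this.2
  have hd := disc_ne_zero_of_aniso a b hab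
  have hQ := QMin_nondeg m a b hd
  have hne : ∃ v, QMin m F a b v ≠ 0 := by
    refine ⟨Sum.elim (0 : Fin m ⊕ Fin m → F) ![1, 0], ?_⟩
    rw [QMin_apply_inr, binQ_apply]
    simp
  have h5 : 5 ≤ finrank F ((Fin m ⊕ Fin m) ⊕ Fin 2 → F) := by
    rw [finrank_minus]
    omega
  have h4 := pgo_pow_four_mem_inn (QMin m F a b) hQ hne h5 x hxp
  have hcop : Nat.Coprime 4 r := by
    have h2 : Nat.Coprime 2 r := (Nat.coprime_primes Nat.prime_two hr).mpr (Ne.symm hr2)
    have h22 : Nat.Coprime (2 ^ 2) r := Nat.Coprime.pow_left 2 h2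
    exact h22
  have hxinn : x ∈ Cfsg.Inn (Cfsg.POmega F (⇑(QMin m F a b))) := by
    obtain ⟨n, -, hn⟩ := Nat.exists_mul_mod_eq_one_of_coprime hcop hr.one_lt
    have e : (x ^ 4) ^ n = x := by
      rw [← pow_mul, ← Nat.mod_add_div (4 * n) r, hn, pow_add, pow_mul, hxr1, one_pow, mul_one,
        pow_one]
    rw [← e]
    exact Subgroup.pow_mem _ h4 n
  obtain ⟨k, hk⟩ := hxinn
  have hx'inn : x' ∈ Cfsg.Inn (Cfsg.POmega F (⇑(QMin m F a' b'))) := by
    refine ⟨ψ k, ?_⟩
    rw [hx', ← hk]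
    apply MulEquiv.ext
    intro y
    show ψ k * y * (ψ k)⁻¹ = ψ (k * ψ.symm y * k⁻¹)
    rw [map_mul, map_mul, map_inv, MulEquiv.apply_symm_apply]
  have hx'pgo : x' ∈ Cfsg.pgoAut F (⇑(QMin m F a' b')) := inn_le_pgoAut _ hx'inn
  rw [← hker', MonoidHom.mem_ker, hΨx] at hx'pgo
  exact hσ1 hx'pgo

end

end Cfsg.Agent.H49
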