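import Mathlib
import Cfsg.Agent.H49.MinusCentStd
import Cfsg.Agent.H49.SimInst
import Cfsg.Agent.H49.MinusOddR
import Cfsg.Agent.H49.SimPlus

set_option autoImplicit false
set_option linter.unusedSectionVars false
set_option linter.unusedSimpArgs false
set_option linter.unusedVariables false
set_option linter.unusedTactic false
set_option linter.unreachableTactic false

/-! Helper lemmas (helper49): the base change of the minus-type form from a subfield of index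
two; the spinor sign of the base change of a class-preserving similarity with non-square
multiplier. -/

namespace Cfsg.Agent.H49

open Module Matrix GalDesc

section
variable {F : Type*} [Field F]

/-- On the binary form `z₀² + a z₀ z₁ + b z₁²`, multiplication by `α` with norm `L²` is `L`
times the product of the reflections in `L + α` and in `1`. -/
theorem binQ_rot2 (a b : F) (α : Fin 2 → F) (L : F) (hL : L ≠ 0)
    (hα : α 0 ^ 2 + a * α 0 * α 1 + b * α 1 ^ 2 = L ^ 2)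
    (hτ : 2 * L + 2 * α 0 + a * α 1 ≠ 0) (z : Fin 2 → F) :
    !![α 0, -(b * α 1); α 1, α 0 + a * α 1] *ᵥ z
      = L • ((((reflG (binQ a b) ![L + α 0, α 1] * reflG (binQ a b) ![1, 0] :
          ↥(Cfsg.isometryGroup F (⇑(binQ a b)))) : Matrix.GeneralLinearGroup (Fin 2) F) :
            Matrix (Fin 2) (Fin 2) F) *ᵥ z) := by
  rw [coe_mul_mulVec, reflG_coe, reflG_coe, reflectionMatrix_mulVec, reflectionMatrix_mulVec]
  have hb : binQ a b ![L + α 0, α 1] = L * (2 * L + 2 * α 0 + a * α 1) := by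
    rw [binQ_apply]
    simp only [Matrix.cons_val_zero, Matrix.cons_val_one, Matrix.cons_val_fin_one]
    linear_combination hα
  have h1 : binQ a b ![1, 0] = 1 := by
    rw [binQ_apply]
    simp
  rw [hb, h1, polar_binQ, polar_binQ]
  have key : ∀ j : Fin 2, (!![α 0, -(b * α 1); α 1, α 0 + a * α 1] *ᵥ z) j
      = (L • (z - ((1 : F)⁻¹ * (2 * (![1, 0] : Fin 2 → F) 0 * z 0
            + a * ((![1, 0] : Fin 2 → F) 0 * z 1 + (![1, 0] : Fin 2 → F) 1 * z 0)
            + 2 * b * (![1, 0] : Fin 2 → F) 1 * z 1)) • (![1, 0] : Fin 2 → F) -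
          ((L * (2 * L + 2 * α 0 + a * α 1))⁻¹ *
              (2 * (![L + α 0, α 1] : Fin 2 → F) 0 * (z - ((1 : F)⁻¹ * (2 * (![1, 0] : Fin 2 → F) 0 * z 0
                  + a * ((![1, 0] : Fin 2 → F) 0 * z 1 + (![1, 0] : Fin 2 → F) 1 * z 0)
                  + 2 * b * (![1, 0] : Fin 2 → F) 1 * z 1)) • (![1, 0] : Fin 2 → F)) 0 +
                  a * ((![L + α 0, α 1] : Fin 2 → F) 0 * (z - ((1 : F)⁻¹ * (2 * (![1, 0] : Fin 2 → F) 0 * z 0
                  + a * ((![1, 0] : Fin 2 → F) 0 * z 1 + (![1, 0] : Fin 2 → F) 1 * z 0)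
                  + 2 * b * (![1, 0] : Fin 2 → F) 1 * z 1)) • (![1, 0] : Fin 2 → F)) 1 +
                    (![L + α 0, α 1] : Fin 2 → F) 1 * (z - ((1 : F)⁻¹ * (2 * (![1, 0] : Fin 2 → F) 0 * z 0
                  + a * ((![1, 0] : Fin 2 → F) 0 * z 1 + (![1, 0] : Fin 2 → F) 1 * z 0)
                  + 2 * b * (![1, 0] : Fin 2 → F) 1 * z 1)) • (![1, 0] : Fin 2 → F)) 0) +
                2 * b * (![L + α 0, α 1] : Fin 2 → F) 1 * (z - ((1 : F)⁻¹ * (2 * (![1, 0] : Fin 2 → F) 0 * z 0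
                  + a * ((![1, 0] : Fin 2 → F) 0 * z 1 + (![1, 0] : Fin 2 → F) 1 * z 0)
                  + 2 * b * (![1, 0] : Fin 2 → F) 1 * z 1)) • (![1, 0] : Fin 2 → F)) 1)) •
            (![L + α 0, α 1] : Fin 2 → F))) j := by
    have hτ' : 2 * (L + α 0) + α 1 * a ≠ 0 := by
      intro h
      apply hτ
      linear_combination h
    rw [Fin.forall_fin_two]
    constructor
    · simp only [Matrix.mulVec, dotProduct, Fin.sum_univ_two, Matrix.of_apply, Matrix.cons_val',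
        Matrix.cons_val_zero, Matrix.cons_val_one, Matrix.cons_val_fin_one,
        Pi.smul_apply, Pi.sub_apply, smul_eq_mul, inv_one, one_mul, mul_one, mul_zero,
        zero_mul, add_zero, sub_zero]
      field_simp
      linear_combination (-(a * z 1)) * hα
    · simp only [Matrix.mulVec, dotProduct, Fin.sum_univ_two, Matrix.of_apply, Matrix.cons_val',
        Matrix.cons_val_zero, Matrix.cons_val_one, Matrix.cons_val_fin_one,
        Pi.smul_apply, Pi.sub_apply, smul_eq_mul, inv_one, one_mul, mul_one, mul_zero,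
        zero_mul, add_zero, sub_zero]
      field_simp
      linear_combination (2 * z 1) * hα
  exact funext key

theorem msimMat_map {K : Type*} [Field K] (j : F →+* K) (m : ℕ) (ν a b : F) (α : Fin 2 → F) :
    (msimMat m ν a b α).map j = msimMat m (j ν) (j a) (j b) (fun i => j (α i)) := by
  ext x y
  rcases x with (x | x) | x <;> rcases y with (y | y) | y
  · simp [msimMat, Matrix.diagonal_apply]
    split_ifs <;> simp
  · simp [msimMat, Matrix.diagonal_apply]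
  · simp [msimMat]
  · simp [msimMat, Matrix.diagonal_apply]
  · simp [msimMat, Matrix.diagonal_apply]
  · simp [msimMat]
  · simp [msimMat]
  · simp [msimMat]
  · fin_cases x <;> fin_cases y <;> simp [msimMat]

end

section
variable {F₀ : Type*} {F : Type*} [Field F₀] [Field F] [Fintype F₀] [Fintype F]

/-- Elements of the fixed field of an involution are squares. -/
theorem isSquare_emb_of_invol (j : F₀ →+* F) (σ : RingAut F) (hord : orderOf σ = 2)
    (hj : ∀ a : F, σ a = a ↔ ∃ a₀ : F₀, j a₀ = a) (a₀ : F₀) : IsSquare (j a₀) := by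
  obtain ⟨z, hz⟩ := exists_root_of_invol σ hord 0 (-(j a₀)) (map_zero _) (by
    rw [map_neg]
    congr 1
    exact (hj _).mpr ⟨a₀, rfl⟩)
  exact ⟨z, by linear_combination -hz⟩

theorem sigma_sigma_of_invol (σ : RingAut F) (hord : orderOf σ = 2) (x : F) : σ (σ x) = x := by
  have h := pow_orderOf_eq_one σ
  rw [hord, pow_two] at h
  exact congrArg (fun τ : RingAut F => τ x) h

/-- A square root of a non-square of the fixed field is negated by the involution. -/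
theorem sigma_sqrt_nonsq (j : F₀ →+* F) (σ : RingAut F)
    (hj : ∀ a : F, σ a = a ↔ ∃ a₀ : F₀, j a₀ = a) (ν₀ : F₀) (hν₀ : ¬ IsSquare ν₀) (L : F)
    (hL : j ν₀ = L * L) : σ L = -L := by
  have h1 : (σ L - L) * (σ L + L) = 0 := by
    have h : σ (L * L) = L * L := by
      rw [← hL]
      exact (hj _).mpr ⟨_, rfl⟩
    rw [map_mul] at h
    linear_combination h
  rcases mul_eq_zero.mp h1 with h | h
  · exfalso
    obtain ⟨l₀, hl₀⟩ := (hj L).mp (sub_eq_zero.mp h)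
    apply hν₀
    refine ⟨l₀, ?_⟩
    apply j.injective
    rw [map_mul, hl₀, hL]
  · linear_combination h

/-- An element whose norm is a non-square of the fixed field is a non-square. -/
theorem not_isSquare_of_norm (j : F₀ →+* F) (σ : RingAut F) (hord : orderOf σ = 2)
    (hj : ∀ a : F, σ a = a ↔ ∃ a₀ : F₀, j a₀ = a) (n₀ : F₀) (hn₀ : ¬ IsSquare n₀) (τ : F)
    (hτ : τ * σ τ = j n₀) : ¬ IsSquare τ := by
  rintro ⟨γ, rfl⟩
  have hN : σ (γ * σ γ) = γ * σ γ := by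
    rw [map_mul, sigma_sigma_of_invol σ hord, mul_comm]
  obtain ⟨n₁, hn₁⟩ := (hj _).mp hN
  apply hn₀
  refine ⟨n₁, ?_⟩
  apply j.injective
  rw [map_mul, hn₁, ← hτ, map_mul]
  ring

/-- A square root of a non-square of the fixed field of an involution is a square iff `-1` is
a non-square of the fixed field. -/
theorem isSquare_sqrt_iff (j : F₀ →+* F) (σ : RingAut F) (hord : orderOf σ = 2)
    (hj : ∀ a : F, σ a = a ↔ ∃ a₀ : F₀, j a₀ = a) (h2 : (2 : F) ≠ 0) (ν₀ : F₀)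
    (hν₀ : ¬ IsSquare ν₀) (L : F) (hL : j ν₀ = L * L) :
    IsSquare L ↔ ¬ IsSquare (-1 : F₀) := by
  have hσL := sigma_sqrt_nonsq j σ hj ν₀ hν₀ L hL
  have hne1 : (-1 : F₀) ≠ 0 := neg_ne_zero.mpr one_ne_zero
  rw [← isSquare_mul_nonsquare_iff hne1 hν₀]
  constructor
  · rintro ⟨γ, hγ⟩
    have hN : σ (γ * σ γ) = γ * σ γ := by
      rw [map_mul, sigma_sigma_of_invol σ hord, mul_comm]
    obtain ⟨n₁, hn₁⟩ := (hj _).mp hN
    refine ⟨n₁, ?_⟩
    apply j.injective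
    have h3 : σ L = σ γ * σ γ := by rw [hγ, map_mul]
    rw [map_mul, map_mul, hn₁, map_neg, map_one, hL]
    have h4 : L * σ L = (γ * σ γ) * (γ * σ γ) := by
      rw [h3]
      nth_rewrite 1 [hγ]
      ring
    rw [hσL] at h4
    linear_combination h4
  · rintro ⟨n₀, hn₀⟩
    obtain ⟨i, hi⟩ := isSquare_emb_of_invol j σ hord hj (-1 : F₀)
    obtain ⟨s, hs⟩ := isSquare_emb_of_invol j σ hord hj (2 : F₀)
    obtain ⟨u, hu⟩ := isSquare_emb_of_invol j σ hord hj n₀
    rw [map_neg, map_one] at hi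
    rw [map_ofNat] at hs
    have hs0 : s ≠ 0 := by
      rintro rfl
      rw [mul_zero] at hs
      exact h2 hs
    have hi2 : i = ((1 + i) / s) * ((1 + i) / s) := by
      field_simp
      linear_combination (-i) * hs + hi
    have hLL : L * L = (i * j n₀) * (i * j n₀) := by
      rw [← hL]
      have := congrArg j hn₀
      rw [map_mul, map_mul, map_neg, map_one] at this
      linear_combination (-1 : F) * this + (j n₀ * j n₀) * hi
    have h5 : (L - i * j n₀) * (L + i * j n₀) = 0 := by linear_combination hLL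
    rcases mul_eq_zero.mp h5 with h | h
    · refine ⟨(1 + i) / s * u, ?_⟩
      have : L = i * j n₀ := by linear_combination h
      rw [this, hu]
      nth_rewrite 1 [hi2]
      ring
    · refine ⟨i * ((1 + i) / s) * u, ?_⟩
      have : L = -(i * j n₀) := by linear_combination h
      rw [this, hu]
      nth_rewrite 1 [hi2]
      linear_combination ((1 + i) / s * ((1 + i) / s) * (u * u)) * hi

theorem card_mod_four_iff (h2₀ : (2 : F₀) ≠ 0) :
    IsSquare (-1 : F₀) ↔ Fintype.card F₀ % 4 = 1 := by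
  rw [FiniteField.isSquare_neg_one_iff]
  have hodd : Fintype.card F₀ % 2 = 1 := by
    apply FiniteField.odd_card_of_char_ne_two
    intro h
    apply h2₀
    have := CharP.cast_eq_zero F₀ (ringChar F₀)
    rw [h] at this
    exact_mod_cast this
  omega

end

section
universe u₀ u
variable {F₀ : Type u₀} {F : Type u} [Field F₀] [Fintype F₀] [Field F] [Fintype F]
  [DecidableEq F]

set_option maxHeartbeats 3200000 in
/-- The base change to the quadratic extension of a class-preserving similarity of the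
minus-type form with non-square multiplier: a scalar times an isometry of determinant one
whose spinor sign is computed. -/
theorem gf_spin (j : F₀ →+* F) (m' : ℕ) (ζ₀ : F₀)
    (hab₀ : ∀ z₁ z₂ : F₀, z₁ ^ 2 + 1 * z₁ * z₂ + ζ₀ * z₂ ^ 2 = 0 → z₁ = 0 ∧ z₂ = 0)
    (σ : RingAut F) (hord : orderOf σ = 2) (hj : ∀ a : F, σ a = a ↔ ∃ a₀ : F₀, j a₀ = a)
    (h2 : (2 : F) ≠ 0) (hne₀ : ∃ v, QMin m' F₀ 1 ζ₀ v ≠ 0)
    (hd : (j 1) ^ 2 - 4 * (j ζ₀) ≠ 0) :
    ∃ (δ₀ : ↥(Cfsg.Geo.quadSimilarityGroup (⇑(QMin m' F₀ 1 ζ₀)))) (l : Fˣ)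
      (g : ↥(Cfsg.isometryGroup F (⇑(QMin m' F (j 1) (j ζ₀))))),
      ¬ IsSquare (simMul (⇑(QMin m' F₀ 1 ζ₀)) δ₀ : F₀) ∧
      simD (QMin m' F₀ 1 ζ₀) hne₀ (m' + 1) δ₀ = 1 ∧
      bcSim (QMin_compat j m' 1 ζ₀) δ₀
        = scalSim (QMin m' F (j 1) (j ζ₀)) l * inclO (QMin m' F (j 1) (j ζ₀)) g ∧
      (spinSign (QMin m' F (j 1) (j ζ₀)) g = 1 ↔ (Odd (m' + 1) ∧ Fintype.card F₀ % 4 = 1)) := by
  classical
  have h2₀ : (2 : F₀) ≠ 0 := by
    intro h
    apply h2
    rw [← map_ofNat j 2, h, map_zero]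
  obtain ⟨ν, hν⟩ := exists_nonsquare_unit (F := F₀) h2₀
  obtain ⟨α, -, hα⟩ := exists_Q_eq (binQ (1 : F₀) ζ₀) ⊤ (by
      intro z _ hz
      rw [binQ_apply] at hz
      obtain ⟨h0, h1⟩ := hab₀ _ _ hz
      funext i
      fin_cases i
      · exact h0
      · exact h1) (by rw [finrank_top, Module.finrank_fin_fun]) (ν : F₀)
  rw [binQ_apply] at hα
  have hsim := QMin_msimMat m' (ν : F₀) 1 ζ₀ α hα
  have hdet := det_msimMat m' (ν : F₀) 1 ζ₀ α hα
  have hdet0 : (msimMat m' (ν : F₀) 1 ζ₀ α).det ≠ 0 := by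
    rw [hdet]
    exact pow_ne_zero _ ν.ne_zero
  obtain ⟨δ₀, hδ₀⟩ : ∃ δ₀ : ↥(Cfsg.Geo.quadSimilarityGroup (⇑(QMin m' F₀ 1 ζ₀))),
      ((δ₀ : Matrix.GeneralLinearGroup ((Fin m' ⊕ Fin m') ⊕ Fin 2) F₀) : Matrix ((Fin m' ⊕ Fin m') ⊕ Fin 2) ((Fin m' ⊕ Fin m') ⊕ Fin 2) F₀)
        = msimMat m' (ν : F₀) 1 ζ₀ α :=
    ⟨⟨Matrix.GeneralLinearGroup.mkOfDetNeZero _ hdet0, ⟨ν, hsim⟩⟩, rfl⟩
  have hmul : simMul (⇑(QMin m' F₀ 1 ζ₀)) δ₀ = ν :=
    simMul_unique _ hne₀ δ₀ ν (by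
      intro v
      rw [hδ₀]
      exact hsim v)
  have hD : simD (QMin m' F₀ 1 ζ₀) hne₀ (m' + 1) δ₀ = 1 := by
    apply Units.ext
    rw [simD_val, hmul, hδ₀, hdet, Units.val_one, ← mul_pow, mul_inv_cancel₀ ν.ne_zero, one_pow]
  obtain ⟨L, hL⟩ := isSquare_emb_of_invol j σ hord hj (ν : F₀)
  have hL0 : L ≠ 0 := by
    rintro rfl
    rw [mul_zero] at hL
    exact ν.ne_zero ((map_eq_zero j).mp hL)
  have hσL := sigma_sqrt_nonsq j σ hj (ν : F₀) hν L hL
  obtain ⟨A, hAdef⟩ : ∃ A : Fin 2 → F, A = fun i => j (α i) := ⟨_, rfl⟩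
  have hA0 : A 0 = j (α 0) := by rw [hAdef]
  have hA1 : A 1 = j (α 1) := by rw [hAdef]
  have hA : A 0 ^ 2 + j 1 * A 0 * A 1 + j ζ₀ * A 1 ^ 2 = L ^ 2 := by
    rw [pow_two L, ← hL, ← hα, hA0, hA1]
    simp only [map_add, map_mul, map_pow]
  have hσA0 : σ (A 0) = A 0 := by rw [hA0]; exact (hj _).mpr ⟨_, rfl⟩
  have hσA1 : σ (A 1) = A 1 := by rw [hA1]; exact (hj _).mpr ⟨_, rfl⟩
  have hσ1 : σ (j 1) = j 1 := (hj _).mpr ⟨_, rfl⟩
  have hσ2 : σ (2 : F) = 2 := map_ofNat σ 2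
  have hστ : σ (2 * L + 2 * A 0 + j 1 * A 1) = -(2 * L) + 2 * A 0 + j 1 * A 1 := by
    rw [map_add, map_add, map_mul, map_mul, map_mul, hσL, hσA0, hσA1, hσ1, hσ2]
    ring
  have hτ0 : 2 * L + 2 * A 0 + j 1 * A 1 ≠ 0 := by
    intro h
    have h' := congrArg σ h
    rw [hστ, map_zero] at h'
    have h4 : (4 : F) * L = 0 := by linear_combination h - h'
    have h44 : (4 : F) ≠ 0 := by
      have : (4 : F) = 2 * 2 := by norm_num
      rw [this]
      exact mul_ne_zero h2 h2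
    exact hL0 ((mul_eq_zero.mp h4).resolve_left h44)
  have hα1 : α 1 ≠ 0 := by
    intro h
    apply hν
    refine ⟨α 0, ?_⟩
    rw [← hα, h]
    ring
  have hn₀ : ¬ IsSquare (α 1 ^ 2 * ((1 : F₀) ^ 2 - 4 * ζ₀)) := by
    rintro ⟨s, hs⟩
    apply aniso_not_isSquare h2₀ hab₀
    refine ⟨s / α 1, ?_⟩
    field_simp
    linear_combination hs
  have hτns : ¬ IsSquare (2 * L + 2 * A 0 + j 1 * A 1) := by
    apply not_isSquare_of_norm j σ hord hj _ hn₀
    rw [hστ, map_mul, map_pow, map_sub, map_pow, map_mul, map_ofNat, ← hA1]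
    have hj1 : j 1 = 1 := map_one j
    rw [hj1] at hA ⊢
    linear_combination (4 : F) * hA
  obtain ⟨Lu, hLu⟩ : ∃ Lu : Fˣ, (Lu : F) = L := ⟨Units.mk0 L hL0, rfl⟩
  obtain ⟨g₀, hg₀⟩ : ∃ g₀ : ↥(Cfsg.isometryGroup F (⇑(QMin m' F (j 1) (j ζ₀)))),
      g₀ = blockIsoQ (QP m' F) (binQ (j 1) (j ζ₀)) (leviO m' F (scalGL (Fin m') Lu),
        reflG (binQ (j 1) (j ζ₀)) ![L + A 0, A 1] * reflG (binQ (j 1) (j ζ₀)) ![1, 0]) :=
    ⟨_, rfl⟩
  have hinl : ∀ x : ((Fin m' ⊕ Fin m') ⊕ Fin 2) → F,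
      (((g₀ : Matrix.GeneralLinearGroup ((Fin m' ⊕ Fin m') ⊕ Fin 2) F) : Matrix ((Fin m' ⊕ Fin m') ⊕ Fin 2) ((Fin m' ⊕ Fin m') ⊕ Fin 2) F) *ᵥ x) ∘ Sum.inl
      = (((leviO m' F (scalGL (Fin m') Lu) : ↥(Cfsg.isometryGroup F (⇑(QP m' F)))) :
        Matrix.GeneralLinearGroup (Fin m' ⊕ Fin m') F) :
          Matrix (Fin m' ⊕ Fin m') (Fin m' ⊕ Fin m') F) *ᵥ (x ∘ Sum.inl) := by
    intro x
    rw [hg₀]
    exact blockIsoQ_mulVec_inl (QP m' F) (binQ (j 1) (j ζ₀)) _ x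
  have hinr : ∀ x : ((Fin m' ⊕ Fin m') ⊕ Fin 2) → F,
      (((g₀ : Matrix.GeneralLinearGroup ((Fin m' ⊕ Fin m') ⊕ Fin 2) F) : Matrix ((Fin m' ⊕ Fin m') ⊕ Fin 2) ((Fin m' ⊕ Fin m') ⊕ Fin 2) F) *ᵥ x) ∘ Sum.inr
      = (((reflG (binQ (j 1) (j ζ₀)) ![L + A 0, A 1] * reflG (binQ (j 1) (j ζ₀)) ![1, 0] :
        ↥(Cfsg.isometryGroup F (⇑(binQ (j 1) (j ζ₀))))) : Matrix.GeneralLinearGroup (Fin 2) F) :
          Matrix (Fin 2) (Fin 2) F) *ᵥ (x ∘ Sum.inr) := by
    intro x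
    rw [hg₀]
    exact blockIsoQ_mulVec_inr (QP m' F) (binQ (j 1) (j ζ₀)) _ x
  have hbc : bcSim (QMin_compat j m' 1 ζ₀) δ₀
      = scalSim (QMin m' F (j 1) (j ζ₀)) Lu * inclO (QMin m' F (j 1) (j ζ₀)) g₀ := by
    apply Subtype.ext
    apply Units.ext
    apply matrix_ext_mulVec
    intro x
    have e1 : (((bcSim (QMin_compat j m' 1 ζ₀) δ₀ :
        ↥(Cfsg.Geo.quadSimilarityGroup (⇑(QMin m' F (j 1) (j ζ₀))))) :
        Matrix.GeneralLinearGroup ((Fin m' ⊕ Fin m') ⊕ Fin 2) F) : Matrix ((Fin m' ⊕ Fin m') ⊕ Fin 2) ((Fin m' ⊕ Fin m') ⊕ Fin 2) F)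
        = msimMat m' (j (ν : F₀)) (j 1) (j ζ₀) A := by
      rw [bcSim_val, hδ₀, msimMat_map, hAdef]
    have e2 : (((scalSim (QMin m' F (j 1) (j ζ₀)) Lu * inclO (QMin m' F (j 1) (j ζ₀)) g₀ :
        ↥(Cfsg.Geo.quadSimilarityGroup (⇑(QMin m' F (j 1) (j ζ₀))))) :
        Matrix.GeneralLinearGroup ((Fin m' ⊕ Fin m') ⊕ Fin 2) F) : Matrix ((Fin m' ⊕ Fin m') ⊕ Fin 2) ((Fin m' ⊕ Fin m') ⊕ Fin 2) F)
        = ((scalGL ((Fin m' ⊕ Fin m') ⊕ Fin 2) Lu : Matrix.GeneralLinearGroup ((Fin m' ⊕ Fin m') ⊕ Fin 2) F) : Matrix ((Fin m' ⊕ Fin m') ⊕ Fin 2) ((Fin m' ⊕ Fin m') ⊕ Fin 2) F)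
          * ((g₀ : Matrix.GeneralLinearGroup ((Fin m' ⊕ Fin m') ⊕ Fin 2) F) : Matrix ((Fin m' ⊕ Fin m') ⊕ Fin 2) ((Fin m' ⊕ Fin m') ⊕ Fin 2) F) := rfl
    rw [e1, e2, ← Matrix.mulVec_mulVec, scalGL_mulVec]
    funext i
    rcases i with (i | i) | k
    · have h5 := congrFun (hinl x) (Sum.inl i)
      simp only [Function.comp_apply] at h5
      rw [msimMat_inl_inl, Pi.smul_apply, h5, leviO_mulVec_inl, scalGL_mulVec, hL, hLu]
      simp only [Pi.smul_apply, smul_eq_mul, Function.comp_apply]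
      ring
    · have h5 := congrFun (hinl x) (Sum.inr i)
      simp only [Function.comp_apply] at h5
      have e3 : ((scalGL (Fin m') Lu : Matrix.GeneralLinearGroup (Fin m') F)⁻¹ :
          Matrix.GeneralLinearGroup (Fin m') F) = scalGL (Fin m') Lu⁻¹ :=
        (map_inv (Units.map (algebraMap F (Matrix (Fin m') (Fin m') F)).toMonoidHom) Lu).symm
      rw [msimMat_inl_inr, Pi.smul_apply, h5, leviO_mulVec_inr, e3,
        scalGL_coe, Matrix.transpose_smul, Matrix.transpose_one, Matrix.smul_mulVec,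
        Matrix.one_mulVec, Pi.smul_apply, smul_eq_mul, smul_eq_mul,
        Units.val_inv_eq_inv_val, mul_inv_cancel_left₀ Lu.ne_zero]
      rfl
    · have h5 := congrFun (hinr x) k
      simp only [Function.comp_apply] at h5
      have hrot := congrFun (binQ_rot2 (j 1) (j ζ₀) A L hL0 hA hτ0 (x ∘ Sum.inr)) k
      rw [Pi.smul_apply, h5, msimMat_mulVec, Sum.elim_inr, hrot, hLu]
      rfl
  have hdetν : Matrix.GeneralLinearGroup.det (scalGL (Fin m') Lu) = Lu ^ m' := by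
    apply Units.ext
    rw [Matrix.GeneralLinearGroup.val_det_apply, scalGL_coe, Matrix.det_smul, Matrix.det_one,
      Fintype.card_fin, mul_one, Units.val_pow_eq_pow_val]
  have hbw : binQ (j 1) (j ζ₀) ![L + A 0, A 1] = L * (2 * L + 2 * A 0 + j 1 * A 1) := by
    rw [binQ_apply]
    simp only [Matrix.cons_val_zero, Matrix.cons_val_one, Matrix.cons_val_fin_one]
    linear_combination hA
  have h10 : binQ (j 1) (j ζ₀) ![1, 0] = 1 := by
    rw [binQ_apply]
    simp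
  have hsqLτ := isSquare_mul_nonsquare_iff hL0 hτns
  have hs2 : spinSign (binQ (j 1) (j ζ₀)) (reflG (binQ (j 1) (j ζ₀)) ![1, 0]) = -1 := by
    rw [spinSign_reflG (binQ (j 1) (j ζ₀)) h2 _ (by rw [h10]; exact one_ne_zero),
      if_pos (by rw [h10]; exact ⟨1, by simp⟩)]
  have hbw0 : binQ (j 1) (j ζ₀) ![L + A 0, A 1] ≠ 0 := by
    rw [hbw]
    exact mul_ne_zero hL0 hτ0
  have hsg : spinSign (QMin m' F (j 1) (j ζ₀)) g₀
      = (quadraticChar F).toUnitHom Lu ^ m'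
        * ((if IsSquare (L * (2 * L + 2 * A 0 + j 1 * A 1)) then -1 else 1) * -1) := by
    rw [hg₀]
    show spinSign (sumQ (QP m' F) (binQ (j 1) (j ζ₀)))
      (blockIsoQ (QP m' F) (binQ (j 1) (j ζ₀)) _) = _
    rw [spinSign_blockIsoQ (QP m' F) (binQ (j 1) (j ζ₀)) h2 (QP_nondeg m' F)
        (binQ_nondeg (j 1) (j ζ₀) hd),
      spinSign_leviO m' F h2, map_mul, hs2, hdetν, map_pow,
      spinSign_reflG (binQ (j 1) (j ζ₀)) h2 _ hbw0, hbw]
  have hLiff := isSquare_sqrt_iff j σ hord hj h2 (ν : F₀) hν L hL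
  have hcard := card_mod_four_iff h2₀
  refine ⟨δ₀, Lu, g₀, by rw [hmul]; exact hν, hD, hbc, ?_⟩
  rw [hsg]
  by_cases hLs : IsSquare L
  · have hχ : (quadraticChar F).toUnitHom Lu = 1 := by
      apply Units.ext
      rw [MulChar.coe_toUnitHom, hLu, Units.val_one]
      exact (quadraticChar_one_iff_isSquare hL0).mpr hLs
    rw [hχ, one_pow, one_mul, if_neg (fun h => (hsqLτ.mp h) hLs)]
    constructor
    · intro h
      exact absurd h (by decide)
    · rintro ⟨-, h4⟩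
      exact absurd (hcard.mpr h4) (hLiff.mp hLs)
  · have hχ : (quadraticChar F).toUnitHom Lu = -1 := by
      apply Units.ext
      rw [MulChar.coe_toUnitHom, hLu, quadraticChar_neg_one_iff_not_isSquare.mpr hLs]
      rfl
    have h41 : Fintype.card F₀ % 4 = 1 := by
      apply hcard.mp
      by_contra hn
      exact hLs (hLiff.mpr hn)
    rw [hχ, if_pos (hsqLτ.mpr hLs)]
    rcases Nat.even_or_odd m' with he | ho
    · rw [he.neg_one_pow]
      constructor
      · intro _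
        exact ⟨he.add_one, h41⟩
      · intro _
        decide
    · rw [ho.neg_one_pow]
      constructor
      · intro h
        exact absurd h (by decide)
      · rintro ⟨h5, -⟩
        exact absurd ho (Nat.not_odd_iff_even.mpr (by
          rcases h5 with ⟨c, hc⟩
          exact ⟨c, by omega⟩))

end

end Cfsg.Agent.H49
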