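import Mathlib
import Cfsg.Agent.H49.GFSpin
import Cfsg.Agent.H49.MinusCentStd

set_option autoImplicit false
set_option linter.unusedSectionVars false
set_option linter.unusedSimpArgs false
set_option linter.unusedVariables false

/-! Helper lemmas (helper49): the standard field automorphism of order two of a plus-type group
written on a minus-type form defined over the fixed field: its centraliser in the
inner-diagonal group and the image of the centraliser modulo inner automorphisms. -/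

namespace Cfsg.Agent.H49

open Module Matrix GalDesc

section
variable {ι : Type} [Fintype ι] [DecidableEq ι] {F₀ : Type*} {F : Type*} [Field F₀] [Field F]
  [Fintype F₀] [Fintype F]

/-- Every element of the centraliser of the standard field automorphism in the image of a
subgroup compatible with base change comes from the small field. -/
theorem cent_phi_sub_surj [Nonempty ι] {j : F₀ →+* F} {Q₀ : QuadraticForm F₀ (ι → F₀)}
    {Q : QuadraticForm F (ι → F)} (hc : FormCompat j Q₀ Q)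
    (hQ : (QuadraticMap.polarBilin Q).Nondegenerate) (h3 : HasTS3 Q) (hne : ∃ v, Q v ≠ 0)
    (σ : RingAut F) {r : ℕ} (hr : orderOf σ = r) (hr0 : 0 < r)
    (hj : ∀ a : F, σ a = a ↔ ∃ a₀ : F₀, j a₀ = a)
    (hσQ : ∀ v : ι → F, Q (fun i => σ (v i)) = σ (Q v))
    (hp1 : Cfsg.IsSemisimilarityPair (⇑Q) (1 : Matrix.GeneralLinearGroup ι F) σ)
    {φ : MulAut (Cfsg.POmega F (⇑Q))}
    (hi1 : Cfsg.IsInducedBySemilinearPOmega (⇑Q) (1 : Matrix.GeneralLinearGroup ι F) σ φ)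
    (Kp : Subgroup ↥(Cfsg.Geo.quadSimilarityGroup (⇑Q)))
    (Kp₀ : Subgroup ↥(Cfsg.Geo.quadSimilarityGroup (⇑Q₀)))
    (hscal : ∀ l : Fˣ, scalSim Q l ∈ Kp)
    (hcompat : ∀ g₀ : ↥(Cfsg.Geo.quadSimilarityGroup (⇑Q₀)), g₀ ∈ Kp₀ ↔ bcSim hc g₀ ∈ Kp) :
    ∀ y ∈ Kp.map (cHom (⇑Q)) ⊓ Subgroup.centralizer {φ},
      ∃ g₀ ∈ Kp₀, cHom (⇑Q) (bcSim hc g₀) = y := by
  classical
  intro y hy
  rw [Subgroup.mem_inf] at hy
  obtain ⟨⟨h, hh, rfl⟩, hy2⟩ := hy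
  rw [Subgroup.mem_centralizer_iff] at hy2
  have hcomm := hy2 φ rfl
  obtain ⟨e, he0, he⟩ := fixed_of_cent Q hQ h3 hne σ hr hr0 hp1 hi1 h hcomm
  have hval : (((scalSim Q (Units.mk0 e he0) * h : ↥(Cfsg.Geo.quadSimilarityGroup (⇑Q))) :
      Matrix.GeneralLinearGroup ι F) : Matrix ι ι F)
      = e • ((h : Matrix.GeneralLinearGroup ι F) : Matrix ι ι F) := by
    show ((scalGL ι (Units.mk0 e he0) : Matrix.GeneralLinearGroup ι F) : Matrix ι ι F)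
      * ((h : Matrix.GeneralLinearGroup ι F) : Matrix ι ι F) = _
    rw [scalGL_coe, Units.val_mk0, Matrix.smul_mul, Matrix.one_mul]
  obtain ⟨g₀, hg₀⟩ := exists_bc_of_fixed hc hne σ hj hσQ (scalSim Q (Units.mk0 e he0) * h)
    (by rw [hval]; exact he)
  refine ⟨g₀, ?_, ?_⟩
  · rw [hcompat, hg₀]
    exact Subgroup.mul_mem _ (hscal _) hh
  · rw [hg₀, map_mul, cHom_scalSim, one_mul]

end

section
universe u₀ u
variable {F₀ : Type u₀} {F : Type u} [Field F₀] [Fintype F₀] [Field F] [Fintype F]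

set_option maxHeartbeats 6400000 in
/-- The standard field automorphism of order two on the minus-type form over the fixed field,
relative to a character `χ` of the similarity group cutting out the inner-diagonal group. -/
theorem gf_std (j : F₀ →+* F) {m' : ℕ} (hm : 3 ≤ m') (ζ₀ : F₀)
    (hab₀ : ∀ z₁ z₂ : F₀, z₁ ^ 2 + 1 * z₁ * z₂ + ζ₀ * z₂ ^ 2 = 0 → z₁ = 0 ∧ z₂ = 0)
    (σ : RingAut F) (hord : orderOf σ = 2)
    (hj : ∀ a : F, σ a = a ↔ ∃ a₀ : F₀, j a₀ = a)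
    (φ : MulAut (Cfsg.POmega F (⇑(QMin m' F (j 1) (j ζ₀)))))
    (hi1 : Cfsg.IsInducedBySemilinearPOmega (⇑(QMin m' F (j 1) (j ζ₀)))
      (1 : Matrix.GeneralLinearGroup ((Fin m' ⊕ Fin m') ⊕ Fin 2) F) σ φ)
    (χ : ↥(Cfsg.Geo.quadSimilarityGroup (⇑(QMin m' F (j 1) (j ζ₀)))) →* ℤˣ)
    (hχs : ∀ l : Fˣ, χ (scalSim (QMin m' F (j 1) (j ζ₀)) l) = 1)
    (hχr : ∀ w, QMin m' F (j 1) (j ζ₀) w ≠ 0 → χ (inclO (QMin m' F (j 1) (j ζ₀)) (reflG (QMin m' F (j 1) (j ζ₀)) w)) = -1)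
    (hχD : (2 : F) ≠ 0 → ∀ k, χ k = 1 ↔
      simD (QMin m' F (j 1) (j ζ₀)) (QMin_ne m' (j 1) (j ζ₀)) (m' + 1) k = 1) :
    Nonempty (↥(χ.ker.map (cHom (⇑(QMin m' F (j 1) (j ζ₀)))) ⊓ Subgroup.centralizer {φ}) ≃* ↥((Cfsg.autSubgroupOf (fun β : Cfsg.POmega F₀ (⇑(QMin m' F₀ 1 ζ₀)) ≃* Cfsg.POmega F₀ (⇑(QMin m' F₀ 1 ζ₀)) =>
        ∃ g : Matrix.GeneralLinearGroup ((Fin m' ⊕ Fin m') ⊕ Fin 2) F₀, g ∈ Cfsg.Geo.quadSimilarityGroup (⇑(QMin m' F₀ 1 ζ₀)) ∧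
          Cfsg.PreservesSingularClassesMinus m' 1 ζ₀ (g : Matrix ((Fin m' ⊕ Fin m') ⊕ Fin 2) ((Fin m' ⊕ Fin m') ⊕ Fin 2) F₀) ∧
          Cfsg.IsInducedBySemilinearPOmega (⇑(QMin m' F₀ 1 ζ₀)) g (RingEquiv.refl F₀) β)))) ∧
    ((2 : F) = 0 → χ.ker.map (cHom (⇑(QMin m' F (j 1) (j ζ₀)))) ≤ Cfsg.Inn (Cfsg.POmega F (⇑(QMin m' F (j 1) (j ζ₀))))) ∧
    ((2 : F) ≠ 0 → (Cfsg.Inn (Cfsg.POmega F (⇑(QMin m' F (j 1) (j ζ₀))))).relIndex
        (Cfsg.Inn (Cfsg.POmega F (⇑(QMin m' F (j 1) (j ζ₀))))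
          ⊔ (χ.ker.map (cHom (⇑(QMin m' F (j 1) (j ζ₀)))) ⊓ Subgroup.centralizer {φ}))
      = if (Odd (m' + 1) ∧ Fintype.card F₀ % 4 = 1) then 1 else 2) := by
  classical
  have hm2 : 2 ≤ m' := by omega
  have hc := QMin_compat j m' 1 ζ₀
  have hd₀ := disc_ne_zero_of_aniso (1 : F₀) ζ₀ hab₀
  have hd : (j 1) ^ 2 - 4 * (j ζ₀) ≠ 0 := by
    intro h
    apply hd₀
    apply j.injective
    rw [map_sub, map_pow, map_mul, map_ofNat, map_zero]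
    exact h
  have hQ := QMin_nondeg m' (j 1) (j ζ₀) hd
  have hQ₀ := QMin_nondeg m' (1 : F₀) ζ₀ hd₀
  have h3 := hasTS3_QMin (F := F) m' hm (j 1) (j ζ₀)
  have h3₀ := hasTS3_QMin (F := F₀) m' hm 1 ζ₀
  have hne := QMin_ne m' (j 1) (j ζ₀)
  have hne₀ := QMin_ne m' (1 : F₀) ζ₀
  obtain ⟨χ₀, hχ₀, hχ₀s, hχ₀r⟩ := exists_minusPres m' hm2 (1 : F₀) ζ₀ hab₀
  have hD0 := autSubgroupOf_pred_eq (⇑(QMin m' F₀ 1 ζ₀))
    (Cfsg.PreservesSingularClassesMinus m' 1 ζ₀) χ₀.ker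
    (fun g => by rw [MonoidHom.mem_ker]; exact (hχ₀ g).symm)
  rw [hD0]
  have hσ1 : σ (j 1) = j 1 := (hj _).mpr ⟨1, rfl⟩
  have hσζ : σ (j ζ₀) = j ζ₀ := (hj _).mpr ⟨ζ₀, rfl⟩
  have hσQ : ∀ v : ((Fin m' ⊕ Fin m') ⊕ Fin 2) → F, QMin m' F (j 1) (j ζ₀) (fun i => σ (v i)) = σ (QMin m' F (j 1) (j ζ₀) v) :=
    fun v => QMin_sigma m' (j 1) (j ζ₀) σ hσ1 hσζ v
  have hp1 : Cfsg.IsSemisimilarityPair (⇑(QMin m' F (j 1) (j ζ₀)))
      (1 : Matrix.GeneralLinearGroup ((Fin m' ⊕ Fin m') ⊕ Fin 2) F) σ := by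
    refine ⟨1, fun v => ?_⟩
    rw [Units.val_one, Matrix.one_mulVec, Units.val_one, one_mul]
    exact hσQ v
  have hcard : Fintype.card ((Fin m' ⊕ Fin m') ⊕ Fin 2) = 2 * (m' + 1) := by
    simp
    ring
  have hfr5 : 5 ≤ finrank F₀ (((Fin m' ⊕ Fin m') ⊕ Fin 2) → F₀) := by
    rw [finrank_minus m']
    omega
  have hcompat : ∀ g₀ : ↥(Cfsg.Geo.quadSimilarityGroup (⇑(QMin m' F₀ 1 ζ₀))),
      g₀ ∈ χ₀.ker ↔ bcSim hc g₀ ∈ χ.ker := by
    intro g₀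
    rw [MonoidHom.mem_ker, MonoidHom.mem_ker]
    by_cases h2 : (2 : F) = 0
    · have h2₀ : (2 : F₀) = 0 := by
        apply j.injective
        rw [map_ofNat, map_zero]
        exact h2
      have hsq : IsSquare (simMul (⇑(QMin m' F₀ 1 ζ₀)) g₀ : F₀) := by
        obtain ⟨d, hd⟩ := exists_sqrt_char_two h2₀ (simMul (⇑(QMin m' F₀ 1 ζ₀)) g₀ : F₀)
        exact ⟨d, hd.symm⟩
      obtain ⟨l, s, rfl⟩ := exists_scal_mul_of_isSquare (QMin m' F₀ 1 ζ₀) g₀ hsq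
      have hhom : χ.comp ((bcSim hc).comp (inclO (QMin m' F₀ 1 ζ₀))) = χ₀.comp (inclO (QMin m' F₀ 1 ζ₀)) := by
        apply MonoidHom.eq_of_eqOn_dense (closure_reflSet_eq_top_all (QMin m' F₀ 1 ζ₀) hQ₀ hfr5)
        rintro r ⟨v, hv, rfl⟩
        show χ (bcSim hc (inclO (QMin m' F₀ 1 ζ₀) (reflG (QMin m' F₀ 1 ζ₀) v)))
          = χ₀ (inclO (QMin m' F₀ 1 ζ₀) (reflG (QMin m' F₀ 1 ζ₀) v))
        rw [← inclO_bcO hc, bcO_reflG, hχ₀r v hv, hχr]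
        rw [hc]
        exact (map_ne_zero j).mpr hv
      have h5 : χ (bcSim hc (inclO (QMin m' F₀ 1 ζ₀) s)) = χ₀ (inclO (QMin m' F₀ 1 ζ₀) s) :=
        DFunLike.congr_fun hhom s
      rw [map_mul, map_mul, hχ₀s, one_mul, bcSim_scalSim, map_mul, hχs, one_mul, h5]
    · have h2₀ : (2 : F₀) ≠ 0 := by
        intro h
        apply h2
        rw [← map_ofNat j 2, h, map_zero]
      rw [hχ₀, preservesMinus_iff m' 1 ζ₀ hab₀ h2₀ hne₀ g₀, hχD h2, simD_bcSim hc hne₀ hne]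
      constructor
      · intro h
        rw [h, map_one]
      · intro h
        have h' := congrArg Units.val h
        rw [Units.coe_map, Units.val_one] at h'
        apply Units.ext
        apply j.injective
        rw [Units.val_one, map_one]
        exact h'
  have hscal : ∀ l : Fˣ, scalSim (QMin m' F (j 1) (j ζ₀)) l ∈ χ.ker := fun l => MonoidHom.mem_ker.mpr (hχs l)
  obtain ⟨hmem, hiso⟩ := cent_phi_equiv_sub hc hQ h3 hne hQ₀ h3₀ hne₀ σ hord (by norm_num) hj hσQ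
    hp1 hi1 χ.ker χ₀.ker hscal hcompat
  have hsurj := cent_phi_sub_surj hc hQ h3 hne σ hord (by norm_num) hj hσQ hp1 hi1 χ.ker χ₀.ker
    hscal hcompat
  refine ⟨hiso, ?_, ?_⟩
  · intro h2
    rintro _ ⟨k, hk, rfl⟩
    have hk1 : χ k = 1 := MonoidHom.mem_ker.mp hk
    have hsq : IsSquare (simMul (⇑(QMin m' F (j 1) (j ζ₀))) k : F) := by
      obtain ⟨d, hd⟩ := exists_sqrt_char_two h2 (simMul (⇑(QMin m' F (j 1) (j ζ₀))) k : F)
      exact ⟨d, hd.symm⟩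
    obtain ⟨l, s, rfl⟩ := exists_scal_mul_of_isSquare (QMin m' F (j 1) (j ζ₀)) k hsq
    rw [map_mul, hχs, one_mul] at hk1
    rw [map_mul, cHom_scalSim, one_mul, inn_eq]
    have hV : finrank F (((Fin m' ⊕ Fin m') ⊕ Fin 2) → F) = 2 * (m' + 1) := finrank_minus m'
    rcases mem_commutator_or_two (QMin m' F (j 1) (j ζ₀)) h2 hQ hV (Or.inr (by omega)) s with h | h
    · exact ⟨inclO _ s, ⟨s, h, rfl⟩, rfl⟩
    · exfalso
      obtain ⟨w, hw⟩ := hne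
      have h1 := h (reflG (QMin m' F (j 1) (j ζ₀)) w) ⟨w, hw, rfl⟩
      have h2' : χ (inclO (QMin m' F (j 1) (j ζ₀)) (reflG (QMin m' F (j 1) (j ζ₀)) w * s)) = 1 :=
        Abelianization.commutator_subset_ker (χ.comp (inclO (QMin m' F (j 1) (j ζ₀)))) h1
      rw [map_mul, map_mul, hχr w hw, hk1] at h2'
      exact absurd h2' (by decide)
  · intro h2
    have h2₀ : (2 : F₀) ≠ 0 := by
      intro h
      apply h2
      rw [← map_ofNat j 2, h, map_zero]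
    have hsqj := isSquare_emb_of_invol j σ hord hj
    have hneg : spinSign (QMin m' F (j 1) (j ζ₀)) (negG (QMin m' F (j 1) (j ζ₀))) = 1 := by
      rw [spinSign_negG_iff (QMin m' F (j 1) (j ζ₀)) h2 hQ hcard, stdGram_QMin, det_minusGram]
      have e : (-1 : F) ^ m' * (4 * j ζ₀ - (j 1) ^ 2) = j ((-1) ^ m' * (4 * ζ₀ - 1 ^ 2)) := by
        simp only [map_mul, map_pow, map_neg, map_one, map_sub, map_ofNat]
      rw [e]
      exact hsqj _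
    obtain ⟨δ₀, l, g, hδns, hδD, hδbc, hδsp⟩ := gf_spin j m' ζ₀ hab₀ σ hord hj h2 hne₀ hd
    have hδχ₀ : δ₀ ∈ χ₀.ker := by
      rw [MonoidHom.mem_ker, hχ₀, preservesMinus_iff m' 1 ζ₀ hab₀ h2₀ hne₀ δ₀]
      exact hδD
    obtain ⟨d, hd_def⟩ : ∃ d : MulAut (Cfsg.POmega F (⇑(QMin m' F (j 1) (j ζ₀)))),
        d = cHom (⇑(QMin m' F (j 1) (j ζ₀))) (bcSim hc δ₀) := ⟨_, rfl⟩
    have hdC : d ∈ χ.ker.map (cHom (⇑(QMin m' F (j 1) (j ζ₀)))) ⊓ Subgroup.centralizer {φ} := by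
      rw [hd_def]
      exact hmem δ₀ hδχ₀
    have hdg : d = cHom (⇑(QMin m' F (j 1) (j ζ₀))) (inclO (QMin m' F (j 1) (j ζ₀)) g) := by
      rw [hd_def, hδbc, map_mul, cHom_scalSim, one_mul]
    have hdetg : ((g : Matrix.GeneralLinearGroup ((Fin m' ⊕ Fin m') ⊕ Fin 2) F) : Matrix ((Fin m' ⊕ Fin m') ⊕ Fin 2) ((Fin m' ⊕ Fin m') ⊕ Fin 2) F).det = 1 := by
      have h1 : simD (QMin m' F (j 1) (j ζ₀)) hne (m' + 1) (bcSim hc δ₀) = 1 := by
        rw [simD_bcSim hc hne₀ hne, hδD]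
        exact map_one _
      rw [hδbc, map_mul, simD_scalSim (QMin m' F (j 1) (j ζ₀)) hne hcard, one_mul] at h1
      have := congrArg Units.val h1
      rw [simD_inclO, Units.val_one] at this
      exact this
    have hInn_iff : ∀ s : ↥(Cfsg.isometryGroup F (⇑(QMin m' F (j 1) (j ζ₀)))),
        ((s : Matrix.GeneralLinearGroup ((Fin m' ⊕ Fin m') ⊕ Fin 2) F) : Matrix ((Fin m' ⊕ Fin m') ⊕ Fin 2) ((Fin m' ⊕ Fin m') ⊕ Fin 2) F).det = 1 →
        (cHom (⇑(QMin m' F (j 1) (j ζ₀))) (inclO (QMin m' F (j 1) (j ζ₀)) s) ∈ Cfsg.Inn (Cfsg.POmega F (⇑(QMin m' F (j 1) (j ζ₀))))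
          ↔ spinSign (QMin m' F (j 1) (j ζ₀)) s = 1) := by
      intro s hs
      constructor
      · rintro ⟨k, hk⟩
        obtain ⟨t, rfl⟩ := QuotientGroup.mk_surjective k
        have hk' : cHom (⇑(QMin m' F (j 1) (j ζ₀))) (inclO (QMin m' F (j 1) (j ζ₀)) t.1) = cHom (⇑(QMin m' F (j 1) (j ζ₀))) (inclO (QMin m' F (j 1) (j ζ₀)) s) := by
          rw [← conj_mk_eq]
          exact hk
        have h1 : cHom (⇑(QMin m' F (j 1) (j ζ₀))) (inclO (QMin m' F (j 1) (j ζ₀)) (t.1⁻¹ * s)) = 1 := by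
          rw [map_mul, map_mul, map_inv, map_inv, hk', inv_mul_cancel]
        obtain ⟨l', hl'⟩ := eq_scalSim_of_cHom_eq_one (QMin m' F (j 1) (j ζ₀)) hQ h3 hne _ h1
        have h2' : ((t.1⁻¹ * s : ↥(Cfsg.isometryGroup F (⇑(QMin m' F (j 1) (j ζ₀))))) :
            Matrix.GeneralLinearGroup ((Fin m' ⊕ Fin m') ⊕ Fin 2) F) = scalGL ((Fin m' ⊕ Fin m') ⊕ Fin 2) l' := congrArg Subtype.val hl'
        have ht := (mem_commutator_iff_spinSign_det (QMin m' F (j 1) (j ζ₀)) h2 hQ t.1).mp t.2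
        rcases scal_isometry (QMin m' F (j 1) (j ζ₀)) hne l' (t.1⁻¹ * s) h2' with h | h
        · rw [inv_mul_eq_one] at h
          rw [← h]
          exact ht.1
        · have hst : s = t.1 * negG (QMin m' F (j 1) (j ζ₀)) := by
            rw [← h, mul_inv_cancel_left]
          rw [hst, map_mul, hneg, mul_one]
          exact ht.1
      · intro hsp
        rw [inn_eq]
        exact ⟨inclO _ s, ⟨s, (mem_commutator_iff_spinSign_det (QMin m' F (j 1) (j ζ₀)) h2 hQ s).mpr ⟨hsp, hs⟩,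
          rfl⟩, rfl⟩
    have hd_inn_iff : d ∈ Cfsg.Inn (Cfsg.POmega F (⇑(QMin m' F (j 1) (j ζ₀)))) ↔ spinSign (QMin m' F (j 1) (j ζ₀)) g = 1 := by
      rw [hdg]
      exact hInn_iff g hdetg
    have hsqcase : ∀ g₁ : ↥(Cfsg.Geo.quadSimilarityGroup (⇑(QMin m' F₀ 1 ζ₀))),
        simD (QMin m' F₀ 1 ζ₀) hne₀ (m' + 1) g₁ = 1 → IsSquare (simMul (⇑(QMin m' F₀ 1 ζ₀)) g₁ : F₀) →
        cHom (⇑(QMin m' F (j 1) (j ζ₀))) (bcSim hc g₁) ∈ Cfsg.Inn (Cfsg.POmega F (⇑(QMin m' F (j 1) (j ζ₀)))) := by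
      intro g₁ hg₁D hsq
      obtain ⟨l₀, s₀, rfl⟩ := exists_scal_mul_of_isSquare (QMin m' F₀ 1 ζ₀) g₁ hsq
      rw [map_mul, simD_scalSim (QMin m' F₀ 1 ζ₀) hne₀ hcard, one_mul] at hg₁D
      have hdet : ((s₀ : Matrix.GeneralLinearGroup ((Fin m' ⊕ Fin m') ⊕ Fin 2) F₀) : Matrix ((Fin m' ⊕ Fin m') ⊕ Fin 2) ((Fin m' ⊕ Fin m') ⊕ Fin 2) F₀).det = 1 := by
        have := congrArg Units.val hg₁D
        rw [simD_inclO, Units.val_one] at this
        exact this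
      have hcomm := bc_mem_commutator hc h2₀ hQ₀ hsqj s₀ hdet (bcO hc s₀) (bcO_val hc s₀)
      rw [map_mul, bcSim_scalSim, map_mul, cHom_scalSim, one_mul, ← inclO_bcO hc, inn_eq]
      exact ⟨inclO _ (bcO hc s₀), ⟨bcO hc s₀, hcomm, rfl⟩, rfl⟩
    have hdich : ∀ g₀ ∈ χ₀.ker,
        cHom (⇑(QMin m' F (j 1) (j ζ₀))) (bcSim hc g₀) ∈ Cfsg.Inn (Cfsg.POmega F (⇑(QMin m' F (j 1) (j ζ₀))))
        ∨ cHom (⇑(QMin m' F (j 1) (j ζ₀))) (bcSim hc g₀) * d⁻¹ ∈ Cfsg.Inn (Cfsg.POmega F (⇑(QMin m' F (j 1) (j ζ₀)))) := by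
      intro g₀ hg₀
      have hg₀D : simD (QMin m' F₀ 1 ζ₀) hne₀ (m' + 1) g₀ = 1 :=
        (preservesMinus_iff m' 1 ζ₀ hab₀ h2₀ hne₀ g₀).mp
          ((hχ₀ g₀).mp (MonoidHom.mem_ker.mp hg₀))
      by_cases hsq : IsSquare (simMul (⇑(QMin m' F₀ 1 ζ₀)) g₀ : F₀)
      · exact Or.inl (hsqcase g₀ hg₀D hsq)
      · right
        have e : cHom (⇑(QMin m' F (j 1) (j ζ₀))) (bcSim hc g₀) * d⁻¹
            = cHom (⇑(QMin m' F (j 1) (j ζ₀))) (bcSim hc (g₀ * δ₀⁻¹)) := by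
          rw [hd_def, map_mul, map_mul, map_inv, map_inv]
        rw [e]
        apply hsqcase
        · rw [map_mul, map_inv, hg₀D, hδD, inv_one, mul_one]
        · rw [← simMulHom_apply _ hne₀, map_mul, map_inv, simMulHom_apply, simMulHom_apply,
            Units.val_mul, Units.val_inv_eq_inv_val]
          have hN : ¬ IsSquare ((simMul (⇑(QMin m' F₀ 1 ζ₀)) δ₀ : F₀)⁻¹) := by
            rw [isSquare_inv]
            exact hδns
          exact (isSquare_mul_nonsquare_iff (simMul (⇑(QMin m' F₀ 1 ζ₀)) g₀).ne_zero hN).mpr hsq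
    have hdd : d * d ∈ Cfsg.Inn (Cfsg.POmega F (⇑(QMin m' F (j 1) (j ζ₀)))) := by
      have e : d * d = cHom (⇑(QMin m' F (j 1) (j ζ₀))) (bcSim hc (δ₀ * δ₀)) := by
        rw [hd_def, map_mul, map_mul]
      rw [e]
      apply hsqcase
      · rw [map_mul, hδD, mul_one]
      · rw [← simMulHom_apply _ hne₀, map_mul, simMulHom_apply, Units.val_mul]
        exact ⟨_, rfl⟩
    have hNmem : ∀ y ∈ Cfsg.Inn (Cfsg.POmega F (⇑(QMin m' F (j 1) (j ζ₀))))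
          ⊔ (χ.ker.map (cHom (⇑(QMin m' F (j 1) (j ζ₀)))) ⊓ Subgroup.centralizer {φ}),
        y ∈ Cfsg.Inn (Cfsg.POmega F (⇑(QMin m' F (j 1) (j ζ₀))))
        ∨ y * d⁻¹ ∈ Cfsg.Inn (Cfsg.POmega F (⇑(QMin m' F (j 1) (j ζ₀)))) := by
      intro y hy
      rw [← SetLike.mem_coe, Subgroup.normal_mul, Set.mem_mul] at hy
      obtain ⟨i, hi, c, hc', rfl⟩ := hy
      obtain ⟨g₀, hg₀, rfl⟩ := hsurj c hc'
      rcases hdich g₀ hg₀ with h | h
      · exact Or.inl (Subgroup.mul_mem _ hi h)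
      · right
        rw [mul_assoc]
        exact Subgroup.mul_mem _ hi h
    by_cases hcase : Odd (m' + 1) ∧ Fintype.card F₀ % 4 = 1
    · rw [if_pos hcase, Subgroup.relIndex_eq_one]
      have hdI : d ∈ Cfsg.Inn (Cfsg.POmega F (⇑(QMin m' F (j 1) (j ζ₀)))) := hd_inn_iff.mpr (hδsp.mpr hcase)
      intro y hy
      rcases hNmem y hy with h | h
      · exact h
      · have := Subgroup.mul_mem _ h hdI
        rwa [inv_mul_cancel_right] at this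
    · rw [if_neg hcase, Subgroup.relIndex_eq_two_iff]
      have hdI : d ∉ Cfsg.Inn (Cfsg.POmega F (⇑(QMin m' F (j 1) (j ζ₀)))) :=
        fun h => hcase (hδsp.mp (hd_inn_iff.mp h))
      refine ⟨d, Subgroup.mem_sup_right hdC, fun b hb => ?_⟩
      by_cases hbI : b ∈ Cfsg.Inn (Cfsg.POmega F (⇑(QMin m' F (j 1) (j ζ₀))))
      · refine Or.inr ⟨hbI, fun h => hdI ?_⟩
        have := Subgroup.mul_mem _ (Subgroup.inv_mem _ hbI) h
        rwa [inv_mul_cancel_left] at this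
      · refine Or.inl ⟨?_, hbI⟩
        have h1 := (hNmem b hb).resolve_left hbI
        have := Subgroup.mul_mem _ h1 hdd
        rwa [show b * d⁻¹ * (d * d) = b * d by group] at this

end

end Cfsg.Agent.H49
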