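import Mathlib
import Cfsg.Agent.H49.GraphInv2

set_option autoImplicit false
set_option linter.unusedSectionVars false

/-! Helper lemmas (helper49): similarities with non-square multiplier and scalar square. -/

namespace Cfsg.Agent.H49

open Module Matrix

section
variable {ι : Type} [Fintype ι] [DecidableEq ι] {F : Type*} [Field F] [Fintype F] [DecidableEq F]

/-- For a similarity `g` with non-square multiplier whose square is a scalar, some non-singular
vector is orthogonal to its image. -/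
theorem exists_orth_of_nonsq (Q : QuadraticForm F (ι → F)) (h2 : (2 : F) ≠ 0)
    (hQ : (QuadraticMap.polarBilin Q).Nondegenerate) (hne : ∃ v, Q v ≠ 0)
    (hcard : 3 ≤ Fintype.card ι) (g : ↥(Cfsg.Geo.quadSimilarityGroup (⇑Q)))
    (hμ : ¬ IsSquare (simMul (⇑Q) g : F)) (l : Fˣ) (hg : g * g = scalSim Q l) :
    ∃ v : ι → F, Q v ≠ 0 ∧ QuadraticMap.polar (⇑Q) v
      (((g : Matrix.GeneralLinearGroup ι F) : Matrix ι ι F) *ᵥ v) = 0 := by
  obtain ⟨G, hG⟩ : ∃ G : Matrix ι ι F,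
      G = ((g : Matrix.GeneralLinearGroup ι F) : Matrix ι ι F) := ⟨_, rfl⟩
  obtain ⟨μ, hμdef⟩ : ∃ μ : F, μ = (simMul (⇑Q) g : F) := ⟨_, rfl⟩
  rw [← hG]
  rw [← hμdef] at hμ
  have hμ0 : μ ≠ 0 := by rw [hμdef]; exact (simMul (⇑Q) g).ne_zero
  have hQG : ∀ v, Q (G *ᵥ v) = μ * Q v := by
    intro v; rw [hG, hμdef]; exact simMul_spec (⇑Q) g v
  have hpG : ∀ u w, QuadraticMap.polar (⇑Q) (G *ᵥ u) (G *ᵥ w)
      = μ * QuadraticMap.polar (⇑Q) u w := by
    intro u w; rw [hG, hμdef]; exact sim_polar Q g u w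
  have hGG : ∀ v, G *ᵥ (G *ᵥ v) = (l : F) • v := by
    intro v
    have := congrArg (fun x : ↥(Cfsg.Geo.quadSimilarityGroup (⇑Q)) =>
      ((x : Matrix.GeneralLinearGroup ι F) : Matrix ι ι F) *ᵥ v) hg
    simp only [Subgroup.coe_mul, Units.val_mul, scalSim_coe, scalGL_mulVec] at this
    rw [hG, Matrix.mulVec_mulVec]
    exact this
  have hl : (l : F) * l = μ * μ := by
    obtain ⟨v, hv⟩ := hne
    have e1 : Q (G *ᵥ (G *ᵥ v)) = μ * (μ * Q v) := by rw [hQG, hQG]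
    rw [hGG, QuadraticMap.map_smul, smul_eq_mul] at e1
    have : ((l : F) * l - μ * μ) * Q v = 0 := by linear_combination e1
    rcases mul_eq_zero.mp this with h | h
    · linear_combination h
    · exact absurd h hv
  have hl' : (l : F) = μ ∨ (l : F) = -μ := by
    have : ((l : F) - μ) * ((l : F) + μ) = 0 := by linear_combination hl
    rcases mul_eq_zero.mp this with h | h
    · left; linear_combination h
    · right; linear_combination h
  rcases hl' with hl1 | hl1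
  swap
  · obtain ⟨v, hv⟩ := hne
    refine ⟨v, hv, ?_⟩
    have e := hpG v (G *ᵥ v)
    rw [hGG, hl1, QuadraticMap.polar_smul_right, smul_eq_mul,
      QuadraticMap.polar_comm (⇑Q) (G *ᵥ v) v] at e
    have : (2 : F) * μ * QuadraticMap.polar (⇑Q) v (G *ᵥ v) = 0 := by
      linear_combination (-1 : F) * e
    rcases mul_eq_zero.mp this with h | h
    · exact absurd h (mul_ne_zero h2 hμ0)
    · exact h
  · rw [hl1] at hGG
    have hsa : ∀ u w, QuadraticMap.polar (⇑Q) (G *ᵥ u) w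
        = QuadraticMap.polar (⇑Q) u (G *ᵥ w) := by
      intro u w
      have e := hpG (G *ᵥ u) w
      rw [hGG, QuadraticMap.polar_smul_left, smul_eq_mul] at e
      exact (mul_left_cancel₀ hμ0 e).symm
    obtain ⟨Qg, hQg⟩ : ∃ Qg : QuadraticForm F (ι → F),
        ∀ v, Qg v = QuadraticMap.polar (⇑Q) v (G *ᵥ v) := by
      refine ⟨Q.comp (Matrix.mulVecLin (1 + G)) - (1 + μ) • Q, fun v => ?_⟩
      rw [_root_.sub_apply, QuadraticMap.comp_apply, _root_.smul_apply,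
        Matrix.mulVecLin_apply, Matrix.add_mulVec, Matrix.one_mulVec, Q_add', hQG, smul_eq_mul]
      ring
    have h3 : 3 ≤ finrank F (ι → F) := by
      rw [Module.finrank_fintype_fun_eq_card]; exact hcard
    obtain ⟨u₁, hu0, hu1⟩ := exists_singular_of_three_le Qg h3
    rw [hQg] at hu1
    by_cases hQu : Q u₁ = 0
    swap
    · exact ⟨u₁, hQu, hu1⟩
    have hnoeig : ∀ c : F, G *ᵥ u₁ ≠ c • u₁ := by
      intro c hc
      have e := hGG u₁
      rw [hc, Matrix.mulVec_smul, hc, smul_smul] at e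
      have : (c * c - μ) • u₁ = 0 := by rw [sub_smul, e, sub_self]
      rcases smul_eq_zero.mp this with h | h
      · exact hμ ⟨c, by linear_combination -h⟩
      · exact hu0 h
    obtain ⟨y, hy⟩ : ∃ y, y = G *ᵥ u₁ := ⟨_, rfl⟩
    have hy0 : y ≠ 0 := by
      intro h
      apply hnoeig 0
      rw [← hy, h, zero_smul]
    obtain ⟨v₀, hv₀⟩ : ∃ v₀, QuadraticMap.polar (⇑Q) y v₀ ≠ 0 := by
      by_contra hcon
      push Not at hcon
      exact hy0 (hQ.1 y hcon)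
    obtain ⟨c, hc⟩ : ∃ c : F,
        c = QuadraticMap.polar (⇑Q) u₁ v₀ / QuadraticMap.polar (⇑Q) y v₀ := ⟨_, rfl⟩
    have hx'0 : u₁ - c • y ≠ 0 := by
      intro h
      have h' : u₁ = c • y := sub_eq_zero.mp h
      by_cases hc0 : c = 0
      · rw [hc0, zero_smul] at h'
        exact hu0 h'
      · apply hnoeig c⁻¹
        rw [← hy]
        rw [h', smul_smul, inv_mul_cancel₀ hc0, one_smul]
    obtain ⟨v₁, hv₁⟩ : ∃ v₁, QuadraticMap.polar (⇑Q) (u₁ - c • y) v₁ ≠ 0 := by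
      by_contra hcon
      push Not at hcon
      exact hx'0 (hQ.1 _ hcon)
    obtain ⟨p, hp⟩ : ∃ p : F, p = QuadraticMap.polar (⇑Q) y v₀ := ⟨_, rfl⟩
    obtain ⟨r, hr⟩ : ∃ r : F, r = QuadraticMap.polar (⇑Q) (u₁ - c • y) v₁ := ⟨_, rfl⟩
    obtain ⟨s, hs⟩ : ∃ s : F, s = QuadraticMap.polar (⇑Q) y v₁ := ⟨_, rfl⟩
    have hp0 : p ≠ 0 := by rw [hp]; exact hv₀
    have hr0 : r ≠ 0 := by rw [hr]; exact hv₁
    have hx0 : QuadraticMap.polar (⇑Q) u₁ v₀ = c * p := by
      rw [hc, hp]; field_simp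
    have hx1 : QuadraticMap.polar (⇑Q) u₁ v₁ = r + c * s := by
      rw [hr, hs, QuadraticMap.polar_sub_left, QuadraticMap.polar_smul_left, smul_eq_mul]; ring
    obtain ⟨β, hβ⟩ : ∃ β : F, β = -c / r := ⟨_, rfl⟩
    obtain ⟨α, hα⟩ : ∃ α : F, α = (1 - β * s) / p := ⟨_, rfl⟩
    obtain ⟨u₂, hu₂⟩ : ∃ u₂ : ι → F, u₂ = α • v₀ + β • v₁ := ⟨_, rfl⟩
    have hBC : QuadraticMap.polar (⇑Q) y u₂ = 1 := by
      rw [hu₂, QuadraticMap.polar_add_right, QuadraticMap.polar_smul_right,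
        QuadraticMap.polar_smul_right, ← hp, ← hs, hα]
      simp only [smul_eq_mul]
      field_simp
      ring
    have hAC : QuadraticMap.polar (⇑Q) u₁ u₂ = 0 := by
      rw [hu₂, QuadraticMap.polar_add_right, QuadraticMap.polar_smul_right,
        QuadraticMap.polar_smul_right, hx0, hx1, hα, hβ]
      simp only [smul_eq_mul]
      field_simp
      ring
    obtain ⟨a₀, ha₀⟩ : ∃ a₀ : F, a₀ = QuadraticMap.polar (⇑Q) u₂ (G *ᵥ u₂) / 2 := ⟨_, rfl⟩
    obtain ⟨a₁, ha₁⟩ : ∃ a₁ : F, a₁ = Q u₂ := ⟨_, rfl⟩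
    have hCD : QuadraticMap.polar (⇑Q) u₂ (G *ᵥ u₂) = 2 * a₀ := by
      rw [ha₀]; field_simp
    have hCB : QuadraticMap.polar (⇑Q) u₂ y = 1 := by
      rw [QuadraticMap.polar_comm]; exact hBC
    have hCA : QuadraticMap.polar (⇑Q) u₂ u₁ = 0 := by
      rw [QuadraticMap.polar_comm]; exact hAC
    have hAD : QuadraticMap.polar (⇑Q) u₁ (G *ᵥ u₂) = 1 := by
      rw [← hsa, ← hy]; exact hBC
    have hAB : QuadraticMap.polar (⇑Q) u₁ y = 0 := by rw [hy]; exact hu1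
    have hBA : QuadraticMap.polar (⇑Q) y u₁ = 0 := by
      rw [QuadraticMap.polar_comm]; exact hAB
    have hAA : QuadraticMap.polar (⇑Q) u₁ u₁ = 0 := by rw [polar_self', hQu, mul_zero]
    have hQy : Q y = 0 := by rw [hy, hQG, hQu, mul_zero]
    have hBB : QuadraticMap.polar (⇑Q) y y = 0 := by rw [polar_self', hQy, mul_zero]
    have hBD : QuadraticMap.polar (⇑Q) y (G *ᵥ u₂) = 0 := by
      rw [hy, hpG, hAC, mul_zero]
    have hGy : G *ᵥ y = μ • u₁ := by rw [hy]; exact hGG u₁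
    refine ⟨u₂ - a₀ • u₁ + (1 - a₁) • y, ?_, ?_⟩
    · have e : Q (u₂ - a₀ • u₁ + (1 - a₁) • y) = 1 := by
        rw [Q_add', Q_sub_smul, QuadraticMap.map_smul, QuadraticMap.polar_smul_right,
          QuadraticMap.polar_sub_left, QuadraticMap.polar_smul_left, hQu, hQy, hAC, hCB, hAB,
          ← ha₁]
        simp only [smul_eq_mul]
        ring
      rw [e]
      exact one_ne_zero
    · have e : G *ᵥ (u₂ - a₀ • u₁ + (1 - a₁) • y)
          = G *ᵥ u₂ - a₀ • y + (1 - a₁) • (μ • u₁) := by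
        rw [Matrix.mulVec_add, Matrix.mulVec_sub, Matrix.mulVec_smul, Matrix.mulVec_smul, hGy,
          ← hy]
      rw [e]
      simp only [QuadraticMap.polar_add_left, QuadraticMap.polar_add_right,
        QuadraticMap.polar_sub_left, QuadraticMap.polar_sub_right, QuadraticMap.polar_smul_left,
        QuadraticMap.polar_smul_right, smul_eq_mul]
      linear_combination hCD - a₀ * hCB + (1 - a₁) * μ * hCA - a₀ * hAD + a₀ * a₀ * hAB
        - a₀ * (1 - a₁) * μ * hAA + (1 - a₁) * hBD - (1 - a₁) * a₀ * hBB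
        + (1 - a₁) * (1 - a₁) * μ * hBA

/-- A similarity with non-square multiplier and scalar square is centralised by a product of two
reflections of determinant one and non-trivial spinor sign. -/
theorem exists_comm_of_nonsq (Q : QuadraticForm F (ι → F)) (h2 : (2 : F) ≠ 0)
    (hQ : (QuadraticMap.polarBilin Q).Nondegenerate) (hne : ∃ v, Q v ≠ 0)
    (hcard : 3 ≤ Fintype.card ι) (g : ↥(Cfsg.Geo.quadSimilarityGroup (⇑Q)))
    (hμ : ¬ IsSquare (simMul (⇑Q) g : F)) (l : Fˣ) (hg : g * g = scalSim Q l) :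
    ∃ x₀ : ↥(Cfsg.isometryGroup F (⇑Q)),
      ((x₀ : Matrix.GeneralLinearGroup ι F) : Matrix ι ι F).det = 1 ∧ spinSign Q x₀ = -1 ∧
      simConj (⇑Q) g x₀ = x₀ := by
  obtain ⟨v, hv, hvo⟩ := exists_orth_of_nonsq Q h2 hQ hne hcard g hμ l hg
  obtain ⟨w, hw⟩ : ∃ w, w = ((g : Matrix.GeneralLinearGroup ι F) : Matrix ι ι F) *ᵥ v :=
    ⟨_, rfl⟩
  rw [← hw] at hvo
  have hQw : Q w = (simMul (⇑Q) g : F) * Q v := by rw [hw]; exact simMul_spec (⇑Q) g v
  have hw0 : Q w ≠ 0 := by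
    rw [hQw]; exact mul_ne_zero (simMul (⇑Q) g).ne_zero hv
  have hGw : ((g : Matrix.GeneralLinearGroup ι F) : Matrix ι ι F) *ᵥ w = (l : F) • v := by
    have := congrArg (fun x : ↥(Cfsg.Geo.quadSimilarityGroup (⇑Q)) =>
      ((x : Matrix.GeneralLinearGroup ι F) : Matrix ι ι F) *ᵥ v) hg
    simp only [Subgroup.coe_mul, Units.val_mul, scalSim_coe, scalGL_mulVec] at this
    rw [hw, Matrix.mulVec_mulVec]
    exact this
  refine ⟨reflG Q v * reflG Q w, ?_, ?_, ?_⟩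
  · rw [det_mul_iso, reflG_coe, reflG_coe, det_reflectionMatrix Q v hv,
      det_reflectionMatrix Q w hw0]
    ring
  · rw [map_mul, spinSign_reflG Q h2 v hv, spinSign_reflG Q h2 w hw0, hQw,
      mul_comm (simMul (⇑Q) g : F)]
    have hiff := isSquare_mul_nonsquare_iff hv hμ
    by_cases hs : IsSquare (Q v)
    · rw [if_pos hs, if_neg (fun h => (hiff.mp h) hs)]
      rfl
    · rw [if_neg hs, if_pos (hiff.mpr hs)]
      rfl
  · rw [map_mul, simConj_reflG, simConj_reflG, ← hw, hGw, reflG_smul Q v l.ne_zero]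
    exact (reflG_comm_of_orth Q v w hvo).symm

/-- An involutory automorphism induced by a similarity with non-trivial sign is centralised by
the automorphism induced by some isometry of determinant one and non-trivial spinor sign. -/
theorem exists_centralizing (Q : QuadraticForm F (ι → F)) (h2 : (2 : F) ≠ 0)
    (hQ : (QuadraticMap.polarBilin Q).Nondegenerate) (h3 : HasTS3 Q) (hne : ∃ v, Q v ≠ 0) {k : ℕ}
    (hk : Fintype.card ι = 2 * k) (hcard : 3 ≤ Fintype.card ι)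
    (g : ↥(Cfsg.Geo.quadSimilarityGroup (⇑Q))) (hg : sgnD Q h2 hQ hne hk g ≠ 1)
    (hgg : cHom (⇑Q) g * cHom (⇑Q) g = 1) :
    ∃ x₀ : ↥(Cfsg.isometryGroup F (⇑Q)),
      ((x₀ : Matrix.GeneralLinearGroup ι F) : Matrix ι ι F).det = 1 ∧ spinSign Q x₀ = -1 ∧
      cHom (⇑Q) (inclO Q x₀) * cHom (⇑Q) g = cHom (⇑Q) g * cHom (⇑Q) (inclO Q x₀) := by
  have h1 : cHom (⇑Q) (g * g) = 1 := by rw [map_mul]; exact hgg
  obtain ⟨l, hl⟩ := eq_scalSim_of_cHom_eq_one Q hQ h3 hne _ h1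
  by_cases hμ : IsSquare (simMul (⇑Q) g : F)
  · obtain ⟨c, g₀, rfl⟩ := exists_scal_mul_of_isSquare Q g hμ
    rw [scal_mul_scal_mul] at hl
    have hl' : scalSim Q (c * c) * inclO Q (g₀ * g₀) = scalSim Q l * inclO Q 1 := by
      rw [hl, map_one, mul_one]
    rcases scal_mul_eq Q hne _ _ _ _ hl' with h | h
    · obtain ⟨x₀, hdet, hspin, hcomm⟩ := exists_comm_of_invol Q h2 hQ hcard g₀ h.symm
      refine ⟨x₀, hdet, hspin, ?_⟩
      rw [map_mul, cHom_scalSim, one_mul, ← map_mul, ← map_mul, ← map_mul, ← map_mul, hcomm]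
    · exfalso
      apply hg
      have h' : g₀ * g₀ = negG Q := by
        have e := congrArg (fun x => negG Q * x) h
        simp only [mul_one, ← mul_assoc, negG_mul_self, one_mul] at e
        exact e.symm
      rw [map_mul, sgnD_scalSim, one_mul]
      exact sgnD_of_sq_eq_neg Q h2 hQ hne hk g₀ h'
  · obtain ⟨x₀, hdet, hspin, hconj⟩ := exists_comm_of_nonsq Q h2 hQ hne hcard g hμ l hl
    refine ⟨x₀, hdet, hspin, ?_⟩
    have e : g * inclO Q x₀ * g⁻¹ = inclO Q (simConj (⇑Q) g x₀) := Subtype.ext rfl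
    rw [hconj] at e
    have e' : g * inclO Q x₀ = inclO Q x₀ * g := by
      calc g * inclO Q x₀ = (g * inclO Q x₀ * g⁻¹) * g := by group
        _ = inclO Q x₀ * g := by rw [e]
    rw [← map_mul, ← map_mul, e']

/-- When `Inndiag/Inn` has order four (and `-1 ∈ Ω`), the `Inndiag`-class of an involutory graph
automorphism induced by a similarity splits into exactly two `Inn`-classes. -/
theorem split_count_two (Q : QuadraticForm F (ι → F)) (h2 : (2 : F) ≠ 0)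
    (hQ : (QuadraticMap.polarBilin Q).Nondegenerate) (h3 : HasTS3 Q) (hne : ∃ v, Q v ≠ 0) {k : ℕ}
    (hk : Fintype.card ι = 2 * k) (hcard : 3 ≤ Fintype.card ι)
    (hneg : spinSign Q (negG Q) = 1)
    (P : Subgroup (MulAut (Cfsg.POmega F (⇑Q))))
    (hP : P = (sgnD Q h2 hQ hne hk).ker.map (cHom (⇑Q)))
    (hidx : (Cfsg.Inn (Cfsg.POmega F (⇑Q))).relIndex P = 4)
    (g : ↥(Cfsg.Geo.quadSimilarityGroup (⇑Q))) (hg : sgnD Q h2 hQ hne hk g ≠ 1)
    (hgg : cHom (⇑Q) g * cHom (⇑Q) g = 1) :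
    Cfsg.splitClassCount P (Cfsg.Inn (Cfsg.POmega F (⇑Q))) (cHom (⇑Q) g) = 2 := by
  have hTP : Cfsg.Inn (Cfsg.POmega F (⇑Q)) ≤ P := by
    rw [hP, inn_eq]
    exact Subgroup.map_mono (omega_le_ker_sgnD Q h2 hQ hne hk)
  rw [splitClassCount_eq_relIndex P _ hTP]
  obtain ⟨N, hN⟩ : ∃ N : Subgroup (MulAut (Cfsg.POmega F (⇑Q))),
      N = Cfsg.Inn (Cfsg.POmega F (⇑Q)) ⊔ (P ⊓ Subgroup.centralizer {cHom (⇑Q) g}) := ⟨_, rfl⟩
  rw [← hN]
  have hNP : N ≤ P := by rw [hN]; exact sup_le hTP inf_le_left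
  have hTN : Cfsg.Inn (Cfsg.POmega F (⇑Q)) ≤ N := by rw [hN]; exact le_sup_left
  have hNS : N ≤ Cfsg.psoAut F (⇑Q) := by
    rw [hN]
    refine sup_le (inn_le_psoAut _) ?_
    rw [hP]
    exact centralizer_le_pso Q h2 hQ h3 hne hk hneg g hg
  have hTS := relIndex_inn_psoAut Q h2 hQ h3 hk hneg
  obtain ⟨x₀, hdet, hspin, hcomm⟩ := exists_centralizing Q h2 hQ h3 hne hk hcard g hg hgg
  have hxN : cHom (⇑Q) (inclO Q x₀) ∈ N := by
    rw [hN]
    apply Subgroup.mem_sup_right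
    refine ⟨?_, ?_⟩
    · rw [hP]
      refine ⟨inclO Q x₀, ?_, rfl⟩
      show inclO Q x₀ ∈ (sgnD Q h2 hQ hne hk).ker
      rw [MonoidHom.mem_ker, sgnD_inclO_iff]
      exact hdet
    · show cHom (⇑Q) (inclO Q x₀) ∈ Subgroup.centralizer {cHom (⇑Q) g}
      rw [Subgroup.mem_centralizer_iff]
      intro y hy
      rw [Set.mem_singleton_iff] at hy
      rw [hy]
      exact hcomm.symm
  have hxT : cHom (⇑Q) (inclO Q x₀) ∉ Cfsg.Inn (Cfsg.POmega F (⇑Q)) :=
    cHom_inclO_not_mem_inn Q h2 hQ h3 hne hneg x₀ (by rw [hspin]; decide)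
  have e1 := Subgroup.relIndex_mul_relIndex _ _ _ hTN hNS
  rw [hTS] at e1
  have hne1 : (Cfsg.Inn (Cfsg.POmega F (⇑Q))).relIndex N ≠ 1 := by
    intro h
    exact hxT ((Subgroup.relIndex_eq_one.mp h) hxN)
  have h2N : (Cfsg.Inn (Cfsg.POmega F (⇑Q))).relIndex N = 2 := by
    have hdvd : (Cfsg.Inn (Cfsg.POmega F (⇑Q))).relIndex N ∣ 2 := Dvd.intro _ e1
    rcases (Nat.dvd_prime Nat.prime_two).mp hdvd with h | h
    · exact absurd h hne1
    · exact h
  have e2 := Subgroup.relIndex_mul_relIndex _ _ _ hTN hNP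
  rw [hidx, h2N] at e2
  omega

/-- The splitting of the `Inndiag`-class of an involutory graph automorphism induced by a
similarity into `Inn`-classes: one or two classes when `Inndiag/Inn` has order two, exactly two
when it has order four and `-1 ∈ Ω`. -/
theorem split_count_general (Q : QuadraticForm F (ι → F)) (h2 : (2 : F) ≠ 0)
    (hQ : (QuadraticMap.polarBilin Q).Nondegenerate) (h3 : HasTS3 Q) (hne : ∃ v, Q v ≠ 0) {k : ℕ}
    (hk : Fintype.card ι = 2 * k) (hcard : 3 ≤ Fintype.card ι)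
    (P : Subgroup (MulAut (Cfsg.POmega F (⇑Q))))
    (hP : P = (sgnD Q h2 hQ hne hk).ker.map (cHom (⇑Q)))
    (g : ↥(Cfsg.Geo.quadSimilarityGroup (⇑Q))) (hg : sgnD Q h2 hQ hne hk g ≠ 1)
    (γ : MulAut (Cfsg.POmega F (⇑Q))) (hγe : γ = cHom (⇑Q) g) (hγ2 : orderOf γ = 2) :
    ((Cfsg.Inn (Cfsg.POmega F (⇑Q))).relIndex P = 2 →
      (Cfsg.splitClassCount P (Cfsg.Inn (Cfsg.POmega F (⇑Q))) γ = 1 ∨
        Cfsg.splitClassCount P (Cfsg.Inn (Cfsg.POmega F (⇑Q))) γ = 2)) ∧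
    (spinSign Q (negG Q) = 1 → (Cfsg.Inn (Cfsg.POmega F (⇑Q))).relIndex P = 4 →
      Cfsg.splitClassCount P (Cfsg.Inn (Cfsg.POmega F (⇑Q))) γ = 2) := by
  have hTP : Cfsg.Inn (Cfsg.POmega F (⇑Q)) ≤ P := by
    rw [hP, inn_eq]
    exact Subgroup.map_mono (omega_le_ker_sgnD Q h2 hQ hne hk)
  constructor
  · intro hidx
    rw [splitClassCount_eq_relIndex P _ hTP]
    have hdvd := Subgroup.relIndex_dvd_of_le_left P
      (le_sup_left : Cfsg.Inn (Cfsg.POmega F (⇑Q))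
        ≤ Cfsg.Inn (Cfsg.POmega F (⇑Q)) ⊔ (P ⊓ Subgroup.centralizer {γ}))
    rw [hidx] at hdvd
    exact (Nat.dvd_prime Nat.prime_two).mp hdvd
  · intro hneg hidx
    have hgg : cHom (⇑Q) g * cHom (⇑Q) g = 1 := by
      rw [← hγe, ← pow_two, ← hγ2]
      exact pow_orderOf_eq_one γ
    rw [hγe]
    exact split_count_two Q h2 hQ h3 hne hk hcard hneg P hP hidx g hg hgg

end

end Cfsg.Agent.H49
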