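import Mathlib
import Cfsg.Agent.H49.GraphInv3
import Cfsg.Agent.H49.SimPlus

set_option autoImplicit false
set_option linter.unusedSectionVars false

/-! Helper lemmas (helper49): splitting of the `Inndiag`-class of an involutory similarity graph
automorphism of `PΩ⁺_{2m}(q)`, `q` odd, into `Inn`-classes. -/

namespace Cfsg.Agent.H49

open Module Matrix

theorem relIndex_of_hom {A : Type*} [Group A] (P S : Subgroup A) {H : Type*} [Group H]
    (h : ∃ φ : ↥P →* H, Function.Surjective φ ∧ φ.ker = S.subgroupOf P) :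
    S.relIndex P = Nat.card H := by
  obtain ⟨φ, hφ, hker⟩ := h
  rw [Subgroup.relIndex, ← hker, Subgroup.index_ker, MonoidHom.range_eq_top.mpr hφ,
    Subgroup.card_top]

section
variable {F : Type*} [Field F] [Fintype F]

theorem preservesPlus_iff [DecidableEq F] (m : ℕ) (h2 : (2 : F) ≠ 0) (hne : ∃ v, QP m F v ≠ 0)
    (g : ↥(Cfsg.Geo.quadSimilarityGroup (⇑(QP m F)))) :
    Cfsg.PreservesSingularClasses (⇑(QP m F))
        ((g : Matrix.GeneralLinearGroup (Fin m ⊕ Fin m) F) :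
          Matrix (Fin m ⊕ Fin m) (Fin m ⊕ Fin m) F)
      ↔ sgnD (QP m F) h2 (QP_nondeg m F) hne (k := m) (by simp; ring) g = 1 := by
  obtain ⟨ν, hν⟩ := exists_nonsquare_unit (F := F) h2
  exact preserves_iff_sgnD (QP m F) h2 (QP_nondeg m F) hne _ (U0 m F) (U0_ts m F)
    (finrank_U0 m F) (dsim m F ν) (by rw [simMul_dsim m F hne]; exact hν)
    (sgnD_dsim m F h2 hne ν) (dsim_map_U0 m F ν) g

theorem plus_graph_split (hodd : Odd (Fintype.card F)) {m : ℕ} (hm : 4 ≤ m)
    (γ : MulAut (Cfsg.POmega F (Cfsg.quadFormPlus m F)))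
    (hγ : Cfsg.IsSimilarityGraphAutPOmegaPlus m γ) (hγ2 : orderOf γ = 2) :
    (Cfsg.splitClassCount (Cfsg.inndiagPOmegaPlus m F)
        (Cfsg.Inn (Cfsg.POmega F (Cfsg.quadFormPlus m F))) γ = 1 ∨
      Cfsg.splitClassCount (Cfsg.inndiagPOmegaPlus m F)
        (Cfsg.Inn (Cfsg.POmega F (Cfsg.quadFormPlus m F))) γ = 2) ∧
    (¬ (Odd m ∧ Fintype.card F % 4 = 3) →
      Cfsg.splitClassCount (Cfsg.inndiagPOmegaPlus m F)
        (Cfsg.Inn (Cfsg.POmega F (Cfsg.quadFormPlus m F))) γ = 2) := by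
  classical
  have h2 : (2 : F) ≠ 0 := two_ne_zero_of_odd_card hodd
  have hm3 : 3 ≤ m := by omega
  have hne : ∃ v, QP m F v ≠ 0 := by
    obtain ⟨x, hx⟩ := exists_Q_eq_of_ts3 (QP m F) (QP_nondeg m F) (hasTS3_QP m hm3) 1
    exact ⟨x, by rw [hx]; exact one_ne_zero⟩
  have hcard : Fintype.card (Fin m ⊕ Fin m) = 2 * m := by simp; ring
  have hcard3 : 3 ≤ Fintype.card (Fin m ⊕ Fin m) := by rw [hcard]; omega
  have hP := inndiagPlus_eq m F h2 hne
  obtain ⟨g, hgmem, hnp, hind⟩ := hγ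
  have hγe : γ = cHom (⇑(QP m F)) ⟨g, hgmem⟩ :=
    (isInduced_iff (⇑(QP m F)) ⟨g, hgmem⟩ γ).mp hind
  have hsg : sgnD (QP m F) h2 (QP_nondeg m F) hne hcard ⟨g, hgmem⟩ ≠ 1 := by
    intro h
    exact hnp ((preservesPlus_iff m h2 hne ⟨g, hgmem⟩).mpr h)
  have hplus := plus_inndiag (F := F) hodd hm3
  have key := split_count_general (QP m F) h2 (QP_nondeg m F) (hasTS3_QP m hm3) hne hcard hcard3
    (Cfsg.inndiagPOmegaPlus m F) hP ⟨g, hgmem⟩ hsg γ hγe hγ2
  have hq : Fintype.card F % 4 = 1 ∨ Fintype.card F % 4 = 3 := by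
    have := Nat.odd_iff.mp hodd
    omega
  by_cases hex : Odd m ∧ Fintype.card F % 4 = 3
  · have hidx := relIndex_of_hom _ _ (hplus.1 hex)
    have hc2 : Nat.card (Multiplicative (ZMod 2)) = 2 := by
      rw [Nat.card_eq_fintype_card]; rfl
    rw [hc2] at hidx
    exact ⟨key.1 hidx, fun h => absurd hex h⟩
  · have hneg : spinSign (QP m F) (negG (QP m F)) = 1 := by
      rw [spinSign_negG_QP_iff m F h2]
      rcases Nat.even_or_odd m with he | ho
      · left; exact he
      · right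
        intro h
        exact hex ⟨ho, h⟩
    have hidx : (Cfsg.Inn (Cfsg.POmega F (Cfsg.quadFormPlus m F))).relIndex
        (Cfsg.inndiagPOmegaPlus m F) = 4 := by
      rcases Nat.even_or_odd m with he | ho
      · have := relIndex_of_hom _ _ (hplus.2.2 he)
        rw [this, Nat.card_eq_fintype_card]
        rfl
      · have h1 : Fintype.card F % 4 = 1 := by
          rcases hq with h | h
          · exact h
          · exact absurd ⟨ho, h⟩ hex
        have := relIndex_of_hom _ _ (hplus.2.1 ⟨ho, h1⟩)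
        rw [this, Nat.card_eq_fintype_card]
        rfl
    have key2 := key.2 hneg hidx
    exact ⟨Or.inr key2, fun _ => key2⟩

end

end Cfsg.Agent.H49
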