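import Mathlib
import Cfsg.Agent.H49.PlusField
import Cfsg.Agent.H49.FieldDesc
import Cfsg.Agent.H49.InvOmega

set_option autoImplicit false
set_option linter.unusedSectionVars false
set_option linter.unusedSimpArgs false
set_option linter.unusedVariables false

/-! Helper lemmas (helper49): Galois descent for a semisimilarity pair whose form need not be
invariant under the field automorphism; models of even-dimensional forms on arbitrary spaces;
semilinear transport of reflections. -/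

namespace Cfsg.Agent.H49

open Module Matrix GalDesc

section
variable {ι : Type} [Fintype ι] [DecidableEq ι] {F : Type*} [Field F]

/-- The form transported along a solution of Lang's equation for a semisimilarity pair is, up
to a scalar, equivariant under the field automorphism. -/
theorem exists_equivariant_pair [Fintype F] (Q : QuadraticForm F (ι → F)) (hne : ∃ v, Q v ≠ 0)
    (σ : RingAut F) {r : ℕ} (hr : orderOf σ = r) (hr0 : 0 < r)
    (A : Matrix ι ι F) (μ : F)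
    (hA : ∀ v : ι → F, Q (A *ᵥ (fun i => σ (v i))) = μ * σ (Q v))
    (P : Matrix.GeneralLinearGroup ι F) (hP : A * (P : Matrix ι ι F).map σ = (P : Matrix ι ι F)) :
    ∃ e : F, e ≠ 0 ∧ ∀ w : ι → F,
      e⁻¹ * Q ((P : Matrix ι ι F) *ᵥ (fun i => σ (w i))) = σ (e⁻¹ * Q ((P : Matrix ι ι F) *ᵥ w)) := by
  have hσr : σ ^ r = 1 := by rw [← hr]; exact pow_orderOf_eq_one σ
  have key1 : ∀ w : ι → F, Q ((P : Matrix ι ι F) *ᵥ (fun i => σ (w i)))
      = μ * σ (Q ((P : Matrix ι ι F) *ᵥ w)) := by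
    intro w
    have e1 : (P : Matrix ι ι F) *ᵥ (fun i => σ (w i))
        = A *ᵥ (((P : Matrix ι ι F).map σ) *ᵥ (fun i => σ (w i))) := by
      rw [Matrix.mulVec_mulVec, hP]
    rw [e1, sigma_mulVec, hA]
  have key2 : ∀ (k : ℕ) (w : ι → F), Q ((P : Matrix ι ι F) *ᵥ (fun i => (σ ^ k) (w i)))
      = nrmF σ k μ * (σ ^ k) (Q ((P : Matrix ι ι F) *ᵥ w)) := by
    intro k
    induction k with
    | zero => intro w; rw [nrmF_zero, one_mul]; rfl
    | succ k ih =>
      intro w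
      have e1 : (fun i => (σ ^ (k + 1)) (w i)) = fun i => σ ((fun i => (σ ^ k) (w i)) i) := by
        funext i
        rw [pow_succ']
        rfl
      rw [e1, key1, ih, map_mul, nrmF_succ, pow_succ', mul_assoc]
      rfl
  obtain ⟨v₀, hv₀⟩ := hne
  have hN : nrmF σ r μ = 1 := by
    have h1 := key2 r (((P⁻¹ : Matrix.GeneralLinearGroup ι F) : Matrix ι ι F) *ᵥ v₀)
    rw [hσr] at h1
    have h2 : (P : Matrix ι ι F) *ᵥ (((P⁻¹ : Matrix.GeneralLinearGroup ι F) : Matrix ι ι F) *ᵥ v₀)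
        = v₀ := by
      rw [Matrix.mulVec_mulVec, ← Units.val_mul, mul_inv_cancel, Units.val_one, Matrix.one_mulVec]
    have h3 : Q v₀ = nrmF σ r μ * Q v₀ := by
      have h4 : Q ((P : Matrix ι ι F) *ᵥ
          (fun i => (1 : RingAut F) ((((P⁻¹ : Matrix.GeneralLinearGroup ι F) : Matrix ι ι F) *ᵥ v₀) i)))
          = nrmF σ r μ * (1 : RingAut F) (Q ((P : Matrix ι ι F) *ᵥ
            (((P⁻¹ : Matrix.GeneralLinearGroup ι F) : Matrix ι ι F) *ᵥ v₀))) := h1
      rw [h2] at h4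
      have h5 : (fun i => (1 : RingAut F)
          ((((P⁻¹ : Matrix.GeneralLinearGroup ι F) : Matrix ι ι F) *ᵥ v₀) i))
          = ((P⁻¹ : Matrix.GeneralLinearGroup ι F) : Matrix ι ι F) *ᵥ v₀ := rfl
      rw [h5, h2] at h4
      exact h4
    have h6 : (nrmF σ r μ - 1) * Q v₀ = 0 := by rw [sub_mul, one_mul, ← h3, sub_self]
    rcases mul_eq_zero.mp h6 with h | h
    · exact sub_eq_zero.mp h
    · exact absurd h hv₀
  obtain ⟨e, he0, he⟩ := exists_h90_cyc σ hr hr0 μ hN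
  refine ⟨e, he0, fun w => ?_⟩
  have hσe : σ e ≠ 0 := (map_ne_zero _).mpr he0
  rw [key1, map_mul, map_inv₀]
  have h7 : e⁻¹ * μ = (σ e)⁻¹ :=
    eq_inv_of_mul_eq_one_left (by rw [mul_assoc, he, inv_mul_cancel₀ he0])
  rw [← mul_assoc, h7]

/-- The descended form attached to a solution of Lang's equation for a semisimilarity pair. -/
theorem exists_kform_pair [Fintype F] (Q : QuadraticForm F (ι → F))
    (hQ : (QuadraticMap.polarBilin Q).Nondegenerate) (hne : ∃ v, Q v ≠ 0)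
    (σ : RingAut F) {r : ℕ} (hr : orderOf σ = r) (hr0 : 0 < r)
    (A : Matrix ι ι F) (μ : F)
    (hA : ∀ v : ι → F, Q (A *ᵥ (fun i => σ (v i))) = μ * σ (Q v))
    (P : Matrix.GeneralLinearGroup ι F) (hP : A * (P : Matrix ι ι F).map σ = (P : Matrix ι ι F)) :
    ∃ (e : F) (Q2 : QuadraticForm F (ι → F))
      (Q0 : QuadraticForm ↥(fixF σ) (ι → ↥(fixF σ))), e ≠ 0 ∧
      (∀ w, Q2 w = e⁻¹ * Q ((P : Matrix ι ι F) *ᵥ w)) ∧
      (QuadraticMap.polarBilin Q2).Nondegenerate ∧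
      (QuadraticMap.polarBilin Q0).Nondegenerate ∧
      ∀ w : ι → ↥(fixF σ), ((Q0 w : ↥(fixF σ)) : F) = Q2 (fun i => (w i : F)) := by
  classical
  obtain ⟨e, he0, he⟩ := exists_equivariant_pair Q hne σ hr hr0 A μ hA P hP
  obtain ⟨Q2, hQ2⟩ : ∃ Q2 : QuadraticForm F (ι → F),
      ∀ w, Q2 w = e⁻¹ * Q ((P : Matrix ι ι F) *ᵥ w) :=
    ⟨e⁻¹ • Q.comp (Matrix.toLin' (P : Matrix ι ι F)), fun w => rfl⟩
  have hQ2nd := nondeg_of_transport Q Q2 hQ P e he0 hQ2
  have hQ2σ : ∀ w : ι → F, Q2 (fun i => σ (w i)) = σ (Q2 w) := by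
    intro w
    rw [hQ2, hQ2]
    exact he w
  have hK : ∀ a : F, σ a = a ↔ a ∈ fixF σ := fun a => (mem_fixF σ a).symm
  obtain ⟨Q0, hQ0⟩ := exists_fixed_form σ (fixF σ) hK Q2 hQ2σ
  have hQ0nd := fixed_form_nondeg (fixF σ) Q2 hQ2nd Q0 hQ0
  exact ⟨e, Q2, Q0, he0, hQ2, hQ2nd, hQ0nd, hQ0⟩

/-- Semilinear transport of a reflection: a semisimilarity pair fixing a vector commutes with
the reflection in that vector. -/
theorem semi_refl_comm (Q : QuadraticForm F (ι → F)) (σ : RingAut F) (A : Matrix ι ι F) (μ : F)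
    (hμ : μ ≠ 0) (hA : ∀ v : ι → F, Q (A *ᵥ (fun i => σ (v i))) = μ * σ (Q v)) (w : ι → F)
    (hw : A *ᵥ (fun i => σ (w i)) = w) :
    A * (Cfsg.reflectionMatrix (⇑Q) w).map σ = Cfsg.reflectionMatrix (⇑Q) w * A := by
  have hpol : ∀ u v : ι → F, QuadraticMap.polar (⇑Q) (A *ᵥ (fun i => σ (u i)))
      (A *ᵥ (fun i => σ (v i))) = μ * σ (QuadraticMap.polar (⇑Q) u v) := by
    intro u v
    have e : A *ᵥ (fun i => σ (u i)) + A *ᵥ (fun i => σ (v i))
        = A *ᵥ (fun i => σ ((u + v) i)) := by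
      rw [← Matrix.mulVec_add]
      congr 1
      funext i
      simp
    simp only [QuadraticMap.polar]
    rw [e, hA, hA, hA, map_sub, map_sub]
    ring
  apply matrix_ext_mulVec
  intro x
  obtain ⟨x', hx'⟩ : ∃ x' : ι → F, x = fun i => σ (x' i) :=
    ⟨fun i => σ.symm (x i), by funext i; simp⟩
  rw [← Matrix.mulVec_mulVec, ← Matrix.mulVec_mulVec, hx', sigma_mulVec,
    reflectionMatrix_mulVec, reflectionMatrix_mulVec]
  have hQw : Q w = μ * σ (Q w) := by
    conv_lhs => rw [← hw]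
    exact hA w
  have hpw : QuadraticMap.polar (⇑Q) w (A *ᵥ (fun i => σ (x' i)))
      = μ * σ (QuadraticMap.polar (⇑Q) w x') := by
    conv_lhs => rw [← hw]
    exact hpol w x'
  have e1 : (fun i => σ ((x' - ((Q w)⁻¹ * QuadraticMap.polar (⇑Q) w x') • w) i))
      = (fun i => σ (x' i)) - (σ ((Q w)⁻¹ * QuadraticMap.polar (⇑Q) w x')) • (fun i => σ (w i)) := by
    funext i
    simp
  rw [e1, Matrix.mulVec_sub, Matrix.mulVec_smul, hw, hpw]
  congr 2
  rw [map_mul, map_inv₀]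
  conv_rhs => rw [hQw]
  rw [mul_inv, mul_mul_mul_comm, inv_mul_cancel₀ hμ, one_mul]

end

section
variable {K : Type*} [Field K] [Finite K]

/-- A non-degenerate quadratic form on a space of dimension `2(k+1)` over a finite field is
isometric to the standard hyperbolic form or to a standard elliptic form. -/
theorem even_model_V {V : Type*} [AddCommGroup V] [Module K V] [FiniteDimensional K V] {k : ℕ}
    (hV : Module.finrank K V = 2 * (k + 1)) (Q0 : QuadraticForm K V)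
    (hQ0 : (QuadraticMap.polarBilin Q0).Nondegenerate) :
    (∃ T : (Fin (k + 1) ⊕ Fin (k + 1) → K) ≃ₗ[K] V, ∀ u, Q0 (T u) = QP (k + 1) K u) ∨
    (∃ (ζ : K) (T : ((Fin k ⊕ Fin k) ⊕ Fin 2 → K) ≃ₗ[K] V),
      (∀ t : K, t ^ 2 + t + ζ ≠ 0) ∧ ∀ u, Q0 (T u) = QMin k K 1 ζ u) := by
  classical
  obtain ⟨L⟩ : Nonempty ((Fin (k + 1) ⊕ Fin (k + 1) → K) ≃ₗ[K] V) :=
    ⟨LinearEquiv.ofFinrankEq _ _ (by rw [finrank_plus, hV])⟩
  obtain ⟨Q0', hQ0'⟩ : ∃ Q0' : QuadraticForm K (Fin (k + 1) ⊕ Fin (k + 1) → K),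
      ∀ u, Q0' u = Q0 (L u) := ⟨Q0.comp L.toLinearMap, fun u => rfl⟩
  have key : ∀ a : Fin (k + 1) ⊕ Fin (k + 1) → K,
      (∀ b, QuadraticMap.polar (⇑Q0') a b = 0) → a = 0 := by
    intro a ha
    have h1 : L a = 0 := by
      apply hQ0.1
      intro v
      have h2 := ha (L.symm v)
      simp only [QuadraticMap.polar, hQ0', map_add, LinearEquiv.apply_symm_apply] at h2
      exact h2
    exact L.map_eq_zero_iff.mp h1
  have hnd : (QuadraticMap.polarBilin Q0').Nondegenerate := by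
    constructor
    · intro x hx
      exact key x hx
    · intro y hy
      apply key y
      intro x
      rw [QuadraticMap.polar_comm]
      exact hy x
  rcases even_model Q0' hnd with ⟨T, hT⟩ | ⟨ζ, T, hζ, hT⟩
  · left
    refine ⟨T.trans L, fun u => ?_⟩
    rw [← hT, hQ0']
    rfl
  · right
    refine ⟨ζ, T.trans L, hζ, fun u => ?_⟩
    have h1 := hT u
    rw [hQ0'] at h1
    exact h1

end

end Cfsg.Agent.H49
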