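import Mathlib
import Cfsg.Agent.H49.MinusDesc
import Cfsg.Agent.H49.MinusPres

set_option autoImplicit false
set_option linter.unusedSectionVars false
set_option linter.unusedSimpArgs false
set_option linter.unusedVariables false

/-! Helper lemmas (helper49): Lang's theorem for the minus-type orthogonal groups relative to
a field automorphism of odd order: the descended forms are elliptic, hence isometric. -/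

namespace Cfsg.Agent.H49

open Module Matrix GalDesc

section
variable {F : Type*} [Field F] [Fintype F]

/-- The descended form of a minus-type form cannot be hyperbolic. -/
theorem not_hyp_descent {m : ℕ} (a b : F)
    (hab : ∀ z₁ z₂ : F, z₁ ^ 2 + a * z₁ * z₂ + b * z₂ ^ 2 = 0 → z₁ = 0 ∧ z₂ = 0)
    (σ : RingAut F) (P : Matrix.GeneralLinearGroup ((Fin m ⊕ Fin m) ⊕ Fin 2) F) (e : F) (he : e ≠ 0)
    (Q2 : QuadraticForm F ((Fin m ⊕ Fin m) ⊕ Fin 2 → F))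
    (hQ2 : ∀ w, Q2 w = e⁻¹ * QMin m F a b ((P : Matrix ((Fin m ⊕ Fin m) ⊕ Fin 2) ((Fin m ⊕ Fin m) ⊕ Fin 2) F) *ᵥ w))
    (Q0 : QuadraticForm ↥(fixF σ) ((Fin m ⊕ Fin m) ⊕ Fin 2 → ↥(fixF σ)))
    (hQ0 : ∀ w : (Fin m ⊕ Fin m) ⊕ Fin 2 → ↥(fixF σ), ((Q0 w : ↥(fixF σ)) : F) = Q2 (fun i => (w i : F)))
    (T : (Fin (m + 1) ⊕ Fin (m + 1) → ↥(fixF σ)) ≃ₗ[↥(fixF σ)] ((Fin m ⊕ Fin m) ⊕ Fin 2 → ↥(fixF σ)))
    (hT : ∀ u, Q0 (T u) = QP (m + 1) ↥(fixF σ) u) : False := by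
  classical
  have hK : ∀ a : F, σ a = a ↔ a ∈ fixF σ := fun a => (mem_fixF σ a).symm
  obtain ⟨C, hCσ, hC⟩ := exists_model_matrix σ (fixF σ) hK Q2 Q0 hQ0 (QP (m + 1) F)
    (QP (m + 1) ↥(fixF σ)) (QP_coe_sub (m + 1) (fixF σ)) T.toLinearMap hT
  obtain ⟨L, hL⟩ : ∃ L : (Fin (m + 1) ⊕ Fin (m + 1) → F) →ₗ[F] ((Fin m ⊕ Fin m) ⊕ Fin 2 → F),
      ∀ v, L v = (P : Matrix ((Fin m ⊕ Fin m) ⊕ Fin 2) ((Fin m ⊕ Fin m) ⊕ Fin 2) F) *ᵥ (C *ᵥ v) :=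
    ⟨(Matrix.mulVecLin (P : Matrix ((Fin m ⊕ Fin m) ⊕ Fin 2) ((Fin m ⊕ Fin m) ⊕ Fin 2) F)).comp (Matrix.mulVecLin C), fun v => rfl⟩
  have hQL : ∀ v, QMin m F a b (L v) = e * QP (m + 1) F v := by
    intro v
    have h1 := hC v
    rw [hQ2] at h1
    rw [hL, ← h1, ← mul_assoc, mul_inv_cancel₀ he, one_mul]
  have hinj : Function.Injective L := by
    rw [← LinearMap.ker_eq_bot, LinearMap.ker_eq_bot']
    intro v hv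
    apply (QP_nondeg (m + 1) F).1
    intro y
    show QuadraticMap.polar (⇑(QP (m + 1) F)) v y = 0
    have h2 : e * QuadraticMap.polar (⇑(QP (m + 1) F)) v y
        = QuadraticMap.polar (⇑(QMin m F a b)) (L v) (L y) := by
      simp only [QuadraticMap.polar]
      rw [← map_add, hQL, hQL, hQL]
      ring
    rw [hv, QuadraticMap.polar_zero_left] at h2
    exact (mul_eq_zero.mp h2).resolve_left he
  have hts : IsTS (QMin m F a b) ((U0 (m + 1) F).map L) := by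
    intro y hy
    obtain ⟨u, hu, rfl⟩ := Submodule.mem_map.mp hy
    rw [hQL, U0_ts (m + 1) F u hu, mul_zero]
  have hdim : finrank F ((U0 (m + 1) F).map L) = m + 1 := by
    rw [← (Submodule.equivMapOfInjective L hinj (U0 (m + 1) F)).finrank_eq]
    exact finrank_U0 (m + 1) F
  have hle := QMin_ts_le m a b hab (disc_ne_zero_of_aniso a b hab) _ hts
  omega

set_option maxHeartbeats 1600000 in
/-- Lang's theorem for the class-preserving similarities of the minus-type form, relative to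
two semisimilarity pairs for the same field automorphism. -/
theorem minus_lang {m : ℕ} (a b : F)
    (hab : ∀ z₁ z₂ : F, z₁ ^ 2 + a * z₁ * z₂ + b * z₂ ^ 2 = 0 → z₁ = 0 ∧ z₂ = 0)
    (σ : RingAut F) {r : ℕ} (hr : orderOf σ = r) (hr0 : 0 < r)
    (A A₁ : Matrix.GeneralLinearGroup ((Fin m ⊕ Fin m) ⊕ Fin 2) F) (μ μ₁ : F) (hμ₁ : μ₁ ≠ 0)
    (hA : ∀ v : (Fin m ⊕ Fin m) ⊕ Fin 2 → F, QMin m F a b ((A : Matrix ((Fin m ⊕ Fin m) ⊕ Fin 2) ((Fin m ⊕ Fin m) ⊕ Fin 2) F) *ᵥ (fun i => σ (v i)))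
      = μ * σ (QMin m F a b v))
    (hA₁ : ∀ v : (Fin m ⊕ Fin m) ⊕ Fin 2 → F, QMin m F a b ((A₁ : Matrix ((Fin m ⊕ Fin m) ⊕ Fin 2) ((Fin m ⊕ Fin m) ⊕ Fin 2) F) *ᵥ (fun i => σ (v i)))
      = μ₁ * σ (QMin m F a b v))
    (P P₁ : Matrix.GeneralLinearGroup ((Fin m ⊕ Fin m) ⊕ Fin 2) F)
    (hP : (A : Matrix ((Fin m ⊕ Fin m) ⊕ Fin 2) ((Fin m ⊕ Fin m) ⊕ Fin 2) F) * (P : Matrix ((Fin m ⊕ Fin m) ⊕ Fin 2) ((Fin m ⊕ Fin m) ⊕ Fin 2) F).map σ = (P : Matrix ((Fin m ⊕ Fin m) ⊕ Fin 2) ((Fin m ⊕ Fin m) ⊕ Fin 2) F))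
    (hP₁ : (A₁ : Matrix ((Fin m ⊕ Fin m) ⊕ Fin 2) ((Fin m ⊕ Fin m) ⊕ Fin 2) F) * (P₁ : Matrix ((Fin m ⊕ Fin m) ⊕ Fin 2) ((Fin m ⊕ Fin m) ⊕ Fin 2) F).map σ = (P₁ : Matrix ((Fin m ⊕ Fin m) ⊕ Fin 2) ((Fin m ⊕ Fin m) ⊕ Fin 2) F)) :
    ∃ h : ↥(Cfsg.Geo.quadSimilarityGroup (⇑(QMin m F a b))),
      Cfsg.PreservesSingularClassesMinus m a b ((h : Matrix.GeneralLinearGroup ((Fin m ⊕ Fin m) ⊕ Fin 2) F) : Matrix ((Fin m ⊕ Fin m) ⊕ Fin 2) ((Fin m ⊕ Fin m) ⊕ Fin 2) F) ∧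
      A * Matrix.GeneralLinearGroup.map (σ : F →+* F) h.1 * A₁⁻¹ = (h : Matrix.GeneralLinearGroup ((Fin m ⊕ Fin m) ⊕ Fin 2) F) := by
  classical
  have : Fintype ↥(fixF σ) := Fintype.ofFinite _
  have hd := disc_ne_zero_of_aniso a b hab
  have hQ := QMin_nondeg m a b hd
  have hne : ∃ v, QMin m F a b v ≠ 0 := by
    refine ⟨Sum.elim (0 : Fin m ⊕ Fin m → F) ![1, 0], ?_⟩
    rw [QMin_apply_inr, binQ_apply]
    simp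
  obtain ⟨e, Q2, Q0, he, hQ2, hQ2nd, hQ0nd, hQ0⟩ :=
    exists_kform_pair (QMin m F a b) hQ hne σ hr hr0 _ μ hA P hP
  obtain ⟨e₁, Q1, Q0', he₁, hQ1, hQ1nd, hQ0'nd, hQ0'⟩ :=
    exists_kform_pair (QMin m F a b) hQ hne σ hr hr0 _ μ₁ hA₁ P₁ hP₁
  have hfr : finrank ↥(fixF σ) ((Fin m ⊕ Fin m) ⊕ Fin 2 → ↥(fixF σ)) = 2 * (m + 1) := finrank_minus m
  have hT₀ : ∃ T₀ : ((Fin m ⊕ Fin m) ⊕ Fin 2 → ↥(fixF σ)) →ₗ[↥(fixF σ)] ((Fin m ⊕ Fin m) ⊕ Fin 2 → ↥(fixF σ)),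
      ∀ u, Q0 (T₀ u) = Q0' u := by
    rcases even_model_V hfr Q0 hQ0nd with ⟨T, hT⟩ | ⟨ζ, T, hζ, hT⟩
    · exact (not_hyp_descent a b hab σ P e he Q2 hQ2 Q0 hQ0 T hT).elim
    rcases even_model_V hfr Q0' hQ0'nd with ⟨T₁, hT₁⟩ | ⟨ζ₁, T₁, hζ₁, hT₁⟩
    · exact (not_hyp_descent a b hab σ P₁ e₁ he₁ Q1 hQ1 Q0' hQ0' T₁ hT₁).elim
    obtain ⟨S, hS⟩ := exists_QMin_iso m ζ ζ₁ hζ hζ₁
    refine ⟨T.toLinearMap.comp (S.comp T₁.symm.toLinearMap), fun u => ?_⟩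
    show Q0 (T (S (T₁.symm u))) = Q0' u
    rw [hT, hS, ← hT₁, LinearEquiv.apply_symm_apply]
  obtain ⟨T₀, hT₀⟩ := hT₀
  obtain ⟨B, hBσ, hB⟩ := exists_fixed_gl σ Q2 Q1 Q0 Q0' hQ0 hQ0' hQ1nd T₀ hT₀
  have hsim : ∀ w, QMin m F a b (((P * B * P₁⁻¹ : Matrix.GeneralLinearGroup ((Fin m ⊕ Fin m) ⊕ Fin 2) F) : Matrix ((Fin m ⊕ Fin m) ⊕ Fin 2) ((Fin m ⊕ Fin m) ⊕ Fin 2) F) *ᵥ w)
      = (e * e₁⁻¹) * QMin m F a b w := by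
    intro w
    have h1 := hB (((P₁⁻¹ : Matrix.GeneralLinearGroup ((Fin m ⊕ Fin m) ⊕ Fin 2) F) : Matrix ((Fin m ⊕ Fin m) ⊕ Fin 2) ((Fin m ⊕ Fin m) ⊕ Fin 2) F) *ᵥ w)
    have hcancel : (P₁ : Matrix ((Fin m ⊕ Fin m) ⊕ Fin 2) ((Fin m ⊕ Fin m) ⊕ Fin 2) F) *ᵥ (((P₁⁻¹ : Matrix.GeneralLinearGroup ((Fin m ⊕ Fin m) ⊕ Fin 2) F) : Matrix ((Fin m ⊕ Fin m) ⊕ Fin 2) ((Fin m ⊕ Fin m) ⊕ Fin 2) F) *ᵥ w) = w := by
      rw [Matrix.mulVec_mulVec, ← Units.val_mul, mul_inv_cancel, Units.val_one,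
        Matrix.one_mulVec]
    rw [hQ2, hQ1, hcancel] at h1
    rw [Units.val_mul, Units.val_mul, ← Matrix.mulVec_mulVec, ← Matrix.mulVec_mulVec, mul_assoc,
      ← h1, ← mul_assoc, mul_inv_cancel₀ he, one_mul]
  obtain ⟨h₀, hh₀⟩ : ∃ h₀ : ↥(Cfsg.Geo.quadSimilarityGroup (⇑(QMin m F a b))),
      (h₀ : Matrix.GeneralLinearGroup ((Fin m ⊕ Fin m) ⊕ Fin 2) F) = P * B * P₁⁻¹ :=
    ⟨⟨P * B * P₁⁻¹, ⟨Units.mk0 (e * e₁⁻¹) (mul_ne_zero he (inv_ne_zero he₁)),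
      fun w => hsim w⟩⟩, rfl⟩
  have hPg : A * Matrix.GeneralLinearGroup.map (σ : F →+* F) P = P := by
    apply Units.ext
    rw [Units.val_mul, glMap_val]
    exact hP
  have hP₁g : A₁ * Matrix.GeneralLinearGroup.map (σ : F →+* F) P₁ = P₁ := by
    apply Units.ext
    rw [Units.val_mul, glMap_val]
    exact hP₁
  have heq₀ : A * Matrix.GeneralLinearGroup.map (σ : F →+* F) h₀.1 * A₁⁻¹ = (h₀ : Matrix.GeneralLinearGroup ((Fin m ⊕ Fin m) ⊕ Fin 2) F) := by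
    rw [hh₀, map_mul, map_mul, map_inv, hBσ]
    conv_rhs => rw [← hPg, ← hP₁g]
    group
  by_cases hmem : Cfsg.PreservesSingularClassesMinus m a b ((h₀ : Matrix.GeneralLinearGroup ((Fin m ⊕ Fin m) ⊕ Fin 2) F) : Matrix ((Fin m ⊕ Fin m) ⊕ Fin 2) ((Fin m ⊕ Fin m) ⊕ Fin 2) F)
  · exact ⟨h₀, hmem, heq₀⟩
  · obtain ⟨u₀, hu₀⟩ : ∃ u₀ : (Fin m ⊕ Fin m) ⊕ Fin 2 → ↥(fixF σ), Q0' u₀ ≠ 0 := by
      apply exists_nonsing Q0' hQ0'nd (Pi.single (Sum.inr 0) 1)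
      intro h
      have := congrFun h (Sum.inr 0)
      simp at this
    obtain ⟨u, hu⟩ : ∃ u : (Fin m ⊕ Fin m) ⊕ Fin 2 → F, u = fun i => (u₀ i : F) := ⟨_, rfl⟩
    have huσ : (fun i => σ (u i)) = u := by
      funext i
      rw [hu]
      exact (mem_fixF σ _).mp (u₀ i).2
    obtain ⟨w, hw⟩ : ∃ w : (Fin m ⊕ Fin m) ⊕ Fin 2 → F, w = (P₁ : Matrix ((Fin m ⊕ Fin m) ⊕ Fin 2) ((Fin m ⊕ Fin m) ⊕ Fin 2) F) *ᵥ u := ⟨_, rfl⟩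
    have hQw : QMin m F a b w ≠ 0 := by
      have h1 := hQ0' u₀
      rw [hQ1, ← hu, ← hw] at h1
      intro h0
      rw [h0, mul_zero] at h1
      apply hu₀
      apply Subtype.ext
      rw [h1]
      rfl
    have hσw : (A₁ : Matrix ((Fin m ⊕ Fin m) ⊕ Fin 2) ((Fin m ⊕ Fin m) ⊕ Fin 2) F) *ᵥ (fun i => σ (w i)) = w := by
      rw [hw, ← sigma_mulVec, huσ, Matrix.mulVec_mulVec, hP₁]
    obtain ⟨ρ, hρ⟩ : ∃ ρ : ↥(Cfsg.Geo.quadSimilarityGroup (⇑(QMin m F a b))),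
        ρ = inclO (QMin m F a b) (reflG (QMin m F a b) w) := ⟨_, rfl⟩
    have hρmat : ((ρ : Matrix.GeneralLinearGroup ((Fin m ⊕ Fin m) ⊕ Fin 2) F) : Matrix ((Fin m ⊕ Fin m) ⊕ Fin 2) ((Fin m ⊕ Fin m) ⊕ Fin 2) F) = Cfsg.reflectionMatrix (⇑(QMin m F a b)) w := by
      rw [hρ]
      rfl
    have hcomm : A₁ * Matrix.GeneralLinearGroup.map (σ : F →+* F) ρ.1 = (ρ : Matrix.GeneralLinearGroup ((Fin m ⊕ Fin m) ⊕ Fin 2) F) * A₁ := by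
      apply Units.ext
      rw [Units.val_mul, Units.val_mul, glMap_val, hρmat]
      exact semi_refl_comm (QMin m F a b) σ _ μ₁ hμ₁ hA₁ w hσw
    refine ⟨h₀ * ρ, ?_, ?_⟩
    · rw [hρ]
      exact presMinus_mul_refl m a b hab h₀ w hQw hmem
    · show A * Matrix.GeneralLinearGroup.map (σ : F →+* F) (h₀.1 * ρ.1) * A₁⁻¹ = h₀.1 * ρ.1
      rw [map_mul]
      have e2 : A * (Matrix.GeneralLinearGroup.map (σ : F →+* F) h₀.1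
            * Matrix.GeneralLinearGroup.map (σ : F →+* F) ρ.1) * A₁⁻¹
          = (A * Matrix.GeneralLinearGroup.map (σ : F →+* F) h₀.1 * A₁⁻¹)
            * (A₁ * Matrix.GeneralLinearGroup.map (σ : F →+* F) ρ.1) * A₁⁻¹ := by group
      rw [e2, heq₀, hcomm]
      group

end

end Cfsg.Agent.H49
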