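import Mathlib
import Cfsg.Agent.H49.MinusLang
import Cfsg.Agent.H49.MinusOddR
import Cfsg.Agent.H49.FieldDesc
import Cfsg.Agent.H49.PlusFieldFin

set_option autoImplicit false
set_option linter.unusedSectionVars false
set_option linter.unusedSimpArgs false
set_option linter.unusedVariables false

/-! Helper lemmas (helper49): field automorphisms of prime order of the minus-type orthogonal
groups: conjugacy inside the coset of the inner-diagonal group (final assembly). -/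

namespace Cfsg.Agent.H49

open Module Matrix GalDesc

section
variable {F : Type*} [Field F] [Fintype F]

set_option maxHeartbeats 3200000 in
theorem minus_field_coset_Q {m : ℕ} (hm : 3 ≤ m) (a b : F)
    (hab : ∀ z₁ z₂ : F, z₁ ^ 2 + a * z₁ * z₂ + b * z₂ ^ 2 = 0 → z₁ = 0 ∧ z₂ = 0)
    (x δ : MulAut (Cfsg.POmega F (⇑(QMin m F a b))))
    (a' b' : F) (ψ : Cfsg.POmega F (⇑(QMin m F a b)) ≃* Cfsg.POmega F (⇑(QMin m F a' b')))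
    (σ : F ≃+* F)
    (hab' : ∀ z₁ z₂ : F, z₁ ^ 2 + a' * z₁ * z₂ + b' * z₂ ^ 2 = 0 → z₁ = 0 ∧ z₂ = 0)
    (hσ : σ ≠ RingEquiv.refl F) (ha' : σ a' = a') (hb' : σ b' = b')
    (hφ : Cfsg.IsFieldAutPOmegaOf (⇑(QMin m F a' b')) σ ((ψ.symm.trans x).trans ψ))
    {r : ℕ} (hr : r.Prime) (hxr : orderOf x = r)
    (hδ : δ ∈ (Cfsg.autSubgroupOf (fun β : Cfsg.POmega F (⇑(QMin m F a b)) ≃* Cfsg.POmega F (⇑(QMin m F a b)) =>
        ∃ g : Matrix.GeneralLinearGroup ((Fin m ⊕ Fin m) ⊕ Fin 2) F, g ∈ Cfsg.Geo.quadSimilarityGroup (⇑(QMin m F a b)) ∧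
          Cfsg.PreservesSingularClassesMinus m a b (g : Matrix ((Fin m ⊕ Fin m) ⊕ Fin 2) ((Fin m ⊕ Fin m) ⊕ Fin 2) F) ∧
          Cfsg.IsInducedBySemilinearPOmega (⇑(QMin m F a b)) g (RingEquiv.refl F) β)))
    (ho : orderOf (δ * x) = r) :
    Cfsg.IsConjUnder (Cfsg.autSubgroupOf (fun β : Cfsg.POmega F (⇑(QMin m F a b)) ≃* Cfsg.POmega F (⇑(QMin m F a b)) =>
        ∃ g : Matrix.GeneralLinearGroup ((Fin m ⊕ Fin m) ⊕ Fin 2) F, g ∈ Cfsg.Geo.quadSimilarityGroup (⇑(QMin m F a b)) ∧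
          Cfsg.PreservesSingularClassesMinus m a b (g : Matrix ((Fin m ⊕ Fin m) ⊕ Fin 2) ((Fin m ⊕ Fin m) ⊕ Fin 2) F) ∧
          Cfsg.IsInducedBySemilinearPOmega (⇑(QMin m F a b)) g (RingEquiv.refl F) β)) x (δ * x) := by
  classical
  have hd := disc_ne_zero_of_aniso a b hab
  have hQ := QMin_nondeg m a b hd
  have h3 := hasTS3_QMin (F := F) m hm a b
  have hne : ∃ v, QMin m F a b v ≠ 0 := by
    refine ⟨Sum.elim (0 : Fin m ⊕ Fin m → F) ![1, 0], ?_⟩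
    rw [QMin_apply_inr, binQ_apply]
    simp
  have htop : ∀ β : MulAut (Cfsg.POmega F (⇑(QMin m F a b))), β ∈ Cfsg.gammaPOmega F (⇑(QMin m F a b)) := by
    intro β
    have ht : Cfsg.gammaPOmega F (⇑(QMin m F a b)) = ⊤ := gamma_top_minus hm a b hab
    rw [ht]
    exact Subgroup.mem_top β
  have : Fact r.Prime := ⟨hr⟩
  obtain ⟨Ψ, hΨ⟩ := exists_sigHom (QMin m F a b) hQ h3 htop
  have hker := sigHom_ker (QMin m F a b) htop Ψ hΨ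
  obtain ⟨R, τ, hpR, hiR⟩ := exists_pair_of_mem_gamma (⇑(QMin m F a b)) x (htop x)
  have hΨx : Ψ x = τ := hΨ x R τ hpR hiR
  have hnp := field_class_not_pgo hm a b hab x a' b' ψ σ hab' hσ ha' hb' hφ hr hxr
  have hτ1 : (τ : RingAut F) ≠ 1 := by
    intro h
    apply hnp
    rw [← hker, MonoidHom.mem_ker, hΨx]
    exact h
  have hxr1 : x ^ r = 1 := by rw [← hxr]; exact pow_orderOf_eq_one x
  have hτr : (τ : RingAut F) ^ r = 1 := by rw [← hΨx, ← map_pow, hxr1, map_one]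
  have hord : orderOf (τ : RingAut F) = r := orderOf_eq_prime hτr hτ1
  obtain ⟨d, hdδ⟩ := autSubgroupOf_pred_exists (⇑(QMin m F a b))
    (Cfsg.PreservesSingularClassesMinus m a b) δ hδ
  have hx0 : Cfsg.IsInducedBySemilinearPOmega (⇑(QMin m F a b)) d.1 (RingEquiv.refl F) (cHom (⇑(QMin m F a b)) d) :=
    (isInduced_iff (⇑(QMin m F a b)) d (cHom (⇑(QMin m F a b)) d)).mpr rfl
  have hpx0 : Cfsg.IsSemisimilarityPair (⇑(QMin m F a b)) d.1 (RingEquiv.refl F) := by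
    obtain ⟨c, hc⟩ := d.2
    exact ⟨c, fun v => hc v⟩
  have e1 : (d.1 : Matrix.GeneralLinearGroup ((Fin m ⊕ Fin m) ⊕ Fin 2) F)
      * Matrix.GeneralLinearGroup.map ((RingEquiv.refl F : F ≃+* F) : F →+* F) R = d.1 * R := by
    rw [glMap_refl]
  have e2 : (τ : F ≃+* F).trans (RingEquiv.refl F) = τ := RingEquiv.ext (fun _ => rfl)
  have hpg : Cfsg.IsSemisimilarityPair (⇑(QMin m F a b)) (d.1 * R) τ := by
    have h := pair_mul hpx0 hpR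
    rw [e1, e2] at h
    exact h
  have hig : Cfsg.IsInducedBySemilinearPOmega (⇑(QMin m F a b)) (d.1 * R) τ (cHom (⇑(QMin m F a b)) d * x) := by
    have h := induced_mul hx0 hiR hpR
    rw [e1, e2] at h
    exact h
  have hpow : (cHom (⇑(QMin m F a b)) d * x) ^ r = 1 := by
    rw [hdδ, ← ho]
    exact pow_orderOf_eq_one _
  obtain ⟨P, t, ht0, hP⟩ := exists_lang_of_pow (QMin m F a b) hQ h3 hne τ hord hr.pos (d.1 * R)
    hpg hig hpow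
  obtain ⟨P₁, t₁, ht₁, hP₁⟩ := exists_lang_of_pow (QMin m F a b) hQ h3 hne τ hord hr.pos R
    hpR hiR hxr1
  obtain ⟨c, hc⟩ := id hpg
  obtain ⟨c₁, hc₁⟩ := id hpR
  obtain ⟨A, hA⟩ : ∃ A : Matrix.GeneralLinearGroup ((Fin m ⊕ Fin m) ⊕ Fin 2) F,
      A = scalGL ((Fin m ⊕ Fin m) ⊕ Fin 2) (Units.mk0 t ht0) * (d.1 * R) := ⟨_, rfl⟩
  obtain ⟨A₁, hA₁⟩ : ∃ A₁ : Matrix.GeneralLinearGroup ((Fin m ⊕ Fin m) ⊕ Fin 2) F,
      A₁ = scalGL ((Fin m ⊕ Fin m) ⊕ Fin 2) (Units.mk0 t₁ ht₁) * R := ⟨_, rfl⟩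
  have hAval : (A : Matrix ((Fin m ⊕ Fin m) ⊕ Fin 2) ((Fin m ⊕ Fin m) ⊕ Fin 2) F) = t • ((d.1 * R : Matrix.GeneralLinearGroup ((Fin m ⊕ Fin m) ⊕ Fin 2) F) : Matrix ((Fin m ⊕ Fin m) ⊕ Fin 2) ((Fin m ⊕ Fin m) ⊕ Fin 2) F) := by
    rw [hA, Units.val_mul, scalGL_coe, Matrix.smul_mul, Matrix.one_mul]
    rfl
  have hA₁val : (A₁ : Matrix ((Fin m ⊕ Fin m) ⊕ Fin 2) ((Fin m ⊕ Fin m) ⊕ Fin 2) F) = t₁ • (R : Matrix ((Fin m ⊕ Fin m) ⊕ Fin 2) ((Fin m ⊕ Fin m) ⊕ Fin 2) F) := by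
    rw [hA₁, Units.val_mul, scalGL_coe, Matrix.smul_mul, Matrix.one_mul]
    rfl
  have hAp : ∀ v : (Fin m ⊕ Fin m) ⊕ Fin 2 → F, QMin m F a b ((A : Matrix ((Fin m ⊕ Fin m) ⊕ Fin 2) ((Fin m ⊕ Fin m) ⊕ Fin 2) F) *ᵥ (fun i => τ (v i)))
      = (t * t * c) * τ (QMin m F a b v) := by
    intro v
    have h1 := hc v
    rw [hAval, Matrix.smul_mulVec, QuadraticMap.map_smul, smul_eq_mul]
    rw [show QMin m F a b (((d.1 * R : Matrix.GeneralLinearGroup ((Fin m ⊕ Fin m) ⊕ Fin 2) F) : Matrix ((Fin m ⊕ Fin m) ⊕ Fin 2) ((Fin m ⊕ Fin m) ⊕ Fin 2) F) *ᵥ fun i => τ (v i))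
      = (c : F) * τ (QMin m F a b v) from h1]
    ring
  have hA₁p : ∀ v : (Fin m ⊕ Fin m) ⊕ Fin 2 → F, QMin m F a b ((A₁ : Matrix ((Fin m ⊕ Fin m) ⊕ Fin 2) ((Fin m ⊕ Fin m) ⊕ Fin 2) F) *ᵥ (fun i => τ (v i)))
      = (t₁ * t₁ * c₁) * τ (QMin m F a b v) := by
    intro v
    have h1 := hc₁ v
    rw [hA₁val, Matrix.smul_mulVec, QuadraticMap.map_smul, smul_eq_mul]
    rw [show QMin m F a b ((R : Matrix ((Fin m ⊕ Fin m) ⊕ Fin 2) ((Fin m ⊕ Fin m) ⊕ Fin 2) F) *ᵥ fun i => τ (v i))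
      = (c₁ : F) * τ (QMin m F a b v) from h1]
    ring
  have hμ₁ : t₁ * t₁ * (c₁ : F) ≠ 0 := mul_ne_zero (mul_ne_zero ht₁ ht₁) c₁.ne_zero
  have hPA : (A : Matrix ((Fin m ⊕ Fin m) ⊕ Fin 2) ((Fin m ⊕ Fin m) ⊕ Fin 2) F) * (P : Matrix ((Fin m ⊕ Fin m) ⊕ Fin 2) ((Fin m ⊕ Fin m) ⊕ Fin 2) F).map τ = (P : Matrix ((Fin m ⊕ Fin m) ⊕ Fin 2) ((Fin m ⊕ Fin m) ⊕ Fin 2) F) := by
    rw [hAval]
    exact hP
  have hPA₁ : (A₁ : Matrix ((Fin m ⊕ Fin m) ⊕ Fin 2) ((Fin m ⊕ Fin m) ⊕ Fin 2) F) * (P₁ : Matrix ((Fin m ⊕ Fin m) ⊕ Fin 2) ((Fin m ⊕ Fin m) ⊕ Fin 2) F).map τ = (P₁ : Matrix ((Fin m ⊕ Fin m) ⊕ Fin 2) ((Fin m ⊕ Fin m) ⊕ Fin 2) F) := by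
    rw [hA₁val]
    exact hP₁
  obtain ⟨h, hpres, hh⟩ := minus_lang a b hab τ hord hr.pos A A₁ (t * t * c) (t₁ * t₁ * c₁) hμ₁
    hAp hA₁p P P₁ hPA hPA₁
  have hsim : scalSim (QMin m F a b) (Units.mk0 t ht0) * d * semiConjSim (QMin m F a b) hpR h
      * (scalSim (QMin m F a b) (Units.mk0 t₁ ht₁))⁻¹ = h := by
    apply Subtype.ext
    rw [← hh, hA, hA₁]
    show (scalGL ((Fin m ⊕ Fin m) ⊕ Fin 2) (Units.mk0 t ht0) * d.1
        * (R * Matrix.GeneralLinearGroup.map (τ : F →+* F) h.1 * R⁻¹)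
        * (scalGL ((Fin m ⊕ Fin m) ⊕ Fin 2) (Units.mk0 t₁ ht₁))⁻¹ : Matrix.GeneralLinearGroup ((Fin m ⊕ Fin m) ⊕ Fin 2) F)
      = scalGL ((Fin m ⊕ Fin m) ⊕ Fin 2) (Units.mk0 t ht0) * (d.1 * R)
        * Matrix.GeneralLinearGroup.map (τ : F →+* F) h.1
        * (scalGL ((Fin m ⊕ Fin m) ⊕ Fin 2) (Units.mk0 t₁ ht₁) * R)⁻¹
    group
  have hcc := congrArg (cHom (⇑(QMin m F a b))) hsim
  rw [map_mul, map_mul, map_mul, map_inv, cHom_scalSim, cHom_scalSim, one_mul, inv_one, mul_one,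
    ← conj_cHom (QMin m F a b) hpR hiR h] at hcc
  refine ⟨cHom (⇑(QMin m F a b)) h, cHom_mem_autSubgroupOf_pred (⇑(QMin m F a b))
    (Cfsg.PreservesSingularClassesMinus m a b) h hpres, ?_⟩
  rw [← hdδ]
  calc cHom (⇑(QMin m F a b)) d * x
      = (cHom (⇑(QMin m F a b)) d * (x * cHom (⇑(QMin m F a b)) h * x⁻¹)) * x * (cHom (⇑(QMin m F a b)) h)⁻¹ := by group
    _ = cHom (⇑(QMin m F a b)) h * x * (cHom (⇑(QMin m F a b)) h)⁻¹ := by rw [hcc]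

set_option maxHeartbeats 3200000 in
/-- Field automorphisms of prime order of `PΩ⁻_{2m+2}(q)`, `m ≥ 3`: an element of the coset of
the inner-diagonal group with the same order is conjugate under the inner-diagonal group. -/
theorem minus_field_coset {m : ℕ} (hm : 3 ≤ m) (a b : F)
    (hab : ∀ z₁ z₂ : F, z₁ ^ 2 + a * z₁ * z₂ + b * z₂ ^ 2 = 0 → z₁ = 0 ∧ z₂ = 0)
    (x δ : MulAut (Cfsg.POmega F (Cfsg.quadFormMinus m F a b)))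
    (hx : Cfsg.IsFieldAutClassPOmegaMinus m x) {r : ℕ} (hr : r.Prime) (hxr : orderOf x = r)
    (hδ : δ ∈ Cfsg.inndiagPOmegaMinus m F a b) (ho : orderOf (δ * x) = r) :
    Cfsg.IsConjUnder (Cfsg.inndiagPOmegaMinus m F a b) x (δ * x) := by
  obtain ⟨a', b', ψ, σ, hab', hσ, ha', hb', hφ⟩ := hx
  have key := minus_field_coset_Q hm a b hab x δ a' b' ψ σ hab' hσ ha' hb' hφ hr hxr hδ ho
  exact key

end

end Cfsg.Agent.H49
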