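import Mathlib
import Cfsg.Agent.H49.SimAut
import Cfsg.Agent.H49.SimGO
import Cfsg.Agent.H49.FieldLoc
import Cfsg.Agent.H49.PlusFieldFin

set_option autoImplicit false
set_option linter.unusedSectionVars false
set_option linter.unusedSimpArgs false
set_option linter.unusedVariables false

/-! Helper lemmas (helper49): a similarity between two quadratic forms on the same space
induces an isomorphism between the corresponding projective groups `PΩ`, compatible with the
automorphisms induced by similarities and by semilinear maps. -/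

namespace Cfsg.Agent.H49

open Module Matrix

section
variable {G H : Type*} [Group G] [Group H]

theorem map_center_equiv (e : G ≃* H) :
    (Subgroup.center G).map (e : G →* H) = Subgroup.center H := by
  ext z
  constructor
  · rintro ⟨w, hw, rfl⟩
    have hw' : w ∈ Subgroup.center G := hw
    rw [Subgroup.mem_center_iff] at hw' ⊢
    intro y
    have h1 := hw' (e.symm y)
    have h2 := congrArg e h1
    rw [map_mul, map_mul, MulEquiv.apply_symm_apply] at h2
    exact h2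
  · intro hz
    have hmem : e.symm z ∈ Subgroup.center G := by
      rw [Subgroup.mem_center_iff] at hz ⊢
      intro y
      apply e.injective
      rw [map_mul, map_mul, MulEquiv.apply_symm_apply]
      exact hz (e y)
    exact ⟨e.symm z, hmem, MulEquiv.apply_symm_apply e z⟩

end

section
variable {ι : Type} [Fintype ι] [DecidableEq ι] {F : Type*} [Field F]

theorem sim_inv_spec (Qs Q : (ι → F) → F) (P : Matrix.GeneralLinearGroup ι F) (e : F)
    (he : e ≠ 0) (hP : ∀ v, Q ((P : Matrix ι ι F) *ᵥ v) = e * Qs v) (v : ι → F) :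
    Qs (((P⁻¹ : Matrix.GeneralLinearGroup ι F) : Matrix ι ι F) *ᵥ v) = e⁻¹ * Q v := by
  have h := hP (((P⁻¹ : Matrix.GeneralLinearGroup ι F) : Matrix ι ι F) *ᵥ v)
  rw [Matrix.mulVec_mulVec, ← Units.val_mul, mul_inv_cancel, Units.val_one,
    Matrix.one_mulVec] at h
  rw [h, ← mul_assoc, inv_mul_cancel₀ he, one_mul]

/-- Conjugation by a similarity between two forms: isometries to isometries. -/
def isoFwdT (Qs Q : (ι → F) → F) (P : Matrix.GeneralLinearGroup ι F) (e : F)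
    (hP : ∀ v, Q ((P : Matrix ι ι F) *ᵥ v) = e * Qs v) :
    ↥(Cfsg.isometryGroup F Qs) →* ↥(Cfsg.isometryGroup F Q) :=
  MonoidHom.mk' (fun s => ⟨P * s.1 * P⁻¹, mem_isometryGroup_iff.mpr (fun x => by
      rw [Units.val_mul, Units.val_mul, ← Matrix.mulVec_mulVec, ← Matrix.mulVec_mulVec, hP,
        isometry_apply s, ← hP, Matrix.mulVec_mulVec, ← Units.val_mul, mul_inv_cancel,
        Units.val_one, Matrix.one_mulVec])⟩) (by
    intro a b
    apply Subtype.ext
    show P * (a.1 * b.1) * P⁻¹ = (P * a.1 * P⁻¹) * (P * b.1 * P⁻¹)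
    group)

/-- Conjugation by the inverse of a similarity between two forms. -/
def isoBackT (Qs Q : (ι → F) → F) (P : Matrix.GeneralLinearGroup ι F) (e : F) (he : e ≠ 0)
    (hP : ∀ v, Q ((P : Matrix ι ι F) *ᵥ v) = e * Qs v) :
    ↥(Cfsg.isometryGroup F Q) →* ↥(Cfsg.isometryGroup F Qs) :=
  MonoidHom.mk' (fun s => ⟨P⁻¹ * s.1 * P, mem_isometryGroup_iff.mpr (fun x => by
      rw [Units.val_mul, Units.val_mul, ← Matrix.mulVec_mulVec, ← Matrix.mulVec_mulVec,
        sim_inv_spec Qs Q P e he hP, isometry_apply s, hP, ← mul_assoc, inv_mul_cancel₀ he,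
        one_mul])⟩) (by
    intro a b
    apply Subtype.ext
    show P⁻¹ * (a.1 * b.1) * P = (P⁻¹ * a.1 * P) * (P⁻¹ * b.1 * P)
    group)

/-- The induced isomorphism of the groups `Ω`. -/
noncomputable def omegaT (Qs Q : (ι → F) → F) (P : Matrix.GeneralLinearGroup ι F) (e : F)
    (he : e ≠ 0) (hP : ∀ v, Q ((P : Matrix ι ι F) *ᵥ v) = e * Qs v) :
    ↥(Cfsg.Omega F Qs) ≃* ↥(Cfsg.Omega F Q) :=
  MonoidHom.toMulEquiv (mapComm (isoFwdT Qs Q P e hP)) (mapComm (isoBackT Qs Q P e he hP))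
    (by
      apply MonoidHom.ext
      intro s
      apply Subtype.ext
      apply Subtype.ext
      show P⁻¹ * (P * s.1.1 * P⁻¹) * P = s.1.1
      group)
    (by
      apply MonoidHom.ext
      intro s
      apply Subtype.ext
      apply Subtype.ext
      show P * (P⁻¹ * s.1.1 * P) * P⁻¹ = s.1.1
      group)

theorem omegaT_val (Qs Q : (ι → F) → F) (P : Matrix.GeneralLinearGroup ι F) (e : F)
    (he : e ≠ 0) (hP : ∀ v, Q ((P : Matrix ι ι F) *ᵥ v) = e * Qs v)
    (s : ↥(Cfsg.Omega F Qs)) :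
    (((omegaT Qs Q P e he hP s : ↥(Cfsg.Omega F Q)) : ↥(Cfsg.isometryGroup F Q)) :
      Matrix.GeneralLinearGroup ι F) = P * s.1.1 * P⁻¹ := rfl

/-- The induced isomorphism of the groups `PΩ`. -/
noncomputable def pomegaT (Qs Q : (ι → F) → F) (P : Matrix.GeneralLinearGroup ι F) (e : F)
    (he : e ≠ 0) (hP : ∀ v, Q ((P : Matrix ι ι F) *ᵥ v) = e * Qs v) :
    Cfsg.POmega F Qs ≃* Cfsg.POmega F Q :=
  QuotientGroup.congr (Subgroup.center (Cfsg.Omega F Qs)) (Subgroup.center (Cfsg.Omega F Q))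
    (omegaT Qs Q P e he hP) (map_center_equiv (omegaT Qs Q P e he hP))

theorem pomegaT_mk (Qs Q : (ι → F) → F) (P : Matrix.GeneralLinearGroup ι F) (e : F)
    (he : e ≠ 0) (hP : ∀ v, Q ((P : Matrix ι ι F) *ᵥ v) = e * Qs v)
    (s : ↥(Cfsg.Omega F Qs)) :
    pomegaT Qs Q P e he hP (QuotientGroup.mk s) = QuotientGroup.mk (omegaT Qs Q P e he hP s) :=
  rfl

/-- Conjugation by the inverse of a similarity between two forms: similarities. -/
def simBackT (Qs Q : (ι → F) → F) (P : Matrix.GeneralLinearGroup ι F) (e : F) (he : e ≠ 0)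
    (hP : ∀ v, Q ((P : Matrix ι ι F) *ᵥ v) = e * Qs v) :
    ↥(Cfsg.Geo.quadSimilarityGroup Q) →* ↥(Cfsg.Geo.quadSimilarityGroup Qs) :=
  MonoidHom.mk' (fun h => ⟨P⁻¹ * h.1 * P, ⟨simMul Q h, fun x => by
      rw [Units.val_mul, Units.val_mul, ← Matrix.mulVec_mulVec, ← Matrix.mulVec_mulVec,
        sim_inv_spec Qs Q P e he hP, simMul_spec Q h, hP, ← mul_assoc, ← mul_assoc,
        mul_comm e⁻¹, mul_assoc _ e⁻¹, inv_mul_cancel₀ he, mul_one]⟩⟩) (by
    intro a b
    apply Subtype.ext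
    show P⁻¹ * (a.1 * b.1) * P = (P⁻¹ * a.1 * P) * (P⁻¹ * b.1 * P)
    group)

theorem simBackT_val (Qs Q : (ι → F) → F) (P : Matrix.GeneralLinearGroup ι F) (e : F)
    (he : e ≠ 0) (hP : ∀ v, Q ((P : Matrix ι ι F) *ᵥ v) = e * Qs v)
    (h : ↥(Cfsg.Geo.quadSimilarityGroup Q)) :
    ((simBackT Qs Q P e he hP h : ↥(Cfsg.Geo.quadSimilarityGroup Qs)) :
      Matrix.GeneralLinearGroup ι F) = P⁻¹ * h.1 * P := rfl

/-- Conjugation by a similarity between two forms: similarities. -/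
def simFwdT (Qs Q : (ι → F) → F) (P : Matrix.GeneralLinearGroup ι F) (e : F) (he : e ≠ 0)
    (hP : ∀ v, Q ((P : Matrix ι ι F) *ᵥ v) = e * Qs v) :
    ↥(Cfsg.Geo.quadSimilarityGroup Qs) →* ↥(Cfsg.Geo.quadSimilarityGroup Q) :=
  MonoidHom.mk' (fun k => ⟨P * k.1 * P⁻¹, ⟨simMul Qs k, fun x => by
      rw [Units.val_mul, Units.val_mul, ← Matrix.mulVec_mulVec, ← Matrix.mulVec_mulVec,
        hP, simMul_spec Qs k, sim_inv_spec Qs Q P e he hP, ← mul_assoc, ← mul_assoc,
        mul_comm e, mul_assoc _ e, mul_inv_cancel₀ he, mul_one]⟩⟩) (by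
    intro a b
    apply Subtype.ext
    show P * (a.1 * b.1) * P⁻¹ = (P * a.1 * P⁻¹) * (P * b.1 * P⁻¹)
    group)

theorem simFwdT_val (Qs Q : (ι → F) → F) (P : Matrix.GeneralLinearGroup ι F) (e : F)
    (he : e ≠ 0) (hP : ∀ v, Q ((P : Matrix ι ι F) *ᵥ v) = e * Qs v)
    (k : ↥(Cfsg.Geo.quadSimilarityGroup Qs)) :
    ((simFwdT Qs Q P e he hP k : ↥(Cfsg.Geo.quadSimilarityGroup Q)) :
      Matrix.GeneralLinearGroup ι F) = P * k.1 * P⁻¹ := rfl

theorem simBackT_simFwdT (Qs Q : (ι → F) → F) (P : Matrix.GeneralLinearGroup ι F) (e : F)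
    (he : e ≠ 0) (hP : ∀ v, Q ((P : Matrix ι ι F) *ᵥ v) = e * Qs v)
    (k : ↥(Cfsg.Geo.quadSimilarityGroup Qs)) :
    simBackT Qs Q P e he hP (simFwdT Qs Q P e he hP k) = k := by
  apply Subtype.ext
  show P⁻¹ * (P * k.1 * P⁻¹) * P = k.1
  group

theorem simFwdT_simBackT (Qs Q : (ι → F) → F) (P : Matrix.GeneralLinearGroup ι F) (e : F)
    (he : e ≠ 0) (hP : ∀ v, Q ((P : Matrix ι ι F) *ᵥ v) = e * Qs v)
    (h : ↥(Cfsg.Geo.quadSimilarityGroup Q)) :
    simFwdT Qs Q P e he hP (simBackT Qs Q P e he hP h) = h := by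
  apply Subtype.ext
  show P * (P⁻¹ * h.1 * P) * P⁻¹ = h.1
  group

/-- Transport of an automorphism induced by a semilinear map. -/
theorem induced_back (Qs Q : (ι → F) → F) (P : Matrix.GeneralLinearGroup ι F) (e : F)
    (he : e ≠ 0) (hP : ∀ v, Q ((P : Matrix ι ι F) *ᵥ v) = e * Qs v)
    {g : Matrix.GeneralLinearGroup ι F} {σ : F ≃+* F} {β : MulAut (Cfsg.POmega F Q)}
    (hβ : Cfsg.IsInducedBySemilinearPOmega Q g σ β) :
    Cfsg.IsInducedBySemilinearPOmega Qs
      (P⁻¹ * g * Matrix.GeneralLinearGroup.map (σ : F →+* F) P) σ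
      ((MulAut.congr (pomegaT Qs Q P e he hP)).symm β) := by
  intro s s' hss'
  show (pomegaT Qs Q P e he hP).symm (β (pomegaT Qs Q P e he hP (QuotientGroup.mk s)))
    = QuotientGroup.mk s'
  have hGL : (s'.1.1 : Matrix.GeneralLinearGroup ι F)
      = (P⁻¹ * g * Matrix.GeneralLinearGroup.map (σ : F →+* F) P)
        * Matrix.GeneralLinearGroup.map (σ : F →+* F) s.1.1
        * (P⁻¹ * g * Matrix.GeneralLinearGroup.map (σ : F →+* F) P)⁻¹ := by
    apply Units.ext
    rw [Units.val_mul, Units.val_mul, glMap_val]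
    exact hss'
  have h1 : β (QuotientGroup.mk (omegaT Qs Q P e he hP s))
      = QuotientGroup.mk (omegaT Qs Q P e he hP s') := by
    apply hβ
    rw [omegaT_val, omegaT_val, ← glMap_val, ← Units.val_mul, ← Units.val_mul]
    congr 1
    rw [hGL, map_mul, map_mul, map_inv]
    group
  rw [pomegaT_mk, h1, ← pomegaT_mk, MulEquiv.symm_apply_apply]

/-- Transport of the automorphism induced by a similarity. -/
theorem congr_symm_cHom (Qs Q : (ι → F) → F) (P : Matrix.GeneralLinearGroup ι F) (e : F)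
    (he : e ≠ 0) (hP : ∀ v, Q ((P : Matrix ι ι F) *ᵥ v) = e * Qs v)
    (h : ↥(Cfsg.Geo.quadSimilarityGroup Q)) :
    (MulAut.congr (pomegaT Qs Q P e he hP)).symm (cHom Q h)
      = cHom Qs (simBackT Qs Q P e he hP h) := by
  have hi := induced_back Qs Q P e he hP (β := cHom Q h)
    ((isInduced_iff Q h (cHom Q h)).mpr rfl)
  rw [glMap_refl] at hi
  exact (isInduced_iff Qs (simBackT Qs Q P e he hP h) _).mp hi

theorem congr_cHom (Qs Q : (ι → F) → F) (P : Matrix.GeneralLinearGroup ι F) (e : F)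
    (he : e ≠ 0) (hP : ∀ v, Q ((P : Matrix ι ι F) *ᵥ v) = e * Qs v)
    (k : ↥(Cfsg.Geo.quadSimilarityGroup Qs)) :
    MulAut.congr (pomegaT Qs Q P e he hP) (cHom Qs k)
      = cHom Q (simFwdT Qs Q P e he hP k) := by
  have h1 := congr_symm_cHom Qs Q P e he hP (simFwdT Qs Q P e he hP k)
  rw [simBackT_simFwdT] at h1
  rw [← h1, MulEquiv.apply_symm_apply]

/-- Transport of inner automorphisms. -/
theorem congr_conj {G H : Type*} [Group G] [Group H] (c : G ≃* H) (k : G) :
    MulAut.congr c (MulAut.conj k) = MulAut.conj (c k) := by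
  apply MulEquiv.ext
  intro y
  show c (k * c.symm y * k⁻¹) = c k * y * (c k)⁻¹
  rw [map_mul, map_mul, map_inv, MulEquiv.apply_symm_apply]

end

end Cfsg.Agent.H49
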