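import Mathlib
import Cfsg.Agent.H49.MinusCentStd
import Cfsg.Agent.H49.SimTransport
import Cfsg.Agent.H49.MinusFieldFin

set_option autoImplicit false
set_option linter.unusedSectionVars false
set_option linter.unusedSimpArgs false
set_option linter.unusedVariables false

/-! Helper lemmas (helper49): field automorphisms of prime order of the minus-type orthogonal
groups: the order is odd and divides `f`, the centraliser in the inner-diagonal group, and the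
class does not split (final assembly). -/

namespace Cfsg.Agent.H49

open Module Matrix GalDesc

section
variable {X Y : Type*} [Group X] [Group Y]

/-- The preimage of a subgroup under an isomorphism is isomorphic to the subgroup. -/
def comapEquivH (Φ : X ≃* Y) (S : Subgroup Y) : ↥(S.comap Φ.toMonoidHom) ≃* ↥S where
  toFun y := ⟨Φ y.1, y.2⟩
  invFun z := ⟨Φ.symm z.1, by
    show Φ (Φ.symm z.1) ∈ S
    rw [Φ.apply_symm_apply]
    exact z.2⟩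
  left_inv y := Subtype.ext (Φ.symm_apply_apply y.1)
  right_inv z := Subtype.ext (Φ.apply_symm_apply z.1)
  map_mul' y z := Subtype.ext (map_mul Φ y.1 z.1)

theorem transport_inf_equiv (Φ : X ≃* Y) (D : Subgroup X) (DS : Subgroup Y) (x : X)
    (hD : ∀ y, y ∈ D ↔ Φ y ∈ DS) :
    Nonempty (↥(D ⊓ Subgroup.centralizer {x}) ≃* ↥(DS ⊓ Subgroup.centralizer {Φ x})) := by
  have e : D ⊓ Subgroup.centralizer {x}
      = (DS ⊓ Subgroup.centralizer {Φ x}).comap Φ.toMonoidHom := by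
    ext y
    rw [Subgroup.mem_comap, Subgroup.mem_inf, Subgroup.mem_inf, hD,
      Subgroup.mem_centralizer_iff, Subgroup.mem_centralizer_iff]
    refine and_congr Iff.rfl ?_
    constructor
    · intro h w hw
      rw [Set.mem_singleton_iff] at hw
      rw [hw]
      show Φ x * Φ y = Φ y * Φ x
      rw [← map_mul, ← map_mul, h x rfl]
    · intro h w hw
      rw [Set.mem_singleton_iff] at hw
      rw [hw]
      apply Φ.injective
      rw [map_mul, map_mul]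
      exact h (Φ x) rfl
  rw [e]
  exact ⟨comapEquivH Φ _⟩

theorem transport_sup (Φ : X ≃* Y) (D T : Subgroup X) (DS TS : Subgroup Y) (x : X)
    (hD : ∀ y, y ∈ D ↔ Φ y ∈ DS) (hT : ∀ z ∈ TS, Φ.symm z ∈ T)
    (h : DS ≤ TS ⊔ (DS ⊓ Subgroup.centralizer {Φ x})) :
    D ≤ T ⊔ (D ⊓ Subgroup.centralizer {x}) := by
  intro y hy
  have h1 : Φ y ∈ TS ⊔ (DS ⊓ Subgroup.centralizer {Φ x}) := h ((hD y).mp hy)
  have h2 : Φ.symm (Φ y) ∈ (TS ⊔ (DS ⊓ Subgroup.centralizer {Φ x})).map Φ.symm.toMonoidHom :=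
    Subgroup.mem_map_of_mem _ h1
  rw [Φ.symm_apply_apply, Subgroup.map_sup] at h2
  refine SetLike.le_def.mp (sup_le_sup ?_ ?_) h2
  · rintro _ ⟨z, hz, rfl⟩
    exact hT z hz
  · rintro _ ⟨z, hz, rfl⟩
    rw [SetLike.mem_coe] at hz
    rw [Subgroup.mem_inf] at hz ⊢
    refine ⟨(hD _).mpr ?_, ?_⟩
    · show Φ (Φ.symm z) ∈ DS
      rw [Φ.apply_symm_apply]
      exact hz.1
    · have hz2 := hz.2
      rw [Subgroup.mem_centralizer_iff] at hz2 ⊢
      intro w hw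
      rw [Set.mem_singleton_iff] at hw
      rw [hw]
      apply Φ.injective
      show Φ (x * Φ.symm z) = Φ (Φ.symm z * x)
      rw [map_mul, map_mul, Φ.apply_symm_apply]
      exact hz2 (Φ x) rfl

end

section
variable {ι : Type} [Fintype ι] [DecidableEq ι] {F : Type*} [Field F]

/-- A solution of Lang's equation turns the automorphism into the standard field
automorphism of the transported form. -/
theorem induced_std_of_lang (Qs Q : (ι → F) → F) (P : Matrix.GeneralLinearGroup ι F) (e : F)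
    (he : e ≠ 0) (hP : ∀ v, Q ((P : Matrix ι ι F) *ᵥ v) = e * Qs v)
    {R : Matrix.GeneralLinearGroup ι F} {τ : F ≃+* F} {x : MulAut (Cfsg.POmega F Q)}
    (hiR : Cfsg.IsInducedBySemilinearPOmega Q R τ x) (t : F) (ht : t ≠ 0)
    (hL : (t • (R : Matrix ι ι F)) * (P : Matrix ι ι F).map τ = (P : Matrix ι ι F)) :
    Cfsg.IsInducedBySemilinearPOmega Qs (1 : Matrix.GeneralLinearGroup ι F) τ
      ((MulAut.congr (pomegaT Qs Q P e he hP)).symm x) := by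
  have h1 := induced_back Qs Q P e he hP hiR
  have h2 : scalGL ι (Units.mk0 t ht) * (R * Matrix.GeneralLinearGroup.map (τ : F →+* F) P)
      = P := by
    apply Units.ext
    rw [Units.val_mul, Units.val_mul, scalGL_coe, glMap_val, Units.val_mk0, Matrix.smul_mul,
      Matrix.one_mul, ← Matrix.smul_mul]
    exact hL
  have h3 : R * Matrix.GeneralLinearGroup.map (τ : F →+* F) P
      = (scalGL ι (Units.mk0 t ht))⁻¹ * P := eq_inv_mul_of_mul_eq h2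
  have hinv : (scalGL ι (Units.mk0 t ht))⁻¹ = scalGL ι (Units.mk0 t ht)⁻¹ :=
    (map_inv (Units.map (algebraMap F (Matrix ι ι F)).toMonoidHom) (Units.mk0 t ht)).symm
  have hsc : P⁻¹ * R * Matrix.GeneralLinearGroup.map (τ : F →+* F) P
      = scalGL ι (Units.mk0 t ht)⁻¹ := by
    rw [mul_assoc, h3, hinv, scalGL_commute, inv_mul_cancel_left]
  rw [hsc] at h1
  intro s s' hss'
  apply h1 s s'
  rw [hss', Units.val_one, inv_one, Units.val_one, Matrix.one_mul, Matrix.mul_one,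
    ← glMap_val, ← Units.val_mul, ← Units.val_mul, scalGL_commute, mul_inv_cancel_right]

end

section
variable {F : Type*} [Field F] [Fintype F]

/-- A form similar to a minus-type form has anisotropic binary part. -/
theorem aniso_of_similar {m : ℕ} (a b a' b' : F)
    (hab : ∀ z₁ z₂ : F, z₁ ^ 2 + a * z₁ * z₂ + b * z₂ ^ 2 = 0 → z₁ = 0 ∧ z₂ = 0)
    (P : Matrix.GeneralLinearGroup ((Fin m ⊕ Fin m) ⊕ Fin 2) F) (e : F)
    (hP : ∀ v, QMin m F a b ((P : Matrix ((Fin m ⊕ Fin m) ⊕ Fin 2) ((Fin m ⊕ Fin m) ⊕ Fin 2) F) *ᵥ v) = e * QMin m F a' b' v) :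
    ∀ z₁ z₂ : F, z₁ ^ 2 + a' * z₁ * z₂ + b' * z₂ ^ 2 = 0 → z₁ = 0 ∧ z₂ = 0 := by
  classical
  intro z₁ z₂ hz
  by_cases hz2 : z₂ = 0
  · subst hz2
    refine ⟨?_, rfl⟩
    have h0 : z₁ ^ 2 = 0 := by linear_combination hz
    exact pow_eq_zero_iff (two_ne_zero) |>.mp h0
  · exfalso
    obtain ⟨E, hE, hfin⟩ := exists_ts_QMin m a' b' (z₁ / z₂) (by
      field_simp
      linear_combination hz)
    obtain ⟨L, hL⟩ : ∃ L : (((Fin m ⊕ Fin m) ⊕ Fin 2) → F) →ₗ[F] (((Fin m ⊕ Fin m) ⊕ Fin 2) → F),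
        ∀ v, L v = (P : Matrix ((Fin m ⊕ Fin m) ⊕ Fin 2) ((Fin m ⊕ Fin m) ⊕ Fin 2) F) *ᵥ v :=
      ⟨Matrix.mulVecLin (P : Matrix ((Fin m ⊕ Fin m) ⊕ Fin 2) ((Fin m ⊕ Fin m) ⊕ Fin 2) F), fun v => rfl⟩
    have hinj : Function.Injective L := by
      rw [← LinearMap.ker_eq_bot, LinearMap.ker_eq_bot']
      intro v hv
      rw [hL] at hv
      exact gl_mulVec_eq_zero P v hv
    have hts : IsTS (QMin m F a b) (E.map L) := by
      intro y hy
      obtain ⟨u, hu, rfl⟩ := Submodule.mem_map.mp hy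
      rw [hL, hP, hE u hu, mul_zero]
    have hdim : finrank F (E.map L) = m + 1 := by
      rw [← (Submodule.equivMapOfInjective L hinj E).finrank_eq]
      exact hfin
    have hle := QMin_ts_le m a b hab (disc_ne_zero_of_aniso a b hab) _ hts
    omega

set_option maxHeartbeats 1600000 in
/-- The standard model of the descended form of a minus-type form for a solution of Lang's
equation. -/
theorem exists_std_model {m : ℕ} (a b : F)
    (hab : ∀ z₁ z₂ : F, z₁ ^ 2 + a * z₁ * z₂ + b * z₂ ^ 2 = 0 → z₁ = 0 ∧ z₂ = 0)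
    (σ : RingAut F) {r : ℕ} (hr : orderOf σ = r) (hr0 : 0 < r)
    (A : Matrix.GeneralLinearGroup ((Fin m ⊕ Fin m) ⊕ Fin 2) F) (μ : F)
    (hA : ∀ v : ((Fin m ⊕ Fin m) ⊕ Fin 2) → F, QMin m F a b ((A : Matrix ((Fin m ⊕ Fin m) ⊕ Fin 2) ((Fin m ⊕ Fin m) ⊕ Fin 2) F) *ᵥ (fun i => σ (v i)))
      = μ * σ (QMin m F a b v))
    (P : Matrix.GeneralLinearGroup ((Fin m ⊕ Fin m) ⊕ Fin 2) F)
    (hP : (A : Matrix ((Fin m ⊕ Fin m) ⊕ Fin 2) ((Fin m ⊕ Fin m) ⊕ Fin 2) F) * (P : Matrix ((Fin m ⊕ Fin m) ⊕ Fin 2) ((Fin m ⊕ Fin m) ⊕ Fin 2) F).map σ = (P : Matrix ((Fin m ⊕ Fin m) ⊕ Fin 2) ((Fin m ⊕ Fin m) ⊕ Fin 2) F)) :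
    ∃ (ζ : F) (P' : Matrix.GeneralLinearGroup ((Fin m ⊕ Fin m) ⊕ Fin 2) F) (e : F), σ ζ = ζ ∧ e ≠ 0 ∧
      (∀ z₁ z₂ : F, z₁ ^ 2 + 1 * z₁ * z₂ + ζ * z₂ ^ 2 = 0 → z₁ = 0 ∧ z₂ = 0) ∧
      (∀ v, QMin m F a b ((P' : Matrix ((Fin m ⊕ Fin m) ⊕ Fin 2) ((Fin m ⊕ Fin m) ⊕ Fin 2) F) *ᵥ v) = e * QMin m F 1 ζ v) ∧
      (A : Matrix ((Fin m ⊕ Fin m) ⊕ Fin 2) ((Fin m ⊕ Fin m) ⊕ Fin 2) F) * (P' : Matrix ((Fin m ⊕ Fin m) ⊕ Fin 2) ((Fin m ⊕ Fin m) ⊕ Fin 2) F).map σ = (P' : Matrix ((Fin m ⊕ Fin m) ⊕ Fin 2) ((Fin m ⊕ Fin m) ⊕ Fin 2) F) := by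
  classical
  have : Fintype ↥(fixF σ) := Fintype.ofFinite _
  have hd := disc_ne_zero_of_aniso a b hab
  have hQ := QMin_nondeg m a b hd
  have hne := QMin_ne m a b
  obtain ⟨e, Q2, Q0, he, hQ2, hQ2nd, hQ0nd, hQ0⟩ :=
    exists_kform_pair (QMin m F a b) hQ hne σ hr hr0 _ μ hA P hP
  have hfr : finrank ↥(fixF σ) (((Fin m ⊕ Fin m) ⊕ Fin 2) → ↥(fixF σ)) = 2 * (m + 1) := finrank_minus m
  rcases even_model_V hfr Q0 hQ0nd with ⟨T, hT⟩ | ⟨ζ, T, hζ, hT⟩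
  · exact (not_hyp_descent a b hab σ P e he Q2 hQ2 Q0 hQ0 T hT).elim
  have hK : ∀ a : F, σ a = a ↔ a ∈ fixF σ := fun a => (mem_fixF σ a).symm
  have hQs : ∀ w : ((Fin m ⊕ Fin m) ⊕ Fin 2) → ↥(fixF σ), ((QMin m ↥(fixF σ) 1 ζ w : ↥(fixF σ)) : F)
      = QMin m F 1 (ζ : F) (fun i => (w i : F)) := by
    intro w
    have h := QMin_coe_sub m (fixF σ) 1 ζ w
    rw [h]
    rfl
  obtain ⟨C, hCσ, hC⟩ := exists_model_matrix σ (fixF σ) hK Q2 Q0 hQ0 (QMin m F 1 (ζ : F))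
    (QMin m ↥(fixF σ) 1 ζ) hQs T.toLinearMap hT
  have habK : ∀ z₁ z₂ : ↥(fixF σ), z₁ ^ 2 + 1 * z₁ * z₂ + ζ * z₂ ^ 2 = 0 → z₁ = 0 ∧ z₂ = 0 := by
    intro z₁ z₂ hz
    by_cases hz2 : z₂ = 0
    · subst hz2
      refine ⟨?_, rfl⟩
      have h0 : z₁ ^ 2 = 0 := by linear_combination hz
      exact pow_eq_zero_iff (two_ne_zero) |>.mp h0
    · exfalso
      apply hζ (z₁ / z₂)
      field_simp
      linear_combination hz
  have hdK := disc_ne_zero_of_aniso (1 : ↥(fixF σ)) ζ habK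
  have hdF : (1 : F) ^ 2 - 4 * (ζ : F) ≠ 0 := by
    intro h
    apply hdK
    apply Subtype.ext
    push_cast
    exact h
  have hQsnd := QMin_nondeg m (1 : F) (ζ : F) hdF
  have hCu := isUnit_of_form_eq Q2 (QMin m F 1 (ζ : F)) hQsnd C hC
  obtain ⟨Cg, hCg⟩ := hCu
  have hP' : ∀ v, QMin m F a b (((P * Cg : Matrix.GeneralLinearGroup ((Fin m ⊕ Fin m) ⊕ Fin 2) F) : Matrix ((Fin m ⊕ Fin m) ⊕ Fin 2) ((Fin m ⊕ Fin m) ⊕ Fin 2) F) *ᵥ v)
      = e * QMin m F 1 (ζ : F) v := by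
    intro v
    rw [Units.val_mul, hCg, ← Matrix.mulVec_mulVec]
    have h1 := hC v
    rw [hQ2] at h1
    rw [← h1, ← mul_assoc, mul_inv_cancel₀ he, one_mul]
  refine ⟨(ζ : F), P * Cg, e, (mem_fixF σ _).mp ζ.2, he, ?_, hP', ?_⟩
  · exact aniso_of_similar a b 1 (ζ : F) hab (P * Cg) e hP'
  · rw [Units.val_mul, hCg, Matrix.map_mul, hCσ, ← Matrix.mul_assoc, hP]

set_option maxHeartbeats 1600000 in
/-- A field automorphism class of prime order of the minus-type group has odd order. -/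
theorem field_class_ne_two {m : ℕ} (hm : 3 ≤ m) (a b : F)
    (x : MulAut (Cfsg.POmega F (⇑(QMin m F a b))))
    (a' b' : F) (ψ : Cfsg.POmega F (⇑(QMin m F a b)) ≃* Cfsg.POmega F (⇑(QMin m F a' b')))
    (σ : F ≃+* F)
    (hab' : ∀ z₁ z₂ : F, z₁ ^ 2 + a' * z₁ * z₂ + b' * z₂ ^ 2 = 0 → z₁ = 0 ∧ z₂ = 0)
    (hσ : σ ≠ RingEquiv.refl F) (ha' : σ a' = a') (hb' : σ b' = b')
    (hφ : Cfsg.IsFieldAutPOmegaOf (⇑(QMin m F a' b')) σ ((ψ.symm.trans x).trans ψ))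
    {r : ℕ} (hr : r.Prime) (hxr : orderOf x = r) : r ≠ 2 := by
  classical
  have hd' := disc_ne_zero_of_aniso a' b' hab'
  have hQ' := QMin_nondeg m a' b' hd'
  have h3' := hasTS3_QMin (F := F) m hm a' b'
  have htop' : ∀ β : MulAut (Cfsg.POmega F (⇑(QMin m F a' b'))),
      β ∈ Cfsg.gammaPOmega F (⇑(QMin m F a' b')) := by
    intro β
    have ht : Cfsg.gammaPOmega F (⇑(QMin m F a' b')) = ⊤ := gamma_top_minus hm a' b' hab'
    rw [ht]
    exact Subgroup.mem_top β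
  obtain ⟨Ψ', hΨ'⟩ := exists_sigHom (QMin m F a' b') hQ' h3' htop'
  obtain ⟨x', hx'⟩ : ∃ x' : MulAut (Cfsg.POmega F (⇑(QMin m F a' b'))),
      x' = MulAut.congr ψ x := ⟨_, rfl⟩
  have hx'eq : x' = (ψ.symm.trans x).trans ψ := by
    rw [hx']
    exact MulEquiv.ext (fun y => rfl)
  have hp1 : Cfsg.IsSemisimilarityPair (⇑(QMin m F a' b')) (1 : Matrix.GeneralLinearGroup ((Fin m ⊕ Fin m) ⊕ Fin 2) F) σ := by
    refine ⟨1, fun v => ?_⟩
    rw [Units.val_one, Matrix.one_mulVec, Units.val_one, one_mul]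
    exact QMin_sigma m a' b' σ ha' hb' v
  have hi1 : Cfsg.IsInducedBySemilinearPOmega (⇑(QMin m F a' b')) (1 : Matrix.GeneralLinearGroup ((Fin m ⊕ Fin m) ⊕ Fin 2) F) σ x' := by
    rw [hx'eq]
    intro s s' hss'
    apply hφ s s'
    rw [hss', Units.val_one, inv_one, Units.val_one, Matrix.one_mul, Matrix.mul_one]
  have hΨx : Ψ' x' = σ := hΨ' x' 1 σ hp1 hi1
  have hxr1 : x ^ r = 1 := by rw [← hxr]; exact pow_orderOf_eq_one x
  have hx'r : x' ^ r = 1 := by rw [hx', ← map_pow, hxr1, map_one]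
  have hσr : (σ : RingAut F) ^ r = 1 := by rw [← hΨx, ← map_pow, hx'r, map_one]
  have hσ1 : (σ : RingAut F) ≠ 1 := hσ
  have hord : orderOf (σ : RingAut F) = r := by
    have : Fact r.Prime := ⟨hr⟩
    exact orderOf_eq_prime hσr hσ1
  rintro rfl
  obtain ⟨z, hz⟩ := exists_root_of_invol σ hord a' b' ha' hb'
  have := hab' z 1 (by linear_combination hz)
  exact one_ne_zero this.2

set_option maxHeartbeats 1600000 in
/-- The inner-diagonal groups of two similar minus-type forms correspond under the induced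
isomorphism. -/
theorem minus_inndiag_transport {m : ℕ} (hm : 2 ≤ m) (a b a' b' : F)
    (hab : ∀ z₁ z₂ : F, z₁ ^ 2 + a * z₁ * z₂ + b * z₂ ^ 2 = 0 → z₁ = 0 ∧ z₂ = 0)
    (hab' : ∀ z₁ z₂ : F, z₁ ^ 2 + a' * z₁ * z₂ + b' * z₂ ^ 2 = 0 → z₁ = 0 ∧ z₂ = 0)
    (P : Matrix.GeneralLinearGroup ((Fin m ⊕ Fin m) ⊕ Fin 2) F) (e : F) (he : e ≠ 0)
    (hP : ∀ v, (⇑(QMin m F a b)) ((P : Matrix ((Fin m ⊕ Fin m) ⊕ Fin 2) ((Fin m ⊕ Fin m) ⊕ Fin 2) F) *ᵥ v) = e * (⇑(QMin m F a' b')) v)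
    (y : MulAut (Cfsg.POmega F (⇑(QMin m F a b)))) :
    y ∈ (Cfsg.autSubgroupOf (fun β : Cfsg.POmega F (⇑(QMin m F a b)) ≃* Cfsg.POmega F (⇑(QMin m F a b)) =>
        ∃ g : Matrix.GeneralLinearGroup ((Fin m ⊕ Fin m) ⊕ Fin 2) F, g ∈ Cfsg.Geo.quadSimilarityGroup (⇑(QMin m F a b)) ∧
          Cfsg.PreservesSingularClassesMinus m a b (g : Matrix ((Fin m ⊕ Fin m) ⊕ Fin 2) ((Fin m ⊕ Fin m) ⊕ Fin 2) F) ∧
          Cfsg.IsInducedBySemilinearPOmega (⇑(QMin m F a b)) g (RingEquiv.refl F) β)) ↔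
      (MulAut.congr (pomegaT (⇑(QMin m F a' b')) (⇑(QMin m F a b)) P e he hP)).symm y
        ∈ (Cfsg.autSubgroupOf (fun β : Cfsg.POmega F (⇑(QMin m F a' b')) ≃* Cfsg.POmega F (⇑(QMin m F a' b')) =>
        ∃ g : Matrix.GeneralLinearGroup ((Fin m ⊕ Fin m) ⊕ Fin 2) F, g ∈ Cfsg.Geo.quadSimilarityGroup (⇑(QMin m F a' b')) ∧
          Cfsg.PreservesSingularClassesMinus m a' b' (g : Matrix ((Fin m ⊕ Fin m) ⊕ Fin 2) ((Fin m ⊕ Fin m) ⊕ Fin 2) F) ∧
          Cfsg.IsInducedBySemilinearPOmega (⇑(QMin m F a' b')) g (RingEquiv.refl F) β)) := by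
  classical
  obtain ⟨χ, hχ, -, -⟩ := exists_minusPres m hm a b hab
  obtain ⟨χ', hχ', -, -⟩ := exists_minusPres m hm a' b' hab'
  rw [autSubgroupOf_pred_eq (⇑(QMin m F a b)) (Cfsg.PreservesSingularClassesMinus m a b) χ.ker
      (fun g => by rw [MonoidHom.mem_ker]; exact (hχ g).symm),
    autSubgroupOf_pred_eq (⇑(QMin m F a' b')) (Cfsg.PreservesSingularClassesMinus m a' b') χ'.ker
      (fun g => by rw [MonoidHom.mem_ker]; exact (hχ' g).symm)]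
  constructor
  · rintro ⟨h, hh, rfl⟩
    rw [congr_symm_cHom]
    refine ⟨simBackT _ _ P e he hP h, ?_, rfl⟩
    rw [SetLike.mem_coe, MonoidHom.mem_ker, hχ']
    have hh' := (hχ h).mp (MonoidHom.mem_ker.mp hh)
    exact presMinus_conj m a' b' a b P⁻¹ e⁻¹ (inv_ne_zero he)
      (fun v => sim_inv_spec _ _ P e he hP v) h (simBackT _ _ P e he hP h)
      (by rw [simBackT_val, inv_inv]) hh'
  · rintro ⟨k, hk, hky⟩
    have h1 : y = MulAut.congr (pomegaT (⇑(QMin m F a' b')) (⇑(QMin m F a b)) P e he hP)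
        (cHom (⇑(QMin m F a' b')) k) := by
      rw [hky, MulEquiv.apply_symm_apply]
    rw [h1, congr_cHom]
    refine ⟨simFwdT _ _ P e he hP k, ?_, rfl⟩
    rw [SetLike.mem_coe, MonoidHom.mem_ker, hχ]
    exact presMinus_conj m a b a' b' P e he hP k (simFwdT _ _ P e he hP k)
      (simFwdT_val _ _ P e he hP k) ((hχ' k).mp (MonoidHom.mem_ker.mp hk))

end

end Cfsg.Agent.H49
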