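import Mathlib
import Cfsg.Agent.H49.SimTransport
import Cfsg.Agent.H49.PlusField

set_option autoImplicit false
set_option linter.unusedSectionVars false
set_option linter.unusedSimpArgs false
set_option linter.unusedVariables false

/-! Helper lemmas (helper49): a similarity between two quadratic forms on spaces with different
index types (given by a rectangular matrix with a two-sided inverse) induces an isomorphism
between the corresponding projective groups `PΩ`, compatible with the automorphisms induced by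
similarities and by semilinear maps. -/

namespace Cfsg.Agent.H49

open Module Matrix

section
variable {ι κ : Type} [Fintype ι] [DecidableEq ι] [Fintype κ] [DecidableEq κ]
  {F : Type*} [Field F]

theorem rect_mul (M : Matrix ι κ F) (Mi : Matrix κ ι F) (h2 : Mi * M = 1)
    (a b : Matrix κ κ F) : (M * a * Mi) * (M * b * Mi) = M * (a * b) * Mi := by
  calc (M * a * Mi) * (M * b * Mi) = M * a * ((Mi * M) * b * Mi) := by
        simp only [Matrix.mul_assoc]
    _ = M * (a * b) * Mi := by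
        rw [h2, Matrix.one_mul]
        simp only [Matrix.mul_assoc]

theorem rect_cancel (M : Matrix ι κ F) (Mi : Matrix κ ι F) (h2 : Mi * M = 1)
    (a : Matrix κ κ F) : Mi * (M * a * Mi) * M = a := by
  calc Mi * (M * a * Mi) * M = (Mi * M) * a * (Mi * M) := by
        simp only [Matrix.mul_assoc]
    _ = a := by rw [h2, Matrix.one_mul, Matrix.mul_one]

/-- Conjugation by an invertible rectangular matrix. -/
def rectGL (M : Matrix ι κ F) (Mi : Matrix κ ι F) (h1 : M * Mi = 1) (h2 : Mi * M = 1) :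
    Matrix.GeneralLinearGroup κ F →* Matrix.GeneralLinearGroup ι F :=
  MonoidHom.mk' (fun g => ⟨M * (g : Matrix κ κ F) * Mi,
      M * ((g⁻¹ : Matrix.GeneralLinearGroup κ F) : Matrix κ κ F) * Mi,
      by rw [rect_mul M Mi h2, ← Units.val_mul, mul_inv_cancel, Units.val_one, Matrix.mul_one, h1],
      by rw [rect_mul M Mi h2, ← Units.val_mul, inv_mul_cancel, Units.val_one, Matrix.mul_one,
        h1]⟩) (by
    intro a b
    apply Units.ext
    show M * ((a * b : Matrix.GeneralLinearGroup κ F) : Matrix κ κ F) * Mi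
      = (M * (a : Matrix κ κ F) * Mi) * (M * (b : Matrix κ κ F) * Mi)
    rw [rect_mul M Mi h2, Units.val_mul])

theorem rectGL_val (M : Matrix ι κ F) (Mi : Matrix κ ι F) (h1 : M * Mi = 1) (h2 : Mi * M = 1)
    (g : Matrix.GeneralLinearGroup κ F) :
    ((rectGL M Mi h1 h2 g : Matrix.GeneralLinearGroup ι F) : Matrix ι ι F)
      = M * (g : Matrix κ κ F) * Mi := rfl

theorem rectGL_rectGL (M : Matrix ι κ F) (Mi : Matrix κ ι F) (h1 : M * Mi = 1)
    (h2 : Mi * M = 1) (g : Matrix.GeneralLinearGroup κ F) :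
    rectGL Mi M h2 h1 (rectGL M Mi h1 h2 g) = g := by
  apply Units.ext
  rw [rectGL_val, rectGL_val]
  exact rect_cancel M Mi h2 _

theorem rectGL_scal (M : Matrix ι κ F) (Mi : Matrix κ ι F) (h1 : M * Mi = 1) (h2 : Mi * M = 1)
    (l : Fˣ) : rectGL M Mi h1 h2 (scalGL κ l) = scalGL ι l := by
  apply Units.ext
  rw [rectGL_val, scalGL_coe, scalGL_coe, Matrix.mul_smul, Matrix.mul_one, Matrix.smul_mul, h1]

theorem rect_inv_spec (Qs : (κ → F) → F) (Q : (ι → F) → F) (M : Matrix ι κ F)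
    (Mi : Matrix κ ι F) (h1 : M * Mi = 1) (e : F) (he : e ≠ 0)
    (hM : ∀ v, Q (M *ᵥ v) = e * Qs v) (v : ι → F) : Qs (Mi *ᵥ v) = e⁻¹ * Q v := by
  have h := hM (Mi *ᵥ v)
  rw [Matrix.mulVec_mulVec, h1, Matrix.one_mulVec] at h
  rw [h, ← mul_assoc, inv_mul_cancel₀ he, one_mul]

theorem rect_mulVec (M : Matrix ι κ F) (Mi : Matrix κ ι F) (a : Matrix κ κ F) (x : ι → F) :
    (M * a * Mi) *ᵥ x = M *ᵥ (a *ᵥ (Mi *ᵥ x)) := by
  rw [Matrix.mulVec_mulVec, Matrix.mulVec_mulVec]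

/-- Conjugation by a similarity between two forms: isometries to isometries. -/
def isoFwdR (Qs : (κ → F) → F) (Q : (ι → F) → F) (M : Matrix ι κ F) (Mi : Matrix κ ι F)
    (h1 : M * Mi = 1) (h2 : Mi * M = 1) (e : F) (he : e ≠ 0)
    (hM : ∀ v, Q (M *ᵥ v) = e * Qs v) :
    ↥(Cfsg.isometryGroup F Qs) →* ↥(Cfsg.isometryGroup F Q) :=
  MonoidHom.mk' (fun s => ⟨rectGL M Mi h1 h2 s.1, mem_isometryGroup_iff.mpr (fun x => by
      rw [rectGL_val, rect_mulVec, hM, isometry_apply s, rect_inv_spec Qs Q M Mi h1 e he hM,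
        ← mul_assoc, mul_inv_cancel₀ he, one_mul])⟩) (by
    intro a b
    apply Subtype.ext
    exact map_mul (rectGL M Mi h1 h2) a.1 b.1)

theorem isoFwdR_val (Qs : (κ → F) → F) (Q : (ι → F) → F) (M : Matrix ι κ F) (Mi : Matrix κ ι F)
    (h1 : M * Mi = 1) (h2 : Mi * M = 1) (e : F) (he : e ≠ 0)
    (hM : ∀ v, Q (M *ᵥ v) = e * Qs v) (s : ↥(Cfsg.isometryGroup F Qs)) :
    ((isoFwdR Qs Q M Mi h1 h2 e he hM s : ↥(Cfsg.isometryGroup F Q)) :
      Matrix.GeneralLinearGroup ι F) = rectGL M Mi h1 h2 s.1 := rfl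

/-- The induced isomorphism of the groups `Ω`. -/
noncomputable def omegaR (Qs : (κ → F) → F) (Q : (ι → F) → F) (M : Matrix ι κ F)
    (Mi : Matrix κ ι F) (h1 : M * Mi = 1) (h2 : Mi * M = 1) (e : F) (he : e ≠ 0)
    (hM : ∀ v, Q (M *ᵥ v) = e * Qs v) :
    ↥(Cfsg.Omega F Qs) ≃* ↥(Cfsg.Omega F Q) :=
  MonoidHom.toMulEquiv (mapComm (isoFwdR Qs Q M Mi h1 h2 e he hM))
    (mapComm (isoFwdR Q Qs Mi M h2 h1 e⁻¹ (inv_ne_zero he)
      (fun v => rect_inv_spec Qs Q M Mi h1 e he hM v)))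
    (by
      apply MonoidHom.ext
      intro s
      apply Subtype.ext
      apply Subtype.ext
      exact rectGL_rectGL M Mi h1 h2 s.1.1)
    (by
      apply MonoidHom.ext
      intro s
      apply Subtype.ext
      apply Subtype.ext
      exact rectGL_rectGL Mi M h2 h1 s.1.1)

theorem omegaR_val (Qs : (κ → F) → F) (Q : (ι → F) → F) (M : Matrix ι κ F)
    (Mi : Matrix κ ι F) (h1 : M * Mi = 1) (h2 : Mi * M = 1) (e : F) (he : e ≠ 0)
    (hM : ∀ v, Q (M *ᵥ v) = e * Qs v) (s : ↥(Cfsg.Omega F Qs)) :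
    ((((omegaR Qs Q M Mi h1 h2 e he hM s : ↥(Cfsg.Omega F Q)) : ↥(Cfsg.isometryGroup F Q)) :
      Matrix.GeneralLinearGroup ι F) : Matrix ι ι F)
      = M * ((s.1.1 : Matrix.GeneralLinearGroup κ F) : Matrix κ κ F) * Mi := rfl

/-- The induced isomorphism of the groups `PΩ`. -/
noncomputable def pomegaR (Qs : (κ → F) → F) (Q : (ι → F) → F) (M : Matrix ι κ F)
    (Mi : Matrix κ ι F) (h1 : M * Mi = 1) (h2 : Mi * M = 1) (e : F) (he : e ≠ 0)
    (hM : ∀ v, Q (M *ᵥ v) = e * Qs v) :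
    Cfsg.POmega F Qs ≃* Cfsg.POmega F Q :=
  QuotientGroup.congr (Subgroup.center (Cfsg.Omega F Qs)) (Subgroup.center (Cfsg.Omega F Q))
    (omegaR Qs Q M Mi h1 h2 e he hM) (map_center_equiv (omegaR Qs Q M Mi h1 h2 e he hM))

theorem pomegaR_mk (Qs : (κ → F) → F) (Q : (ι → F) → F) (M : Matrix ι κ F)
    (Mi : Matrix κ ι F) (h1 : M * Mi = 1) (h2 : Mi * M = 1) (e : F) (he : e ≠ 0)
    (hM : ∀ v, Q (M *ᵥ v) = e * Qs v) (s : ↥(Cfsg.Omega F Qs)) :
    pomegaR Qs Q M Mi h1 h2 e he hM (QuotientGroup.mk s)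
      = QuotientGroup.mk (omegaR Qs Q M Mi h1 h2 e he hM s) := rfl

/-- Conjugation by a similarity between two forms: similarities. -/
def simFwdR (Qs : (κ → F) → F) (Q : (ι → F) → F) (M : Matrix ι κ F) (Mi : Matrix κ ι F)
    (h1 : M * Mi = 1) (h2 : Mi * M = 1) (e : F) (he : e ≠ 0)
    (hM : ∀ v, Q (M *ᵥ v) = e * Qs v) :
    ↥(Cfsg.Geo.quadSimilarityGroup Qs) →* ↥(Cfsg.Geo.quadSimilarityGroup Q) :=
  MonoidHom.mk' (fun k => ⟨rectGL M Mi h1 h2 k.1, ⟨simMul Qs k, fun x => by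
      rw [rectGL_val, rect_mulVec, hM, simMul_spec Qs k, rect_inv_spec Qs Q M Mi h1 e he hM,
        ← mul_assoc, ← mul_assoc, mul_comm e, mul_assoc _ e, mul_inv_cancel₀ he, mul_one]⟩⟩) (by
    intro a b
    apply Subtype.ext
    exact map_mul (rectGL M Mi h1 h2) a.1 b.1)

theorem simFwdR_val (Qs : (κ → F) → F) (Q : (ι → F) → F) (M : Matrix ι κ F) (Mi : Matrix κ ι F)
    (h1 : M * Mi = 1) (h2 : Mi * M = 1) (e : F) (he : e ≠ 0)
    (hM : ∀ v, Q (M *ᵥ v) = e * Qs v) (k : ↥(Cfsg.Geo.quadSimilarityGroup Qs)) :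
    (((simFwdR Qs Q M Mi h1 h2 e he hM k : ↥(Cfsg.Geo.quadSimilarityGroup Q)) :
      Matrix.GeneralLinearGroup ι F) : Matrix ι ι F)
      = M * ((k : Matrix.GeneralLinearGroup κ F) : Matrix κ κ F) * Mi := rfl

theorem simFwdR_coe (Qs : (κ → F) → F) (Q : (ι → F) → F) (M : Matrix ι κ F) (Mi : Matrix κ ι F)
    (h1 : M * Mi = 1) (h2 : Mi * M = 1) (e : F) (he : e ≠ 0)
    (hM : ∀ v, Q (M *ᵥ v) = e * Qs v) (k : ↥(Cfsg.Geo.quadSimilarityGroup Qs)) :
    ((simFwdR Qs Q M Mi h1 h2 e he hM k : ↥(Cfsg.Geo.quadSimilarityGroup Q)) :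
      Matrix.GeneralLinearGroup ι F) = rectGL M Mi h1 h2 k.1 := rfl

theorem simFwdR_simFwdR (Qs : (κ → F) → F) (Q : (ι → F) → F) (M : Matrix ι κ F)
    (Mi : Matrix κ ι F) (h1 : M * Mi = 1) (h2 : Mi * M = 1) (e : F) (he : e ≠ 0)
    (hM : ∀ v, Q (M *ᵥ v) = e * Qs v) (k : ↥(Cfsg.Geo.quadSimilarityGroup Qs)) :
    simFwdR Q Qs Mi M h2 h1 e⁻¹ (inv_ne_zero he)
      (fun v => rect_inv_spec Qs Q M Mi h1 e he hM v) (simFwdR Qs Q M Mi h1 h2 e he hM k) = k := by
  apply Subtype.ext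
  exact rectGL_rectGL M Mi h1 h2 k.1

theorem simFwdR_simFwdR' (Qs : (κ → F) → F) (Q : (ι → F) → F) (M : Matrix ι κ F)
    (Mi : Matrix κ ι F) (h1 : M * Mi = 1) (h2 : Mi * M = 1) (e : F) (he : e ≠ 0)
    (hM : ∀ v, Q (M *ᵥ v) = e * Qs v) (h : ↥(Cfsg.Geo.quadSimilarityGroup Q)) :
    simFwdR Qs Q M Mi h1 h2 e he hM (simFwdR Q Qs Mi M h2 h1 e⁻¹ (inv_ne_zero he)
      (fun v => rect_inv_spec Qs Q M Mi h1 e he hM v) h) = h := by
  apply Subtype.ext
  exact rectGL_rectGL Mi M h2 h1 h.1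

/-- The linear part of a transported semilinear map. -/
def rectSemi (M : Matrix ι κ F) (Mi : Matrix κ ι F) (h1 : M * Mi = 1) (h2 : Mi * M = 1)
    (σ : F ≃+* F) (g : Matrix.GeneralLinearGroup ι F) : Matrix.GeneralLinearGroup κ F :=
  ⟨Mi * (g : Matrix ι ι F) * M.map σ,
    Mi.map σ * ((g⁻¹ : Matrix.GeneralLinearGroup ι F) : Matrix ι ι F) * M, by
      have e1 : M.map σ * Mi.map σ = 1 := by
        have := congrArg (fun X : Matrix ι ι F => X.map σ) h1
        simp only [Matrix.map_mul] at this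
        rw [this]
        exact Matrix.map_one _ (map_zero _) (map_one _)
      calc Mi * (g : Matrix ι ι F) * M.map σ
            * (Mi.map σ * ((g⁻¹ : Matrix.GeneralLinearGroup ι F) : Matrix ι ι F) * M)
          = Mi * ((g : Matrix ι ι F) * (M.map σ * Mi.map σ)
            * ((g⁻¹ : Matrix.GeneralLinearGroup ι F) : Matrix ι ι F)) * M := by
            simp only [Matrix.mul_assoc]
        _ = 1 := by
            rw [e1, Matrix.mul_one, ← Units.val_mul, mul_inv_cancel, Units.val_one,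
              Matrix.mul_one, h2], by
      have e2 : Mi.map σ * M.map σ = 1 := by
        have := congrArg (fun X : Matrix κ κ F => X.map σ) h2
        simp only [Matrix.map_mul] at this
        rw [this]
        exact Matrix.map_one _ (map_zero _) (map_one _)
      calc Mi.map σ * ((g⁻¹ : Matrix.GeneralLinearGroup ι F) : Matrix ι ι F) * M
            * (Mi * (g : Matrix ι ι F) * M.map σ)
          = Mi.map σ * (((g⁻¹ : Matrix.GeneralLinearGroup ι F) : Matrix ι ι F) * (M * Mi)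
            * (g : Matrix ι ι F)) * M.map σ := by
            simp only [Matrix.mul_assoc]
        _ = 1 := by
            rw [h1, Matrix.mul_one, ← Units.val_mul, inv_mul_cancel, Units.val_one,
              Matrix.mul_one, e2]⟩

theorem rectSemi_val (M : Matrix ι κ F) (Mi : Matrix κ ι F) (h1 : M * Mi = 1) (h2 : Mi * M = 1)
    (σ : F ≃+* F) (g : Matrix.GeneralLinearGroup ι F) :
    ((rectSemi M Mi h1 h2 σ g : Matrix.GeneralLinearGroup κ F) : Matrix κ κ F)
      = Mi * (g : Matrix ι ι F) * M.map σ := rfl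

theorem rectSemi_inv_val (M : Matrix ι κ F) (Mi : Matrix κ ι F) (h1 : M * Mi = 1)
    (h2 : Mi * M = 1) (σ : F ≃+* F) (g : Matrix.GeneralLinearGroup ι F) :
    (((rectSemi M Mi h1 h2 σ g)⁻¹ : Matrix.GeneralLinearGroup κ F) : Matrix κ κ F)
      = Mi.map σ * ((g⁻¹ : Matrix.GeneralLinearGroup ι F) : Matrix ι ι F) * M := rfl

/-- Transport of an automorphism induced by a semilinear map. -/
theorem induced_backR (Qs : (κ → F) → F) (Q : (ι → F) → F) (M : Matrix ι κ F)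
    (Mi : Matrix κ ι F) (h1 : M * Mi = 1) (h2 : Mi * M = 1) (e : F) (he : e ≠ 0)
    (hM : ∀ v, Q (M *ᵥ v) = e * Qs v)
    {g : Matrix.GeneralLinearGroup ι F} {σ : F ≃+* F} {β : MulAut (Cfsg.POmega F Q)}
    (hβ : Cfsg.IsInducedBySemilinearPOmega Q g σ β) :
    Cfsg.IsInducedBySemilinearPOmega Qs (rectSemi M Mi h1 h2 σ g) σ
      ((MulAut.congr (pomegaR Qs Q M Mi h1 h2 e he hM)).symm β) := by
  intro s s' hss'
  show (pomegaR Qs Q M Mi h1 h2 e he hM).symm
    (β (pomegaR Qs Q M Mi h1 h2 e he hM (QuotientGroup.mk s))) = QuotientGroup.mk s'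
  have hc1 : ∀ X : Matrix ι ι F, M * (Mi * X) = X := by
    intro X
    rw [← Matrix.mul_assoc, h1, Matrix.one_mul]
  have hβ1 : β (QuotientGroup.mk (omegaR Qs Q M Mi h1 h2 e he hM s))
      = QuotientGroup.mk (omegaR Qs Q M Mi h1 h2 e he hM s') := by
    apply hβ
    rw [omegaR_val, omegaR_val, hss', rectSemi_val, rectSemi_inv_val]
    simp only [Matrix.map_mul, Matrix.mul_assoc, hc1, h1, Matrix.mul_one]
  rw [pomegaR_mk, hβ1, ← pomegaR_mk, MulEquiv.symm_apply_apply]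

/-- A solution of Lang's equation turns the automorphism into the standard field
automorphism of the transported form. -/
theorem induced_stdR (Qs : (κ → F) → F) (Q : (ι → F) → F) (M : Matrix ι κ F)
    (Mi : Matrix κ ι F) (h1 : M * Mi = 1) (h2 : Mi * M = 1) (e : F) (he : e ≠ 0)
    (hM : ∀ v, Q (M *ᵥ v) = e * Qs v)
    {R : Matrix.GeneralLinearGroup ι F} {τ : F ≃+* F} {x : MulAut (Cfsg.POmega F Q)}
    (hiR : Cfsg.IsInducedBySemilinearPOmega Q R τ x) (t : F) (ht : t ≠ 0)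
    (hL : (t • (R : Matrix ι ι F)) * M.map τ = M) :
    Cfsg.IsInducedBySemilinearPOmega Qs (1 : Matrix.GeneralLinearGroup κ F) τ
      ((MulAut.congr (pomegaR Qs Q M Mi h1 h2 e he hM)).symm x) := by
  have h3 := induced_backR Qs Q M Mi h1 h2 e he hM hiR
  have hsc : rectSemi M Mi h1 h2 τ R = scalGL κ (Units.mk0 t ht)⁻¹ := by
    apply Units.ext
    rw [rectSemi_val, scalGL_coe, Units.val_inv_eq_inv_val, Units.val_mk0]
    have h4 : (R : Matrix ι ι F) * M.map τ = t⁻¹ • M := by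
      have h5 : t⁻¹ • ((t • (R : Matrix ι ι F)) * M.map τ) = t⁻¹ • M := by rw [hL]
      rw [Matrix.smul_mul, smul_smul, inv_mul_cancel₀ ht, one_smul] at h5
      exact h5
    rw [Matrix.mul_assoc, h4, Matrix.mul_smul, h2]
  rw [hsc] at h3
  intro s s' hss'
  apply h3 s s'
  rw [hss', Units.val_one, inv_one, Units.val_one, Matrix.one_mul, Matrix.mul_one,
    ← glMap_val, ← Units.val_mul, ← Units.val_mul, scalGL_commute, mul_inv_cancel_right]

/-- Transport of the automorphism induced by a similarity. -/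
theorem congr_symm_cHomR (Qs : (κ → F) → F) (Q : (ι → F) → F) (M : Matrix ι κ F)
    (Mi : Matrix κ ι F) (h1 : M * Mi = 1) (h2 : Mi * M = 1) (e : F) (he : e ≠ 0)
    (hM : ∀ v, Q (M *ᵥ v) = e * Qs v) (h : ↥(Cfsg.Geo.quadSimilarityGroup Q)) :
    (MulAut.congr (pomegaR Qs Q M Mi h1 h2 e he hM)).symm (cHom Q h)
      = cHom Qs (simFwdR Q Qs Mi M h2 h1 e⁻¹ (inv_ne_zero he)
        (fun v => rect_inv_spec Qs Q M Mi h1 e he hM v) h) := by
  have hi := induced_backR Qs Q M Mi h1 h2 e he hM (β := cHom Q h)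
    ((isInduced_iff Q h (cHom Q h)).mpr rfl)
  have e1 : rectSemi M Mi h1 h2 (RingEquiv.refl F) h.1
      = ((simFwdR Q Qs Mi M h2 h1 e⁻¹ (inv_ne_zero he)
        (fun v => rect_inv_spec Qs Q M Mi h1 e he hM v) h :
          ↥(Cfsg.Geo.quadSimilarityGroup Qs)) : Matrix.GeneralLinearGroup κ F) := by
    apply Units.ext
    rw [rectSemi_val, simFwdR_val]
    congr 1
  rw [e1] at hi
  exact (isInduced_iff Qs _ _).mp hi

theorem congr_cHomR (Qs : (κ → F) → F) (Q : (ι → F) → F) (M : Matrix ι κ F)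
    (Mi : Matrix κ ι F) (h1 : M * Mi = 1) (h2 : Mi * M = 1) (e : F) (he : e ≠ 0)
    (hM : ∀ v, Q (M *ᵥ v) = e * Qs v) (k : ↥(Cfsg.Geo.quadSimilarityGroup Qs)) :
    MulAut.congr (pomegaR Qs Q M Mi h1 h2 e he hM) (cHom Qs k)
      = cHom Q (simFwdR Qs Q M Mi h1 h2 e he hM k) := by
  have h3 := congr_symm_cHomR Qs Q M Mi h1 h2 e he hM (simFwdR Qs Q M Mi h1 h2 e he hM k)
  rw [simFwdR_simFwdR] at h3
  rw [← h3, MulEquiv.apply_symm_apply]

end

section
variable {ι κ : Type} [Fintype ι] [DecidableEq ι] [Fintype κ] [DecidableEq κ]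
  {F : Type*} [Field F]

theorem simFwdR_scalSim (Qs : QuadraticForm F (κ → F)) (Q : QuadraticForm F (ι → F))
    (M : Matrix ι κ F) (Mi : Matrix κ ι F) (h1 : M * Mi = 1) (h2 : Mi * M = 1) (e : F)
    (he : e ≠ 0) (hM : ∀ v, (⇑Q) (M *ᵥ v) = e * (⇑Qs) v) (l : Fˣ) :
    simFwdR (⇑Qs) (⇑Q) M Mi h1 h2 e he hM (scalSim Qs l) = scalSim Q l := by
  apply Subtype.ext
  rw [simFwdR_coe]
  exact rectGL_scal M Mi h1 h2 l

theorem simMul_simFwdR (Qs : QuadraticForm F (κ → F)) (Q : QuadraticForm F (ι → F))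
    (hne : ∃ v, Q v ≠ 0)
    (M : Matrix ι κ F) (Mi : Matrix κ ι F) (h1 : M * Mi = 1) (h2 : Mi * M = 1) (e : F)
    (he : e ≠ 0) (hM : ∀ v, (⇑Q) (M *ᵥ v) = e * (⇑Qs) v)
    (k : ↥(Cfsg.Geo.quadSimilarityGroup (⇑Qs))) :
    simMul (⇑Q) (simFwdR (⇑Qs) (⇑Q) M Mi h1 h2 e he hM k) = simMul (⇑Qs) k := by
  apply simMul_unique (⇑Q) hne
  intro x
  rw [simFwdR_val, rect_mulVec, hM, simMul_spec (⇑Qs) k, rect_inv_spec (⇑Qs) (⇑Q) M Mi h1 e he hM,
    ← mul_assoc, ← mul_assoc, mul_comm e, mul_assoc _ e, mul_inv_cancel₀ he, mul_one]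

theorem det_simFwdR (Qs : QuadraticForm F (κ → F)) (Q : QuadraticForm F (ι → F))
    (M : Matrix ι κ F) (Mi : Matrix κ ι F) (h1 : M * Mi = 1) (h2 : Mi * M = 1) (e : F)
    (he : e ≠ 0) (hM : ∀ v, (⇑Q) (M *ᵥ v) = e * (⇑Qs) v)
    (k : ↥(Cfsg.Geo.quadSimilarityGroup (⇑Qs))) :
    (((simFwdR (⇑Qs) (⇑Q) M Mi h1 h2 e he hM k : ↥(Cfsg.Geo.quadSimilarityGroup (⇑Q))) :
      Matrix.GeneralLinearGroup ι F) : Matrix ι ι F).det
      = ((k : Matrix.GeneralLinearGroup κ F) : Matrix κ κ F).det := by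
  rw [simFwdR_val]
  exact Matrix.det_conj_of_mul_eq_one h1 h2

/-- Transport of a reflection along a rectangular similarity. -/
theorem simFwdR_refl (Qs : QuadraticForm F (κ → F)) (Q : QuadraticForm F (ι → F))
    (M : Matrix ι κ F) (Mi : Matrix κ ι F) (h1 : M * Mi = 1) (h2 : Mi * M = 1) (e : F)
    (he : e ≠ 0) (hM : ∀ v, (⇑Q) (M *ᵥ v) = e * (⇑Qs) v) (w : κ → F) :
    simFwdR (⇑Qs) (⇑Q) M Mi h1 h2 e he hM (inclO Qs (reflG Qs w))
      = inclO Q (reflG Q (M *ᵥ w)) := by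
  apply Subtype.ext
  apply Units.ext
  rw [simFwdR_val]
  show M * Cfsg.reflectionMatrix (⇑Qs) w * Mi = Cfsg.reflectionMatrix (⇑Q) (M *ᵥ w)
  have key : M * Cfsg.reflectionMatrix (⇑Qs) w = Cfsg.reflectionMatrix (⇑Q) (M *ᵥ w) * M := by
    apply Matrix.toLin'.injective
    apply LinearMap.ext
    intro x
    rw [Matrix.toLin'_apply, Matrix.toLin'_apply, ← Matrix.mulVec_mulVec, ← Matrix.mulVec_mulVec,
      reflectionMatrix_mulVec, reflectionMatrix_mulVec, Matrix.mulVec_sub, Matrix.mulVec_smul]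
    have hpol : QuadraticMap.polar (⇑Q) (M *ᵥ w) (M *ᵥ x)
        = e * QuadraticMap.polar (⇑Qs) w x := by
      simp only [QuadraticMap.polar]
      rw [← Matrix.mulVec_add, hM, hM, hM]
      ring
    rw [hpol, hM, mul_inv, mul_mul_mul_comm, inv_mul_cancel₀ he, one_mul]
  rw [key, Matrix.mul_assoc, h1, Matrix.mul_one]

end

end Cfsg.Agent.H49
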