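import Mathlib
import Cfsg.Agent.H49.GFModel
import Cfsg.Agent.H49.GFStd
import Cfsg.Agent.H49.RectT
import Cfsg.Agent.H49.MinusCentFin
import Cfsg.Agent.H49.GraphPlus
import Cfsg.Agent.H49.SimPlus
import Cfsg.Agent.H49.SplitCount

set_option autoImplicit false
set_option linter.unusedSectionVars false
set_option linter.unusedSimpArgs false
set_option linter.unusedVariables false

/-! Helper lemmas (helper49): involutory graph-field automorphisms of the plus-type orthogonal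
groups: the centraliser in the inner-diagonal group and the splitting of the class (final
assembly). -/

namespace Cfsg.Agent.H49

open Module Matrix GalDesc

section
variable {X Y : Type*} [Group X] [Group Y]

theorem transport_relIndex (Φ : X ≃* Y) (D T : Subgroup X) (DS TS : Subgroup Y) (x : X)
    (hD : ∀ y, y ∈ D ↔ Φ y ∈ DS) (hT : ∀ y, y ∈ T ↔ Φ y ∈ TS) :
    T.relIndex (T ⊔ (D ⊓ Subgroup.centralizer {x}))
      = TS.relIndex (TS ⊔ (DS ⊓ Subgroup.centralizer {Φ x})) := by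
  have eD : D = DS.comap Φ.toMonoidHom := by
    ext y
    exact hD y
  have eT : T = TS.comap Φ.toMonoidHom := by
    ext y
    exact hT y
  have eC : Subgroup.centralizer {x} = (Subgroup.centralizer {Φ x}).comap Φ.toMonoidHom := by
    ext y
    rw [Subgroup.mem_comap, Subgroup.mem_centralizer_iff, Subgroup.mem_centralizer_iff]
    constructor
    · intro h w hw
      rw [Set.mem_singleton_iff] at hw
      rw [hw]
      show Φ x * Φ y = Φ y * Φ x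
      rw [← map_mul, ← map_mul, h x rfl]
    · intro h w hw
      rw [Set.mem_singleton_iff] at hw
      rw [hw]
      apply Φ.injective
      rw [map_mul, map_mul]
      exact h (Φ x) rfl
  have hs : Function.Surjective Φ.toMonoidHom := Φ.surjective
  rw [eD, eT, eC, ← Subgroup.comap_inf, Subgroup.comap_sup_eq _ _ _ hs, Subgroup.relIndex_comap,
    Subgroup.map_comap_eq_self_of_surjective hs]

end

section
variable {F : Type*} [Field F] [Fintype F]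

/-- For `q ≡ 1 (mod 4)` the inner automorphisms have index four in the inner-diagonal group
of `PΩ⁺_{2m}(q)`. -/
theorem plus_inn_relIndex_four (hodd : Odd (Fintype.card F)) (h41 : Fintype.card F % 4 = 1)
    {m : ℕ} (hm : 3 ≤ m) :
    (Cfsg.Inn (Cfsg.POmega F (Cfsg.quadFormPlus m F))).relIndex (Cfsg.inndiagPOmegaPlus m F)
      = 4 := by
  classical
  obtain ⟨-, h2, h3⟩ := plus_inndiag hodd hm
  have key : ∀ (A : Type) [Group A] (φ : ↥(Cfsg.inndiagPOmegaPlus m F) →* A),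
      Function.Surjective φ →
      φ.ker = (Cfsg.Inn (Cfsg.POmega F (Cfsg.quadFormPlus m F))).subgroupOf
          (Cfsg.inndiagPOmegaPlus m F) →
      (Cfsg.Inn (Cfsg.POmega F (Cfsg.quadFormPlus m F))).relIndex (Cfsg.inndiagPOmegaPlus m F)
        = Nat.card A := by
    intro A _ φ hs hk
    rw [Subgroup.relIndex, ← hk, Subgroup.index_ker, MonoidHom.range_eq_top.mpr hs,
      Subgroup.card_top]
  rcases Nat.even_or_odd m with he | ho
  · obtain ⟨φ, hs, hk⟩ := h3 he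
    rw [key _ φ hs hk]
    show Nat.card (ZMod 2 × ZMod 2) = 4
    rw [Nat.card_prod, Nat.card_zmod]
  · obtain ⟨φ, hs, hk⟩ := h2 ⟨ho, h41⟩
    rw [key _ φ hs hk]
    show Nat.card (ZMod 4) = 4
    exact Nat.card_zmod 4

end

section
universe u₀ u
variable {F : Type u} [Field F] [Fintype F]

set_option maxHeartbeats 6400000 in
theorem gf_cent_Q {p f : ℕ} [Fact p.Prime] (hF : Fintype.card F = p ^ f) (hf : 1 ≤ f)
    {m : ℕ} (hm : 5 ≤ m) (x : MulAut (Cfsg.POmega F (⇑(QP m F))))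
    (hx : Cfsg.IsGraphFieldAutClassPOmegaPlus m x) (hx2 : orderOf x = 2)
    (F₀ : Type u₀) [Field F₀] [Fintype F₀] (hF₀ : Fintype.card F₀ = p ^ (f / 2)) :
    Even f ∧
    (∃ a₀ b₀ : F₀, (∀ z₁ z₂ : F₀, z₁ ^ 2 + a₀ * z₁ * z₂ + b₀ * z₂ ^ 2 = 0 → z₁ = 0 ∧ z₂ = 0) ∧
      Nonempty (↥((presSub m F).map (cHom (⇑(QP m F))) ⊓ Subgroup.centralizer {x}) ≃* ↥((Cfsg.autSubgroupOf (fun β : Cfsg.POmega F₀ (⇑(QMin (m - 1) F₀ a₀ b₀)) ≃* Cfsg.POmega F₀ (⇑(QMin (m - 1) F₀ a₀ b₀)) =>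
        ∃ g : Matrix.GeneralLinearGroup ((Fin (m - 1) ⊕ Fin (m - 1)) ⊕ Fin 2) F₀, g ∈ Cfsg.Geo.quadSimilarityGroup (⇑(QMin (m - 1) F₀ a₀ b₀)) ∧
          Cfsg.PreservesSingularClassesMinus (m - 1) a₀ b₀ (g : Matrix ((Fin (m - 1) ⊕ Fin (m - 1)) ⊕ Fin 2) ((Fin (m - 1) ⊕ Fin (m - 1)) ⊕ Fin 2) F₀) ∧
          Cfsg.IsInducedBySemilinearPOmega (⇑(QMin (m - 1) F₀ a₀ b₀)) g (RingEquiv.refl F₀) β))))) ∧
    (p = 2 → Cfsg.splitClassCount ((presSub m F).map (cHom (⇑(QP m F)))) (Cfsg.Inn (Cfsg.POmega F (⇑(QP m F)))) x = 1) ∧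
    ((p ≠ 2 ∧ Odd m ∧ p ^ (f / 2) % 4 = 1) → Cfsg.splitClassCount ((presSub m F).map (cHom (⇑(QP m F)))) (Cfsg.Inn (Cfsg.POmega F (⇑(QP m F)))) x = 4) ∧
    ((p ≠ 2 ∧ ¬ (Odd m ∧ p ^ (f / 2) % 4 = 1)) →
      Cfsg.splitClassCount ((presSub m F).map (cHom (⇑(QP m F)))) (Cfsg.Inn (Cfsg.POmega F (⇑(QP m F)))) x = 2) := by
  classical
  obtain ⟨hev, j, σ, ζ₀, M, Mi, e, α, Φ, R, t, hord, hj, hab₀, h1, h2, he, hM, hαx, hiR, ht,
    hML⟩ := gf_model hF hf hm x hx hx2 F₀ hF₀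
  have hm' : 3 ≤ m - 1 := by omega
  have hm1 : m - 1 + 1 = m := by omega
  have hneP := QP_ne (F := F) m (by omega)
  have hneS := QMin_ne (m - 1) (j 1) (j ζ₀)
  obtain ⟨c, hc⟩ : ∃ c : Cfsg.POmega F (⇑(QMin (m - 1) F (j 1) (j ζ₀))) ≃* Cfsg.POmega F (⇑(QP m F)),
      c = pomegaR (⇑(QMin (m - 1) F (j 1) (j ζ₀))) (⇑(QP m F)) M Mi h1 h2 e he hM := ⟨_, rfl⟩
  obtain ⟨Φt, hΦt⟩ : ∃ Φt : MulAut (Cfsg.POmega F (⇑(QP m F))) ≃*
      MulAut (Cfsg.POmega F (⇑(QMin (m - 1) F (j 1) (j ζ₀)))),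
      ∀ y, Φt y = (MulAut.congr c).symm (α * y * α⁻¹) :=
    ⟨(MulAut.conj α).trans (MulAut.congr c).symm, fun y => rfl⟩
  have hΦx : Φt x = (MulAut.congr c).symm Φ := by rw [hΦt, hαx]
  have hi1 : Cfsg.IsInducedBySemilinearPOmega (⇑(QMin (m - 1) F (j 1) (j ζ₀)))
      (1 : Matrix.GeneralLinearGroup ((Fin (m - 1) ⊕ Fin (m - 1)) ⊕ Fin 2) F) σ (Φt x) := by
    rw [hΦx, hc]
    exact induced_stdR (⇑(QMin (m - 1) F (j 1) (j ζ₀))) (⇑(QP m F)) M Mi h1 h2 e he hM hiR t ht hML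
  obtain ⟨χ, hχ⟩ : ∃ χ : ↥(Cfsg.Geo.quadSimilarityGroup (⇑(QMin (m - 1) F (j 1) (j ζ₀)))) →* ℤˣ,
      ∀ k, χ k = presChar m F (simFwdR (⇑(QMin (m - 1) F (j 1) (j ζ₀))) (⇑(QP m F)) M Mi h1 h2 e he hM k) :=
    ⟨(presChar m F).comp (simFwdR (⇑(QMin (m - 1) F (j 1) (j ζ₀))) (⇑(QP m F)) M Mi h1 h2 e he hM), fun k => rfl⟩
  have hχs : ∀ l : Fˣ, χ (scalSim (QMin (m - 1) F (j 1) (j ζ₀)) l) = 1 := by
    intro l
    rw [hχ, simFwdR_scalSim]
    exact presChar_scalSim m l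
  have hχr : ∀ w, QMin (m - 1) F (j 1) (j ζ₀) w ≠ 0 → χ (inclO (QMin (m - 1) F (j 1) (j ζ₀)) (reflG (QMin (m - 1) F (j 1) (j ζ₀)) w)) = -1 := by
    intro w hw
    rw [hχ, simFwdR_refl]
    apply presChar_refl
    rw [show (QP m F) (M *ᵥ w) = e * (QMin (m - 1) F (j 1) (j ζ₀)) w from hM w]
    exact mul_ne_zero he hw
  have hχD : (2 : F) ≠ 0 → ∀ k, χ k = 1 ↔
      simD (QMin (m - 1) F (j 1) (j ζ₀)) (QMin_ne (m - 1) (j 1) (j ζ₀)) (m - 1 + 1) k = 1 := by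
    intro h2' k
    rw [hχ, presChar_eq_one_iff, mem_presSub, preservesPlus_iff m h2' hneP, sgnD_eq_one_iff]
    have hD_eq : simD (QP m F) hneP m (simFwdR (⇑(QMin (m - 1) F (j 1) (j ζ₀))) (⇑(QP m F)) M Mi h1 h2 e he hM k)
        = simD (QMin (m - 1) F (j 1) (j ζ₀)) hneS (m - 1 + 1) k := by
      apply Units.ext
      rw [simD_val, simD_val, det_simFwdR, simMul_simFwdR _ _ hneP, hm1]
    rw [hD_eq]
  obtain ⟨hiso, hchar2, hodd⟩ := gf_std j hm' ζ₀ hab₀ σ hord hj (Φt x) hi1 χ hχs hχr hχD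
  have hD : ∀ y, y ∈ (presSub m F).map (cHom (⇑(QP m F))) ↔ Φt y ∈ χ.ker.map (cHom (⇑(QMin (m - 1) F (j 1) (j ζ₀)))) := by
    intro y
    rw [hΦt]
    constructor
    · intro hy
      obtain ⟨h, hh, hh2⟩ := presMap_conj_mem m hm α y hy
      rw [← hh2, hc, congr_symm_cHomR]
      refine ⟨_, ?_, rfl⟩
      rw [SetLike.mem_coe, MonoidHom.mem_ker, hχ, simFwdR_simFwdR', presChar_eq_one_iff]
      exact hh
    · rintro ⟨k, hk, hky⟩
      have hk1 : presChar m F (simFwdR (⇑(QMin (m - 1) F (j 1) (j ζ₀))) (⇑(QP m F)) M Mi h1 h2 e he hM k) = 1 := by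
        rw [← hχ]
        exact MonoidHom.mem_ker.mp hk
      have h5 : α * y * α⁻¹
          = cHom (⇑(QP m F)) (simFwdR (⇑(QMin (m - 1) F (j 1) (j ζ₀))) (⇑(QP m F)) M Mi h1 h2 e he hM k) := by
        rw [← congr_cHomR, ← hc, hky, MulEquiv.apply_symm_apply]
      have h6 : α * y * α⁻¹ ∈ (presSub m F).map (cHom (⇑(QP m F))) := by
        rw [h5]
        exact ⟨_, (presChar_eq_one_iff m _).mp hk1, rfl⟩
      have h7 := presMap_conj_mem m hm α⁻¹ _ h6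
      rw [inv_inv] at h7
      have e7 : α⁻¹ * (α * y * α⁻¹) * α = y := by group
      rw [e7] at h7
      exact h7
  have hT : ∀ y, y ∈ Cfsg.Inn (Cfsg.POmega F (⇑(QP m F))) ↔ Φt y ∈ Cfsg.Inn (Cfsg.POmega F (⇑(QMin (m - 1) F (j 1) (j ζ₀)))) := by
    intro y
    rw [hΦt]
    constructor
    · intro hy
      obtain ⟨k, hk⟩ := (Cfsg.innNormal (Cfsg.POmega F (⇑(QP m F)))).conj_mem y hy α
      refine ⟨c.symm k, ?_⟩
      rw [← hk]
      apply (MulAut.congr c).injective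
      rw [MulEquiv.apply_symm_apply, congr_conj, MulEquiv.apply_symm_apply]
    · rintro ⟨k, hk⟩
      have h5 : α * y * α⁻¹ = MulAut.conj (c k) := by
        rw [← congr_conj, hk, MulEquiv.apply_symm_apply]
      have h6 : α * y * α⁻¹ ∈ Cfsg.Inn (Cfsg.POmega F (⇑(QP m F))) := ⟨c k, h5.symm⟩
      have h7 := (Cfsg.innNormal (Cfsg.POmega F (⇑(QP m F)))).conj_mem _ h6 α⁻¹
      rw [inv_inv] at h7
      have e7 : α⁻¹ * (α * y * α⁻¹) * α = y := by group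
      rw [e7] at h7
      exact h7
  have hInnD : Cfsg.Inn (Cfsg.POmega F (⇑(QP m F))) ≤ (presSub m F).map (cHom (⇑(QP m F))) := by
    rintro _ ⟨k, rfl⟩
    obtain ⟨s, rfl⟩ := QuotientGroup.mk_surjective k
    refine ⟨inclO (QP m F) s.1, ?_, (conj_mk_eq (QP m F) s).symm⟩
    rw [SetLike.mem_coe, ← presChar_eq_one_iff]
    exact Abelianization.commutator_subset_ker ((presChar m F).comp (inclO (QP m F))) s.2
  have hrel := transport_relIndex Φt ((presSub m F).map (cHom (⇑(QP m F)))) (Cfsg.Inn (Cfsg.POmega F (⇑(QP m F)))) (χ.ker.map (cHom (⇑(QMin (m - 1) F (j 1) (j ζ₀)))))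
    (Cfsg.Inn (Cfsg.POmega F (⇑(QMin (m - 1) F (j 1) (j ζ₀))))) x hD hT
  have hp2 : p = 2 ↔ (2 : F) = 0 := by
    have hchar := charP_of_card_pow hF
    constructor
    · rintro rfl
      have h := CharP.cast_eq_zero F 2
      exact_mod_cast h
    · intro h
      have h' : ((2 : ℕ) : F) = 0 := by exact_mod_cast h
      rw [CharP.cast_eq_zero_iff F p 2] at h'
      exact (Nat.prime_dvd_prime_iff_eq (Fact.out) Nat.prime_two).mp h'
  have hmul := Subgroup.relIndex_mul_relIndex (H := Cfsg.Inn (Cfsg.POmega F (⇑(QP m F))))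
    (K := Cfsg.Inn (Cfsg.POmega F (⇑(QP m F))) ⊔ ((presSub m F).map (cHom (⇑(QP m F))) ⊓ Subgroup.centralizer {x})) (L := (presSub m F).map (cHom (⇑(QP m F)))) le_sup_left
    (sup_le hInnD inf_le_left)
  have h4 : p ≠ 2 → (Cfsg.Inn (Cfsg.POmega F (⇑(QP m F)))).relIndex ((presSub m F).map (cHom (⇑(QP m F)))) = 4 := by
    intro hp
    have hpodd : Odd p := (Fact.out : p.Prime).odd_of_ne_two hp
    have hq : p ^ f = p ^ (f / 2) * p ^ (f / 2) := by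
      rw [← pow_add]
      congr 1
      obtain ⟨k, hk⟩ := hev
      omega
    have hq0 : Odd (p ^ (f / 2)) := hpodd.pow
    have h41 : Fintype.card F % 4 = 1 := by
      rw [hF, hq, Nat.mul_mod]
      obtain ⟨k, hk⟩ := hq0
      have h13 : p ^ (f / 2) % 4 = 1 ∨ p ^ (f / 2) % 4 = 3 := by omega
      rcases h13 with h | h <;> rw [h]
    have hoddF : Odd (Fintype.card F) := by
      rw [hF]
      exact hpodd.pow
    rw [← inndiagPlus_eq_pres]
    exact plus_inn_relIndex_four hoddF h41 (by omega)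
  refine ⟨hev, ⟨1, ζ₀, hab₀, ?_⟩, ?_, ?_, ?_⟩
  · obtain ⟨ε⟩ := transport_inf_equiv Φt _ _ x hD
    obtain ⟨ε'⟩ := hiso
    exact ⟨ε.trans ε'⟩
  · intro hp
    rw [splitClassCount_eq_relIndex _ _ hInnD x, Subgroup.relIndex_eq_one]
    have hle : (presSub m F).map (cHom (⇑(QP m F))) ≤ Cfsg.Inn (Cfsg.POmega F (⇑(QP m F))) := by
      intro y hy
      exact (hT y).mpr (hchar2 (hp2.mp hp) ((hD y).mp hy))
    exact hle.trans le_sup_left
  · rintro ⟨hp, hmo, h41⟩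
    have h2' : (2 : F) ≠ 0 := fun h => hp (hp2.mpr h)
    have hN := hodd h2'
    rw [if_pos ⟨by rw [hm1]; exact hmo, by rw [hF₀]; exact h41⟩, ← hrel] at hN
    rw [splitClassCount_eq_relIndex _ _ hInnD x]
    rw [hN, h4 hp, one_mul] at hmul
    exact hmul
  · rintro ⟨hp, hcase⟩
    have h2' : (2 : F) ≠ 0 := fun h => hp (hp2.mpr h)
    have hN := hodd h2'
    rw [if_neg (by
      rintro ⟨ha, hb⟩
      apply hcase
      rw [hm1] at ha
      rw [hF₀] at hb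
      exact ⟨ha, hb⟩), ← hrel] at hN
    rw [splitClassCount_eq_relIndex _ _ hInnD x]
    rw [hN, h4 hp] at hmul
    omega

set_option maxHeartbeats 3200000 in
/-- Involutory graph-field automorphisms of `PΩ⁺_{2m}(q)`, `m ≥ 5`. -/
theorem gf_cent {p f : ℕ} [Fact p.Prime] (hF : Fintype.card F = p ^ f) (hf : 1 ≤ f)
    {m : ℕ} (hm : 5 ≤ m) (x : MulAut (Cfsg.POmega F (Cfsg.quadFormPlus m F)))
    (hx : Cfsg.IsGraphFieldAutClassPOmegaPlus m x) (hx2 : orderOf x = 2)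
    (F₀ : Type u₀) [Field F₀] [Fintype F₀] (hF₀ : Fintype.card F₀ = p ^ (f / 2)) :
    Even f ∧
    (∃ a₀ b₀ : F₀, (∀ z₁ z₂ : F₀, z₁ ^ 2 + a₀ * z₁ * z₂ + b₀ * z₂ ^ 2 = 0 → z₁ = 0 ∧ z₂ = 0) ∧
      Nonempty (↥(Cfsg.inndiagPOmegaPlus m F ⊓ Subgroup.centralizer {x})
        ≃* ↥(Cfsg.inndiagPOmegaMinus (m - 1) F₀ a₀ b₀))) ∧
    (p = 2 → Cfsg.splitClassCount (Cfsg.inndiagPOmegaPlus m F)
      (Cfsg.Inn (Cfsg.POmega F (Cfsg.quadFormPlus m F))) x = 1) ∧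
    ((p ≠ 2 ∧ Odd m ∧ p ^ (f / 2) % 4 = 1) → Cfsg.splitClassCount (Cfsg.inndiagPOmegaPlus m F)
      (Cfsg.Inn (Cfsg.POmega F (Cfsg.quadFormPlus m F))) x = 4) ∧
    ((p ≠ 2 ∧ ¬ (Odd m ∧ p ^ (f / 2) % 4 = 1)) →
      Cfsg.splitClassCount (Cfsg.inndiagPOmegaPlus m F)
        (Cfsg.Inn (Cfsg.POmega F (Cfsg.quadFormPlus m F))) x = 2) := by
  rw [inndiagPlus_eq_pres]
  have key := gf_cent_Q hF hf hm x hx hx2 F₀ hF₀
  obtain ⟨k1, ⟨a₀, b₀, k3, k4⟩, k5, k6, k7⟩ := key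
  exact ⟨k1, ⟨a₀, b₀, k3, k4⟩, k5, k6, k7⟩

end

end Cfsg.Agent.H49
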