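import Mathlib
import Cfsg.Agent.H49.GraphInv3
import Cfsg.Agent.H49.CharpolyDet

set_option autoImplicit false
set_option linter.unusedSectionVars false

/-! Helper lemmas (helper49): the centraliser in `Inndiag` of an involutory graph automorphism
lies in `Inn` when `-1 ∉ Ω` and the dimension is divisible by four. -/

namespace Cfsg.Agent.H49

open Module Matrix

theorem conj_neg_of_eq {G : Type*} [Group G] [HasDistribNeg G] (z g : G)
    (h : z = -1 * (g * z * g⁻¹)) : z * g * z⁻¹ = -g := by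
  have e : z * g = -(g * z) := by
    calc z * g = (-1 * (g * z * g⁻¹)) * g := by rw [← h]
      _ = -(g * z) := by
        rw [neg_mul, one_mul, neg_mul, mul_assoc, inv_mul_cancel, mul_one]
  rw [e, neg_mul, mul_assoc, mul_inv_cancel, mul_one]

section
variable {ι : Type} [Fintype ι] [DecidableEq ι] {F : Type*} [Field F] [Fintype F] [DecidableEq F]

theorem negG_val (Q : QuadraticForm F (ι → F)) :
    ((negG Q : ↥(Cfsg.isometryGroup F (⇑Q))) : Matrix.GeneralLinearGroup ι F) = -1 := rfl

theorem units_conj_val (Y M : Matrix.GeneralLinearGroup ι F)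
    (h : Y * M * Y⁻¹ = -M) :
    (Y : Matrix ι ι F) * (M : Matrix ι ι F) * (Y : Matrix ι ι F)⁻¹ = -(M : Matrix ι ι F) := by
  have := congrArg (fun x : Matrix.GeneralLinearGroup ι F => (x : Matrix ι ι F)) h
  simp only [Units.val_mul, Units.val_neg, Matrix.coe_units_inv] at this
  exact this

/-- The centraliser in `Inndiag` of an involutory graph automorphism lies in `Inn` when
`-1 ∉ Ω` and half the dimension is even. -/
theorem centralizer_le_inn_of_even (Q : QuadraticForm F (ι → F)) (h2 : (2 : F) ≠ 0)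
    (hQ : (QuadraticMap.polarBilin Q).Nondegenerate) (h3 : HasTS3 Q) (hne : ∃ v, Q v ≠ 0) {k : ℕ}
    (hk : Fintype.card ι = 2 * k) (hkev : Even k) (hneg : spinSign Q (negG Q) ≠ 1)
    (g : ↥(Cfsg.Geo.quadSimilarityGroup (⇑Q))) (hg : sgnD Q h2 hQ hne hk g ≠ 1)
    (hgg : cHom (⇑Q) g * cHom (⇑Q) g = 1) :
    (sgnD Q h2 hQ hne hk).ker.map (cHom (⇑Q)) ⊓ Subgroup.centralizer {cHom (⇑Q) g}
      ≤ Cfsg.Inn (Cfsg.POmega F (⇑Q)) := by
  rintro _ ⟨⟨y, hy, rfl⟩, hc⟩
  have hc1 : cHom (⇑Q) y ∈ Subgroup.centralizer {cHom (⇑Q) g} := hc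
  rw [Subgroup.mem_centralizer_iff] at hc1
  have hc' : cHom (⇑Q) g * cHom (⇑Q) y = cHom (⇑Q) y * cHom (⇑Q) g := hc1 _ rfl
  have hy1 : sgnD Q h2 hQ hne hk y = 1 := MonoidHom.mem_ker.mp hy
  obtain ⟨l2, hl2⟩ := eq_scalSim_of_cHom_eq_one Q hQ h3 hne (g * g) (by rw [map_mul]; exact hgg)
  have h1 : cHom (⇑Q) (y * g * y⁻¹ * g⁻¹) = 1 := by
    rw [map_mul, map_mul, map_mul, map_inv, map_inv, ← hc']
    group
  obtain ⟨c, hcs⟩ := eq_scalSim_of_cHom_eq_one Q hQ h3 hne _ h1
  have h4 : y * g * y⁻¹ = scalSim Q c * g := by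
    rw [← hcs]; group
  obtain ⟨j, hj⟩ := hkev
  by_cases he : epsHom Q hne y = 1
  · obtain ⟨l, y₀, rfl⟩ := exists_inclO_of_eps Q hne y he
    have hdet : ((y₀ : Matrix.GeneralLinearGroup ι F) : Matrix ι ι F).det = 1 := by
      rw [map_mul, sgnD_scalSim, one_mul, sgnD_inclO_iff] at hy1
      exact hy1
    apply psoAut_le_inn Q h2 hQ hk hneg
    rw [psoAut_eq]
    refine ⟨inclO Q y₀, ?_, ?_⟩
    · show ((inclO Q y₀ : ↥(Cfsg.Geo.quadSimilarityGroup (⇑Q))) : Matrix.GeneralLinearGroup ι F)
        ∈ Cfsg.specialIsometryGL F (⇑Q)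
      exact ⟨y₀.2, (Cfsg.Agent.H95.mem_specialLinear_iff _).mpr hdet⟩
    · rw [map_mul, cHom_scalSim, one_mul]
  · exfalso
    have hy2 : ¬ IsSquare (simMul (⇑Q) y : F) := fun h => he ((epsHom_eq_one_iff Q hne y).mpr h)
    have hye : epsHom Q hne y = -1 := epsHom_neg Q hne y hy2
    have hgs : sgnD Q h2 hQ hne hk g = -1 := (Int.units_eq_one_or _).resolve_left hg
    by_cases hge : epsHom Q hne g = 1
    · obtain ⟨l, g₀, rfl⟩ := exists_inclO_of_eps Q hne g hge
      have hs0 : sgnD Q h2 hQ hne hk (inclO Q g₀) = -1 := by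
        rw [map_mul, sgnD_scalSim, one_mul] at hgs
        exact hgs
      rw [conj_scal_mul, ← mul_assoc, scalSim_mul] at h4
      rcases scal_mul_eq Q hne _ _ _ _ h4 with h5 | h5
      · have h6 := spinSign_simConj Q h2 hQ hne hk y hy2 g₀
        rw [← h5, hs0] at h6
        rcases Int.units_eq_one_or (spinSign Q g₀) with h | h <;> rw [h] at h6 <;>
          exact absurd h6 (by decide)
      · rw [scal_mul_scal_mul] at hl2
        have hl2' : scalSim Q (l * l) * inclO Q (g₀ * g₀) = scalSim Q l2 * inclO Q 1 := by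
          rw [hl2, map_one, mul_one]
        obtain ⟨e, hee, he2⟩ : ∃ e : F, e * e = 1 ∧
            ((g₀ : Matrix.GeneralLinearGroup ι F) : Matrix ι ι F)
              * ((g₀ : Matrix.GeneralLinearGroup ι F) : Matrix ι ι F)
              = e • (1 : Matrix ι ι F) := by
          rcases scal_mul_eq Q hne _ _ _ _ hl2' with h7 | h7
          · refine ⟨1, one_mul 1, ?_⟩
            have := congrArg (fun x : ↥(Cfsg.isometryGroup F (⇑Q)) =>
              ((x : Matrix.GeneralLinearGroup ι F) : Matrix ι ι F)) h7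
            rw [one_smul]
            exact this.symm
          · refine ⟨-1, by ring, ?_⟩
            have := congrArg (fun x : ↥(Cfsg.isometryGroup F (⇑Q)) =>
              ((x : Matrix.GeneralLinearGroup ι F) : Matrix ι ι F)) h7
            have e3 : (1 : Matrix ι ι F) = -1 * (((g₀ : Matrix.GeneralLinearGroup ι F) :
                Matrix ι ι F) * ((g₀ : Matrix.GeneralLinearGroup ι F) : Matrix ι ι F)) := by
              simpa [negG_val] using this
            rw [neg_smul, one_smul]
            rw [neg_mul, one_mul] at e3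
            rw [e3, neg_neg]
        have hconj : (y : Matrix.GeneralLinearGroup ι F) * (g₀ : Matrix.GeneralLinearGroup ι F)
            * (y : Matrix.GeneralLinearGroup ι F)⁻¹ = -(g₀ : Matrix.GeneralLinearGroup ι F) := by
          have := congrArg (fun x : ↥(Cfsg.isometryGroup F (⇑Q)) =>
            (x : Matrix.GeneralLinearGroup ι F)) h5
          have e4 : (g₀ : Matrix.GeneralLinearGroup ι F)
              = -1 * ((y : Matrix.GeneralLinearGroup ι F) * (g₀ : Matrix.GeneralLinearGroup ι F)
                * (y : Matrix.GeneralLinearGroup ι F)⁻¹) := this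
          rw [neg_mul, one_mul] at e4
          rw [e4, neg_neg]
          rw [← e4]
        have hdet := det_of_sq_scalar_conj_neg h2 _ e he2 (y : Matrix.GeneralLinearGroup ι F)
          (units_conj_val _ _ hconj) hk
        have hdet1 : ((g₀ : Matrix.GeneralLinearGroup ι F) : Matrix ι ι F).det = 1 := by
          rw [hdet, hj, pow_add, ← mul_pow, neg_mul_neg, hee, one_pow]
        rw [(sgnD_inclO_iff Q h2 hQ hne hk g₀).mpr hdet1] at hs0
        exact absurd hs0 (by decide)
    · have hg2 : ¬ IsSquare (simMul (⇑Q) g : F) :=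
        fun h => hge ((epsHom_eq_one_iff Q hne g).mpr h)
      have hgee : epsHom Q hne g = -1 := epsHom_neg Q hne g hg2
      have hze : epsHom Q hne (y * g) = 1 := by
        rw [map_mul, hye, hgee]; decide
      have hzs : sgnD Q h2 hQ hne hk (y * g) = -1 := by
        rw [map_mul, hy1, one_mul]; exact hgs
      obtain ⟨l, z₀, hz⟩ := exists_inclO_of_eps Q hne (y * g) hze
      have hs0 : sgnD Q h2 hQ hne hk (inclO Q z₀) = -1 := by
        rw [hz, map_mul, sgnD_scalSim, one_mul] at hzs
        exact hzs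
      have hyg : y * g = scalSim Q c * (g * y) := by
        rw [← mul_assoc, ← h4]; group
      have h7 : g * (y * g) * g⁻¹ = scalSim Q c⁻¹ * (y * g) := by
        calc g * (y * g) * g⁻¹ = g * y := by group
          _ = scalSim Q c⁻¹ * (scalSim Q c * (g * y)) := by
            rw [← mul_assoc, scalSim_mul, inv_mul_cancel, scalSim_one, one_mul]
          _ = scalSim Q c⁻¹ * (y * g) := by rw [← hyg]
      rw [hz, conj_scal_mul, ← mul_assoc, scalSim_mul] at h7
      rcases scal_mul_eq Q hne _ _ _ _ h7 with h5 | h5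
      · have h6 := spinSign_simConj Q h2 hQ hne hk g hg2 z₀
        rw [← h5, hs0] at h6
        rcases Int.units_eq_one_or (spinSign Q z₀) with h | h <;> rw [h] at h6 <;>
          exact absurd h6 (by decide)
      · have e4 : (z₀ : Matrix.GeneralLinearGroup ι F)
            = -1 * ((g : Matrix.GeneralLinearGroup ι F) * (z₀ : Matrix.GeneralLinearGroup ι F)
              * (g : Matrix.GeneralLinearGroup ι F)⁻¹) :=
          congrArg (fun x : ↥(Cfsg.isometryGroup F (⇑Q)) =>
            (x : Matrix.GeneralLinearGroup ι F)) h5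
        have hconj := conj_neg_of_eq _ _ e4
        have hGG : ((g : Matrix.GeneralLinearGroup ι F) : Matrix ι ι F)
            * ((g : Matrix.GeneralLinearGroup ι F) : Matrix ι ι F)
            = (l2 : F) • (1 : Matrix ι ι F) := by
          have := congrArg (fun x : ↥(Cfsg.Geo.quadSimilarityGroup (⇑Q)) =>
            ((x : Matrix.GeneralLinearGroup ι F) : Matrix ι ι F)) hl2
          rw [← scalGL_coe]
          exact this
        have hdet := det_of_sq_scalar_conj_neg h2 _ (l2 : F) hGG
          (z₀ : Matrix.GeneralLinearGroup ι F) (units_conj_val _ _ hconj) hk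
        have hμ : (simMul (⇑Q) g : F) * (simMul (⇑Q) g : F) = (l2 : F) * (l2 : F) := by
          have := congrArg (simMulHom (⇑Q) hne) hl2
          rw [map_mul, simMulHom_apply, simMulHom_apply, simMul_scalSim Q hne] at this
          have := congrArg Units.val this
          rw [Units.val_mul, Units.val_mul] at this
          exact this
        have hμ0 : (simMul (⇑Q) g : F) ≠ 0 := (simMul (⇑Q) g).ne_zero
        have hl0 : (l2 : F) ≠ 0 := l2.ne_zero
        have hsd : simD Q hne k g = 1 := by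
          apply Units.ext
          rw [simD_val, hdet, Units.val_one, hj, pow_add, pow_add, ← mul_pow, ← mul_pow,
            neg_mul_neg, ← mul_pow, ← _root_.mul_inv, hμ, mul_inv_cancel₀ (mul_ne_zero hl0 hl0),
            one_pow]
        exact hg ((sgnD_eq_one_iff Q h2 hQ hne hk g).mpr hsd)

/-- When `Inndiag/Inn` has order two, `-1 ∉ Ω` and half the dimension is even, the
`Inndiag`-class of an involutory graph automorphism splits into two `Inn`-classes. -/
theorem split_count_even (Q : QuadraticForm F (ι → F)) (h2 : (2 : F) ≠ 0)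
    (hQ : (QuadraticMap.polarBilin Q).Nondegenerate) (h3 : HasTS3 Q) (hne : ∃ v, Q v ≠ 0) {k : ℕ}
    (hk : Fintype.card ι = 2 * k) (hkev : Even k) (hneg : spinSign Q (negG Q) ≠ 1)
    (P : Subgroup (MulAut (Cfsg.POmega F (⇑Q))))
    (hP : P = (sgnD Q h2 hQ hne hk).ker.map (cHom (⇑Q)))
    (hidx : (Cfsg.Inn (Cfsg.POmega F (⇑Q))).relIndex P = 2)
    (g : ↥(Cfsg.Geo.quadSimilarityGroup (⇑Q))) (hg : sgnD Q h2 hQ hne hk g ≠ 1)
    (γ : MulAut (Cfsg.POmega F (⇑Q))) (hγe : γ = cHom (⇑Q) g) (hγ2 : orderOf γ = 2) :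
    Cfsg.splitClassCount P (Cfsg.Inn (Cfsg.POmega F (⇑Q))) γ = 2 := by
  have hTP : Cfsg.Inn (Cfsg.POmega F (⇑Q)) ≤ P := by
    rw [hP, inn_eq]
    exact Subgroup.map_mono (omega_le_ker_sgnD Q h2 hQ hne hk)
  have hgg : cHom (⇑Q) g * cHom (⇑Q) g = 1 := by
    rw [← hγe, ← pow_two, ← hγ2]
    exact pow_orderOf_eq_one γ
  rw [splitClassCount_eq_relIndex P _ hTP]
  have hle : P ⊓ Subgroup.centralizer {γ} ≤ Cfsg.Inn (Cfsg.POmega F (⇑Q)) := by
    rw [hP, hγe]
    exact centralizer_le_inn_of_even Q h2 hQ h3 hne hk hkev hneg g hg hgg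
  rw [sup_eq_left.mpr hle]
  exact hidx

end

end Cfsg.Agent.H49
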