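import Mathlib
import Cfsg.Agent.H49.SemiKer
import Cfsg.Agent.H49.SimInst

set_option autoImplicit false
set_option linter.unusedSectionVars false

/-! Helper lemmas (helper49): an involutory automorphism of `PΩ(Q)` induced by a semisimilarity
is induced by a similarity when the discriminant is not a square (no involutory field
automorphisms in the elliptic case). -/

namespace Cfsg.Agent.H49

open Module Matrix

section FieldInv
variable {F : Type*} [Field F] [Fintype F]

theorem exists_anti_fixed (σ : F ≃+* F) (hσ : σ ≠ RingEquiv.refl F)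
    (hσ2 : ∀ x, σ (σ x) = x) : ∃ θ : F, θ ≠ 0 ∧ σ θ = -θ := by
  have : ∃ y, σ y ≠ y := by
    by_contra hcon
    have hcon' : ∀ y, σ y = y := fun y => by
      by_contra h
      exact hcon ⟨y, h⟩
    exact hσ (RingEquiv.ext hcon')
  obtain ⟨y, hy⟩ := this
  refine ⟨y - σ y, sub_ne_zero.mpr (Ne.symm hy), ?_⟩
  rw [map_sub, hσ2]
  ring

/-- Elements fixed by an involutory automorphism of a finite field of odd characteristic are
squares. -/
theorem isSquare_of_fixed (h2 : (2 : F) ≠ 0) (σ : F ≃+* F) (hσ : σ ≠ RingEquiv.refl F)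
    (hσ2 : ∀ x, σ (σ x) = x) (x : F) (hx : σ x = x) : IsSquare x := by
  classical
  obtain ⟨θ, hθ0, hθ⟩ := exists_anti_fixed σ hσ hσ2
  obtain ⟨F₀, hF₀⟩ : ∃ F₀ : Subfield F, ∀ z : F, z ∈ F₀ ↔ σ z = z :=
    ⟨RingHom.eqLocusField (σ : F →+* F) (RingHom.id F), fun z => Iff.rfl⟩
  let _ : Fintype ↥F₀ := Fintype.ofFinite _
  have hD : σ (θ * θ) = θ * θ := by
    rw [map_mul, hθ]
    ring
  by_cases hx0 : x = 0
  · exact ⟨0, by rw [hx0]; ring⟩
  have hDns : ¬ IsSquare (⟨θ * θ, (hF₀ _).mpr hD⟩ : ↥F₀) := by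
    rintro ⟨s, hs⟩
    have hs' : θ * θ = (s : F) * (s : F) := congrArg Subtype.val hs
    have hsfix : σ (s : F) = s := (hF₀ _).mp s.2
    have h3 : σ θ = θ := by
      rcases mul_self_eq_mul_self_iff.mp hs' with h | h
      · rw [h]; exact hsfix
      · rw [h, map_neg, hsfix]
    rw [hθ] at h3
    have h4 : (2 : F) * θ = 0 := by linear_combination (-1 : F) * h3
    rcases mul_eq_zero.mp h4 with h | h
    · exact h2 h
    · exact hθ0 h
  by_cases hxs : IsSquare (⟨x, (hF₀ _).mpr hx⟩ : ↥F₀)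
  · obtain ⟨s, hs⟩ := hxs
    exact ⟨s, congrArg Subtype.val hs⟩
  · have hx0' : (⟨x, (hF₀ _).mpr hx⟩ : ↥F₀) ≠ 0 := by
      intro h
      exact hx0 (congrArg Subtype.val h)
    obtain ⟨s, hs⟩ := (isSquare_mul_nonsquare_iff hx0' hDns).mpr hxs
    have hs' : x * (θ * θ) = (s : F) * (s : F) := congrArg Subtype.val hs
    refine ⟨(s : F) / θ, ?_⟩
    field_simp
    linear_combination hs'

end FieldInv

section Semi
variable {ι : Type} [Fintype ι] [DecidableEq ι] {F : Type*} [Field F] [Fintype F]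

theorem entry_eq_dot (M : Matrix ι ι F) (i j : ι) :
    M i j = (Pi.single i (1 : F) : ι → F) ⬝ᵥ (M *ᵥ Pi.single j 1) := by
  rw [Matrix.mulVec_single_one, single_dotProduct, one_mul]
  rfl

theorem sigma_single (σ : F ≃+* F) (i : ι) :
    (fun k => σ ((Pi.single i (1 : F) : ι → F) k)) = Pi.single i 1 := by
  funext k
  by_cases hk : k = i
  · subst hk; simp
  · simp [Pi.single_eq_of_ne hk]

/-- Gram relation for a semisimilarity. -/
theorem semi_gram (Q : QuadraticForm F (ι → F)) (g : Matrix.GeneralLinearGroup ι F)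
    (σ : F ≃+* F) (c : Fˣ)
    (hc : ∀ v : ι → F, Q ((g : Matrix ι ι F) *ᵥ (fun i => σ (v i))) = (c : F) * σ (Q v)) :
    (g : Matrix ι ι F)ᵀ * stdGram Q * (g : Matrix ι ι F) = (c : F) • (stdGram Q).map σ := by
  have hpol : ∀ u v : ι → F, QuadraticMap.polar (⇑Q)
      ((g : Matrix ι ι F) *ᵥ (fun i => σ (u i))) ((g : Matrix ι ι F) *ᵥ (fun i => σ (v i)))
      = (c : F) * σ (QuadraticMap.polar (⇑Q) u v) := by
    intro u v
    unfold QuadraticMap.polar
    have e : (fun i => σ ((u + v) i)) = (fun i => σ (u i)) + (fun i => σ (v i)) := by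
      funext i
      simp
    rw [← Matrix.mulVec_add, ← e, hc, hc, hc, map_sub, map_sub]
    ring
  ext i j
  have h1 := hpol (Pi.single i 1) (Pi.single j 1)
  rw [sigma_single, sigma_single, polar_eq_dot_stdGram] at h1
  have e1 : ((g : Matrix ι ι F)ᵀ * stdGram Q * (g : Matrix ι ι F)) i j
      = (Pi.single i (1 : F) : ι → F)
        ⬝ᵥ (((g : Matrix ι ι F)ᵀ * stdGram Q * (g : Matrix ι ι F)) *ᵥ Pi.single j 1) :=
    entry_eq_dot _ i j
  rw [e1, ← Matrix.mulVec_mulVec, ← Matrix.mulVec_mulVec, Matrix.dotProduct_mulVec,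
    Matrix.vecMul_transpose, h1]
  rfl

/-- There is no semisimilarity with an involutory field automorphism whose "square" is a
scalar, when the discriminant is not a square. -/
theorem no_semi_involution (Q : QuadraticForm F (ι → F)) (h2 : (2 : F) ≠ 0) {k : ℕ}
    (hk : Fintype.card ι = 2 * k) (g : Matrix.GeneralLinearGroup ι F) (σ : F ≃+* F)
    (hd : σ ≠ RingEquiv.refl F → ¬ IsSquare (stdGram Q).det)
    (hp : Cfsg.IsSemisimilarityPair (⇑Q) g σ) (hσ2 : ∀ x, σ (σ x) = x) (l : F)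
    (hgg : (g : Matrix ι ι F) * (g : Matrix ι ι F).map σ = l • (1 : Matrix ι ι F)) :
    σ = RingEquiv.refl F := by
  by_contra hσ
  have hd' := hd hσ
  obtain ⟨c, hc⟩ := hp
  have hgram := semi_gram Q g σ c hc
  obtain ⟨G, hG⟩ : ∃ G : Matrix ι ι F, G = (g : Matrix ι ι F) := ⟨_, rfl⟩
  obtain ⟨A, hA⟩ : ∃ A : Matrix ι ι F, A = stdGram Q := ⟨_, rfl⟩
  obtain ⟨d, hdd⟩ : ∃ d : F, d = A.det := ⟨_, rfl⟩
  rw [← hG] at hgg hgram hc
  rw [← hA] at hgram hd'
  rw [← hdd] at hd'
  have hc0 : (c : F) ≠ 0 := c.ne_zero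
  have hσc0 : σ (c : F) ≠ 0 := by
    intro h
    exact hc0 ((map_eq_zero σ).mp h)
  -- determinant of the Gram relation
  have hdet : G.det * G.det * d = (c : F) ^ (2 * k) * σ d := by
    have h1 := congrArg Matrix.det hgram
    rw [Matrix.det_mul, Matrix.det_mul, Matrix.det_transpose, Matrix.det_smul, hk] at h1
    have h3 : (A.map σ).det = σ A.det := (RingEquiv.map_det σ A).symm
    rw [h3, ← hdd] at h1
    linear_combination h1
  -- multiplier relation
  have hQ2 : ∀ v : ι → F, l * l * Q v = (c : F) * σ (c : F) * Q v := by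
    intro v
    have e1 := hc v
    have e2 := hc (G *ᵥ (fun i => σ (v i)))
    have e3 : (fun i => σ ((G *ᵥ (fun j => σ (v j))) i)) = (G.map σ) *ᵥ v := by
      rw [← sigma_mulVec]
      congr 1
      funext i
      exact hσ2 (v i)
    rw [e3, Matrix.mulVec_mulVec, hgg, Matrix.smul_mulVec, Matrix.one_mulVec,
      QuadraticMap.map_smul, e1, map_mul, hσ2, smul_eq_mul] at e2
    linear_combination e2
  have hexv : ∃ v : ι → F, Q v ≠ 0 := by
    by_contra hcon'
    have hcon : ∀ v : ι → F, Q v = 0 := fun v => by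
      by_contra h
      exact hcon' ⟨v, h⟩
    have hA0 : A = 0 := by
      rw [hA]
      ext i j
      show QuadraticMap.polar (⇑Q) (Pi.single i 1) (Pi.single j 1) = 0
      unfold QuadraticMap.polar
      rw [hcon, hcon, hcon]
      ring
    apply hd'
    rw [hdd, hA0]
    rcases isEmpty_or_nonempty ι with he | he
    · rw [Matrix.det_isEmpty]
      exact ⟨1, (one_mul 1).symm⟩
    · rw [Matrix.det_zero]
      exact ⟨0, (zero_mul 0).symm⟩
  obtain ⟨v₀, hv₀⟩ := hexv
  have hcc : l * l = (c : F) * σ (c : F) := mul_right_cancel₀ hv₀ (hQ2 v₀)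
  have hl0 : l ≠ 0 := by
    rintro rfl
    rw [mul_zero] at hcc
    exact mul_ne_zero hc0 hσc0 hcc.symm
  have hdet2 : G.det * σ G.det = l ^ (2 * k) := by
    have h1 := congrArg Matrix.det hgg
    rw [Matrix.det_mul, Matrix.det_smul, Matrix.det_one, mul_one, hk] at h1
    have h3 : (G.map σ).det = σ G.det := (RingEquiv.map_det σ G).symm
    rw [h3] at h1
    exact h1
  obtain ⟨ψ, hψ⟩ : ∃ ψ : F, ψ = G.det / (c : F) ^ k := ⟨_, rfl⟩
  have hψ1 : ψ * σ ψ = 1 := by
    rw [hψ, map_div₀, map_pow, div_mul_div_comm, hdet2, ← mul_pow, ← hcc, ← pow_two, ← pow_mul]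
    exact div_self (pow_ne_zero _ hl0)
  have hψ0 : ψ ≠ 0 := by
    rintro rfl
    rw [zero_mul] at hψ1
    exact zero_ne_one hψ1
  have hψd : σ d = ψ * ψ * d := by
    rw [hψ]
    field_simp
    linear_combination (-1 : F) * hdet
  -- Hilbert 90
  obtain ⟨e, he0, he⟩ : ∃ e : F, e ≠ 0 ∧ σ e = ψ * e := by
    by_cases h1 : 1 + σ ψ = 0
    · obtain ⟨θ, hθ0, hθ⟩ := exists_anti_fixed σ hσ hσ2
      have hσψ : σ ψ = -1 := by linear_combination h1
      have hψm : ψ = -1 := by
        have := congrArg σ hσψ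
        rw [hσ2, map_neg, map_one] at this
        exact this
      refine ⟨θ, hθ0, ?_⟩
      rw [hθ, hψm]
      ring
    · refine ⟨1 + σ ψ, h1, ?_⟩
      rw [map_add, map_one, hσ2]
      linear_combination (-1 : F) * hψ1
  have hfix : σ (d / (e * e)) = d / (e * e) := by
    rw [map_div₀, map_mul, he, hψd]
    field_simp
  obtain ⟨s, hs⟩ := isSquare_of_fixed h2 σ hσ hσ2 _ hfix
  apply hd'
  refine ⟨s * e, ?_⟩
  field_simp at hs
  linear_combination hs

/-- An automorphism of `PΩ(Q)` of order dividing two induced by a semisimilarity is induced by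
a similarity, when the discriminant is not a square in the presence of an involutory field
automorphism. -/
theorem exists_sim_of_gamma_invol (Q : QuadraticForm F (ι → F)) (h2 : (2 : F) ≠ 0)
    (hQ : (QuadraticMap.polarBilin Q).Nondegenerate) (h3 : HasTS3 Q) {k : ℕ}
    (hk : Fintype.card ι = 2 * k)
    (hd : ∀ σ : F ≃+* F, σ ≠ RingEquiv.refl F → (∀ x, σ (σ x) = x) →
      ¬ IsSquare (stdGram Q).det)
    (γ : MulAut (Cfsg.POmega F (⇑Q))) (hγ : γ ∈ Cfsg.gammaPOmega F (⇑Q)) (hγ2 : γ * γ = 1) :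
    ∃ g : ↥(Cfsg.Geo.quadSimilarityGroup (⇑Q)), γ = cHom (⇑Q) g := by
  obtain ⟨g, σ, hp, hi⟩ := exists_pair_of_mem_gamma (⇑Q) γ hγ
  have hp2 := pair_mul hp hp
  have hi2 := induced_mul hi hi hp
  rw [hγ2] at hi2
  have hσσ : σ.trans σ = RingEquiv.refl F := sigma_eq_refl_of_induced_one Q hQ h3 _ _ hp2 hi2
  have hσ2 : ∀ x, σ (σ x) = x := fun x => by
    have := congrArg (fun τ : F ≃+* F => τ x) hσσ
    exact this
  have hmem : g * Matrix.GeneralLinearGroup.map (σ : F →+* F) g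
      ∈ Cfsg.Geo.quadSimilarityGroup (⇑Q) := by
    obtain ⟨c, hc⟩ := hp2
    refine ⟨c, fun v => ?_⟩
    have := hc v
    rw [hσσ] at this
    simpa using this
  rw [hσσ] at hi2
  have h1 : (1 : MulAut (Cfsg.POmega F (⇑Q))) = cAut (⇑Q) ⟨_, hmem⟩ :=
    (isInduced_iff (⇑Q) ⟨_, hmem⟩ 1).mp hi2
  obtain ⟨l, hl⟩ := scalar_of_cAut_eq_one Q hQ h3 ⟨_, hmem⟩ h1.symm
  have hgg : (g : Matrix ι ι F) * (g : Matrix ι ι F).map σ = l • (1 : Matrix ι ι F) := by
    ext i j
    have := congrFun (hl (Pi.single j 1)) i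
    rw [Matrix.mulVec_single_one] at this
    rw [Matrix.smul_apply, Matrix.one_apply, smul_eq_mul]
    have e : ((g * Matrix.GeneralLinearGroup.map (σ : F →+* F) g :
        Matrix.GeneralLinearGroup ι F) : Matrix ι ι F)
        = (g : Matrix ι ι F) * (g : Matrix ι ι F).map σ := by
      rw [Units.val_mul, glMap_val]
    rw [← e]
    have e2 : (l • (Pi.single j (1 : F) : ι → F)) i = l * (if i = j then 1 else 0) := by
      rw [Pi.smul_apply, smul_eq_mul, Pi.single_apply]
    rw [← e2, ← this]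
    rfl
  have hσ : σ = RingEquiv.refl F :=
    no_semi_involution Q h2 hk g σ (fun hσ => hd σ hσ hσ2) hp hσ2 l hgg
  subst hσ
  have hg : g ∈ Cfsg.Geo.quadSimilarityGroup (⇑Q) := by
    obtain ⟨c, hc⟩ := hp
    exact ⟨c, fun v => by simpa using hc v⟩
  exact ⟨⟨g, hg⟩, (isInduced_iff (⇑Q) ⟨g, hg⟩ γ).mp hi⟩

end Semi

end Cfsg.Agent.H49
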