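import Mathlib
import Cfsg.Agent.H49.SimMinus

set_option autoImplicit false
set_option linter.unusedSectionVars false

/-! Helper lemmas (helper49): `Inndiag(PΩ⁻_{2m+2}(q)) / Inn`, `q` odd, final assembly. -/

namespace Cfsg.Agent.H49

open Module Matrix

section MinusInndiag
universe u
variable {F : Type u} [Field F] [Fintype F]

theorem minus_transfer (m : ℕ) (a b : F)
    (K : Subgroup ↥(Cfsg.Geo.quadSimilarityGroup (⇑(QMin m F a b))))
    (hK : ∀ g : ↥(Cfsg.Geo.quadSimilarityGroup (⇑(QMin m F a b))),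
      Cfsg.PreservesSingularClassesMinus m a b
        ((g : Matrix.GeneralLinearGroup ((Fin m ⊕ Fin m) ⊕ Fin 2) F) :
          Matrix ((Fin m ⊕ Fin m) ⊕ Fin 2) ((Fin m ⊕ Fin m) ⊕ Fin 2) F) ↔ g ∈ K)
    {H : Type*} [Group H]
    (h : ∃ φ : ↥(K.map (cHom (⇑(QMin m F a b)))) →* H, Function.Surjective φ ∧
      φ.ker = (Cfsg.Inn (Cfsg.POmega F (⇑(QMin m F a b)))).subgroupOf
        (K.map (cHom (⇑(QMin m F a b))))) :
    ∃ φ : ↥(Cfsg.inndiagPOmegaMinus m F a b) →* H,
        Function.Surjective φ ∧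
        φ.ker = (Cfsg.Inn (Cfsg.POmega F (Cfsg.quadFormMinus m F a b))).subgroupOf
          (Cfsg.inndiagPOmegaMinus m F a b) := by
  have key := exists_hom_autSubgroupOf_pred (⇑(QMin m F a b))
      (Cfsg.PreservesSingularClassesMinus m a b) K hK h
  rw [QMin_coe] at key
  exact key

theorem minus_inndiag (hodd : Odd (Fintype.card F)) {m : ℕ} (hm : 3 ≤ m) (a b : F)
    (hab : ∀ z₁ z₂ : F, z₁ ^ 2 + a * z₁ * z₂ + b * z₂ ^ 2 = 0 → z₁ = 0 ∧ z₂ = 0) :
    ((Even m ∧ Fintype.card F % 4 = 3) →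
      (∃ φ : ↥(Cfsg.inndiagPOmegaMinus m F a b) →* Multiplicative (ZMod 4),
        Function.Surjective φ ∧
        φ.ker = (Cfsg.Inn (Cfsg.POmega F (Cfsg.quadFormMinus m F a b))).subgroupOf
          (Cfsg.inndiagPOmegaMinus m F a b))) ∧
    (¬ (Even m ∧ Fintype.card F % 4 = 3) →
      (∃ φ : ↥(Cfsg.inndiagPOmegaMinus m F a b) →* Multiplicative (ZMod 2),
        Function.Surjective φ ∧
        φ.ker = (Cfsg.Inn (Cfsg.POmega F (Cfsg.quadFormMinus m F a b))).subgroupOf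
          (Cfsg.inndiagPOmegaMinus m F a b))) := by
  classical
  have h2 : (2 : F) ≠ 0 := two_ne_zero_of_odd_card hodd
  have hQ := QMin_nondeg m a b (disc_ne_zero_of_aniso a b hab)
  have hne : ∃ v, QMin m F a b v ≠ 0 := by
    obtain ⟨x, hx⟩ := exists_Q_eq_of_ts3 (QMin m F a b) hQ (hasTS3_QMin m hm a b) 1
    exact ⟨x, by rw [hx]; exact one_ne_zero⟩
  have hcard : Fintype.card ((Fin m ⊕ Fin m) ⊕ Fin 2) = 2 * (m + 1) := by simp; ring
  obtain ⟨δ₀, hδ₀, hsD, hα⟩ := exists_msim m a b hab h2 hne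
  have hs : sgnD (QMin m F a b) h2 hQ hne hcard δ₀ = 1 :=
    (sgnD_eq_one_iff _ h2 _ hne _ _).mpr hsD
  have hK : ∀ g : ↥(Cfsg.Geo.quadSimilarityGroup (⇑(QMin m F a b))),
      Cfsg.PreservesSingularClassesMinus m a b
        ((g : Matrix.GeneralLinearGroup ((Fin m ⊕ Fin m) ⊕ Fin 2) F) :
          Matrix ((Fin m ⊕ Fin m) ⊕ Fin 2) ((Fin m ⊕ Fin m) ⊕ Fin 2) F)
        ↔ g ∈ (sgnD (QMin m F a b) h2 hQ hne hcard).ker := fun g =>
    ((preservesMinus_iff m a b hab h2 hne g).trans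
      (sgnD_eq_one_iff _ h2 _ hne _ g).symm).trans MonoidHom.mem_ker.symm
  constructor
  · intro h
    have hneg := (spinSign_negG_QMin_iff m F a b h2 hab).mpr h
    have ha := hα hneg
    rw [(h.1.add_one).neg_one_pow] at ha
    have h4 := inndiag_mod_inn_four (QMin m F a b) h2 hQ (hasTS3_QMin m hm a b) hne hcard
        δ₀ hδ₀ hs hneg (H := Multiplicative (ZMod 4)) (Multiplicative.ofAdd 2)
        (Multiplicative.ofAdd 1) (by decide) (by decide) (by decide) (by decide) (by decide)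
        (by rw [ha, if_neg (by decide)]; decide)
        ((sgnD (QMin m F a b) h2 hQ hne hcard).ker.map (cHom (⇑(QMin m F a b)))) rfl
    exact minus_transfer m a b (sgnD (QMin m F a b) h2 hQ hne hcard).ker hK h4
  · intro hn
    have hneg : spinSign (QMin m F a b) (negG (QMin m F a b)) ≠ 1 :=
      fun hs' => hn ((spinSign_negG_QMin_iff m F a b h2 hab).mp hs')
    have h2' := inndiag_mod_inn_two (QMin m F a b) h2 hQ (hasTS3_QMin m hm a b) hne hcard
          δ₀ hδ₀ hs hneg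
          ((sgnD (QMin m F a b) h2 hQ hne hcard).ker.map (cHom (⇑(QMin m F a b)))) rfl
    exact minus_transfer m a b (sgnD (QMin m F a b) h2 hQ hne hcard).ker hK
      (exists_hom_of_mulEquiv c2Equiv _ h2')

end MinusInndiag

end Cfsg.Agent.H49
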