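import Mathlib
import Cfsg.Agent.H49.GraphInv4
import Cfsg.Agent.H49.GraphPlus
import Cfsg.Agent.H49.SemiInv
import Cfsg.Agent.H49.SimMinus2

set_option autoImplicit false
set_option linter.unusedSectionVars false

/-! Helper lemmas (helper49): splitting of the `Inndiag`-class of an involutory graph
automorphism of `PΩ⁻_{2m+2}(q)`, `q` odd, into `Inn`-classes. -/

namespace Cfsg.Agent.H49

open Module Matrix

section
universe u
variable {F : Type u} [Field F] [Fintype F]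

theorem minus_graph_split_aux (hodd : Odd (Fintype.card F)) {m : ℕ} (hm : 3 ≤ m) (a b : F)
    (hab : ∀ z₁ z₂ : F, z₁ ^ 2 + a * z₁ * z₂ + b * z₂ ^ 2 = 0 → z₁ = 0 ∧ z₂ = 0)
    (γ : MulAut (Cfsg.POmega F (⇑(QMin m F a b))))
    (hγ : γ ∈ Cfsg.gammaPOmega F (⇑(QMin m F a b)))
    (hγn : γ ∉ Cfsg.autSubgroupOf
      (fun β : Cfsg.POmega F (⇑(QMin m F a b)) ≃* Cfsg.POmega F (⇑(QMin m F a b)) =>
        ∃ g : Matrix.GeneralLinearGroup ((Fin m ⊕ Fin m) ⊕ Fin 2) F,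
          g ∈ Cfsg.Geo.quadSimilarityGroup (⇑(QMin m F a b)) ∧
          Cfsg.PreservesSingularClassesMinus m a b
            (g : Matrix ((Fin m ⊕ Fin m) ⊕ Fin 2) ((Fin m ⊕ Fin m) ⊕ Fin 2) F) ∧
          Cfsg.IsInducedBySemilinearPOmega (⇑(QMin m F a b)) g (RingEquiv.refl F) β))
    (hγ2 : orderOf γ = 2) :
    (Cfsg.splitClassCount (Cfsg.autSubgroupOf
      (fun β : Cfsg.POmega F (⇑(QMin m F a b)) ≃* Cfsg.POmega F (⇑(QMin m F a b)) =>
        ∃ g : Matrix.GeneralLinearGroup ((Fin m ⊕ Fin m) ⊕ Fin 2) F,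
          g ∈ Cfsg.Geo.quadSimilarityGroup (⇑(QMin m F a b)) ∧
          Cfsg.PreservesSingularClassesMinus m a b
            (g : Matrix ((Fin m ⊕ Fin m) ⊕ Fin 2) ((Fin m ⊕ Fin m) ⊕ Fin 2) F) ∧
          Cfsg.IsInducedBySemilinearPOmega (⇑(QMin m F a b)) g (RingEquiv.refl F) β))
        (Cfsg.Inn (Cfsg.POmega F (⇑(QMin m F a b)))) γ = 1 ∨
     Cfsg.splitClassCount (Cfsg.autSubgroupOf
      (fun β : Cfsg.POmega F (⇑(QMin m F a b)) ≃* Cfsg.POmega F (⇑(QMin m F a b)) =>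
        ∃ g : Matrix.GeneralLinearGroup ((Fin m ⊕ Fin m) ⊕ Fin 2) F,
          g ∈ Cfsg.Geo.quadSimilarityGroup (⇑(QMin m F a b)) ∧
          Cfsg.PreservesSingularClassesMinus m a b
            (g : Matrix ((Fin m ⊕ Fin m) ⊕ Fin 2) ((Fin m ⊕ Fin m) ⊕ Fin 2) F) ∧
          Cfsg.IsInducedBySemilinearPOmega (⇑(QMin m F a b)) g (RingEquiv.refl F) β))
        (Cfsg.Inn (Cfsg.POmega F (⇑(QMin m F a b)))) γ = 2) ∧
    (¬ (Even m ∧ Fintype.card F % 4 = 1) →
     Cfsg.splitClassCount (Cfsg.autSubgroupOf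
      (fun β : Cfsg.POmega F (⇑(QMin m F a b)) ≃* Cfsg.POmega F (⇑(QMin m F a b)) =>
        ∃ g : Matrix.GeneralLinearGroup ((Fin m ⊕ Fin m) ⊕ Fin 2) F,
          g ∈ Cfsg.Geo.quadSimilarityGroup (⇑(QMin m F a b)) ∧
          Cfsg.PreservesSingularClassesMinus m a b
            (g : Matrix ((Fin m ⊕ Fin m) ⊕ Fin 2) ((Fin m ⊕ Fin m) ⊕ Fin 2) F) ∧
          Cfsg.IsInducedBySemilinearPOmega (⇑(QMin m F a b)) g (RingEquiv.refl F) β))
        (Cfsg.Inn (Cfsg.POmega F (⇑(QMin m F a b)))) γ = 2) := by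
  classical
  have h2 : (2 : F) ≠ 0 := two_ne_zero_of_odd_card hodd
  have hQ := QMin_nondeg m a b (disc_ne_zero_of_aniso a b hab)
  have h3 := hasTS3_QMin m hm a b
  have hne : ∃ v, QMin m F a b v ≠ 0 := by
    obtain ⟨x, hx⟩ := exists_Q_eq_of_ts3 (QMin m F a b) hQ h3 1
    exact ⟨x, by rw [hx]; exact one_ne_zero⟩
  have hcard : Fintype.card ((Fin m ⊕ Fin m) ⊕ Fin 2) = 2 * (m + 1) := by simp; ring
  have hcard3 : 3 ≤ Fintype.card ((Fin m ⊕ Fin m) ⊕ Fin 2) := by rw [hcard]; omega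
  obtain ⟨δ₀, hδ₀, hsD, hα⟩ := exists_msim m a b hab h2 hne
  have hs : sgnD (QMin m F a b) h2 hQ hne hcard δ₀ = 1 :=
    (sgnD_eq_one_iff _ h2 _ hne _ _).mpr hsD
  have hK : ∀ g : ↥(Cfsg.Geo.quadSimilarityGroup (⇑(QMin m F a b))),
      Cfsg.PreservesSingularClassesMinus m a b
        ((g : Matrix.GeneralLinearGroup ((Fin m ⊕ Fin m) ⊕ Fin 2) F) :
          Matrix ((Fin m ⊕ Fin m) ⊕ Fin 2) ((Fin m ⊕ Fin m) ⊕ Fin 2) F)
        ↔ g ∈ (sgnD (QMin m F a b) h2 hQ hne hcard).ker := fun g =>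
    ((preservesMinus_iff m a b hab h2 hne g).trans
      (sgnD_eq_one_iff _ h2 _ hne _ g).symm).trans MonoidHom.mem_ker.symm
  have hPeq := autSubgroupOf_pred_eq (⇑(QMin m F a b))
    (Cfsg.PreservesSingularClassesMinus m a b) (sgnD (QMin m F a b) h2 hQ hne hcard).ker hK
  rw [hPeq] at hγn ⊢
  have hγγ : γ * γ = 1 := by
    have h := pow_orderOf_eq_one γ
    rw [hγ2, pow_two] at h
    exact h
  have hd : ∀ σ : F ≃+* F, σ ≠ RingEquiv.refl F → (∀ x, σ (σ x) = x) →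
      ¬ IsSquare (stdGram (QMin m F a b)).det := by
    intro σ hσ hσ2
    rw [stdGram_QMin, det_minusGram]
    have hN := aniso_not_isSquare h2 hab
    have hm1 : IsSquare (-1 : F) := isSquare_of_fixed h2 σ hσ hσ2 (-1) (by simp)
    have e : (-1 : F) ^ m * (4 * b - a ^ 2) = (-1) ^ (m + 1) * (a ^ 2 - 4 * b) := by ring
    rw [e, isSquare_mul_nonsquare_iff (pow_ne_zero _ (neg_ne_zero.mpr one_ne_zero)) hN, not_not]
    exact hm1.pow _
  obtain ⟨g, hγe⟩ := exists_sim_of_gamma_invol (QMin m F a b) h2 hQ h3 hcard hd γ hγ hγγ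
  have hsg : sgnD (QMin m F a b) h2 hQ hne hcard g ≠ 1 := by
    intro h
    apply hγn
    rw [hγe]
    exact ⟨g, MonoidHom.mem_ker.mpr h, rfl⟩
  have key := split_count_general (QMin m F a b) h2 hQ h3 hne hcard hcard3
    ((sgnD (QMin m F a b) h2 hQ hne hcard).ker.map (cHom (⇑(QMin m F a b)))) rfl g hsg γ hγe hγ2
  by_cases hex : Even m ∧ Fintype.card F % 4 = 3
  · have hneg := (spinSign_negG_QMin_iff m F a b h2 hab).mpr hex
    have ha := hα hneg
    rw [(hex.1.add_one).neg_one_pow] at ha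
    have h4 := inndiag_mod_inn_four (QMin m F a b) h2 hQ h3 hne hcard
        δ₀ hδ₀ hs hneg (H := Multiplicative (ZMod 4)) (Multiplicative.ofAdd 2)
        (Multiplicative.ofAdd 1) (by decide) (by decide) (by decide) (by decide) (by decide)
        (by rw [ha, if_neg (by decide)]; decide)
        ((sgnD (QMin m F a b) h2 hQ hne hcard).ker.map (cHom (⇑(QMin m F a b)))) rfl
    have hidx := relIndex_of_hom _ _ h4
    have hc4 : Nat.card (Multiplicative (ZMod 4)) = 4 := by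
      rw [Nat.card_eq_fintype_card]; rfl
    rw [hc4] at hidx
    have key2 := key.2 hneg hidx
    exact ⟨Or.inr key2, fun _ => key2⟩
  · have hneg : spinSign (QMin m F a b) (negG (QMin m F a b)) ≠ 1 :=
      fun hs' => hex ((spinSign_negG_QMin_iff m F a b h2 hab).mp hs')
    have h2' := inndiag_mod_inn_two (QMin m F a b) h2 hQ h3 hne hcard
          δ₀ hδ₀ hs hneg
          ((sgnD (QMin m F a b) h2 hQ hne hcard).ker.map (cHom (⇑(QMin m F a b)))) rfl
    have hidx := relIndex_of_hom _ _ h2'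
    have hc2 : Nat.card ℤˣ = 2 := by
      rw [Nat.card_eq_fintype_card, Fintype.card_units_int]
    rw [hc2] at hidx
    refine ⟨key.1 hidx, fun hn => ?_⟩
    have hq : Fintype.card F % 4 = 1 ∨ Fintype.card F % 4 = 3 := by
      have := Nat.odd_iff.mp hodd
      omega
    have hmodd : Odd m := by
      rcases Nat.even_or_odd m with he | ho
      · exfalso
        rcases hq with h | h
        · exact hn ⟨he, h⟩
        · exact hex ⟨he, h⟩
      · exact ho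
    exact split_count_even (QMin m F a b) h2 hQ h3 hne hcard hmodd.add_one hneg
      ((sgnD (QMin m F a b) h2 hQ hne hcard).ker.map (cHom (⇑(QMin m F a b)))) rfl hidx
      g hsg γ hγe hγ2

theorem minus_graph_split (hodd : Odd (Fintype.card F)) {m : ℕ} (hm : 3 ≤ m) (a b : F)
    (hab : ∀ z₁ z₂ : F, z₁ ^ 2 + a * z₁ * z₂ + b * z₂ ^ 2 = 0 → z₁ = 0 ∧ z₂ = 0)
    (γ : MulAut (Cfsg.POmega F (Cfsg.quadFormMinus m F a b)))
    (hγ : Cfsg.IsGraphAutClassPOmegaMinus m a b γ) (hγ2 : orderOf γ = 2) :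
    (Cfsg.splitClassCount (Cfsg.inndiagPOmegaMinus m F a b)
        (Cfsg.Inn (Cfsg.POmega F (Cfsg.quadFormMinus m F a b))) γ = 1 ∨
      Cfsg.splitClassCount (Cfsg.inndiagPOmegaMinus m F a b)
        (Cfsg.Inn (Cfsg.POmega F (Cfsg.quadFormMinus m F a b))) γ = 2) ∧
    (¬ (Even m ∧ Fintype.card F % 4 = 1) →
      Cfsg.splitClassCount (Cfsg.inndiagPOmegaMinus m F a b)
        (Cfsg.Inn (Cfsg.POmega F (Cfsg.quadFormMinus m F a b))) γ = 2) := by
  have key := minus_graph_split_aux hodd hm a b hab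
  rw [QMin_coe] at key
  exact key γ hγ.1 hγ.2.1 hγ2

end

end Cfsg.Agent.H49
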