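import Cfsg.Agent.H96.GuDefs

set_option autoImplicit false
set_option linter.unusedSectionVars false
set_option linter.unusedVariables false

/-! helper49: piece GU-HPERP of helper96's S5700 project: a singular Eichler direction in the
hermitian perp of `u`, outside the `F[J]`-line of `u`, gives the whole hermitian perp. -/

namespace Cfsg.Agent.H49.Gu

open Module Matrix Cfsg.Agent.H49 Cfsg.Agent.H95 Cfsg.Agent.H96.Gu

universe u

section
variable {ι : Type} [Fintype ι] [DecidableEq ι] {F : Type u} [Field F]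
variable {Q : QuadraticForm F (ι → F)} {J : (ι → F) →ₗ[F] (ι → F)} {t N : F}

/-- The span of `u, J u, y, J y, w, J w`. -/
def X6 (J : (ι → F) →ₗ[F] (ι → F)) (u y w : ι → F) : Submodule F (ι → F) :=
  Submodule.span F {u, J u, y, J y, w, J w}

theorem mem_orth_X6 {u y w x : ι → F} (h1 : hp Q J x u) (h2 : hp Q J x y) (h3 : hp Q J x w) :
    x ∈ LinearMap.BilinForm.orthogonal (QuadraticMap.polarBilin Q) (X6 J u y w) := by
  rw [LinearMap.BilinForm.mem_orthogonal_iff]
  intro a ha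
  show QuadraticMap.polar (⇑Q) a x = 0
  unfold X6 at ha
  induction ha using Submodule.span_induction with
  | mem a ha =>
    simp only [Set.mem_insert_iff, Set.mem_singleton_iff] at ha
    rcases ha with rfl | rfl | rfl | rfl | rfl | rfl
    · rw [QuadraticMap.polar_comm]; exact h1.1
    · rw [QuadraticMap.polar_comm]; exact h1.2
    · rw [QuadraticMap.polar_comm]; exact h2.1
    · rw [QuadraticMap.polar_comm]; exact h2.2
    · rw [QuadraticMap.polar_comm]; exact h3.1
    · rw [QuadraticMap.polar_comm]; exact h3.2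
  | zero => exact QuadraticMap.polar_zero_left _ _
  | add a b _ _ ha hb => rw [QuadraticMap.polar_add_left, ha, hb, add_zero]
  | smul c a _ ha => rw [QuadraticMap.polar_smul_left, ha, smul_zero]

theorem hp_of_mem_orth_X6 {u y w x : ι → F}
    (h : x ∈ LinearMap.BilinForm.orthogonal (QuadraticMap.polarBilin Q) (X6 J u y w)) :
    hp Q J x u ∧ hp Q J x y ∧ hp Q J x w := by
  have h' := LinearMap.BilinForm.mem_orthogonal_iff.mp h
  have k : ∀ g ∈ ({u, J u, y, J y, w, J w} : Set (ι → F)),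
      QuadraticMap.polar (⇑Q) x g = 0 := by
    intro g hg
    rw [QuadraticMap.polar_comm]
    exact h' g (Submodule.subset_span hg)
  exact ⟨⟨k u (by simp), k (J u) (by simp)⟩, ⟨k y (by simp), k (J y) (by simp)⟩,
    ⟨k w (by simp), k (J w) (by simp)⟩⟩

theorem finrank_X6_le (J : (ι → F) →ₗ[F] (ι → F)) (u y w : ι → F) :
    finrank F (X6 J u y w) ≤ 6 := by
  classical
  have h := finrank_span_finset_le_card (R := F)
    ({u, J u, y, J y, w, J w} : Finset (ι → F))
  have h2 : (({u, J u, y, J y, w, J w} : Finset (ι → F)) : Set (ι → F))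
      = {u, J u, y, J y, w, J w} := by
    simp
  rw [h2] at h
  exact h.trans Finset.card_le_six

end

theorem hperp (hInd : StInd.{u}) (hGP : StGP.{u}) (hK : StKappa.{u}) : StHperp.{u} := by
  intro ι _ _ F _ _ Q J t N C M hT u y₀ hu0 hu hy₀ hD hyu hnK
  obtain ⟨w₁, hw₁, h1u, h1Ju, h1y, h1Jy⟩ := (hGP Q J t N C u hu0).2 y₀ hnK 0 0 1 0
  have hpw₁u : hp Q J w₁ u := ⟨h1u, h1Ju⟩
  have hnw₁y : ¬ hp Q J w₁ y₀ := by
    intro h
    have h0 := h.1
    rw [h1y] at h0
    exact one_ne_zero h0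
  -- singular vectors of the perp of `X6` are Eichler directions
  have hA : ∀ z ∈ LinearMap.BilinForm.orthogonal (QuadraticMap.polarBilin Q) (X6 J u y₀ w₁),
      Q z = 0 → eichDir Q M u z := by
    intro w₂ hmem hw₂
    obtain ⟨k1, k2, k3⟩ := hp_of_mem_orth_X6 hmem
    exact hK Q J t N C M hT u y₀ w₁ w₂ hu hD hw₁ hw₂ hpw₁u k1 (hp_symm C k3) k2 hnw₁y
  -- a hyperbolic pair in the perp
  have hy₀X : y₀ ∈ X6 J u y₀ w₁ := Submodule.subset_span (by simp)
  have hw₁X : w₁ ∈ X6 J u y₀ w₁ := Submodule.subset_span (by simp)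
  have hlt : X6 J u y₀ w₁ ⊓ LinearMap.BilinForm.orthogonal (QuadraticMap.polarBilin Q)
      (X6 J u y₀ w₁) < X6 J u y₀ w₁ := by
    refine lt_of_le_of_ne inf_le_left ?_
    intro heq
    have h1 : y₀ ∈ X6 J u y₀ w₁ ⊓ LinearMap.BilinForm.orthogonal (QuadraticMap.polarBilin Q)
        (X6 J u y₀ w₁) := by
      rw [heq]
      exact hy₀X
    have h2 : QuadraticMap.polar (⇑Q) w₁ y₀ = 0 :=
      (LinearMap.BilinForm.mem_orthogonal_iff.mp h1.2) w₁ hw₁X
    rw [h1y] at h2
    exact one_ne_zero h2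
  have hfr := Submodule.finrank_lt_finrank_of_lt hlt
  have h6 := finrank_X6_le J u y₀ w₁
  have hdim : finrank F (ι → F) = Fintype.card ι := Module.finrank_fintype_fun_eq_card F
  have h14 := C.dim
  obtain ⟨e, e', he, he', hee, heX, he'X⟩ := exists_hyp_pair_orth' Q C.nd (X6 J u y₀ w₁)
    (by omega)
  have heA : e ∈ LinearMap.BilinForm.orthogonal (QuadraticMap.polarBilin Q) (X6 J u y₀ w₁) :=
    LinearMap.BilinForm.mem_orthogonal_iff.mpr heX
  have he'A : e' ∈ LinearMap.BilinForm.orthogonal (QuadraticMap.polarBilin Q) (X6 J u y₀ w₁) :=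
    LinearMap.BilinForm.mem_orthogonal_iff.mpr he'X
  have hAll : ∀ a ∈ LinearMap.BilinForm.orthogonal (QuadraticMap.polarBilin Q) (X6 J u y₀ w₁),
      eichDir Q M u a :=
    fun a ha => eichDir_of_mem Q M u hu _ e e' heA he'A he he' hee hA a ha
  obtain ⟨ke1, ke2, ke3⟩ := hp_of_mem_orth_X6 heA
  obtain ⟨ke'1, ke'2, ke'3⟩ := hp_of_mem_orth_X6 he'A
  have hDe : eichDir Q M u e := hA e heA he
  have hne'e : ¬ hp Q J e' e := by
    intro h
    have h0 := h.1
    rw [QuadraticMap.polar_comm, hee] at h0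
    exact one_ne_zero h0
  -- the remaining four generators are Eichler directions
  have hDJy : eichDir Q M u (J y₀) :=
    hK Q J t N C M hT u e e' (J y₀) hu hDe he' (C.sing_J hy₀) ke'1 (hp_J_left C hyu)
      (hp_J_right C ke'2) (hp_J_left C (hp_symm C ke2)) hne'e
  have hDw : eichDir Q M u w₁ :=
    hK Q J t N C M hT u e e' w₁ hu hDe he' hw₁ ke'1 hpw₁u ke'3 (hp_symm C ke3) hne'e
  have hDJw : eichDir Q M u (J w₁) :=
    hK Q J t N C M hT u e e' (J w₁) hu hDe he' (C.sing_J hw₁) ke'1 (hp_J_left C hpw₁u)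
      (hp_J_right C ke'3) (hp_J_left C (hp_symm C ke3)) hne'e
  -- the table of inner products
  have hN := C.N_ne
  have T1 : QuadraticMap.polar (⇑Q) y₀ y₀ = 0 := pol_self Q hy₀
  have T5 : QuadraticMap.polar (⇑Q) y₀ (J y₀) = 0 := C.pol_self_J hy₀
  have T2 : QuadraticMap.polar (⇑Q) (J y₀) y₀ = 0 := by rw [QuadraticMap.polar_comm]; exact T5
  have T3 : QuadraticMap.polar (⇑Q) w₁ y₀ = 1 := h1y
  have T7 : QuadraticMap.polar (⇑Q) w₁ (J y₀) = 0 := h1Jy
  have T4 : QuadraticMap.polar (⇑Q) (J w₁) y₀ = t := by rw [C.adj, T3, T7]; ring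
  have T6 : QuadraticMap.polar (⇑Q) (J y₀) (J y₀) = 0 := by rw [C.polJJ, T1, mul_zero]
  have T8 : QuadraticMap.polar (⇑Q) (J w₁) (J y₀) = N := by rw [C.polJJ, T3, mul_one]
  have T9 : QuadraticMap.polar (⇑Q) y₀ w₁ = 1 := by rw [QuadraticMap.polar_comm]; exact T3
  have T10 : QuadraticMap.polar (⇑Q) (J y₀) w₁ = 0 := by rw [QuadraticMap.polar_comm]; exact T7
  have T11 : QuadraticMap.polar (⇑Q) w₁ w₁ = 0 := pol_self Q hw₁
  have T15 : QuadraticMap.polar (⇑Q) w₁ (J w₁) = 0 := C.pol_self_J hw₁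
  have T12 : QuadraticMap.polar (⇑Q) (J w₁) w₁ = 0 := by rw [QuadraticMap.polar_comm]; exact T15
  have T13 : QuadraticMap.polar (⇑Q) y₀ (J w₁) = t := by rw [QuadraticMap.polar_comm]; exact T4
  have T14 : QuadraticMap.polar (⇑Q) (J y₀) (J w₁) = N := by rw [C.polJJ, T9, mul_one]
  have T16 : QuadraticMap.polar (⇑Q) (J w₁) (J w₁) = 0 := by rw [C.polJJ, T11, mul_zero]
  have U1 : QuadraticMap.polar (⇑Q) y₀ u = 0 := hyu.1
  have U2 : QuadraticMap.polar (⇑Q) y₀ (J u) = 0 := hyu.2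
  have U3 : QuadraticMap.polar (⇑Q) (J y₀) u = 0 := (hp_J_left C hyu).1
  have U4 : QuadraticMap.polar (⇑Q) (J y₀) (J u) = 0 := (hp_J_left C hyu).2
  have U5 : QuadraticMap.polar (⇑Q) w₁ u = 0 := h1u
  have U6 : QuadraticMap.polar (⇑Q) w₁ (J u) = 0 := h1Ju
  have U7 : QuadraticMap.polar (⇑Q) (J w₁) u = 0 := (hp_J_left C hpw₁u).1
  have U8 : QuadraticMap.polar (⇑Q) (J w₁) (J u) = 0 := (hp_J_left C hpw₁u).2
  -- the decomposition
  intro z hz
  obtain ⟨d, hd⟩ : ∃ d : F, d = QuadraticMap.polar (⇑Q) z (J y₀) / N := ⟨_, rfl⟩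
  obtain ⟨c, hc⟩ : ∃ c : F, c = QuadraticMap.polar (⇑Q) z y₀ - d * t := ⟨_, rfl⟩
  obtain ⟨a, ha⟩ : ∃ a : F, a = QuadraticMap.polar (⇑Q) z w₁ := ⟨_, rfl⟩
  obtain ⟨b, hb⟩ : ∃ b : F, b = (QuadraticMap.polar (⇑Q) z (J w₁) - a * t) / N := ⟨_, rfl⟩
  obtain ⟨z'', hz''⟩ : ∃ z'' : ι → F, z'' = z - a • y₀ - b • J y₀ - c • w₁ - d • J w₁ :=
    ⟨_, rfl⟩
  have hz''mem : z'' ∈ LinearMap.BilinForm.orthogonal (QuadraticMap.polarBilin Q)
      (X6 J u y₀ w₁) := by
    apply mem_orth_X6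
    · constructor
      · rw [hz'']
        simp only [QuadraticMap.polar_sub_left, QuadraticMap.polar_smul_left, smul_eq_mul,
          hz.1, U1, U3, U5, U7]
        ring
      · rw [hz'']
        simp only [QuadraticMap.polar_sub_left, QuadraticMap.polar_smul_left, smul_eq_mul,
          hz.2, U2, U4, U6, U8]
        ring
    · constructor
      · rw [hz'']
        simp only [QuadraticMap.polar_sub_left, QuadraticMap.polar_smul_left, smul_eq_mul,
          T1, T2, T3, T4]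
        rw [hc]
        ring
      · rw [hz'']
        simp only [QuadraticMap.polar_sub_left, QuadraticMap.polar_smul_left, smul_eq_mul,
          T5, T6, T7, T8]
        rw [hd]
        field_simp
        ring
    · constructor
      · rw [hz'']
        simp only [QuadraticMap.polar_sub_left, QuadraticMap.polar_smul_left, smul_eq_mul,
          T9, T10, T11, T12]
        rw [ha]
        ring
      · rw [hz'']
        simp only [QuadraticMap.polar_sub_left, QuadraticMap.polar_smul_left, smul_eq_mul,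
          T13, T14, T15, T16]
        rw [hb]
        field_simp
        ring
  have e1 : z = z'' + a • y₀ + b • J y₀ + c • w₁ + d • J w₁ := by
    rw [hz'']
    module
  rw [e1]
  exact eichDir_add Q M u _ _ hu (eichDir_add Q M u _ _ hu (eichDir_add Q M u _ _ hu
    (eichDir_add Q M u _ _ hu (hAll z'' hz''mem) (eichDir_smul Q M u y₀ a hD))
    (eichDir_smul Q M u (J y₀) b hDJy)) (eichDir_smul Q M u w₁ c hDw))
    (eichDir_smul Q M u (J w₁) d hDJw)

example (hInd : Cfsg.Agent.H96.Gu.StInd.{u}) (hGP : Cfsg.Agent.H96.Gu.StGP.{u})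
    (hK : Cfsg.Agent.H96.Gu.StKappa.{u}) : Cfsg.Agent.H96.Gu.StHperp.{u} := hperp hInd hGP hK

end Cfsg.Agent.H49.Gu

#print axioms Cfsg.Agent.H49.Gu.hperp
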