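import Mathlib
import Cfsg.Agent.H49.MinusFrob
import Cfsg.Agent.H49.TwoAut
import Cfsg.Agent.H49.SimInst
import Cfsg.Agent.H49.AutInst

set_option autoImplicit false
set_option linter.unusedSectionVars false
set_option linter.unusedSimpArgs false
set_option linter.unusedVariables false
set_option linter.style.haveILetI false

/-! Helper lemmas (helper49): the order of `Aut(PΩ⁻_{2m}(q))`. -/

namespace Cfsg.Agent.H49

open Module Matrix

section Grp
variable {A B : Type*} [Group A] [Group B]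

theorem relIndex_of_hom (P N : Subgroup A) (φ : ↥P →* B) (hs : Function.Surjective φ)
    (hk : φ.ker = N.subgroupOf P) : N.relIndex P = Nat.card B := by
  rw [Subgroup.relIndex, ← hk, Subgroup.index_ker, MonoidHom.range_eq_top.mpr hs,
    Subgroup.card_top]

end Grp

theorem minus_parity_iff (k q : ℕ) (hq : Odd q) :
    Even ((k + 1) * (q - 1) / 2) ↔ ¬ (Even k ∧ q % 4 = 3) := by
  obtain ⟨t, rfl⟩ := hq
  have e : (k + 1) * (2 * t + 1 - 1) / 2 = (k + 1) * t := by
    rw [Nat.add_sub_cancel, Nat.mul_left_comm, Nat.mul_div_cancel_left _ (by norm_num : 0 < 2)]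
  rw [e, Nat.even_mul, Nat.even_add_one, Nat.even_iff (n := t)]
  by_cases hk : Even k
  · simp only [hk, not_true_eq_false, false_or, true_and]
    omega
  · simp only [hk, not_false_eq_true, true_or, false_and]

section
variable {F : Type*} [Field F] [Fintype F]

/-- Every field automorphism occurs in a semisimilarity of the minus-type form. -/
theorem pair_minus_sigma (m : ℕ) (a b : F)
    (hab : ∀ z₁ z₂ : F, z₁ ^ 2 + a * z₁ * z₂ + b * z₂ ^ 2 = 0 → z₁ = 0 ∧ z₂ = 0)
    (p f : ℕ) [Fact p.Prime] (hf : 1 ≤ f) (hF : Fintype.card F = p ^ f) (σ : F ≃+* F) :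
    ∃ g : Matrix.GeneralLinearGroup ((Fin m ⊕ Fin m) ⊕ Fin 2) F,
      Cfsg.IsSemisimilarityPair (Cfsg.quadFormMinus m F a b) g σ := by
  classical
  haveI := charP_of_card_pow hF
  obtain ⟨u, w, hw, hpair, -⟩ := frob_pow_induced m a b hab p f hf hF
  obtain ⟨S, hS⟩ : ∃ S : Subgroup (RingAut F), ∀ τ : RingAut F, τ ∈ S ↔
      ∃ g : Matrix.GeneralLinearGroup ((Fin m ⊕ Fin m) ⊕ Fin 2) F,
        Cfsg.IsSemisimilarityPair (Cfsg.quadFormMinus m F a b) g τ := by
    refine ⟨{ carrier := setOf (fun τ : RingAut F =>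
        ∃ g : Matrix.GeneralLinearGroup ((Fin m ⊕ Fin m) ⊕ Fin 2) F,
          Cfsg.IsSemisimilarityPair (Cfsg.quadFormMinus m F a b) g τ)
              mul_mem' := ?_
              one_mem' := ⟨1, pair_one _⟩
              inv_mem' := ?_ }, fun τ => Iff.rfl⟩
    · rintro σ₁ σ₂ ⟨g₁, h₁⟩ ⟨g₂, h₂⟩
      exact ⟨_, pair_mul h₁ h₂⟩
    · rintro σ₁ ⟨g₁, h₁⟩
      exact ⟨_, pair_inv h₁⟩
  have hfr : (frobeniusEquiv F p : RingAut F) ∈ S := (hS _).mpr ⟨_, hpair⟩
  have hall := (ringAut_frob (F := F) p f hf hF).1 σ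
  have hle : Subgroup.zpowers (frobeniusEquiv F p : RingAut F) ≤ S := by
    rw [Subgroup.zpowers_le]
    exact hfr
  exact (hS σ).mp (hle hall)

set_option maxHeartbeats 1600000 in
/-- `|Aut(PΩ⁻_{2m}(q))|`. -/
theorem card_aut_minus (p f : ℕ) [Fact p.Prime] (hf : 1 ≤ f) (hF : Fintype.card F = p ^ f)
    (m : ℕ) (hm : 4 ≤ m) (a b : F)
    (hab : ∀ z₁ z₂ : F, z₁ ^ 2 + a * z₁ * z₂ + b * z₂ ^ 2 = 0 → z₁ = 0 ∧ z₂ = 0) :
    Nat.card (MulAut (Cfsg.POmega F (Cfsg.quadFormMinus (m - 1) F a b)))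
      = (if p = 2 then 2 else (if Even (m * (p ^ f - 1) / 2) then 4 else 8)) * f
        * Nat.card (Cfsg.POmega F (Cfsg.quadFormMinus (m - 1) F a b)) := by
  classical
  obtain ⟨k, rfl⟩ : ∃ k, m = k + 1 := ⟨m - 1, by omega⟩
  rw [Nat.add_sub_cancel]
  have hk : 3 ≤ k := by omega
  haveI := charP_of_card_pow hF
  have hd := disc_ne_zero_of_aniso a b hab
  have hQ := QMin_nondeg k a b hd
  have h3 := hasTS3_QMin (F := F) k hk a b
  have hV : finrank F ((Fin k ⊕ Fin k) ⊕ Fin 2 → F) = 2 * (k + 1) := by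
    rw [Module.finrank_fintype_fun_eq_card]
    simp
    ring
  have htop : ∀ β : MulAut (Cfsg.POmega F (⇑(QMin k F a b))),
      β ∈ Cfsg.gammaPOmega F (⇑(QMin k F a b)) := by
    intro β
    have ht : Cfsg.gammaPOmega F (⇑(QMin k F a b)) = ⊤ := gamma_top_minus hk a b hab
    rw [ht]
    exact Subgroup.mem_top β
  have key := card_aut_eq (QMin k F a b) hQ h3 htop
    (fun σ => pair_minus_sigma k a b hab p f hf hF σ)
  rw [(ringAut_card p f hf hF).2] at key
  have hidx : (Cfsg.Inn (Cfsg.POmega F (⇑(QMin k F a b)))).relIndex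
      (Cfsg.pgoAut F (⇑(QMin k F a b)))
      = (if p = 2 then 2 else (if Even ((k + 1) * (p ^ f - 1) / 2) then 4 else 8)) := by
    by_cases hp2 : p = 2
    · rw [if_pos hp2]
      subst hp2
      have h2 : (2 : F) = 0 := by
        have := CharP.cast_eq_zero F 2
        exact_mod_cast this
      exact relIndex_inn_pgoAut_two (QMin k F a b) h2 hQ h3 hV (Or.inr (by omega))
    · rw [if_neg hp2]
      have hpodd : Odd p := (Fact.out : p.Prime).odd_of_ne_two hp2
      have hodd : Odd (Fintype.card F) := by rw [hF]; exact hpodd.pow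
      have hpar := minus_parity_iff k (p ^ f) (by rw [← hF]; exact hodd)
      obtain ⟨c1, c2⟩ := minus_pgo_inn hodd hk a b hab
      by_cases hc : Even k ∧ Fintype.card F % 4 = 3
      · have hne : ¬ Even ((k + 1) * (p ^ f - 1) / 2) := by
          rw [hpar, ← hF]
          exact fun h => h hc
        rw [if_neg hne]
        obtain ⟨φ, hs, hker⟩ := c1 hc
        have := relIndex_of_hom _ _ φ hs hker
        rw [DihedralGroup.nat_card] at this
        exact this
      · have he : Even ((k + 1) * (p ^ f - 1) / 2) := by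
          rw [hpar, ← hF]
          exact hc
        rw [if_pos he]
        obtain ⟨φ, hs, hker⟩ := c2 hc
        have := relIndex_of_hom _ _ φ hs hker
        rw [Nat.card_eq_fintype_card] at this
        exact this
  rw [card_pgoAut_of_relIndex (QMin k F a b) hQ h3 _ hidx] at key
  have key' : Nat.card (MulAut (Cfsg.POmega F (Cfsg.quadFormMinus k F a b)))
      = (if p = 2 then 2 else (if Even ((k + 1) * (p ^ f - 1) / 2) then 4 else 8))
        * Nat.card (Cfsg.POmega F (Cfsg.quadFormMinus k F a b)) * f := key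
  rw [key']
  ring

end

end Cfsg.Agent.H49
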