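import Mathlib
import Cfsg.Agent.H49.MinusCentFin

set_option autoImplicit false
set_option linter.unusedSectionVars false
set_option linter.unusedSimpArgs false
set_option linter.unusedVariables false

/-! Helper lemmas (helper49): field automorphisms of prime order of the minus-type orthogonal
groups: the order is odd and divides `f`, the centraliser in the inner-diagonal group is the
inner-diagonal group over the fixed field, and the class does not split. -/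

namespace Cfsg.Agent.H49

open Module Matrix GalDesc

section
universe u₀ u
variable {F : Type u} [Field F] [Fintype F]

set_option maxHeartbeats 3200000 in
theorem minus_field_cent_Q {p f : ℕ} [Fact p.Prime] (hF : Fintype.card F = p ^ f) (hf : 1 ≤ f)
    {m : ℕ} (hm : 3 ≤ m) (a b : F)
    (hab : ∀ z₁ z₂ : F, z₁ ^ 2 + a * z₁ * z₂ + b * z₂ ^ 2 = 0 → z₁ = 0 ∧ z₂ = 0)
    (x : MulAut (Cfsg.POmega F (⇑(QMin m F a b))))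
    (a' b' : F) (ψ : Cfsg.POmega F (⇑(QMin m F a b)) ≃* Cfsg.POmega F (⇑(QMin m F a' b')))
    (σ : F ≃+* F)
    (hab' : ∀ z₁ z₂ : F, z₁ ^ 2 + a' * z₁ * z₂ + b' * z₂ ^ 2 = 0 → z₁ = 0 ∧ z₂ = 0)
    (hσ : σ ≠ RingEquiv.refl F) (ha' : σ a' = a') (hb' : σ b' = b')
    (hφ : Cfsg.IsFieldAutPOmegaOf (⇑(QMin m F a' b')) σ ((ψ.symm.trans x).trans ψ))
    {r : ℕ} (hr : r.Prime) (hxr : orderOf x = r)
    (F₀ : Type u₀) [Field F₀] [Fintype F₀] (hF₀ : Fintype.card F₀ = p ^ (f / r)) :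
    Odd r ∧ r ∣ f ∧
    (∃ a₀ b₀ : F₀, (∀ z₁ z₂ : F₀, z₁ ^ 2 + a₀ * z₁ * z₂ + b₀ * z₂ ^ 2 = 0 → z₁ = 0 ∧ z₂ = 0) ∧
      Nonempty (↥((Cfsg.autSubgroupOf (fun β : Cfsg.POmega F (⇑(QMin m F a b)) ≃* Cfsg.POmega F (⇑(QMin m F a b)) =>
        ∃ g : Matrix.GeneralLinearGroup ((Fin m ⊕ Fin m) ⊕ Fin 2) F, g ∈ Cfsg.Geo.quadSimilarityGroup (⇑(QMin m F a b)) ∧
          Cfsg.PreservesSingularClassesMinus m a b (g : Matrix ((Fin m ⊕ Fin m) ⊕ Fin 2) ((Fin m ⊕ Fin m) ⊕ Fin 2) F) ∧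
          Cfsg.IsInducedBySemilinearPOmega (⇑(QMin m F a b)) g (RingEquiv.refl F) β)) ⊓ Subgroup.centralizer {x}) ≃* ↥((Cfsg.autSubgroupOf (fun β : Cfsg.POmega F₀ (⇑(QMin m F₀ a₀ b₀)) ≃* Cfsg.POmega F₀ (⇑(QMin m F₀ a₀ b₀)) =>
        ∃ g : Matrix.GeneralLinearGroup ((Fin m ⊕ Fin m) ⊕ Fin 2) F₀, g ∈ Cfsg.Geo.quadSimilarityGroup (⇑(QMin m F₀ a₀ b₀)) ∧
          Cfsg.PreservesSingularClassesMinus m a₀ b₀ (g : Matrix ((Fin m ⊕ Fin m) ⊕ Fin 2) ((Fin m ⊕ Fin m) ⊕ Fin 2) F₀) ∧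
          Cfsg.IsInducedBySemilinearPOmega (⇑(QMin m F₀ a₀ b₀)) g (RingEquiv.refl F₀) β))))) ∧
    Cfsg.splitClassCount (Cfsg.autSubgroupOf (fun β : Cfsg.POmega F (⇑(QMin m F a b)) ≃* Cfsg.POmega F (⇑(QMin m F a b)) =>
        ∃ g : Matrix.GeneralLinearGroup ((Fin m ⊕ Fin m) ⊕ Fin 2) F, g ∈ Cfsg.Geo.quadSimilarityGroup (⇑(QMin m F a b)) ∧
          Cfsg.PreservesSingularClassesMinus m a b (g : Matrix ((Fin m ⊕ Fin m) ⊕ Fin 2) ((Fin m ⊕ Fin m) ⊕ Fin 2) F) ∧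
          Cfsg.IsInducedBySemilinearPOmega (⇑(QMin m F a b)) g (RingEquiv.refl F) β)) (Cfsg.Inn (Cfsg.POmega F (⇑(QMin m F a b)))) x = 1 := by
  classical
  have hd := disc_ne_zero_of_aniso a b hab
  have hQ := QMin_nondeg m a b hd
  have h3 := hasTS3_QMin (F := F) m hm a b
  have hne := QMin_ne m a b
  have hm2 : 2 ≤ m := by omega
  have htop : ∀ β : MulAut (Cfsg.POmega F (⇑(QMin m F a b))),
      β ∈ Cfsg.gammaPOmega F (⇑(QMin m F a b)) := by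
    intro β
    have ht : Cfsg.gammaPOmega F (⇑(QMin m F a b)) = ⊤ := gamma_top_minus hm a b hab
    rw [ht]
    exact Subgroup.mem_top β
  have : Fact r.Prime := ⟨hr⟩
  obtain ⟨Ψ, hΨ⟩ := exists_sigHom (QMin m F a b) hQ h3 htop
  have hker := sigHom_ker (QMin m F a b) htop Ψ hΨ
  obtain ⟨R, τ, hpR, hiR⟩ := exists_pair_of_mem_gamma (⇑(QMin m F a b)) x (htop x)
  have hΨx : Ψ x = τ := hΨ x R τ hpR hiR
  have hnp := field_class_not_pgo hm a b hab x a' b' ψ σ hab' hσ ha' hb' hφ hr hxr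
  have hτ1 : (τ : RingAut F) ≠ 1 := by
    intro h
    apply hnp
    rw [← hker, MonoidHom.mem_ker, hΨx]
    exact h
  have hxr1 : x ^ r = 1 := by rw [← hxr]; exact pow_orderOf_eq_one x
  have hτr : (τ : RingAut F) ^ r = 1 := by rw [← hΨx, ← map_pow, hxr1, map_one]
  have hord : orderOf (τ : RingAut F) = r := orderOf_eq_prime hτr hτ1
  have hr2 : r ≠ 2 := field_class_ne_two hm a b x a' b' ψ σ hab' hσ ha' hb' hφ hr hxr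
  have hrodd : Odd r := hr.eq_two_or_odd'.resolve_left hr2
  have hrf : r ∣ f := by
    have hc := (ringAut_card (F := F) p f hf hF).2
    rw [← hc, ← hord]
    exact orderOf_dvd_natCard _
  obtain ⟨P₁, t₁, ht₁, hP₁⟩ := exists_lang_of_pow (QMin m F a b) hQ h3 hne τ hord hr.pos R
    hpR hiR hxr1
  obtain ⟨c₁, hc₁⟩ := id hpR
  obtain ⟨A₁, hA₁⟩ : ∃ A₁ : Matrix.GeneralLinearGroup ((Fin m ⊕ Fin m) ⊕ Fin 2) F,
      A₁ = scalGL ((Fin m ⊕ Fin m) ⊕ Fin 2) (Units.mk0 t₁ ht₁) * R := ⟨_, rfl⟩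
  have hA₁val : (A₁ : Matrix ((Fin m ⊕ Fin m) ⊕ Fin 2) ((Fin m ⊕ Fin m) ⊕ Fin 2) F) = t₁ • (R : Matrix ((Fin m ⊕ Fin m) ⊕ Fin 2) ((Fin m ⊕ Fin m) ⊕ Fin 2) F) := by
    rw [hA₁, Units.val_mul, scalGL_coe, Matrix.smul_mul, Matrix.one_mul]
    rfl
  have hA₁p : ∀ v : ((Fin m ⊕ Fin m) ⊕ Fin 2) → F, QMin m F a b ((A₁ : Matrix ((Fin m ⊕ Fin m) ⊕ Fin 2) ((Fin m ⊕ Fin m) ⊕ Fin 2) F) *ᵥ (fun i => τ (v i)))
      = (t₁ * t₁ * c₁) * τ (QMin m F a b v) := by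
    intro v
    have h1 := hc₁ v
    rw [hA₁val, Matrix.smul_mulVec, QuadraticMap.map_smul, smul_eq_mul]
    rw [show QMin m F a b ((R : Matrix ((Fin m ⊕ Fin m) ⊕ Fin 2) ((Fin m ⊕ Fin m) ⊕ Fin 2) F) *ᵥ fun i => τ (v i))
      = (c₁ : F) * τ (QMin m F a b v) from h1]
    ring
  have hPA₁ : (A₁ : Matrix ((Fin m ⊕ Fin m) ⊕ Fin 2) ((Fin m ⊕ Fin m) ⊕ Fin 2) F) * (P₁ : Matrix ((Fin m ⊕ Fin m) ⊕ Fin 2) ((Fin m ⊕ Fin m) ⊕ Fin 2) F).map τ = (P₁ : Matrix ((Fin m ⊕ Fin m) ⊕ Fin 2) ((Fin m ⊕ Fin m) ⊕ Fin 2) F) := by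
    rw [hA₁val]
    exact hP₁
  obtain ⟨ζ, P', e, hτζ, he, habζ, hP', hL⟩ := exists_std_model a b hab τ hord hr.pos A₁
    (t₁ * t₁ * c₁) hA₁p P₁ hPA₁
  obtain ⟨j, hj⟩ := exists_emb_fix hF τ hord hr.pos F₀ hF₀
  obtain ⟨b₀, hb₀⟩ := (hj ζ).mp hτζ
  have hab₁ : ∀ z₁ z₂ : F, z₁ ^ 2 + j 1 * z₁ * z₂ + j b₀ * z₂ ^ 2 = 0 → z₁ = 0 ∧ z₂ = 0 := by
    rw [map_one, hb₀]
    exact habζ
  have hab₀ : ∀ z₁ z₂ : F₀, z₁ ^ 2 + 1 * z₁ * z₂ + b₀ * z₂ ^ 2 = 0 → z₁ = 0 ∧ z₂ = 0 := by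
    intro z₁ z₂ hz
    have h1 := hab₁ (j z₁) (j z₂) (by
      rw [← map_pow, ← map_mul, ← map_mul, ← map_pow, ← map_mul, ← map_add, ← map_add, hz,
        map_zero])
    exact ⟨(map_eq_zero j).mp h1.1, (map_eq_zero j).mp h1.2⟩
  have hP'' : ∀ v, (⇑(QMin m F a b)) ((P' : Matrix ((Fin m ⊕ Fin m) ⊕ Fin 2) ((Fin m ⊕ Fin m) ⊕ Fin 2) F) *ᵥ v)
      = e * (⇑(QMin m F (j 1) (j b₀))) v := by
    rw [map_one, hb₀]
    exact hP'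
  have hL' : (t₁ • (R : Matrix ((Fin m ⊕ Fin m) ⊕ Fin 2) ((Fin m ⊕ Fin m) ⊕ Fin 2) F)) * (P' : Matrix ((Fin m ⊕ Fin m) ⊕ Fin 2) ((Fin m ⊕ Fin m) ⊕ Fin 2) F).map τ = (P' : Matrix ((Fin m ⊕ Fin m) ⊕ Fin 2) ((Fin m ⊕ Fin m) ⊕ Fin 2) F) := by
    rw [← hA₁val]
    exact hL
  obtain ⟨c, hc⟩ : ∃ c : Cfsg.POmega F (⇑(QMin m F (j 1) (j b₀))) ≃* Cfsg.POmega F (⇑(QMin m F a b)),
      c = pomegaT (⇑(QMin m F (j 1) (j b₀))) (⇑(QMin m F a b)) P' e he hP'' := ⟨_, rfl⟩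
  have hi1 : Cfsg.IsInducedBySemilinearPOmega (⇑(QMin m F (j 1) (j b₀)))
      (1 : Matrix.GeneralLinearGroup ((Fin m ⊕ Fin m) ⊕ Fin 2) F) τ ((MulAut.congr c).symm x) := by
    rw [hc]
    exact induced_std_of_lang _ _ P' e he hP'' hiR t₁ ht₁ hL'
  obtain ⟨hiso, hsup⟩ := minus_std_cent j hm 1 b₀ hab₀ hab₁ τ hord hrodd hj
    ((MulAut.congr c).symm x) hi1
  have hDmem : ∀ y : MulAut (Cfsg.POmega F (⇑(QMin m F a b))),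
      y ∈ (Cfsg.autSubgroupOf (fun β : Cfsg.POmega F (⇑(QMin m F a b)) ≃* Cfsg.POmega F (⇑(QMin m F a b)) =>
        ∃ g : Matrix.GeneralLinearGroup ((Fin m ⊕ Fin m) ⊕ Fin 2) F, g ∈ Cfsg.Geo.quadSimilarityGroup (⇑(QMin m F a b)) ∧
          Cfsg.PreservesSingularClassesMinus m a b (g : Matrix ((Fin m ⊕ Fin m) ⊕ Fin 2) ((Fin m ⊕ Fin m) ⊕ Fin 2) F) ∧
          Cfsg.IsInducedBySemilinearPOmega (⇑(QMin m F a b)) g (RingEquiv.refl F) β)) ↔ (MulAut.congr c).symm y ∈ (Cfsg.autSubgroupOf (fun β : Cfsg.POmega F (⇑(QMin m F (j 1) (j b₀))) ≃* Cfsg.POmega F (⇑(QMin m F (j 1) (j b₀))) =>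
        ∃ g : Matrix.GeneralLinearGroup ((Fin m ⊕ Fin m) ⊕ Fin 2) F, g ∈ Cfsg.Geo.quadSimilarityGroup (⇑(QMin m F (j 1) (j b₀))) ∧
          Cfsg.PreservesSingularClassesMinus m (j 1) (j b₀) (g : Matrix ((Fin m ⊕ Fin m) ⊕ Fin 2) ((Fin m ⊕ Fin m) ⊕ Fin 2) F) ∧
          Cfsg.IsInducedBySemilinearPOmega (⇑(QMin m F (j 1) (j b₀))) g (RingEquiv.refl F) β)) := by
    intro y
    rw [hc]
    exact minus_inndiag_transport hm2 a b (j 1) (j b₀) hab hab₁ P' e he hP'' y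
  have hInn : ∀ z ∈ Cfsg.Inn (Cfsg.POmega F (⇑(QMin m F (j 1) (j b₀)))),
      (MulAut.congr c).symm.symm z ∈ Cfsg.Inn (Cfsg.POmega F (⇑(QMin m F a b))) := by
    rintro _ ⟨k, rfl⟩
    exact ⟨c k, (congr_conj c k).symm⟩
  obtain ⟨χ, hχ, -, -⟩ := exists_minusPres m hm2 a b hab
  have hInnD : Cfsg.Inn (Cfsg.POmega F (⇑(QMin m F a b))) ≤ (Cfsg.autSubgroupOf (fun β : Cfsg.POmega F (⇑(QMin m F a b)) ≃* Cfsg.POmega F (⇑(QMin m F a b)) =>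
        ∃ g : Matrix.GeneralLinearGroup ((Fin m ⊕ Fin m) ⊕ Fin 2) F, g ∈ Cfsg.Geo.quadSimilarityGroup (⇑(QMin m F a b)) ∧
          Cfsg.PreservesSingularClassesMinus m a b (g : Matrix ((Fin m ⊕ Fin m) ⊕ Fin 2) ((Fin m ⊕ Fin m) ⊕ Fin 2) F) ∧
          Cfsg.IsInducedBySemilinearPOmega (⇑(QMin m F a b)) g (RingEquiv.refl F) β)) := by
    rw [autSubgroupOf_pred_eq (⇑(QMin m F a b)) (Cfsg.PreservesSingularClassesMinus m a b) χ.ker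
      (fun g => by rw [MonoidHom.mem_ker]; exact (hχ g).symm)]
    rintro _ ⟨k, rfl⟩
    obtain ⟨s, rfl⟩ := QuotientGroup.mk_surjective k
    refine ⟨inclO (QMin m F a b) s.1, ?_, (conj_mk_eq (QMin m F a b) s).symm⟩
    exact Abelianization.commutator_subset_ker (χ.comp (inclO (QMin m F a b))) s.2
  refine ⟨hrodd, hrf, ⟨1, b₀, hab₀, ?_⟩, ?_⟩
  · obtain ⟨ε⟩ := transport_inf_equiv (MulAut.congr c).symm _ _ x hDmem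
    obtain ⟨ε'⟩ := hiso
    exact ⟨ε.trans ε'⟩
  · have hle := transport_sup (MulAut.congr c).symm _
      (Cfsg.Inn (Cfsg.POmega F (⇑(QMin m F a b)))) _
      (Cfsg.Inn (Cfsg.POmega F (⇑(QMin m F (j 1) (j b₀))))) x hDmem hInn hsup
    rw [splitClassCount_eq_relIndex _ _ hInnD x]
    exact Subgroup.relIndex_eq_one.mpr hle

set_option maxHeartbeats 3200000 in
/-- Field automorphisms of prime order of `PΩ⁻_{2m+2}(q)`, `m ≥ 3`. -/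
theorem minus_field_cent {p f : ℕ} [Fact p.Prime] (hF : Fintype.card F = p ^ f) (hf : 1 ≤ f)
    {m : ℕ} (hm : 3 ≤ m) (a b : F)
    (hab : ∀ z₁ z₂ : F, z₁ ^ 2 + a * z₁ * z₂ + b * z₂ ^ 2 = 0 → z₁ = 0 ∧ z₂ = 0)
    (x : MulAut (Cfsg.POmega F (Cfsg.quadFormMinus m F a b)))
    (hx : Cfsg.IsFieldAutClassPOmegaMinus m x) {r : ℕ} (hr : r.Prime) (hxr : orderOf x = r)
    (F₀ : Type u₀) [Field F₀] [Fintype F₀] (hF₀ : Fintype.card F₀ = p ^ (f / r)) :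
    Odd r ∧ r ∣ f ∧
    (∃ a₀ b₀ : F₀, (∀ z₁ z₂ : F₀, z₁ ^ 2 + a₀ * z₁ * z₂ + b₀ * z₂ ^ 2 = 0 → z₁ = 0 ∧ z₂ = 0) ∧
      Nonempty (↥(Cfsg.inndiagPOmegaMinus m F a b ⊓ Subgroup.centralizer {x})
        ≃* ↥(Cfsg.inndiagPOmegaMinus m F₀ a₀ b₀))) ∧
    Cfsg.splitClassCount (Cfsg.inndiagPOmegaMinus m F a b)
      (Cfsg.Inn (Cfsg.POmega F (Cfsg.quadFormMinus m F a b))) x = 1 := by
  obtain ⟨a', b', ψ, σ, hab', hσ, ha', hb', hφ⟩ := hx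
  have key := minus_field_cent_Q hF hf hm a b hab x a' b' ψ σ hab' hσ ha' hb' hφ hr hxr F₀ hF₀
  obtain ⟨k1, k2, ⟨a₀, b₀, k3, k4⟩, k5⟩ := key
  exact ⟨k1, k2, ⟨a₀, b₀, k3, k4⟩, k5⟩

end

end Cfsg.Agent.H49
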