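import Mathlib
import Cfsg.Agent.H49.MinusAut
import Cfsg.Agent.H49.AutOut3

set_option autoImplicit false
set_option linter.unusedSectionVars false
set_option linter.unusedSimpArgs false
set_option linter.unusedVariables false
set_option linter.style.haveILetI false

/-! Helper lemmas (helper49): the conjugation isometry `N` of the minus-type form (the `f`-th
power of the Frobenius semisimilarity) and `Out(PΩ⁻_{2m}(q))` for `q` even. -/

namespace Cfsg.Agent.H49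

open Module Matrix

section
variable {F : Type*} [Field F] [Fintype F]

theorem frobN_mem (m : ℕ) (a b : F) :
    frobG m a (-1 : F) (neg_ne_zero.mpr one_ne_zero)
      ∈ Cfsg.isometryGroup F (⇑(QMin m F a b)) := by
  rw [mem_isometryGroup_iff]
  intro v
  rw [frobG_mulVec, QMin_coe]
  unfold Cfsg.quadFormMinus
  simp only [Sum.elim_inl, Sum.elim_inr, Function.comp, Matrix.cons_val_zero, Matrix.cons_val_one,
    Matrix.cons_val_fin_one]
  ring

/-- The conjugation isometry of the minus-type form. -/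
noncomputable def frobN (m : ℕ) (a b : F) :
    ↥(Cfsg.isometryGroup F (⇑(QMin m F a b))) :=
  ⟨frobG m a (-1 : F) (neg_ne_zero.mpr one_ne_zero), frobN_mem m a b⟩

theorem frobN_det (m : ℕ) (a b : F) :
    (((frobN m a b : ↥(Cfsg.isometryGroup F (⇑(QMin m F a b)))) :
      Matrix.GeneralLinearGroup ((Fin m ⊕ Fin m) ⊕ Fin 2) F) :
      Matrix ((Fin m ⊕ Fin m) ⊕ Fin 2) ((Fin m ⊕ Fin m) ⊕ Fin 2) F).det = -1 := by
  show ((frobG m a (-1 : F) (neg_ne_zero.mpr one_ne_zero) :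
    Matrix.GeneralLinearGroup ((Fin m ⊕ Fin m) ⊕ Fin 2) F) :
    Matrix ((Fin m ⊕ Fin m) ⊕ Fin 2) ((Fin m ⊕ Fin m) ⊕ Fin 2) F).det = -1
  rw [frobG_coe, Matrix.det_fromBlocks_zero₁₂, Matrix.det_one, frobB_det, one_mul]

theorem act_frobN (m : ℕ) (a b : F) (x : (Fin m ⊕ Fin m) ⊕ Fin 2 → F) :
    act (frobN m a b) x
      = Sum.elim (x ∘ Sum.inl) ![x (Sum.inr 0) + a * x (Sum.inr 1), -1 * x (Sum.inr 1)] :=
  frobG_mulVec m a (-1) (neg_ne_zero.mpr one_ne_zero) x

theorem QMin_single (m : ℕ) (a b : F) [DecidableEq ((Fin m ⊕ Fin m) ⊕ Fin 2)] :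
    QMin m F a b (Pi.single (Sum.inr 0) 1) = 1 := by
  show sumQ (QP m F) (binQ a b) (Pi.single (Sum.inr 0) 1) = 1
  rw [sumQ_apply, binQ_apply]
  have h0 : (Pi.single (Sum.inr 0) 1 : (Fin m ⊕ Fin m) ⊕ Fin 2 → F) ∘ Sum.inl = 0 := by
    funext i
    simp
  rw [h0, QuadraticMap.map_zero]
  simp

/-- In characteristic two the conjugation is a reflection. -/
theorem frobN_eq_refl_two (m : ℕ) (a b : F) (h2 : (2 : F) = 0) :
    frobN m a b = reflG (QMin m F a b) (Pi.single (Sum.inr 0) 1) := by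
  classical
  apply act_ext
  intro x
  rw [act_frobN, act_reflG]
  have hQe : QMin m F a b (Pi.single (Sum.inr 0) 1) = 1 := by
    show sumQ (QP m F) (binQ a b) (Pi.single (Sum.inr 0) 1) = 1
    rw [sumQ_apply, binQ_apply]
    have h0 : (Pi.single (Sum.inr 0) 1 : (Fin m ⊕ Fin m) ⊕ Fin 2 → F) ∘ Sum.inl = 0 := by
      funext i
      simp
    rw [h0, QuadraticMap.map_zero]
    simp
  have hpol : QuadraticMap.polar (⇑(QMin m F a b)) (Pi.single (Sum.inr 0) 1) x
      = 2 * x (Sum.inr 0) + a * x (Sum.inr 1) := by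
    show QuadraticMap.polar (⇑(sumQ (QP m F) (binQ a b))) (Pi.single (Sum.inr 0) 1) x = _
    rw [polar_sumQ, polar_binQ]
    have h0 : (Pi.single (Sum.inr 0) 1 : (Fin m ⊕ Fin m) ⊕ Fin 2 → F) ∘ Sum.inl = 0 := by
      funext i
      simp
    rw [h0, QuadraticMap.polar_zero_left]
    simp
  rw [hQe, hpol, inv_one, one_mul]
  funext i
  rcases i with i | i
  · simp
  · fin_cases i
    · simp
      linear_combination (x (Sum.inr 0) + a * x (Sum.inr 1)) * h2
    · simp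
      linear_combination (-x (Sum.inr 1)) * h2

set_option maxHeartbeats 1600000 in
/-- `Out(PΩ⁻_{2m}(q))` is cyclic of order `2f` for `q = 2^f`. -/
theorem out_minus_two {f m : ℕ} (hf : 1 ≤ f) (hF : Fintype.card F = 2 ^ f) (hm : 4 ≤ m)
    (a b : F)
    (hab : ∀ z₁ z₂ : F, z₁ ^ 2 + a * z₁ * z₂ + b * z₂ ^ 2 = 0 → z₁ = 0 ∧ z₂ = 0) :
    IsCyclic (Cfsg.Out (Cfsg.POmega F (Cfsg.quadFormMinus (m - 1) F a b))) ∧
      Nat.card (Cfsg.Out (Cfsg.POmega F (Cfsg.quadFormMinus (m - 1) F a b))) = 2 * f := by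
  classical
  obtain ⟨k, rfl⟩ : ∃ k, m = k + 1 := ⟨m - 1, by omega⟩
  rw [Nat.add_sub_cancel]
  have hk : 3 ≤ k := by omega
  haveI : Fact (Nat.Prime 2) := ⟨Nat.prime_two⟩
  haveI := charP_of_card_pow hF
  have h2 : (2 : F) = 0 := by
    have := CharP.cast_eq_zero F 2
    exact_mod_cast this
  have hd := disc_ne_zero_of_aniso a b hab
  have hQ := QMin_nondeg k a b hd
  have h3 := hasTS3_QMin (F := F) k hk a b
  have hV : finrank F ((Fin k ⊕ Fin k) ⊕ Fin 2 → F) = 2 * (k + 1) := by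
    rw [Module.finrank_fintype_fun_eq_card]
    simp
    ring
  have htop : ∀ β : MulAut (Cfsg.POmega F (⇑(QMin k F a b))),
      β ∈ Cfsg.gammaPOmega F (⇑(QMin k F a b)) := by
    intro β
    have ht : Cfsg.gammaPOmega F (⇑(QMin k F a b)) = ⊤ := gamma_top_minus hk a b hab
    rw [ht]
    exact Subgroup.mem_top β
  obtain ⟨Ψ, hΨ⟩ := exists_sigHom (QMin k F a b) hQ h3 htop
  have hker := sigHom_ker (QMin k F a b) htop Ψ hΨ
  have hsurj : Function.Surjective Ψ := by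
    intro σ
    obtain ⟨g, hg⟩ := pair_minus_sigma k a b hab 2 f hf hF σ
    exact ⟨semiAut (⇑(QMin k F a b)) g σ hg, hΨ _ g σ hg (semiAut_induced _ g σ hg)⟩
  obtain ⟨u, w, hw, hpair, hpow⟩ := frob_pow_induced k a b hab 2 f hf hF
  obtain ⟨φ, hφ⟩ : ∃ φ : MulAut (Cfsg.POmega F (⇑(QMin k F a b))),
      Cfsg.IsInducedBySemilinearPOmega (⇑(QMin k F a b)) (frobG k u w hw)
        (frobeniusEquiv F 2 : RingAut F) φ :=
    ⟨semiAut (⇑(QMin k F a b)) _ _ hpair, semiAut_induced _ _ _ hpair⟩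
  have hΨφ : Ψ φ = (frobeniusEquiv F 2 : RingAut F) := hΨ φ _ _ hpair hφ
  have hord : orderOf (Ψ φ) = f := by
    rw [hΨφ]
    exact (ringAut_frob (F := F) 2 f hf hF).2.1
  have hpowφ := hpow φ hφ
  have hφf : φ ^ f = cHom (⇑(QMin k F a b)) (inclO (QMin k F a b) (frobN k a b)) :=
    (isInduced_iff (⇑(QMin k F a b)) (inclO (QMin k F a b) (frobN k a b)) (φ ^ f)).mp hpowφ
  have hnot : φ ^ f ∉ Cfsg.Inn (Cfsg.POmega F (⇑(QMin k F a b))) := by
    rw [hφf, cHom_inclO_mem_inn_iff_two (QMin k F a b) h2 hQ h3, frobN_eq_refl_two k a b h2,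
      commutator_eq_evenSub_two (QMin k F a b) h2 hQ hV (Or.inr (by omega))]
    exact Cfsg.Agent.H7.reflG_not_mem_evenSub (QMin k F a b) hQ _
      (by rw [QMin_single]; exact one_ne_zero)
  have hN : Cfsg.Inn (Cfsg.POmega F (⇑(QMin k F a b))) ≤ Ψ.ker := by
    rw [hker]
    exact inn_le_pgoAut _
  have hidx : (Cfsg.Inn (Cfsg.POmega F (⇑(QMin k F a b)))).relIndex Ψ.ker = 2 := by
    rw [hker]
    exact relIndex_inn_pgoAut_two (QMin k F a b) h2 hQ h3 hV (Or.inr (by omega))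
  have key := quot_cyclic_of_pow (Cfsg.Inn (Cfsg.POmega F (⇑(QMin k F a b)))) Ψ hsurj hN hidx f
    hf (ringAut_card 2 f hf hF).2 φ hord hnot
  exact key

end

end Cfsg.Agent.H49
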