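import Mathlib
import Cfsg.Agent.H49.MinusN
import Cfsg.Agent.H49.AutOut4
import Cfsg.Agent.H49.SemiConjSim

set_option autoImplicit false
set_option linter.unusedSectionVars false
set_option linter.unusedSimpArgs false
set_option linter.unusedVariables false
set_option linter.style.haveILetI false

/-! Helper lemmas (helper49): `Out(PΩ⁻_{2m}(q))` for `q` odd. -/

namespace Cfsg.Agent.H49

open Module Matrix

theorem odd_of_pow_mod_four (p f : ℕ) (h : p ^ f % 4 = 3) : Odd f := by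
  by_contra hf
  rw [Nat.not_odd_iff_even] at hf
  obtain ⟨j, rfl⟩ := hf
  rw [pow_add] at h
  have h4 := Nat.mod_lt (p ^ j) (by norm_num : 0 < 4)
  rw [Nat.mul_mod] at h
  interval_cases hh : p ^ j % 4 <;> simp at h

section
variable {ι : Type} [Fintype ι] [DecidableEq ι] {F : Type*} [Field F]

theorem psoAut_le_pgoAut (Qf : (ι → F) → F) : Cfsg.psoAut F Qf ≤ Cfsg.pgoAut F Qf := by
  rw [pgoAut_eq, psoAut_eq, MonoidHom.range_eq_map]
  exact Subgroup.map_mono le_top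

end

section
variable {F : Type*} [Field F] [Fintype F]

set_option maxHeartbeats 3200000 in
/-- `Out(PΩ⁻_{2m}(q))` for `q = p^f` odd. -/
theorem out_minus_odd {p f m : ℕ} [Fact p.Prime] (hf : 1 ≤ f) (hF : Fintype.card F = p ^ f)
    (hp : p ≠ 2) (hm : 4 ≤ m) (a b : F)
    (hab : ∀ z₁ z₂ : F, z₁ ^ 2 + a * z₁ * z₂ + b * z₂ ^ 2 = 0 → z₁ = 0 ∧ z₂ = 0) :
    if p ^ f % 4 = 3 ∧ Odd m then
      Nonempty (Cfsg.Out (Cfsg.POmega F (Cfsg.quadFormMinus (m - 1) F a b))
        ≃* DihedralGroup 4 × Multiplicative (ZMod f))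
    else
      Nonempty (Cfsg.Out (Cfsg.POmega F (Cfsg.quadFormMinus (m - 1) F a b))
        ≃* Multiplicative (ZMod 2 × ZMod (2 * f))) := by
  classical
  obtain ⟨k, rfl⟩ : ∃ k, m = k + 1 := ⟨m - 1, by omega⟩
  rw [Nat.add_sub_cancel]
  have hk : 3 ≤ k := by omega
  have hpodd : Odd p := (Fact.out : p.Prime).odd_of_ne_two hp
  have hodd : Odd (Fintype.card F) := by rw [hF]; exact hpodd.pow
  have h2 : (2 : F) ≠ 0 := two_ne_zero_of_odd_card hodd
  haveI := charP_of_card_pow hF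
  have hd := disc_ne_zero_of_aniso a b hab
  have hQ := QMin_nondeg k a b hd
  have h3 := hasTS3_QMin (F := F) k hk a b
  have hcardι : Fintype.card ((Fin k ⊕ Fin k) ⊕ Fin 2) = 2 * (k + 1) := by
    simp
    ring
  have hne : ∃ v, QMin k F a b v ≠ 0 := by
    obtain ⟨x, hx⟩ := exists_Q_eq_of_ts3 (QMin k F a b) hQ h3 1
    exact ⟨x, by rw [hx]; exact one_ne_zero⟩
  have htop : ∀ β : MulAut (Cfsg.POmega F (⇑(QMin k F a b))),
      β ∈ Cfsg.gammaPOmega F (⇑(QMin k F a b)) := by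
    intro β
    have ht : Cfsg.gammaPOmega F (⇑(QMin k F a b)) = ⊤ := gamma_top_minus hk a b hab
    rw [ht]
    exact Subgroup.mem_top β
  obtain ⟨Ψ, hΨ⟩ := exists_sigHom (QMin k F a b) hQ h3 htop
  have hker := sigHom_ker (QMin k F a b) htop Ψ hΨ
  have hsurj : Function.Surjective Ψ := by
    intro σ
    obtain ⟨g, hg⟩ := pair_minus_sigma k a b hab p f hf hF σ
    exact ⟨semiAut (⇑(QMin k F a b)) g σ hg, hΨ _ g σ hg (semiAut_induced _ g σ hg)⟩
  obtain ⟨u, w, hw, hpair, hpow⟩ := frob_pow_induced k a b hab p f hf hF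
  obtain ⟨φ, hφ⟩ : ∃ φ : MulAut (Cfsg.POmega F (⇑(QMin k F a b))),
      Cfsg.IsInducedBySemilinearPOmega (⇑(QMin k F a b)) (frobG k u w hw)
        (frobeniusEquiv F p : RingAut F) φ :=
    ⟨semiAut (⇑(QMin k F a b)) _ _ hpair, semiAut_induced _ _ _ hpair⟩
  have hΨφ : Ψ φ = (frobeniusEquiv F p : RingAut F) := hΨ φ _ _ hpair hφ
  have hord : orderOf (Ψ φ) = f := by
    rw [hΨφ]
    exact (ringAut_frob (F := F) p f hf hF).2.1
  obtain ⟨hC, hcardC⟩ := ringAut_card (F := F) p f hf hF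
  have hcommP : ∀ x ∈ Cfsg.pgoAut F (⇑(QMin k F a b)),
      φ * x * φ⁻¹ * x⁻¹ ∈ Cfsg.psoAut F (⇑(QMin k F a b)) :=
    fun x hx => comm_mem_psoAut (QMin k F a b) h2 hQ hne hcardι hpair hφ x hx
  obtain ⟨δ, hδ⟩ := exists_sim_QMin k F a b hk h2 hab
  by_cases hc : Even k ∧ Fintype.card F % 4 = 3
  · have hcond : p ^ f % 4 = 3 ∧ Odd (k + 1) := ⟨by rw [← hF]; exact hc.2, hc.1.add_one⟩
    rw [if_pos hcond]
    obtain ⟨χ, hχs, hχk⟩ := pgo_mod_inn_dihedral (QMin k F a b) h2 hQ h3 hcardι δ hδ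
      ((spinSign_negG_QMin_iff k F a b h2 hab).mpr hc)
    have hrel : (Cfsg.Inn (Cfsg.POmega F (⇑(QMin k F a b)))).relIndex
        (Cfsg.psoAut F (⇑(QMin k F a b))) = 2 :=
      relIndex_inn_psoAut (QMin k F a b) h2 hQ h3 hcardι
        ((spinSign_negG_QMin_iff k F a b h2 hab).mpr hc)
    have hfodd : Odd f := odd_of_pow_mod_four p f hcond.1
    have key := quot_equiv_prod_of_odd (Cfsg.Inn (Cfsg.POmega F (⇑(QMin k F a b))))
      (Cfsg.pgoAut F (⇑(QMin k F a b))) (Cfsg.psoAut F (⇑(QMin k F a b))) Ψ hsurj hker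
      (inn_le_psoAut _) (psoAut_le_pgoAut _) hrel χ hχs hχk DihedralGroup.nat_card f hfodd hC
      hcardC φ hord hcommP
    exact key
  · have hcond : ¬ (p ^ f % 4 = 3 ∧ Odd (k + 1)) := by
      rintro ⟨h1, h2'⟩
      apply hc
      refine ⟨?_, by rw [hF]; exact h1⟩
      rw [← Nat.not_odd_iff_even]
      intro hko
      exact (Nat.not_even_iff_odd.mpr h2') hko.add_one
    rw [if_neg hcond]
    have hpso : Cfsg.psoAut F (⇑(QMin k F a b))
        ≤ Cfsg.Inn (Cfsg.POmega F (⇑(QMin k F a b))) :=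
      psoAut_le_inn (QMin k F a b) h2 hQ hcardι (by
        intro hs
        rw [spinSign_negG_QMin_iff k F a b h2 hab] at hs
        exact hc hs)
    have heq : Cfsg.psoAut F (⇑(QMin k F a b))
        = Cfsg.Inn (Cfsg.POmega F (⇑(QMin k F a b))) := le_antisymm hpso (inn_le_psoAut _)
    obtain ⟨χ, hχs, hχk⟩ := exists_hom_of_mulEquiv kleinEquiv _
      (pgo_mod_pso (QMin k F a b) h2 hQ h3 hcardι δ hδ)
    rw [heq] at hχk
    have hpowφ := hpow φ hφ
    have hφf : φ ^ f = cHom (⇑(QMin k F a b)) (inclO (QMin k F a b) (frobN k a b)) :=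
      (isInduced_iff (⇑(QMin k F a b)) (inclO (QMin k F a b) (frobN k a b)) (φ ^ f)).mp hpowφ
    have hnot : φ ^ f ∉ Cfsg.Inn (Cfsg.POmega F (⇑(QMin k F a b))) := by
      intro hmem
      have h1 := sgnD_eq_one_of_mem_psoAut (QMin k F a b) h2 hQ h3 hne hcardι
        (inclO (QMin k F a b) (frobN k a b)) (by rw [← hφf]; exact inn_le_psoAut _ hmem)
      have h2' := sgnD_inclO_neg (QMin k F a b) h2 hQ hne hcardι (frobN k a b) (frobN_det k a b)
      rw [h1] at h2'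
      exact absurd h2' (by decide)
    have key := quot_equiv_two_prod_two (Cfsg.Inn (Cfsg.POmega F (⇑(QMin k F a b))))
      (Cfsg.pgoAut F (⇑(QMin k F a b))) Ψ hsurj hker (inn_le_pgoAut _) χ hχs hχk f hf hcardC φ
      hord (fun x hx => hpso (hcommP x hx)) hnot
    exact key

end

end Cfsg.Agent.H49
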