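import Mathlib

set_option autoImplicit false

/-! Helper lemmas (helper49): points of the conic `a² - D b² = ν` with `b` invertible, over a
finite field and over a finite reduced commutative ring. -/

namespace Cfsg.Agent.H49

open Polynomial

/-- Over a finite field `k` of odd characteristic containing (the image of) a finite field `F`,
for `ν` a non-square of `F` and `D ≠ 0` there is a point of `a² - D b² = ν` with `b ≠ 0`. -/
theorem exists_conic_pt {F k : Type*} [Field F] [Field k] [Finite k] (φ : F →+* k)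
    (h2 : (2 : F) ≠ 0) {ν : F} (hν : ¬ IsSquare ν) (D : k) (hD : D ≠ 0) :
    ∃ a b : k, b ≠ 0 ∧ a ^ 2 - D * b ^ 2 = φ ν := by
  classical
  have h2k : (2 : k) ≠ 0 := by
    have : φ 2 ≠ 0 := (map_ne_zero φ).mpr h2
    rwa [map_ofNat] at this
  by_cases hsq : IsSquare (φ ν)
  · obtain ⟨τ, hτ⟩ := hsq
    have hτ0 : τ ≠ 0 := by
      rintro rfl
      rw [mul_zero] at hτ
      have : ν = 0 := (map_eq_zero φ).mp hτ
      exact hν ⟨0, by rw [this, mul_zero]⟩
    by_cases hex : ∃ l : k, l ≠ 0 ∧ l ^ 2 ≠ D
    · obtain ⟨l, hl0, hlD⟩ := hex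
      have hd : D - l ^ 2 ≠ 0 := sub_ne_zero.mpr (Ne.symm hlD)
      refine ⟨τ + l * (2 * τ * l / (D - l ^ 2)), 2 * τ * l / (D - l ^ 2), ?_, ?_⟩
      · exact div_ne_zero (mul_ne_zero (mul_ne_zero h2k hτ0) hl0) hd
      · rw [hτ]
        field_simp
        ring
    · exfalso
      push Not at hex
      have h1 : (1 : k) ^ 2 = D := hex 1 one_ne_zero
      have h3 : τ ^ 2 = D := hex τ hτ0
      have h4 : φ ν = φ 1 := by
        rw [hτ, map_one, ← pow_two, h3, ← h1, one_pow]
      have : ν = 1 := φ.injective h4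
      exact hν ⟨1, by rw [this, mul_one]⟩
  · have : Fintype k := Fintype.ofFinite k
    have hchar : ringChar k ≠ 2 := by
      intro h
      have h0 := ringChar.Nat.cast_ringChar (R := k)
      rw [h] at h0
      exact h2k (by exact_mod_cast h0)
    have hcard := FiniteField.odd_card_of_char_ne_two hchar
    obtain ⟨a, b, hab⟩ := FiniteField.exists_root_sum_quadratic
      (f := X ^ 2 - C (φ ν)) (g := C (-D) * X ^ 2)
      (degree_X_pow_sub_C (by norm_num) _) (degree_C_mul_X_pow 2 (neg_ne_zero.mpr hD)) hcard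
    simp only [eval_sub, eval_pow, eval_X, eval_C, eval_mul] at hab
    refine ⟨a, b, ?_, by linear_combination hab⟩
    rintro rfl
    apply hsq
    exact ⟨a, by linear_combination -hab⟩

/-- In a finite reduced commutative ring `S` receiving a finite field `F` of odd characteristic,
for `ν` a non-square of `F` and `D` a unit there is a point of `a² - D b² = ν` with `b` a
unit. -/
theorem exists_norm_unit {F S : Type*} [Field F] [CommRing S] [Finite S] [IsReduced S]
    (φ : F →+* S) (h2 : (2 : F) ≠ 0) {ν : F} (hν : ¬ IsSquare ν) (D : S) (hD : IsUnit D) :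
    ∃ a b : S, IsUnit b ∧ a ^ 2 - D * b ^ 2 = φ ν := by
  classical
  have e := IsArtinianRing.equivPi S
  have he : ∀ s : S, ∀ I : MaximalSpectrum S, e s I = Ideal.Quotient.mk I.asIdeal s := by
    intro s I
    have h := e.commutes s
    rw [Algebra.algebraMap_self, RingHom.id_apply] at h
    rw [h]
    rfl
  have key : ∀ I : MaximalSpectrum S, ∃ a b : S ⧸ I.asIdeal,
      IsUnit b ∧ a ^ 2 - Ideal.Quotient.mk I.asIdeal D * b ^ 2
        = Ideal.Quotient.mk I.asIdeal (φ ν) := by
    intro I
    letI : Field (S ⧸ I.asIdeal) := Ideal.Quotient.field I.asIdeal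
    have : Finite (S ⧸ I.asIdeal) :=
      Finite.of_surjective (Ideal.Quotient.mk I.asIdeal) Ideal.Quotient.mk_surjective
    obtain ⟨a, b, hb, hab⟩ := exists_conic_pt ((Ideal.Quotient.mk I.asIdeal).comp φ) h2 hν
      (Ideal.Quotient.mk I.asIdeal D) ((hD.map (Ideal.Quotient.mk I.asIdeal)).ne_zero)
    exact ⟨a, b, IsUnit.mk0 b hb, hab⟩
  choose a b hb hab using key
  refine ⟨e.symm a, e.symm b, ?_, ?_⟩
  · have hu : IsUnit b := Pi.isUnit_iff.mpr hb
    exact hu.map e.symm
  · apply e.injective
    funext I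
    rw [map_sub, map_pow, map_mul, map_pow, e.apply_symm_apply, e.apply_symm_apply]
    show a I ^ 2 - (e D) I * b I ^ 2 = e (φ ν) I
    rw [he, he]
    exact hab I

end Cfsg.Agent.H49
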