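import Mathlib
import Cfsg.Agent.H49.TorusAlg

set_option autoImplicit false

/-! Helper lemmas (helper49): for an isometry `h` of odd order prime to the characteristic and
without fixed vectors, a similarity with prescribed non-square multiplier lying in the algebra
generated by `h` (so commuting with `h`). -/

namespace Cfsg.Agent.H49

open Polynomial

theorem exists_adjoin_norm {F E : Type*} [Field F] [CommRing E] [Algebra F E] [Finite E]
    [IsReduced E] (h2 : (2 : F) ≠ 0) (s D : E) (hDmem : D ∈ Algebra.adjoin F {s})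
    (hD : IsUnit D) {ν : F} (hν : ¬ IsSquare ν) :
    ∃ a ∈ Algebra.adjoin F {s}, ∃ b ∈ Algebra.adjoin F {s}, IsUnit b ∧
      a ^ 2 - D * b ^ 2 = algebraMap F E ν := by
  classical
  obtain ⟨S, hS⟩ : ∃ S : Subalgebra F E, S = Algebra.adjoin F {s} := ⟨_, rfl⟩
  rw [← hS] at hDmem ⊢
  have hred : IsReduced ↥S := ⟨fun x hx => Subtype.ext (IsReduced.eq_zero x.1 (hx.map S.val))⟩
  have hDS : IsUnit (⟨D, hDmem⟩ : ↥S) := by
    have hinj : Function.Injective (fun x : ↥S => (⟨D, hDmem⟩ : ↥S) * x) := by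
      intro x y hxy
      have h1 : D * x.1 = D * y.1 := congrArg Subtype.val hxy
      exact Subtype.ext (hD.mul_right_injective h1)
    obtain ⟨x, hx⟩ := Finite.surjective_of_injective hinj 1
    exact IsUnit.of_mul_eq_one _ hx
  obtain ⟨a, b, hb, hab⟩ := exists_norm_unit (algebraMap F ↥S) h2 hν ⟨D, hDmem⟩ hDS
  refine ⟨a.1, a.2, b.1, b.2, hb.map S.val, ?_⟩
  have h3 := congrArg Subtype.val hab
  exact h3

theorem exists_torus_sim {F V : Type*} [Field F] [Finite F] [AddCommGroup V] [Module F V]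
    [FiniteDimensional F V] (h2 : (2 : F) ≠ 0) (Q : QuadraticForm F V)
    (h : Module.End F V) (hiso : ∀ v, Q (h v) = Q v) {r : ℕ} (hr : Odd r) (hrF : (r : F) ≠ 0)
    (hpow : h ^ r = 1) (hfix : ∀ v, h v = v → v = 0) {ν : F} (hν : ¬ IsSquare ν) :
    ∃ δ : Module.End F V, (∀ v, Q (δ v) = ν * Q v) ∧ δ * h = h * δ ∧
      IsUnit (δ * δ - ν • (1 : Module.End F V)) := by
  classical
  have hν0 : ν ≠ 0 := by
    rintro rfl
    exact hν ⟨0, by rw [mul_zero]⟩
  obtain ⟨Φ, hΦdef⟩ : ∃ Φ : F[X], Φ = ∑ i ∈ Finset.range r, X ^ i := ⟨_, rfl⟩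
  have hΦmul : Φ * (X - 1) = X ^ r - 1 := by
    rw [hΦdef]
    exact geom_sum_mul X r
  have hΦ1 : Φ.eval 1 = (r : F) := by
    rw [hΦdef]
    simp [eval_finsetSum]
  have hΦ0 : Φ ≠ 0 := by
    rintro rfl
    exact hrF (by rw [← hΦ1, eval_zero])
  have hsqf : Squarefree Φ := by
    have hsep : (X ^ r - C (1 : F)).Separable := separable_X_pow_sub_C 1 hrF one_ne_zero
    rw [map_one] at hsep
    exact hsep.squarefree.squarefree_of_dvd ⟨X - 1, hΦmul.symm⟩
  have hu1 : IsUnit (h - 1) := by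
    have hinj : Function.Injective ⇑(h - 1 : Module.End F V) := by
      rw [injective_iff_map_eq_zero]
      intro v hv
      apply hfix
      rw [LinearMap.sub_apply, Module.End.one_apply, sub_eq_zero] at hv
      exact hv
    rw [Module.End.isUnit_iff]
    exact ⟨hinj, LinearMap.injective_iff_surjective.mp hinj⟩
  have hΦh : aeval h Φ = 0 := by
    have e : aeval h Φ * (h - 1) = 0 := by
      have e1 := congrArg (aeval h) hΦmul
      rw [map_mul, map_sub, map_sub, map_pow, aeval_X, map_one, hpow, sub_self] at e1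
      exact e1
    exact (hu1.mul_left_eq_zero).mp e
  have hfinA : Finite (AdjoinRoot Φ) := by
    have := (AdjoinRoot.powerBasis hΦ0).finite
    exact Module.finite_of_finite F
  have hredA : IsReduced (AdjoinRoot Φ) := ⟨by
    rintro x ⟨n, hn⟩
    obtain ⟨p, rfl⟩ := AdjoinRoot.mk_surjective x
    rw [← map_pow, AdjoinRoot.mk_eq_zero] at hn
    rw [AdjoinRoot.mk_eq_zero]
    by_cases hn0 : n = 0
    · subst hn0
      rw [pow_zero] at hn
      exact dvd_trans hn (one_dvd _)
    · exact (hsqf.dvd_pow_iff_dvd hn0).mp hn⟩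
  obtain ⟨ξ, hξ⟩ : ∃ ξ : AdjoinRoot Φ, ξ = AdjoinRoot.root Φ := ⟨_, rfl⟩
  have hξΦ : ∑ i ∈ Finset.range r, ξ ^ i = 0 := by
    have h0 : (∑ i ∈ Finset.range r, X ^ i : F[X]).eval₂ (AdjoinRoot.of Φ) (AdjoinRoot.root Φ)
        = 0 := by
      rw [← hΦdef]
      exact AdjoinRoot.eval₂_root Φ
    rw [eval₂_finsetSum] at h0
    simpa [hξ] using h0
  have hξr : ξ ^ r = 1 := by
    have h0 := geom_sum_mul ξ r
    rw [hξΦ, zero_mul] at h0
    exact sub_eq_zero.mp h0.symm
  obtain ⟨k, hk⟩ := hr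
  obtain ⟨ξ', hξ'⟩ : ∃ ξ' : AdjoinRoot Φ, ξ' = ξ ^ (2 * k) := ⟨_, rfl⟩
  have hξξ' : ξ * ξ' = 1 := by
    rw [hξ', ← pow_succ', ← hk, hξr]
  have h2u : IsUnit (2 : AdjoinRoot Φ) := by
    have := (IsUnit.mk0 (2 : F) h2).map (algebraMap F (AdjoinRoot Φ))
    rwa [map_ofNat] at this
  have hum : IsUnit (ξ - 1) := by
    have hcop : IsCoprime (X - C (1 : F)) Φ := by
      rw [(irreducible_X_sub_C (1 : F)).coprime_iff_not_dvd]
      intro hd
      apply hrF
      rw [← hΦ1]
      exact dvd_iff_isRoot.mp hd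
    obtain ⟨u, v, huv⟩ := hcop
    have e := congrArg (AdjoinRoot.mk Φ) huv
    rw [map_add, map_mul, map_mul, AdjoinRoot.mk_self, mul_zero, add_zero, map_sub,
      AdjoinRoot.mk_X, AdjoinRoot.mk_C, map_one, map_one, ← hξ] at e
    exact IsUnit.of_mul_eq_one _ (by rw [mul_comm]; exact e)
  have hup : IsUnit (ξ + 1) := by
    have hd : ξ + 1 ∣ ξ ^ r + 1 ^ r := Odd.add_dvd_pow_add_pow ξ 1 ⟨k, hk⟩
    rw [hξr, one_pow, one_add_one_eq_two] at hd
    exact isUnit_of_dvd_unit hd h2u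
  have huξ' : IsUnit ξ' := IsUnit.of_mul_eq_one _ (by rw [mul_comm]; exact hξξ')
  obtain ⟨s, hs⟩ : ∃ s : AdjoinRoot Φ, s = ξ + ξ' := ⟨_, rfl⟩
  obtain ⟨c, hc⟩ : ∃ c : AdjoinRoot Φ, c = ξ - ξ' := ⟨_, rfl⟩
  have hcu : IsUnit c := by
    have e : c = ξ' * (ξ - 1) * (ξ + 1) := by
      rw [hc]
      linear_combination (-ξ) * hξξ'
    rw [e]
    exact (huξ'.mul hum).mul hup
  have hDmem : c ^ 2 ∈ Algebra.adjoin F {s} := by
    have e : c ^ 2 = s ^ 2 - algebraMap F (AdjoinRoot Φ) 4 := by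
      rw [hc, hs, map_ofNat]
      linear_combination (-4) * hξξ'
    rw [e]
    have hs_mem : s ∈ Algebra.adjoin F {s} := Algebra.subset_adjoin (Set.mem_singleton s)
    have h4 : algebraMap F (AdjoinRoot Φ) 4 ∈ Algebra.adjoin F {s} :=
      Subalgebra.algebraMap_mem _ _
    exact sub_mem (pow_mem hs_mem 2) h4
  obtain ⟨a, ha, b, hb, hbu, hab⟩ := exists_adjoin_norm h2 s (c ^ 2) hDmem (hcu.pow 2) hν
  obtain ⟨ψ, hψ⟩ : ∃ ψ : AdjoinRoot Φ →ₐ[F] Module.End F V, ψ ξ = h :=
    ⟨Ideal.Quotient.liftₐ (Ideal.span {Φ}) (aeval h) (by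
      intro p hp
      obtain ⟨q, rfl⟩ := Ideal.mem_span_singleton.mp hp
      rw [map_mul, hΦh, zero_mul]), by
      rw [hξ]
      show aeval h X = h
      exact aeval_X h⟩
  have hB : ∀ u v, QuadraticMap.polar (⇑Q) (h u) (h v) = QuadraticMap.polar (⇑Q) u v := by
    intro u v
    unfold QuadraticMap.polar
    rw [← map_add, hiso, hiso, hiso]
  have hhh' : ∀ v, h (ψ ξ' v) = v := by
    intro v
    rw [← hψ, ← Module.End.mul_apply, ← map_mul, hξξ', map_one, Module.End.one_apply]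
  have hadj1 : ∀ u v, QuadraticMap.polar (⇑Q) (h u) v = QuadraticMap.polar (⇑Q) u (ψ ξ' v) := by
    intro u v
    rw [← hB u (ψ ξ' v), hhh']
  have hadj2 : ∀ u v, QuadraticMap.polar (⇑Q) (ψ ξ' u) v = QuadraticMap.polar (⇑Q) u (h v) := by
    intro u v
    rw [← hB (ψ ξ' u) v, hhh']
  have hself : ∀ x ∈ Algebra.adjoin F {s}, ∀ u v,
      QuadraticMap.polar (⇑Q) (ψ x u) v = QuadraticMap.polar (⇑Q) u (ψ x v) := by
    intro x hx
    induction hx using Algebra.adjoin_induction with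
    | mem x hx =>
      intro u v
      rw [Set.mem_singleton_iff.mp hx, hs, map_add, hψ, LinearMap.add_apply, LinearMap.add_apply,
        QuadraticMap.polar_add_left, QuadraticMap.polar_add_right, hadj1, hadj2, add_comm]
    | algebraMap t =>
      intro u v
      rw [AlgHom.commutes, Module.algebraMap_end_apply, Module.algebraMap_end_apply,
        QuadraticMap.polar_smul_left, QuadraticMap.polar_smul_right]
    | add x y _ _ hx hy =>
      intro u v
      rw [map_add, LinearMap.add_apply, LinearMap.add_apply, QuadraticMap.polar_add_left,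
        QuadraticMap.polar_add_right, hx, hy]
    | mul x y _ _ hx hy =>
      intro u v
      have e1 : ψ (x * y) u = ψ x (ψ y u) := by rw [map_mul, Module.End.mul_apply]
      have e2 : ψ (x * y) v = ψ y (ψ x v) := by rw [mul_comm, map_mul, Module.End.mul_apply]
      rw [e1, e2, hx, hy]
  have hskew : ∀ u v, QuadraticMap.polar (⇑Q) (ψ c u) v = -QuadraticMap.polar (⇑Q) u (ψ c v) := by
    intro u v
    rw [hc, map_sub, hψ, LinearMap.sub_apply, LinearMap.sub_apply, QuadraticMap.polar_sub_left,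
      QuadraticMap.polar_sub_right, hadj1, hadj2]
    ring
  have hδadj : ∀ u v, QuadraticMap.polar (⇑Q) (ψ (a + b * c) u) v
      = QuadraticMap.polar (⇑Q) u (ψ (a - b * c) v) := by
    intro u v
    have e1 : ψ (a + b * c) u = ψ a u + ψ b (ψ c u) := by
      rw [map_add, map_mul, LinearMap.add_apply, Module.End.mul_apply]
    have e2 : ψ (a - b * c) v = ψ a v - ψ c (ψ b v) := by
      rw [map_sub, mul_comm b c, map_mul, LinearMap.sub_apply, Module.End.mul_apply]
    rw [e1, e2, QuadraticMap.polar_add_left, QuadraticMap.polar_sub_right, hself a ha,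
      hself b hb, hskew]
    ring
  have hnorm : (a - b * c) * (a + b * c) = algebraMap F (AdjoinRoot Φ) ν := by
    linear_combination hab
  refine ⟨ψ (a + b * c), ?_, ?_, ?_⟩
  · intro v
    have e1 : QuadraticMap.polar (⇑Q) (ψ (a + b * c) v) (ψ (a + b * c) v)
        = ν * QuadraticMap.polar (⇑Q) v v := by
      rw [hδadj, ← Module.End.mul_apply, ← map_mul, hnorm, AlgHom.commutes,
        Module.algebraMap_end_apply, QuadraticMap.polar_smul_right, smul_eq_mul]
    rw [QuadraticMap.polar_self, QuadraticMap.polar_self, nsmul_eq_mul, nsmul_eq_mul] at e1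
    apply mul_left_cancel₀ h2
    rw [Nat.cast_ofNat] at e1
    linear_combination e1
  · rw [← hψ, ← map_mul, ← map_mul, mul_comm]
  · have e : ψ (a + b * c) * ψ (a + b * c) - ν • (1 : Module.End F V)
        = ψ (2 * b * c * (a + b * c)) := by
      rw [← map_mul, ← Algebra.algebraMap_eq_smul_one, ← AlgHom.commutes ψ, ← map_sub]
      congr 1
      linear_combination hab
    rw [e]
    apply IsUnit.map
    have hδu : IsUnit (a + b * c) :=
      isUnit_of_dvd_unit (Dvd.intro_left _ hnorm)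
        ((IsUnit.mk0 ν hν0).map (algebraMap F (AdjoinRoot Φ)))
    exact ((h2u.mul hbu).mul hcu).mul hδu

end Cfsg.Agent.H49
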