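import Mathlib
import Cfsg.Agent.H49.TorusSim
import Cfsg.Agent.H49.CayleyDet
import Cfsg.Agent.H49.Similar
import Cfsg.Agent.H49.SimInst
import Cfsg.Agent.H49.RankParity

set_option autoImplicit false
set_option linter.unusedSectionVars false

/-! Helper lemmas (helper49): for an isometry `h` of odd order prime to the characteristic of an
even-dimensional non-degenerate quadratic space over a finite field of odd characteristic there
is a class-preserving similarity with non-square multiplier commuting with `h`. -/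

namespace Cfsg.Agent.H49

open Module Matrix

theorem exists_lin_sim_commuting {F V : Type*} [Field F] [Finite F] [AddCommGroup V]
    [Module F V] [FiniteDimensional F V] (h2 : (2 : F) ≠ 0) (Q : QuadraticForm F V)
    (hQ : (QuadraticMap.polarBilin Q).Nondegenerate)
    (H : Module.End F V) (hiso : ∀ v, Q (H v) = Q v) {r : ℕ} (hr : Odd r) (hrF : (r : F) ≠ 0)
    (hpow : H ^ r = 1) {m₁ : ℕ} (hpar : Module.finrank F (LinearMap.ker (H - 1)) = 2 * m₁)
    {ν : F} (hν : ¬ IsSquare ν) :
    ∃ δ : Module.End F V, (∀ v, Q (δ v) = ν * Q v) ∧ δ * H = H * δ ∧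
      ((∀ v, H v = v → v = 0) → IsUnit (δ * δ - ν • (1 : Module.End F V))) ∧
      ((¬ ∀ v, H v = v → v = 0) → ∃ u, H u = u ∧ Q u ≠ 0) := by
  classical
  have hν0 : ν ≠ 0 := by
    rintro rfl
    exact hν ⟨0, by rw [mul_zero]⟩
  by_cases hfix : ∀ v, H v = v → v = 0
  · obtain ⟨δ, h1, h2', h3⟩ := exists_torus_sim h2 Q H hiso hr hrF hpow hfix hν
    exact ⟨δ, h1, h2', fun _ => h3, fun hn => absurd hfix hn⟩
  · have hB : ∀ u v, QuadraticMap.polar (⇑Q) (H u) (H v) = QuadraticMap.polar (⇑Q) u v := by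
      intro u v
      unfold QuadraticMap.polar
      rw [← map_add, hiso, hiso, hiso]
    obtain ⟨T, hT⟩ : ∃ T : Module.End F V, T = ∑ i ∈ Finset.range r, H ^ i := ⟨_, rfl⟩
    have hTH : T * H = T := by
      have h0 := geom_sum_mul H r
      rw [← hT, hpow, sub_self, mul_sub, mul_one, sub_eq_zero] at h0
      exact h0
    have hHT : H * T = T := by
      have h0 := mul_geom_sum H r
      rw [← hT, hpow, sub_self, sub_mul, one_mul, sub_eq_zero] at h0
      exact h0
    obtain ⟨e, he⟩ : ∃ e : Module.End F V, e = (r : F)⁻¹ • T := ⟨_, rfl⟩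
    have heH : ∀ v, e (H v) = e v := by
      intro v
      rw [he, LinearMap.smul_apply, LinearMap.smul_apply, ← Module.End.mul_apply, hTH]
    have hHe : ∀ v, H (e v) = e v := by
      intro v
      rw [he, LinearMap.smul_apply, map_smul, ← Module.End.mul_apply, hHT]
    have hpowfix : ∀ v, H v = v → ∀ i : ℕ, (H ^ i) v = v := by
      intro v hv i
      induction i with
      | zero => rw [pow_zero, Module.End.one_apply]
      | succ n ih => rw [pow_succ, Module.End.mul_apply, hv, ih]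
    have hTfix : ∀ v, H v = v → T v = (r : F) • v := by
      intro v hv
      rw [hT, LinearMap.sum_apply, Finset.sum_congr rfl (fun i _ => hpowfix v hv i),
        Finset.sum_const, Finset.card_range, Nat.cast_smul_eq_nsmul]
    have hefix : ∀ v, H v = v → e v = v := by
      intro v hv
      rw [he, LinearMap.smul_apply, hTfix v hv, smul_smul, inv_mul_cancel₀ hrF, one_smul]
    have hee : ∀ v, e (e v) = e v := fun v => hefix _ (hHe v)
    have hBpow : ∀ (i : ℕ) (u w : V), H u = u →
        QuadraticMap.polar (⇑Q) u ((H ^ i) w) = QuadraticMap.polar (⇑Q) u w := by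
      intro i u w hu
      induction i with
      | zero => rw [pow_zero, Module.End.one_apply]
      | succ n ih =>
        rw [pow_succ', Module.End.mul_apply]
        conv_lhs => rw [← hu]
        rw [hB, ih]
    have horth : ∀ u w, H u = u → e w = 0 → QuadraticMap.polar (⇑Q) u w = 0 := by
      intro u w hu hw
      have h1 : QuadraticMap.polarBilin Q u (T w) = (r : F) * QuadraticMap.polar (⇑Q) u w := by
        rw [hT, LinearMap.sum_apply, map_sum]
        have : ∀ i ∈ Finset.range r, QuadraticMap.polarBilin Q u ((H ^ i) w)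
            = QuadraticMap.polar (⇑Q) u w := fun i _ => hBpow i u w hu
        rw [Finset.sum_congr rfl this, Finset.sum_const, Finset.card_range, nsmul_eq_mul]
      have h3 : T w = 0 := by
        have : e w = (r : F)⁻¹ • T w := by rw [he, LinearMap.smul_apply]
        rw [hw] at this
        exact (smul_eq_zero.mp this.symm).resolve_left (inv_ne_zero hrF)
      rw [h3, map_zero] at h1
      exact (mul_eq_zero.mp h1.symm).resolve_left hrF
    obtain ⟨V₁, hV₁⟩ : ∃ V₁ : Submodule F V, V₁ = LinearMap.ker (H - 1) := ⟨_, rfl⟩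
    have hmem₁ : ∀ v, v ∈ V₁ ↔ H v = v := by
      intro v
      rw [hV₁, LinearMap.mem_ker, LinearMap.sub_apply, Module.End.one_apply, sub_eq_zero]
    obtain ⟨V', hV'⟩ : ∃ V' : Submodule F V, V' = LinearMap.ker e := ⟨_, rfl⟩
    have hmem' : ∀ v, v ∈ V' ↔ e v = 0 := by
      intro v
      rw [hV', LinearMap.mem_ker]
    have hsplit : ∀ v, e (v - e v) = 0 := by
      intro v
      rw [map_sub, hee, sub_self]
    have hnd₁ : ∀ x : V₁, (∀ y : V₁, QuadraticMap.polar (⇑Q) (x : V) (y : V) = 0) → x = 0 := by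
      intro x hx
      apply Subtype.ext
      apply hQ.1 (x : V)
      intro v
      show QuadraticMap.polar (⇑Q) (x : V) v = 0
      have hv : v = e v + (v - e v) := by abel
      rw [hv, QuadraticMap.polar_add_right, hx ⟨e v, (hmem₁ _).mpr (hHe v)⟩,
        horth (x : V) (v - e v) ((hmem₁ _).mp x.2) (hsplit v), add_zero]
    have hQ₁ : (QuadraticMap.polarBilin (Q.comp V₁.subtype)).Nondegenerate := by
      constructor
      · intro x hx
        exact hnd₁ x hx
      · intro x hx
        apply hnd₁ x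
        intro y
        rw [QuadraticMap.polar_comm]
        exact hx y
    rw [← hV₁] at hpar
    obtain ⟨g₁, hg₁⟩ := exists_similarity hpar (Q.comp V₁.subtype) hQ₁ ν hν0
    have hg₁' : ∀ w : V₁, Q ((g₁ w : V₁) : V) = ν * Q (w : V) := hg₁
    have hH' : ∀ w ∈ V', H w ∈ V' := by
      intro w hw
      rw [hmem'] at hw ⊢
      rw [heH, hw]
    obtain ⟨H', hH'def⟩ : ∃ H' : Module.End F V', H' = H.restrict hH' := ⟨_, rfl⟩
    have hH'v : ∀ w : V', ((H' w : V') : V) = H (w : V) := by
      intro w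
      rw [hH'def]
      rfl
    have hiso' : ∀ w : V', (Q.comp V'.subtype) (H' w) = (Q.comp V'.subtype) w := by
      intro w
      show Q ((H' w : V') : V) = Q (w : V)
      rw [hH'v, hiso]
    have hpow' : H' ^ r = 1 := by
      rw [hH'def, Module.End.pow_restrict]
      apply LinearMap.ext
      intro w
      apply Subtype.ext
      rw [LinearMap.restrict_apply]
      show (H ^ r) (w : V) = (w : V)
      rw [hpow, Module.End.one_apply]
    have hfix' : ∀ w : V', H' w = w → w = 0 := by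
      intro w hw
      apply Subtype.ext
      have h1 : H (w : V) = (w : V) := by
        rw [← hH'v, hw]
      have h3 := hefix _ h1
      rw [(hmem' _).mp w.2] at h3
      exact h3.symm
    obtain ⟨δ', hδ'Q, hδ'H, -⟩ :=
      exists_torus_sim h2 (Q.comp V'.subtype) H' hiso' hr hrF hpow' hfix' hν
    have hδ'Q' : ∀ w : V', Q ((δ' w : V') : V) = ν * Q (w : V) := hδ'Q
    obtain ⟨e₁, he₁⟩ : ∃ e₁ : V →ₗ[F] V₁, ∀ v, ((e₁ v : V₁) : V) = e v :=
      ⟨e.codRestrict V₁ (fun v => (hmem₁ _).mpr (hHe v)), fun v => rfl⟩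
    obtain ⟨e', he'⟩ : ∃ e' : V →ₗ[F] V', ∀ v, ((e' v : V') : V) = v - e v :=
      ⟨((1 : Module.End F V) - e).codRestrict V' (fun v => (hmem' _).mpr (hsplit v)),
        fun v => rfl⟩
    obtain ⟨δL, hδL⟩ : ∃ δL : Module.End F V, ∀ v,
        δL v = ((g₁ (e₁ v) : V₁) : V) + ((δ' (e' v) : V') : V) :=
      ⟨V₁.subtype ∘ₗ (g₁ : V₁ →ₗ[F] V₁) ∘ₗ e₁ + V'.subtype ∘ₗ δ' ∘ₗ e', fun v => rfl⟩
    have hQadd : ∀ x y : V, Q (x + y) = Q x + Q y + QuadraticMap.polar (⇑Q) x y := by
      intro x y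
      unfold QuadraticMap.polar
      ring
    refine ⟨δL, ?_, ?_, fun hf => absurd hf hfix, fun _ => ?_⟩
    · intro v
      have hx : H ((g₁ (e₁ v) : V₁) : V) = ((g₁ (e₁ v) : V₁) : V) := (hmem₁ _).mp (g₁ (e₁ v)).2
      have hy : e ((δ' (e' v) : V') : V) = 0 := (hmem' _).mp (δ' (e' v)).2
      have hv : v = e v + (v - e v) := by abel
      have e1 : Q v = Q (e v) + Q (v - e v) := by
        conv_lhs => rw [hv]
        rw [hQadd, horth (e v) (v - e v) (hHe v) (hsplit v), add_zero]
      rw [hδL, hQadd, horth _ _ hx hy, add_zero, hg₁', hδ'Q', he₁, he', e1]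
      ring
    · apply LinearMap.ext
      intro v
      rw [Module.End.mul_apply, Module.End.mul_apply, hδL, hδL, map_add]
      have e1 : e₁ (H v) = e₁ v := by
        apply Subtype.ext
        rw [he₁, he₁, heH]
      have e2 : e' (H v) = H' (e' v) := by
        apply Subtype.ext
        rw [he', hH'v, he', heH, map_sub, hHe]
      have e3 : δ' (H' (e' v)) = H' (δ' (e' v)) := by
        have := congrArg (fun f : Module.End F V' => f (e' v)) hδ'H
        exact this
      rw [e1, e2, e3, hH'v, (hmem₁ _).mp (g₁ (e₁ v)).2]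
    · by_contra hcon
      push Not at hcon
      push Not at hfix
      obtain ⟨u₀, hu₀, hu₀0⟩ := hfix
      have h0 : (⟨u₀, (hmem₁ _).mpr hu₀⟩ : V₁) = 0 := by
        apply hnd₁
        intro y
        show QuadraticMap.polar (⇑Q) u₀ (y : V) = 0
        have hy : H (y : V) = (y : V) := (hmem₁ _).mp y.2
        unfold QuadraticMap.polar
        rw [hcon (u₀ + (y : V)) (by rw [map_add, hu₀, hy]), hcon _ hu₀, hcon _ hy]
        ring
      exact hu₀0 (congrArg Subtype.val h0)

section
variable {ι : Type} [Fintype ι] [DecidableEq ι] {F : Type*} [Field F] [Fintype F] [DecidableEq F]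

/-- For an isometry `h` with `h ^ r = 1`, `r` odd and prime to the characteristic, there is a
class-preserving similarity with non-square multiplier commuting with `h`. -/
theorem exists_sim_commuting (Q : QuadraticForm F (ι → F)) (h2 : (2 : F) ≠ 0)
    (hQ : (QuadraticMap.polarBilin Q).Nondegenerate) (hne : ∃ v, Q v ≠ 0) {k : ℕ}
    (hk : Fintype.card ι = 2 * k) (h : ↥(Cfsg.isometryGroup F (⇑Q))) {r : ℕ} (hr : Odd r)
    (hrF : (r : F) ≠ 0) (hpow : h ^ r = 1) :
    ∃ δ : ↥(Cfsg.Geo.quadSimilarityGroup (⇑Q)), ¬ IsSquare (simMul (⇑Q) δ : F) ∧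
      sgnD Q h2 hQ hne hk δ = 1 ∧ δ * inclO Q h = inclO Q h * δ := by
  classical
  obtain ⟨ν, hν⟩ := exists_nonsquare_unit (F := F) h2
  obtain ⟨hM, hhM⟩ : ∃ hM : Matrix ι ι F,
      hM = ((h : Matrix.GeneralLinearGroup ι F) : Matrix ι ι F) := ⟨_, rfl⟩
  obtain ⟨H, hH⟩ : ∃ H : Module.End F (ι → F), H = Matrix.toLinAlgEquiv' hM := ⟨_, rfl⟩
  have hHv : ∀ v, H v = hM *ᵥ v := by
    intro v
    rw [hH]
    exact Matrix.toLinAlgEquiv'_apply _ _
  have hiso : ∀ v, Q (H v) = Q v := by
    intro v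
    rw [hHv, hhM]
    exact isometry_apply h v
  have hpowM : hM ^ r = 1 := by
    have e := congrArg (fun g : ↥(Cfsg.isometryGroup F (⇑Q)) =>
      ((g : Matrix.GeneralLinearGroup ι F) : Matrix ι ι F)) hpow
    simp only [Subgroup.coe_pow, Units.val_pow_eq_pow_val, Subgroup.coe_one, Units.val_one] at e
    rw [hhM]
    exact e
  have hpowH : H ^ r = 1 := by
    rw [hH, ← map_pow, hpowM, map_one]
  have hfixeq : LinearMap.ker (H - 1) = Cfsg.Agent.H7.fixSub Q h := by
    ext x
    rw [LinearMap.mem_ker, Cfsg.Agent.H7.mem_fixSub, LinearMap.sub_apply, Module.End.one_apply,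
      sub_eq_zero, hHv, hhM]
  have hpar : ∃ m₁, finrank F (LinearMap.ker (H - 1)) = 2 * m₁ := by
    rw [hfixeq]
    obtain ⟨j, hj⟩ := hr
    have hsq : h = h ^ (j + 1) * h ^ (j + 1) := by
      rw [← pow_add, show j + 1 + (j + 1) = r + 1 by omega, pow_succ, hpow, one_mul]
    have hinv : ∀ s ∈ reflSet Q, s * s = 1 := by
      rintro s ⟨v, -, rfl⟩
      exact reflG_mul_self Q v
    obtain ⟨l, hl, hlp⟩ := exists_list_of_closure_invol (reflSet Q) hinv
      (closure_reflSet_eq_top Q h2 hQ) (h ^ (j + 1))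
    have hmem : h ∈ evenSub (reflSet Q) := by
      rw [hsq, ← hlp, ← List.prod_append]
      apply (list_prod_mem_evenSub (reflSet Q) (l ++ l) ?_).1 ?_
      · intro y hy
        rcases List.mem_append.mp hy with h' | h' <;> exact hl y h'
      · rw [List.length_append]
        exact ⟨l.length, rfl⟩
    have hev := (Cfsg.Agent.H7.even_fix_of_mem_evenSub Q hQ h hmem).mpr (by
      rw [Module.finrank_fintype_fun_eq_card, hk]
      exact even_two_mul k)
    obtain ⟨m₁, hm₁⟩ := hev
    exact ⟨m₁, by rw [hm₁]; ring⟩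
  obtain ⟨m₁, hm₁⟩ := hpar
  obtain ⟨δL, hδQ, hδH, hδu, hδa⟩ :=
    exists_lin_sim_commuting h2 Q hQ H hiso hr hrF hpowH hm₁ hν
  obtain ⟨M, hMdef⟩ : ∃ M : Matrix ι ι F, M = Matrix.toLinAlgEquiv'.symm δL := ⟨_, rfl⟩
  have hMv : ∀ v, M *ᵥ v = δL v := by
    intro v
    rw [hMdef, ← Matrix.toLinAlgEquiv'_apply, AlgEquiv.apply_symm_apply]
  have hsim : ∀ v, Q (M *ᵥ v) = (ν : F) * Q v := by
    intro v
    rw [hMv]
    exact hδQ v
  have hMh : M * hM = hM * M := by
    have e := congrArg Matrix.toLinAlgEquiv'.symm hδH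
    rw [map_mul, map_mul, ← hMdef, hH, AlgEquiv.symm_apply_apply] at e
    exact e
  have hmem : Matrix.GeneralLinearGroup.mkOfDetNeZero M
      (det_ne_zero_of_sim Q hQ M ν ν.ne_zero hsim) ∈ Cfsg.Geo.quadSimilarityGroup (⇑Q) :=
    ⟨ν, hsim⟩
  obtain ⟨δ₀, hδ₀⟩ : ∃ δ₀ : ↥(Cfsg.Geo.quadSimilarityGroup (⇑Q)),
      ((δ₀ : Matrix.GeneralLinearGroup ι F) : Matrix ι ι F) = M := ⟨⟨_, hmem⟩, rfl⟩
  have hmul : simMul (⇑Q) δ₀ = ν :=
    simMul_unique (⇑Q) hne δ₀ ν (by rw [hδ₀]; exact hsim)
  have hcomm₀ : δ₀ * inclO Q h = inclO Q h * δ₀ := by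
    apply Subtype.ext
    apply Units.ext
    rw [Subgroup.coe_mul, Subgroup.coe_mul, Units.val_mul, Units.val_mul, inclO_coe, hδ₀, ← hhM]
    exact hMh
  by_cases hfix : ∀ v, H v = v → v = 0
  · refine ⟨δ₀, by rw [hmul]; exact hν, ?_, hcomm₀⟩
    rw [sgnD_eq_one_iff]
    apply Units.ext
    rw [simD_val, hmul, hδ₀, Units.val_one]
    have hdet : M.det = (ν : F) ^ k := by
      apply det_of_sim_cayley (stdGram Q) M ν (stdGram_det_ne_zero Q hQ) ?_ hk ?_
      · have e := sim_gram Q δ₀
        rw [hδ₀, hmul] at e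
        exact e
      · have hu := (hδu hfix).map Matrix.toLinAlgEquiv'.symm
        rw [map_sub, map_mul, ← hMdef, map_smul, map_one] at hu
        exact ((Matrix.isUnit_iff_isUnit_det _).mp hu).ne_zero
    rw [hdet, ← mul_pow, mul_inv_cancel₀ ν.ne_zero, one_pow]
  · obtain ⟨u, hu, hQu⟩ := hδa hfix
    have hrefl : reflG Q u * h = h * reflG Q u := by
      have e := conj_reflG Q h u
      rw [← hhM, ← hHv, hu] at e
      exact (mul_inv_eq_iff_eq_mul.mp e).symm
    rcases Int.units_eq_one_or (sgnD Q h2 hQ hne hk δ₀) with hs | hs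
    · exact ⟨δ₀, by rw [hmul]; exact hν, hs, hcomm₀⟩
    · refine ⟨δ₀ * inclO Q (reflG Q u), ?_, ?_, ?_⟩
      · have e : simMul (⇑Q) (δ₀ * inclO Q (reflG Q u)) = ν := by
          rw [← simMulHom_apply (⇑Q) hne, map_mul, simMulHom_apply, simMulHom_apply, hmul,
            simMul_inclO Q hne, mul_one]
        rw [e]
        exact hν
      · rw [map_mul, hs, sgnD_inclO_reflG Q h2 hQ hne hk u hQu]
        rfl
      · rw [mul_assoc, ← map_mul, hrefl, map_mul, ← mul_assoc, hcomm₀, mul_assoc]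

end

end Cfsg.Agent.H49
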