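import Mathlib
import Cfsg.Agent.H49.TorusGlue
import Cfsg.Agent.H49.SimMinus2
import Cfsg.Agent.H49.SimInst
import Cfsg.Agent.H49.SimMinusK
import Cfsg.Agent.H49.MinusPresK
import Cfsg.Agent.H49.SemiConjSim

set_option autoImplicit false
set_option linter.unusedSectionVars false

/-! Helper lemmas (helper49): fusion of classes of elements of odd order prime to the
characteristic in the image of the conformal orthogonal group (minus type). -/

namespace Cfsg.Agent.H49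

open Module Matrix

theorem conj_under_of_cover {X : Type*} [Group X] (K H : Subgroup X) (x : X)
    (hcov : ∀ g ∈ H, ∃ c : X, c * x = x * c ∧ g * c⁻¹ ∈ K) (y : X)
    (hy : Cfsg.IsConjUnder H x y) : Cfsg.IsConjUnder K x y := by
  obtain ⟨g, hg, rfl⟩ := hy
  obtain ⟨c, hc, hk⟩ := hcov g hg
  refine ⟨g * c⁻¹, hk, ?_⟩
  have e : c⁻¹ * x * c = x := by
    rw [mul_assoc, ← hc, inv_mul_cancel_left]
  calc g * x * g⁻¹ = g * (c⁻¹ * x * c) * g⁻¹ := by rw [e]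
    _ = g * c⁻¹ * x * (g * c⁻¹)⁻¹ := by group

theorem conj_under_mono {X : Type*} [Group X] {K H : Subgroup X} (hKH : K ≤ H) (x y : X)
    (hy : Cfsg.IsConjUnder K x y) : Cfsg.IsConjUnder H x y := by
  obtain ⟨g, hg, rfl⟩ := hy
  exact ⟨g, hKH hg, rfl⟩

theorem cover_of_cyclic_gen {X : Type*} [Group X] (K H : Subgroup X) {n : ℕ}
    (φ : ↥H →* Multiplicative (ZMod n)) (hker : φ.ker = K.subgroupOf H)
    (c₀ : X) (hc₀ : c₀ ∈ H)
    (hgen : ∀ z : Multiplicative (ZMod n), ∃ j : ℕ, z = φ ⟨c₀, hc₀⟩ ^ j)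
    (x : X) (hcx : c₀ * x = x * c₀) :
    ∀ g ∈ H, ∃ c : X, c * x = x * c ∧ g * c⁻¹ ∈ K := by
  intro g hg
  obtain ⟨j, hj⟩ := hgen (φ ⟨g, hg⟩)
  refine ⟨c₀ ^ j, ?_, ?_⟩
  · exact (Commute.pow_left (show Commute c₀ x from hcx) j).eq
  · have hmem : (⟨g, hg⟩ * (⟨c₀, hc₀⟩ ^ j)⁻¹ : ↥H) ∈ φ.ker := by
      rw [MonoidHom.mem_ker, map_mul, map_inv, map_pow, hj, mul_inv_cancel]
    rw [hker, Subgroup.mem_subgroupOf] at hmem
    exact hmem

theorem gen_zmod_two : ∀ w z : Multiplicative (ZMod 2), w ≠ 1 → ∃ j : ℕ, z = w ^ j := by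
  intro w z hw
  have key : ∀ w z : Multiplicative (ZMod 2), w ≠ 1 → z = w ^ 0 ∨ z = w ^ 1 := by decide
  rcases key w z hw with h | h
  · exact ⟨0, h⟩
  · exact ⟨1, h⟩

theorem gen_zmod_four : ∀ w t z : Multiplicative (ZMod 4), t ≠ 1 → t * t = 1 → w ≠ 1 → w ≠ t →
    ∃ j : ℕ, z = w ^ j := by
  intro w t z h1 h2 h3 h4
  have key : ∀ w t z : Multiplicative (ZMod 4), t ≠ 1 → t * t = 1 → w ≠ 1 → w ≠ t →
      z = w ^ 0 ∨ z = w ^ 1 ∨ z = w ^ 2 ∨ z = w ^ 3 := by decide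
  rcases key w t z h1 h2 h3 h4 with h | h | h | h
  · exact ⟨0, h⟩
  · exact ⟨1, h⟩
  · exact ⟨2, h⟩
  · exact ⟨3, h⟩

section
variable {ι : Type} [Fintype ι] [DecidableEq ι] {F : Type*} [Field F] [Fintype F] [DecidableEq F]

theorem scalSim_mul_scalSim (Q : QuadraticForm F (ι → F)) (l l' : Fˣ) :
    scalSim Q l * scalSim Q l' = scalSim Q (l * l') := by
  apply Subtype.ext
  exact (scalGL_mul l l').symm

/-- An automorphism of odd order in the image of the conformal group is induced by an isometry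
of the same odd exponent. -/
theorem exists_iso_lift_of_odd_order (Q : QuadraticForm F (ι → F))
    (hQ : (QuadraticMap.polarBilin Q).Nondegenerate) (h3 : HasTS3 Q) (hne : ∃ v, Q v ≠ 0)
    (x : MulAut (Cfsg.POmega F (⇑Q))) (hx : x ∈ Cfsg.pgoAut F (⇑Q))
    {r : ℕ} (hr : Odd r) (hxr : x ^ r = 1) :
    ∃ h : ↥(Cfsg.isometryGroup F (⇑Q)), cHom (⇑Q) (inclO Q h) = x ∧ h ^ r = 1 := by
  rw [pgoAut_eq] at hx
  obtain ⟨γ, rfl⟩ := hx
  obtain ⟨j, hj⟩ := hr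
  obtain ⟨l, hl⟩ := eq_scalSim_of_cHom_eq_one Q hQ h3 hne (γ ^ r) (by rw [map_pow]; exact hxr)
  have hsq : IsSquare (simMul (⇑Q) γ : F) := by
    have e : simMul (⇑Q) γ ^ r = l * l := by
      rw [← simMulHom_apply (⇑Q) hne, ← map_pow, hl, simMulHom_apply, simMul_scalSim Q hne]
    have e' : (simMul (⇑Q) γ : F) ^ r = l * l := by
      have e2 := congrArg Units.val e
      rw [Units.val_pow_eq_pow_val, Units.val_mul] at e2
      exact e2
    have hμ : (simMul (⇑Q) γ : F) ≠ 0 := (simMul (⇑Q) γ).ne_zero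
    refine ⟨(l : F) * ((simMul (⇑Q) γ : F) ^ j)⁻¹, ?_⟩
    rw [hj] at e'
    field_simp
    linear_combination e'
  obtain ⟨l', g₀, hγ⟩ := exists_scal_mul_of_isSquare Q γ hsq
  have hx0 : cHom (⇑Q) γ = cHom (⇑Q) (inclO Q g₀) := by
    rw [hγ, map_mul, cHom_scalSim, one_mul]
  obtain ⟨l'', hl''⟩ := eq_scalSim_of_cHom_eq_one Q hQ h3 hne (inclO Q (g₀ ^ r))
    (by rw [map_pow, map_pow, ← hx0]; exact hxr)
  have hll : l'' * l'' = 1 := by
    have e1 := simMul_inclO Q hne (g₀ ^ r)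
    rw [hl'', simMul_scalSim Q hne] at e1
    exact e1
  have hs2 : (g₀ ^ r) ^ 2 = 1 := by
    apply Subgroup.inclusion_injective (isometryGroup_le_sim (⇑Q))
    show inclO Q ((g₀ ^ r) ^ 2) = inclO Q 1
    rw [map_pow, hl'', map_one, pow_two, scalSim_mul_scalSim, hll, scalSim_one]
  refine ⟨g₀ ^ (r + 1), ?_, ?_⟩
  · rw [map_pow, map_pow, ← hx0, pow_succ, hxr, one_mul]
  · rw [← pow_mul, show (r + 1) * r = r * (2 * (j + 1)) by rw [hj]; ring, pow_mul, pow_mul, hs2,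
      one_pow]

/-- For an automorphism `x` of odd order prime to the characteristic in the image of the
conformal group there is a class-preserving similarity with non-square multiplier inducing an
automorphism commuting with `x`. -/
theorem exists_commuting_sim (Q : QuadraticForm F (ι → F)) (h2 : (2 : F) ≠ 0)
    (hQ : (QuadraticMap.polarBilin Q).Nondegenerate) (h3 : HasTS3 Q) (hne : ∃ v, Q v ≠ 0)
    {k : ℕ} (hk : Fintype.card ι = 2 * k)
    (x : MulAut (Cfsg.POmega F (⇑Q))) (hx : x ∈ Cfsg.pgoAut F (⇑Q))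
    {r : ℕ} (hr : Odd r) (hrF : (r : F) ≠ 0) (hxr : x ^ r = 1) :
    ∃ δ : ↥(Cfsg.Geo.quadSimilarityGroup (⇑Q)), ¬ IsSquare (simMul (⇑Q) δ : F) ∧
      sgnD Q h2 hQ hne hk δ = 1 ∧ cHom (⇑Q) δ * x = x * cHom (⇑Q) δ := by
  obtain ⟨h, hhx, hhr⟩ := exists_iso_lift_of_odd_order Q hQ h3 hne x hx hr hxr
  obtain ⟨δ, h1, h2', h3'⟩ := exists_sim_commuting Q h2 hQ hne hk h hr hrF hhr
  refine ⟨δ, h1, h2', ?_⟩
  rw [← hhx, ← map_mul, ← map_mul, h3']

/-- A similarity inducing an automorphism in the image of `O` has square multiplier. -/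
theorem isSquare_of_mem_poAut (Q : QuadraticForm F (ι → F))
    (hQ : (QuadraticMap.polarBilin Q).Nondegenerate) (h3 : HasTS3 Q) (hne : ∃ v, Q v ≠ 0)
    (g : ↥(Cfsg.Geo.quadSimilarityGroup (⇑Q)))
    (hg : cHom (⇑Q) g ∈ Cfsg.poAut F (⇑Q)) : IsSquare (simMul (⇑Q) g : F) := by
  rw [poAut_eq] at hg
  obtain ⟨s, hsO, hs⟩ := hg
  have h1 : cHom (⇑Q) (s⁻¹ * g) = 1 := by rw [map_mul, map_inv, hs, inv_mul_cancel]
  obtain ⟨l, hl⟩ := eq_scalSim_of_cHom_eq_one Q hQ h3 hne _ h1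
  have hg' : g = s * scalSim Q l := by rw [← hl]; group
  have hs' : s = inclO Q ⟨s.1, hsO⟩ := rfl
  have e : simMul (⇑Q) g = l * l := by
    rw [hg', ← simMulHom_apply (⇑Q) hne, map_mul, simMulHom_apply, simMulHom_apply, hs',
      simMul_inclO Q hne, simMul_scalSim Q hne, one_mul]
  rw [e, Units.val_mul]
  exact ⟨l, rfl⟩

theorem psoAut_le_poAut (Qf : (ι → F) → F) : Cfsg.psoAut F Qf ≤ Cfsg.poAut F Qf := by
  rw [psoAut_eq, poAut_eq]
  exact Subgroup.map_mono (Subgroup.comap_mono inf_le_left)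

theorem poAut_le_pgoAut (Qf : (ι → F) → F) : Cfsg.poAut F Qf ≤ Cfsg.pgoAut F Qf := by
  rw [pgoAut_eq, poAut_eq, MonoidHom.range_eq_map]
  exact Subgroup.map_mono le_top

/-- The `PO`-class and the `PGO`-class of an automorphism of odd order prime to the
characteristic coincide. -/
theorem po_pgo_fusion (Q : QuadraticForm F (ι → F)) (h2 : (2 : F) ≠ 0)
    (hQ : (QuadraticMap.polarBilin Q).Nondegenerate) (h3 : HasTS3 Q) (hne : ∃ v, Q v ≠ 0)
    {k : ℕ} (hk : Fintype.card ι = 2 * k)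
    (x : MulAut (Cfsg.POmega F (⇑Q))) (hx : x ∈ Cfsg.pgoAut F (⇑Q))
    {r : ℕ} (hr : Odd r) (hrF : (r : F) ≠ 0) (hxr : x ^ r = 1)
    (y : MulAut (Cfsg.POmega F (⇑Q))) :
    Cfsg.IsConjUnder (Cfsg.poAut F (⇑Q)) x y ↔ Cfsg.IsConjUnder (Cfsg.pgoAut F (⇑Q)) x y := by
  refine ⟨conj_under_mono (poAut_le_pgoAut _) x y, ?_⟩
  obtain ⟨δ, hδsq, -, hδx⟩ := exists_commuting_sim Q h2 hQ h3 hne hk x hx hr hrF hxr
  apply conj_under_of_cover
  intro g hg
  rw [pgoAut_eq] at hg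
  obtain ⟨γ, rfl⟩ := hg
  have hmemO : ∀ o : ↥(Cfsg.isometryGroup F (⇑Q)), cHom (⇑Q) (inclO Q o) ∈ Cfsg.poAut F (⇑Q) := by
    intro o
    rw [poAut_eq]
    exact ⟨inclO Q o, o.2, rfl⟩
  rcases Int.units_eq_one_or (epsHom Q hne γ) with he | he
  · obtain ⟨l, o, rfl⟩ := exists_inclO_of_eps Q hne γ he
    refine ⟨1, by rw [one_mul, mul_one], ?_⟩
    rw [inv_one, mul_one, map_mul, cHom_scalSim, one_mul]
    exact hmemO o
  · refine ⟨cHom (⇑Q) δ, hδx, ?_⟩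
    have he2 : epsHom Q hne (γ * δ⁻¹) = 1 := by
      rw [map_mul, map_inv, he, epsHom_neg Q hne δ hδsq]
      rfl
    obtain ⟨l, o, hlo⟩ := exists_inclO_of_eps Q hne _ he2
    rw [← map_inv, ← map_mul, hlo, map_mul, cHom_scalSim, one_mul]
    exact hmemO o

end

section Minus
variable {F : Type*} [Field F] [Fintype F]

set_option maxHeartbeats 3200000 in
/-- Class fusion for automorphisms of odd order prime to the characteristic of `PΩ⁻`. -/
theorem minus_odd_fusion (hodd : Odd (Fintype.card F)) {m : ℕ} (hm : 3 ≤ m) (a b : F)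
    (hab : ∀ z₁ z₂ : F, z₁ ^ 2 + a * z₁ * z₂ + b * z₂ ^ 2 = 0 → z₁ = 0 ∧ z₂ = 0)
    (x : MulAut (Cfsg.POmega F (Cfsg.quadFormMinus m F a b)))
    (hx : x ∈ Cfsg.pgoAut F (Cfsg.quadFormMinus m F a b))
    {r : ℕ} (hr : Odd r) (hrF : (r : F) ≠ 0) (hxr : x ^ r = 1) :
    (∀ y : MulAut (Cfsg.POmega F (Cfsg.quadFormMinus m F a b)),
      (Cfsg.IsConjUnder (Cfsg.Inn (Cfsg.POmega F (Cfsg.quadFormMinus m F a b))) x y
        ↔ Cfsg.IsConjUnder (Cfsg.inndiagPOmegaMinus m F a b) x y) ∧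
      (Cfsg.IsConjUnder (Cfsg.psoAut F (Cfsg.quadFormMinus m F a b)) x y
        ↔ Cfsg.IsConjUnder (Cfsg.inndiagPOmegaMinus m F a b) x y)) ∧
    (∀ y : MulAut (Cfsg.POmega F (Cfsg.quadFormMinus m F a b)),
      Cfsg.IsConjUnder (Cfsg.poAut F (Cfsg.quadFormMinus m F a b)) x y
        ↔ Cfsg.IsConjUnder (Cfsg.pgoAut F (Cfsg.quadFormMinus m F a b)) x y) := by
  classical
  have h2 : (2 : F) ≠ 0 := two_ne_zero_of_odd_card hodd
  have hQ := QMin_nondeg m a b (disc_ne_zero_of_aniso a b hab)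
  have h3 := hasTS3_QMin m hm a b
  have hne : ∃ v, QMin m F a b v ≠ 0 := QMin_ne m a b
  have hcard : Fintype.card ((Fin m ⊕ Fin m) ⊕ Fin 2) = 2 * (m + 1) := by simp; ring
  have hx' : x ∈ Cfsg.pgoAut F (⇑(QMin m F a b)) := hx
  obtain ⟨δ, hδsq, hδs, hδx⟩ :=
    exists_commuting_sim (QMin m F a b) h2 hQ h3 hne hcard x hx' hr hrF hxr
  have hK : ∀ g : ↥(Cfsg.Geo.quadSimilarityGroup (⇑(QMin m F a b))),
      Cfsg.PreservesSingularClassesMinus m a b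
        ((g : Matrix.GeneralLinearGroup ((Fin m ⊕ Fin m) ⊕ Fin 2) F) :
          Matrix ((Fin m ⊕ Fin m) ⊕ Fin 2) ((Fin m ⊕ Fin m) ⊕ Fin 2) F)
        ↔ g ∈ (sgnD (QMin m F a b) h2 hQ hne hcard).ker := fun g =>
    ((preservesMinus_iff m a b hab h2 hne g).trans
      (sgnD_eq_one_iff _ h2 _ hne _ g).symm).trans MonoidHom.mem_ker.symm
  have hD : Cfsg.inndiagPOmegaMinus m F a b
      = (sgnD (QMin m F a b) h2 hQ hne hcard).ker.map (cHom (⇑(QMin m F a b))) :=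
    autSubgroupOf_pred_eq (⇑(QMin m F a b)) (Cfsg.PreservesSingularClassesMinus m a b)
      (sgnD (QMin m F a b) h2 hQ hne hcard).ker hK
  obtain ⟨c₀, hc₀⟩ : ∃ c₀ : MulAut (Cfsg.POmega F (Cfsg.quadFormMinus m F a b)),
      c₀ = cHom (⇑(QMin m F a b)) δ := ⟨_, rfl⟩
  have hc₀x : c₀ * x = x * c₀ := by rw [hc₀]; exact hδx
  have hc₀D : c₀ ∈ Cfsg.inndiagPOmegaMinus m F a b := by
    rw [hD, hc₀]
    exact ⟨δ, MonoidHom.mem_ker.mpr hδs, rfl⟩
  have hSO : Cfsg.psoAut F (Cfsg.quadFormMinus m F a b)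
      ≤ Cfsg.poAut F (Cfsg.quadFormMinus m F a b) := psoAut_le_poAut _
  have hc₀S : c₀ ∉ Cfsg.psoAut F (Cfsg.quadFormMinus m F a b) := by
    intro hmem
    apply hδsq
    apply isSquare_of_mem_poAut (QMin m F a b) hQ h3 hne δ
    rw [← hc₀]
    exact hSO hmem
  have hIS : Cfsg.Inn (Cfsg.POmega F (Cfsg.quadFormMinus m F a b))
      ≤ Cfsg.psoAut F (Cfsg.quadFormMinus m F a b) := inn_le_psoAut _
  have hSD : Cfsg.psoAut F (Cfsg.quadFormMinus m F a b)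
      ≤ Cfsg.inndiagPOmegaMinus m F a b := by
    rw [hD]
    intro t ht
    have ht' : t ∈ Cfsg.psoAut F (⇑(QMin m F a b)) := ht
    have ht'' := ht'
    rw [psoAut_eq] at ht'
    obtain ⟨s, hs, rfl⟩ := ht'
    exact ⟨s, MonoidHom.mem_ker.mpr
      (sgnD_eq_one_of_mem_psoAut (QMin m F a b) h2 hQ h3 hne hcard s ht''), rfl⟩
  have hcover : ∀ g ∈ Cfsg.inndiagPOmegaMinus m F a b, ∃ c, c * x = x * c ∧
      g * c⁻¹ ∈ Cfsg.Inn (Cfsg.POmega F (Cfsg.quadFormMinus m F a b)) := by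
    by_cases hcase : Even m ∧ Fintype.card F % 4 = 3
    · obtain ⟨φ, -, hker⟩ := (minus_inndiag hodd hm a b hab).1 hcase
      have hrel := (minus_relIndex hodd hm a b hab).1 hcase
      obtain ⟨s, hsS, hsI, hall⟩ := Subgroup.relIndex_eq_two_iff_exists_notMem_and.mp hrel
      have hssI : s * s ∈ Cfsg.Inn (Cfsg.POmega F (Cfsg.quadFormMinus m F a b)) :=
        (hall s hsS).resolve_right hsI
      have hφ1 : ∀ (t : MulAut (Cfsg.POmega F (Cfsg.quadFormMinus m F a b)))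
          (ht : t ∈ Cfsg.inndiagPOmegaMinus m F a b), φ ⟨t, ht⟩ = 1
            ↔ t ∈ Cfsg.Inn (Cfsg.POmega F (Cfsg.quadFormMinus m F a b)) := by
        intro t ht
        rw [← MonoidHom.mem_ker, hker, Subgroup.mem_subgroupOf]
      apply cover_of_cyclic_gen _ _ φ hker c₀ hc₀D ?_ x hc₀x
      intro z
      apply gen_zmod_four (φ ⟨c₀, hc₀D⟩) (φ ⟨s, hSD hsS⟩) z
      · rw [Ne, hφ1]
        exact hsI
      · rw [← map_mul]
        exact (hφ1 (s * s) _).mpr hssI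
      · rw [Ne, hφ1]
        exact fun hmem => hc₀S (hIS hmem)
      · intro heq
        apply hc₀S
        have h1 : φ (⟨c₀, hc₀D⟩ * ⟨s, hSD hsS⟩⁻¹) = 1 := by
          rw [map_mul, map_inv, heq, mul_inv_cancel]
        have h2' := (hφ1 (c₀ * s⁻¹) _).mp h1
        have h3' := mul_mem (hIS h2') hsS
        rw [inv_mul_cancel_right] at h3'
        exact h3'
    · obtain ⟨φ, -, hker⟩ := (minus_inndiag hodd hm a b hab).2 hcase
      have hφ1 : ∀ (t : MulAut (Cfsg.POmega F (Cfsg.quadFormMinus m F a b)))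
          (ht : t ∈ Cfsg.inndiagPOmegaMinus m F a b), φ ⟨t, ht⟩ = 1
            ↔ t ∈ Cfsg.Inn (Cfsg.POmega F (Cfsg.quadFormMinus m F a b)) := by
        intro t ht
        rw [← MonoidHom.mem_ker, hker, Subgroup.mem_subgroupOf]
      apply cover_of_cyclic_gen _ _ φ hker c₀ hc₀D ?_ x hc₀x
      intro z
      apply gen_zmod_two (φ ⟨c₀, hc₀D⟩) z
      rw [Ne, hφ1]
      exact fun hmem => hc₀S (hIS hmem)
  refine ⟨fun y => ⟨⟨conj_under_mono (le_trans hIS hSD) x y, ?_⟩,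
    ⟨conj_under_mono hSD x y, ?_⟩⟩, fun y => ?_⟩
  · exact conj_under_of_cover _ _ x hcover y
  · intro hy
    exact conj_under_mono hIS x y (conj_under_of_cover _ _ x hcover y hy)
  · exact po_pgo_fusion (QMin m F a b) h2 hQ h3 hne hcard x hx' hr hrF hxr y

end Minus

end Cfsg.Agent.H49
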