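import Mathlib

set_option autoImplicit false
set_option linter.style.haveILetI false

/-! Helper lemmas (helper49): the sign of a permutation all of whose non-trivial cycles have the
same even length, and the norm-one group of the quadratic algebra `L[ω]/(ω² = D)` over a finite
field `L` of odd characteristic. -/

namespace Cfsg.Agent.H49

open Polynomial

theorem sign_of_free_orbits {X : Type*} [Fintype X] [DecidableEq X] (σ : Equiv.Perm X) {N : ℕ}
    (hN : Even N) (hNpos : 0 < N)
    (hfree : ∀ x, σ x ≠ x → ∀ j : ℕ, (σ ^ j) x = x ↔ N ∣ j) :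
    N ∣ σ.support.card ∧ Equiv.Perm.sign σ = (-1) ^ (σ.support.card / N) := by
  have hall : ∀ n ∈ σ.cycleType, n = N := by
    intro n hn
    obtain ⟨c, τ, hστ, hd, hc, rfl⟩ := Equiv.Perm.mem_cycleType_iff.mp hn
    obtain ⟨x, hx, -⟩ := id hc
    have hτx : τ x = x := (hd x).resolve_left hx
    have hσx : σ x ≠ x := by
      rw [hστ, Equiv.Perm.mul_apply, hτx]
      exact hx
    have hpow : ∀ j : ℕ, (σ ^ j) x = (c ^ j) x := by
      intro j
      rw [hστ, hd.commute.mul_pow, Equiv.Perm.mul_apply,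
        Equiv.Perm.pow_apply_eq_self_of_apply_eq_self hτx]
    have hiff : ∀ j : ℕ, c ^ j = 1 ↔ N ∣ j := by
      intro j
      rw [hc.pow_eq_one_iff' hx, ← hpow, hfree x hσx]
    rw [← hc.orderOf]
    apply Nat.dvd_antisymm
    · rw [orderOf_dvd_iff_pow_eq_one, hiff]
    · rw [← hiff]
      exact pow_orderOf_eq_one c
  have hrep : σ.cycleType = Multiset.replicate (Multiset.card σ.cycleType) N :=
    Multiset.eq_replicate.mpr ⟨rfl, hall⟩
  have hsum : σ.support.card = Multiset.card σ.cycleType * N := by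
    rw [← Equiv.Perm.sum_cycleType]
    conv_lhs => rw [hrep]
    rw [Multiset.sum_replicate, smul_eq_mul]
  refine ⟨⟨_, by rw [hsum, mul_comm]⟩, ?_⟩
  rw [Equiv.Perm.sign_of_cycleType, Equiv.Perm.sum_cycleType, hsum, Nat.mul_div_cancel _ hNpos,
    pow_add, pow_mul', hN.neg_one_pow, one_pow, one_mul]

theorem even_card_of_invol {α : Type*} (s : Finset α) (g : α → α)
    (hg : ∀ a ∈ s, g a ∈ s) (hgg : ∀ a ∈ s, g (g a) = a) (hne : ∀ a ∈ s, g a ≠ a) :
    Even s.card := by
  have h := Finset.sum_involution (s := s) (f := fun _ => (1 : ZMod 2)) (fun a _ => g a)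
    (fun a ha => by show (1 : ZMod 2) + 1 = 0; decide) (fun a ha _ => hne a ha)
    (fun a ha => hg a ha) (fun a ha => hgg a ha)
  rw [Finset.sum_const, nsmul_eq_mul, mul_one] at h
  exact ZMod.natCast_eq_zero_iff_even.mp h

theorem odd_card_of_invol {α : Type*} [DecidableEq α] (s : Finset α) (g : α → α) (a₀ : α)
    (ha₀ : a₀ ∈ s) (hg : ∀ a ∈ s, g a ∈ s) (hgg : ∀ a ∈ s, g (g a) = a)
    (hfix : ∀ a ∈ s, g a = a ↔ a = a₀) : Odd s.card := by
  have hg₀ : g a₀ = a₀ := (hfix a₀ ha₀).mpr rfl
  have h : Even (s.erase a₀).card := by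
    apply even_card_of_invol (s.erase a₀) g
    · intro a ha
      rw [Finset.mem_erase] at ha ⊢
      refine ⟨fun h1 => ha.1 ?_, hg a ha.2⟩
      rw [← hgg a ha.2, h1, hg₀]
    · intro a ha
      exact hgg a (Finset.mem_of_mem_erase ha)
    · intro a ha
      rw [Finset.mem_erase] at ha
      exact fun h1 => ha.1 ((hfix a ha.2).mp h1)
  rw [← Finset.card_erase_add_one ha₀]
  exact h.add_one

section QA
variable {L : Type*} [Field L] (D : L)

theorem qa_norm_eq (z : QuadraticAlgebra L D 0) : z.norm = z.re ^ 2 - D * z.im ^ 2 := by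
  rw [QuadraticAlgebra.norm_def]
  ring

theorem qa_norm_zero : (0 : QuadraticAlgebra L D 0).norm = 0 := by
  rw [qa_norm_eq]
  simp

theorem qa_finite [Finite L] : Finite (QuadraticAlgebra L D 0) :=
  Finite.of_equiv _ (QuadraticAlgebra.equivProd D 0).symm

/-- The norm-one group. -/
def normOneSub : Subgroup (QuadraticAlgebra L D 0)ˣ :=
  (Units.map (QuadraticAlgebra.norm : QuadraticAlgebra L D 0 →* L)).ker

theorem mem_normOneSub (u : (QuadraticAlgebra L D 0)ˣ) :
    u ∈ normOneSub D ↔ (u : QuadraticAlgebra L D 0).norm = 1 := by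
  rw [normOneSub, MonoidHom.mem_ker, Units.ext_iff, Units.coe_map, Units.val_one]

theorem qa_norm_surj [Fintype L] (h2 : (2 : L) ≠ 0) (hD : D ≠ 0) (c : L) :
    ∃ a : QuadraticAlgebra L D 0, a.norm = c := by
  classical
  have hchar : ringChar L ≠ 2 := by
    intro h
    have h0 := ringChar.Nat.cast_ringChar (R := L)
    rw [h] at h0
    exact h2 (by exact_mod_cast h0)
  have hcard := FiniteField.odd_card_of_char_ne_two hchar
  obtain ⟨x, y, hxy⟩ := FiniteField.exists_root_sum_quadratic
    (f := X ^ 2 - C c) (g := C (-D) * X ^ 2)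
    (degree_X_pow_sub_C (by norm_num) _) (degree_C_mul_X_pow 2 (neg_ne_zero.mpr hD)) hcard
  simp only [eval_sub, eval_pow, eval_X, eval_C, eval_mul] at hxy
  refine ⟨⟨x, y⟩, ?_⟩
  rw [qa_norm_eq]
  linear_combination hxy

theorem qa_free (h2 : (2 : L) ≠ 0) (hD : D ≠ 0) (u a : QuadraticAlgebra L D 0)
    (hu : u.norm = 1) (hu1 : u ≠ 1) (h : u * a = a) : a = 0 := by
  have h1 : (u - 1) * a = 0 := by rw [sub_mul, one_mul, h, sub_self]
  rw [qa_norm_eq] at hu
  by_cases hre : u.re = 1
  · exfalso
    apply hu1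
    rw [hre] at hu
    have h3 : D * u.im ^ 2 = 0 := by linear_combination -hu
    have him : u.im = 0 := by
      rcases mul_eq_zero.mp h3 with h4 | h4
      · exact absurd h4 hD
      · exact pow_eq_zero_iff (two_ne_zero) |>.mp h4
    ext
    · rw [hre]; rfl
    · rw [him]; rfl
  · have hn : (u - 1).norm = 2 * (1 - u.re) := by
      rw [qa_norm_eq]
      have e1 : (u - 1).re = u.re - 1 := rfl
      have e2 : (u - 1).im = u.im := by
        show u.im - 0 = u.im
        rw [sub_zero]
      rw [e1, e2]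
      linear_combination hu
    have hunit : IsUnit (u - 1) := by
      rw [QuadraticAlgebra.isUnit_iff_norm_isUnit, hn]
      exact IsUnit.mk0 _ (mul_ne_zero h2 (sub_ne_zero.mpr (Ne.symm hre)))
    exact (hunit.mul_right_eq_zero).mp h1

theorem normOneSub_isCyclic [Finite L] (h2 : (2 : L) ≠ 0) (hD : D ≠ 0) :
    IsCyclic ↥(normOneSub D) := by
  obtain ⟨d, hd⟩ := IsAlgClosed.exists_pow_nat_eq
    (algebraMap L (AlgebraicClosure L) D) (n := 2) (by norm_num)
  obtain ⟨φ, hφ⟩ : ∃ φ : L →+* AlgebraicClosure L, φ = algebraMap L (AlgebraicClosure L) :=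
    ⟨_, rfl⟩
  rw [← hφ] at hd
  have hd0 : d ≠ 0 := by
    rintro rfl
    rw [zero_pow two_ne_zero] at hd
    exact hD ((map_eq_zero φ).mp hd.symm)
  have h2K : (2 : AlgebraicClosure L) ≠ 0 := by
    have : φ 2 ≠ 0 := (map_ne_zero φ).mpr h2
    rwa [map_ofNat] at this
  let ev : QuadraticAlgebra L D 0 →* AlgebraicClosure L :=
    { toFun := fun z => φ z.re + φ z.im * d
      map_one' := by
        show φ (1 : QuadraticAlgebra L D 0).re + φ (1 : QuadraticAlgebra L D 0).im * d = 1
        rw [QuadraticAlgebra.re_one, QuadraticAlgebra.im_one, map_one, map_zero, zero_mul,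
          add_zero]
      map_mul' := fun z w => by
        show φ (z * w).re + φ (z * w).im * d = (φ z.re + φ z.im * d) * (φ w.re + φ w.im * d)
        rw [QuadraticAlgebra.re_mul, QuadraticAlgebra.im_mul]
        simp only [map_add, map_mul, zero_mul, add_zero]
        linear_combination (-(φ z.im * φ w.im)) * hd }
  have hev : ∀ z : QuadraticAlgebra L D 0, ev z = φ z.re + φ z.im * d := fun z => rfl
  have : Finite (QuadraticAlgebra L D 0) := qa_finite D
  apply isCyclic_of_injective_ringHom
    (ev.comp ((Units.coeHom (QuadraticAlgebra L D 0)).comp (normOneSub D).subtype))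
  rw [injective_iff_map_eq_one]
  intro u hu
  have hu' : φ (u : (QuadraticAlgebra L D 0)ˣ).1.re + φ (u : (QuadraticAlgebra L D 0)ˣ).1.im * d
      = 1 := hu
  have hn := (mem_normOneSub D u.1).mp u.2
  rw [qa_norm_eq] at hn
  have hn' : φ u.1.1.re ^ 2 - φ D * φ u.1.1.im ^ 2 = 1 := by
    rw [← map_pow, ← map_pow, ← map_mul, ← map_sub, hn, map_one]
  have h3 : φ u.1.1.re - φ u.1.1.im * d = 1 := by
    have e : (φ u.1.1.re + φ u.1.1.im * d) * (φ u.1.1.re - φ u.1.1.im * d) = 1 := by
      linear_combination hn' - (φ u.1.1.im ^ 2) * hd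
    rw [hu', one_mul] at e
    exact e
  have him : φ u.1.1.im = 0 := by
    have e : 2 * d * φ u.1.1.im = 0 := by linear_combination hu' - h3
    rcases mul_eq_zero.mp e with h4 | h4
    · exact absurd h4 (mul_ne_zero h2K hd0)
    · exact h4
  have hre : φ u.1.1.re = 1 := by
    rw [him, zero_mul, add_zero] at hu'
    exact hu'
  apply Subtype.ext
  apply Units.ext
  show u.1.1 = 1
  ext
  · show u.1.1.re = 1
    exact φ.injective (by rw [hre, map_one])
  · show u.1.1.im = 0
    exact φ.injective (by rw [him, map_zero])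

theorem qa_fiber_card [Finite L] (h2 : (2 : L) ≠ 0) (hD : D ≠ 0) (c : L) (hc : c ≠ 0) :
    Nat.card {a : QuadraticAlgebra L D 0 // a.norm = c} = Nat.card ↥(normOneSub D) := by
  classical
  haveI := Fintype.ofFinite L
  obtain ⟨a₀, ha₀⟩ := qa_norm_surj D h2 hD c
  have hu : IsUnit a₀ := by
    rw [QuadraticAlgebra.isUnit_iff_norm_isUnit, ha₀]
    exact IsUnit.mk0 _ hc
  obtain ⟨w, hw⟩ := hu
  have hwn : ((w⁻¹ : (QuadraticAlgebra L D 0)ˣ) : QuadraticAlgebra L D 0).norm = c⁻¹ := by
    have e : (w : QuadraticAlgebra L D 0).norm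
        * ((w⁻¹ : (QuadraticAlgebra L D 0)ˣ) : QuadraticAlgebra L D 0).norm = 1 := by
      rw [← map_mul, Units.mul_inv, map_one]
    rw [hw, ha₀] at e
    exact eq_inv_of_mul_eq_one_right e
  symm
  apply Nat.card_congr
  apply Equiv.ofBijective (fun u : ↥(normOneSub D) =>
    (⟨(u.1 : QuadraticAlgebra L D 0) * a₀, by
      rw [map_mul, (mem_normOneSub D u.1).mp u.2, one_mul, ha₀]⟩ :
      {a : QuadraticAlgebra L D 0 // a.norm = c}))
  constructor
  · intro u u' h
    have h1 : (u.1 : QuadraticAlgebra L D 0) * a₀ = (u'.1 : QuadraticAlgebra L D 0) * a₀ :=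
      congrArg Subtype.val h
    rw [← hw] at h1
    exact Subtype.ext (Units.ext (w.isUnit.mul_left_injective h1))
  · intro a
    have hua : IsUnit a.1 := by
      rw [QuadraticAlgebra.isUnit_iff_norm_isUnit, a.2]
      exact IsUnit.mk0 _ hc
    obtain ⟨ua, hua'⟩ := hua
    refine ⟨⟨ua * w⁻¹, ?_⟩, ?_⟩
    · rw [mem_normOneSub, Units.val_mul, map_mul, hua', a.2, hwn, mul_inv_cancel₀ hc]
    · apply Subtype.ext
      show ((ua * w⁻¹ : (QuadraticAlgebra L D 0)ˣ) : QuadraticAlgebra L D 0) * a₀ = a.1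
      rw [← hw, ← Units.val_mul, inv_mul_cancel_right, hua']

theorem qa_free_dvd [Finite L] (h2 : (2 : L) ≠ 0) (hD : D ≠ 0) (S : Set L) :
    Nat.card ↥(normOneSub D)
      ∣ Nat.card {a : QuadraticAlgebra L D 0 // a ≠ 0 ∧ a.norm ∈ S} := by
  haveI : Finite (QuadraticAlgebra L D 0) := qa_finite D
  letI : MulAction ↥(normOneSub D) {a : QuadraticAlgebra L D 0 // a ≠ 0 ∧ a.norm ∈ S} :=
    { smul := fun u a => ⟨(u.1 : QuadraticAlgebra L D 0) * a.1,
        (Units.mul_right_eq_zero u.1).not.mpr a.2.1, by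
          rw [map_mul, (mem_normOneSub D u.1).mp u.2, one_mul]; exact a.2.2⟩
      one_smul := fun a => Subtype.ext (one_mul _)
      mul_smul := fun u v a => Subtype.ext (mul_assoc _ _ _) }
  have hfree : ∀ a : {a : QuadraticAlgebra L D 0 // a ≠ 0 ∧ a.norm ∈ S},
      MulAction.stabilizer ↥(normOneSub D) a = ⊥ := by
    intro a
    rw [eq_bot_iff]
    intro u hu
    rw [MulAction.mem_stabilizer_iff] at hu
    rw [Subgroup.mem_bot]
    by_contra hne
    have h1 : (u.1 : QuadraticAlgebra L D 0) * a.1 = a.1 := congrArg Subtype.val hu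
    apply a.2.1
    apply qa_free D h2 hD _ _ ((mem_normOneSub D u.1).mp u.2) ?_ h1
    intro h
    apply hne
    exact Subtype.ext (Units.ext h)
  have e := Nat.card_congr (MulAction.selfEquivOrbitsQuotientProd hfree)
  rw [Nat.card_prod] at e
  exact ⟨_, by rw [e, mul_comm]⟩

/-- The number of pairs `(a, z)` with `a ≠ 0` and `f (N a) + q z = 1` is an odd multiple of the
order of the norm-one group. -/
theorem torus_count {F : Type*} [Field F] [Algebra F L] [Finite L] (h2 : (2 : L) ≠ 0)
    (hD : D ≠ 0) (f : L →ₗ[F] F) (hf : ∃ c, f c = 1)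
    {Z : Type*} [AddCommGroup Z] [Finite Z] (hZ : ∀ z : Z, z + z = 0 → z = 0)
    (qZ : Z → F) (hq0 : qZ 0 = 0) (hqn : ∀ z, qZ (-z) = qZ z) :
    ∃ t, Nat.card {p : QuadraticAlgebra L D 0 × Z // p.1 ≠ 0 ∧ f p.1.norm + qZ p.2 = 1}
      = Nat.card ↥(normOneSub D) * t ∧ Odd t := by
  classical
  haveI : Finite (QuadraticAlgebra L D 0) := qa_finite D
  haveI := Fintype.ofFinite L
  haveI := Fintype.ofFinite Z
  haveI := Fintype.ofFinite (QuadraticAlgebra L D 0)
  obtain ⟨n, hn⟩ : ∃ n, n = Nat.card ↥(normOneSub D) := ⟨_, rfl⟩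
  rw [← hn]
  obtain ⟨c₁, hc₁⟩ := hf
  have h1F : (1 : F) ≠ 0 := one_ne_zero
  have ha : ∀ t : F, t ≠ 0 → ∃ κ,
      Nat.card {a : QuadraticAlgebra L D 0 // a ≠ 0 ∧ f a.norm = t} = n * κ ∧ Odd κ := by
    intro t ht
    obtain ⟨ct, hct⟩ : ∃ ct : L, f ct = t :=
      ⟨t • c₁, by rw [map_smul, hc₁, smul_eq_mul, mul_one]⟩
    refine ⟨(Finset.univ.filter (fun c : L => f c = t)).card, ?_, ?_⟩
    · rw [Nat.card_eq_fintype_card, Fintype.card_subtype,
        Finset.card_eq_sum_card_fiberwise (f := fun a : QuadraticAlgebra L D 0 => a.norm)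
          (t := Finset.univ.filter (fun c : L => f c = t)) ?_]
      · have hfib : ∀ c ∈ Finset.univ.filter (fun c : L => f c = t),
            (Finset.filter (fun a : QuadraticAlgebra L D 0 => a.norm = c)
              (Finset.univ.filter
                (fun a : QuadraticAlgebra L D 0 => a ≠ 0 ∧ f a.norm = t))).card = n := by
          intro c hc
          rw [Finset.mem_filter] at hc
          have hc0 : c ≠ 0 := by
            rintro rfl
            exact ht (by rw [← hc.2, map_zero])
          rw [hn, ← qa_fiber_card D h2 hD c hc0, Nat.card_eq_fintype_card, Fintype.card_subtype]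
          congr 1
          ext a
          simp only [Finset.mem_filter, Finset.mem_univ, true_and]
          constructor
          · exact fun h => h.2
          · intro h
            refine ⟨⟨?_, by rw [h]; exact hc.2⟩, h⟩
            rintro rfl
            exact hc0 (by rw [← h, qa_norm_zero])
        rw [Finset.sum_congr rfl hfib, Finset.sum_const, smul_eq_mul, mul_comm]
      · intro a ha
        simp only [Finset.coe_filter, Finset.mem_univ, true_and, Set.mem_ofPred_eq] at ha ⊢
        exact ha.2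
    · apply odd_card_of_invol _ (fun c => ct + ct - c) ct
      · rw [Finset.mem_filter]
        exact ⟨Finset.mem_univ _, hct⟩
      · intro c hc
        rw [Finset.mem_filter] at hc ⊢
        refine ⟨Finset.mem_univ _, ?_⟩
        rw [map_sub, map_add, hct, hc.2]
        ring
      · intro c _
        ring
      · intro c _
        constructor
        · intro h
          have e : (2 : L) * (c - ct) = 0 := by linear_combination -h
          rcases mul_eq_zero.mp e with h' | h'
          · exact absurd h' h2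
          · exact sub_eq_zero.mp h'
        · rintro rfl
          ring
  obtain ⟨w₀, hw₀⟩ : ∃ w₀,
      Nat.card {a : QuadraticAlgebra L D 0 // a ≠ 0 ∧ f a.norm = 0} = n * w₀ := by
    have := qa_free_dvd D h2 hD {c : L | f c = 0}
    rw [← hn] at this
    exact this
  choose! κ hκ using ha
  have hsig : Nat.card {p : QuadraticAlgebra L D 0 × Z // p.1 ≠ 0 ∧ f p.1.norm + qZ p.2 = 1}
      = ∑ z : Z, Nat.card {a : QuadraticAlgebra L D 0 // a ≠ 0 ∧ f a.norm = 1 - qZ z} := by
    rw [← Nat.card_sigma]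
    apply Nat.card_congr
    exact
      { toFun := fun p => ⟨p.1.2, ⟨p.1.1, p.2.1, by rw [eq_sub_iff_add_eq]; exact p.2.2⟩⟩
        invFun := fun q => ⟨(q.2.1, q.1), q.2.2.1, by
          have := q.2.2.2
          rw [eq_sub_iff_add_eq] at this
          exact this⟩
        left_inv := fun p => rfl
        right_inv := fun q => rfl }
  obtain ⟨W, hWdef⟩ : ∃ W : Z → ℕ, ∀ z, W z = if qZ z = 1 then w₀ else κ (1 - qZ z) :=
    ⟨_, fun z => rfl⟩
  have hW : ∀ z : Z,
      Nat.card {a : QuadraticAlgebra L D 0 // a ≠ 0 ∧ f a.norm = 1 - qZ z} = n * W z := by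
    intro z
    by_cases hz : qZ z = 1
    · rw [hWdef, if_pos hz, hz, sub_self]
      exact hw₀
    · rw [hWdef, if_neg hz]
      exact (hκ _ (sub_ne_zero.mpr (Ne.symm hz))).1
  refine ⟨∑ z : Z, W z, ?_, ?_⟩
  · rw [hsig, Finset.mul_sum]
    exact Finset.sum_congr rfl (fun z _ => hW z)
  · rw [← ZMod.natCast_eq_one_iff_odd, Nat.cast_sum]
    have hterm : ∀ z : Z, ((W z : ℕ) : ZMod 2) = if qZ z = 1 then (w₀ : ZMod 2) else 1 := by
      intro z
      by_cases hz : qZ z = 1
      · rw [hWdef, if_pos hz, if_pos hz]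
      · rw [hWdef, if_neg hz, if_neg hz]
        exact ZMod.natCast_eq_one_iff_odd.mpr (hκ _ (sub_ne_zero.mpr (Ne.symm hz))).2
    rw [Finset.sum_congr rfl (fun z _ => hterm z), Finset.sum_ite, Finset.sum_const,
      Finset.sum_const, nsmul_eq_mul, nsmul_eq_mul, mul_one]
    have hS : Even (Finset.univ.filter (fun z : Z => qZ z = 1)).card := by
      apply even_card_of_invol _ (fun z => -z)
      · intro z hz
        rw [Finset.mem_filter] at hz ⊢
        exact ⟨Finset.mem_univ _, by rw [hqn]; exact hz.2⟩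
      · intro z _
        exact neg_neg z
      · intro z hz h
        rw [Finset.mem_filter] at hz
        have hz0 : z = 0 := hZ z (neg_eq_iff_add_eq_zero.mp h)
        rw [hz0, hq0] at hz
        exact h1F hz.2.symm
    have hZodd : Odd (Finset.univ : Finset Z).card := by
      apply odd_card_of_invol _ (fun z => -z) 0 (Finset.mem_univ _)
      · intro z _
        exact Finset.mem_univ _
      · intro z _
        exact neg_neg z
      · intro z _
        constructor
        · intro h
          exact hZ z (neg_eq_iff_add_eq_zero.mp h)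
        · rintro rfl
          exact neg_zero
    have hsum := Finset.card_filter_add_card_filter_not (s := (Finset.univ : Finset Z))
      (fun z : Z => qZ z = 1)
    have h1 : ((Finset.univ.filter (fun z : Z => qZ z = 1)).card : ZMod 2) = 0 :=
      ZMod.natCast_eq_zero_iff_even.mpr hS
    have h3 : ((Finset.univ.filter (fun z : Z => ¬ qZ z = 1)).card : ZMod 2) = 1 := by
      have := ZMod.natCast_eq_one_iff_odd.mpr hZodd
      rw [← hsum, Nat.cast_add, h1, zero_add] at this
      exact this
    rw [h1, h3, zero_mul, zero_add]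

/-- A generator of the norm-one group; its order is even. -/
theorem exists_normOne_gen [Finite L] (h2 : (2 : L) ≠ 0) (hD : D ≠ 0) :
    ∃ u : (QuadraticAlgebra L D 0)ˣ, (u : QuadraticAlgebra L D 0).norm = 1 ∧
      orderOf u = Nat.card ↥(normOneSub D) ∧ Even (orderOf u) := by
  haveI : Finite (QuadraticAlgebra L D 0) := qa_finite D
  haveI := normOneSub_isCyclic D h2 hD
  obtain ⟨g, hg⟩ := IsCyclic.exists_generator (α := ↥(normOneSub D))
  have hord : orderOf g = Nat.card ↥(normOneSub D) := orderOf_eq_card_of_forall_mem_zpowers hg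
  refine ⟨g.1, (mem_normOneSub D g.1).mp g.2, ?_, ?_⟩
  · rw [← hord]
    exact (Subgroup.orderOf_coe g)
  · rw [Subgroup.orderOf_coe g, hord]
    have hm : (-1 : (QuadraticAlgebra L D 0)ˣ) ∈ normOneSub D := by
      rw [mem_normOneSub, Units.val_neg, Units.val_one, qa_norm_eq, QuadraticAlgebra.re_neg,
        QuadraticAlgebra.im_neg, QuadraticAlgebra.re_one, QuadraticAlgebra.im_one]
      ring
    have hne : (⟨-1, hm⟩ : ↥(normOneSub D)) ≠ 1 := by
      intro h
      have h' : ((-1 : (QuadraticAlgebra L D 0)ˣ) : QuadraticAlgebra L D 0) = 1 :=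
        congrArg (fun x : ↥(normOneSub D) =>
          ((x : (QuadraticAlgebra L D 0)ˣ) : QuadraticAlgebra L D 0)) h
      have h'' := congrArg QuadraticAlgebra.re h'
      rw [Units.val_neg, Units.val_one, QuadraticAlgebra.re_neg, QuadraticAlgebra.re_one] at h''
      exact h2 (by linear_combination -h'')
    haveI : Fact (Nat.Prime 2) := ⟨Nat.prime_two⟩
    have ho : orderOf (⟨-1, hm⟩ : ↥(normOneSub D)) = 2 :=
      orderOf_eq_prime (by
        apply Subtype.ext
        show (-1 : (QuadraticAlgebra L D 0)ˣ) ^ 2 = 1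
        simp) hne
    rw [even_iff_two_dvd, ← ho]
    exact orderOf_dvd_natCard _

end QA

end Cfsg.Agent.H49
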