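import Mathlib
import Cfsg.Agent.H49.TorusA

set_option autoImplicit false
set_option linter.unusedSectionVars false
set_option linter.style.haveILetI false

/-! Helper lemmas (helper49): the hermitian rank-one piece generated by a non-singular vector in a
quadratic space with an isometry `H` whose "trace" `H + H⁻¹` is killed by an irreducible
polynomial. -/

namespace Cfsg.Agent.H49

open Polynomial

theorem commute_aeval {F A : Type*} [Field F] [Ring A] [Algebra F A] (s T : A)
    (h : Commute s T) (p : F[X]) : Commute (aeval s p) T := by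
  induction p using Polynomial.induction_on' with
  | add p q hp hq =>
    rw [map_add]
    exact hp.add_left hq
  | monomial n a =>
    rw [aeval_monomial]
    exact (Algebra.commute_algebraMap_left a T).mul_left (h.pow_left n)

theorem selfadj_aeval {F V : Type*} [Field F] [AddCommGroup V] [Module F V]
    (Q : QuadraticForm F V) (s : Module.End F V)
    (hs : ∀ u v, QuadraticMap.polar (⇑Q) (s u) v = QuadraticMap.polar (⇑Q) u (s v))
    (p : F[X]) :
    ∀ u v, QuadraticMap.polar (⇑Q) (aeval s p u) v = QuadraticMap.polar (⇑Q) u (aeval s p v) := by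
  have hpow : ∀ (n : ℕ) u v, QuadraticMap.polar (⇑Q) ((s ^ n) u) v
      = QuadraticMap.polar (⇑Q) u ((s ^ n) v) := by
    intro n
    induction n with
    | zero =>
      intro u v
      rw [pow_zero, Module.End.one_apply, Module.End.one_apply]
    | succ n ih =>
      intro u v
      have e1 : (s ^ (n + 1)) u = (s ^ n) (s u) := by rw [pow_succ, Module.End.mul_apply]
      have e2 : (s ^ (n + 1)) v = s ((s ^ n) v) := by rw [pow_succ', Module.End.mul_apply]
      rw [e1, e2, ih, hs]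
  induction p using Polynomial.induction_on' with
  | add p q hp hq =>
    intro u v
    rw [map_add, LinearMap.add_apply, LinearMap.add_apply, QuadraticMap.polar_add_left,
      QuadraticMap.polar_add_right, hp, hq]
  | monomial n a =>
    intro u v
    rw [aeval_monomial, Module.End.mul_apply, Module.End.mul_apply, Module.algebraMap_end_apply,
      Module.algebraMap_end_apply, QuadraticMap.polar_smul_left, QuadraticMap.polar_smul_right,
      hpow]

theorem aeval_coe_submodule {F V : Type*} [Field F] [AddCommGroup V] [Module F V]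
    (W : Submodule F V) (S : Module.End F V) (S' : Module.End F ↥W)
    (hS : ∀ w : ↥W, ((S' w : ↥W) : V) = S (w : V)) (p : F[X]) :
    ∀ w : ↥W, ((aeval S' p w : ↥W) : V) = aeval S p (w : V) := by
  have hpow : ∀ (n : ℕ) (w : ↥W), (((S' ^ n) w : ↥W) : V) = (S ^ n) (w : V) := by
    intro n
    induction n with
    | zero =>
      intro w
      rw [pow_zero, pow_zero, Module.End.one_apply, Module.End.one_apply]
    | succ n ih =>
      intro w
      rw [pow_succ, pow_succ, Module.End.mul_apply, Module.End.mul_apply, ih, hS]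
  induction p using Polynomial.induction_on' with
  | add p q hp hq =>
    intro w
    rw [map_add, map_add, LinearMap.add_apply, LinearMap.add_apply, Submodule.coe_add, hp, hq]
  | monomial n a =>
    intro w
    rw [aeval_monomial, aeval_monomial, Module.End.mul_apply, Module.End.mul_apply,
      Module.algebraMap_end_apply, Module.algebraMap_end_apply, Submodule.coe_smul, hpow]

set_option maxHeartbeats 1600000 in
/-- The hermitian rank-one piece generated by a non-singular vector. -/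
theorem torus_cyc {F V : Type*} [Field F] [AddCommGroup V] [Module F V]
    (h2 : (2 : F) ≠ 0) (Q : QuadraticForm F V) (H Hinv : Module.End F V)
    (hiso : ∀ v, Q (H v) = Q v) (hHH : ∀ v, H (Hinv v) = v) (hHH' : ∀ v, Hinv (H v) = v)
    (hc₀ : ∀ v, H v = Hinv v → v = 0)
    (π : F[X]) [Fact (Irreducible π)] (hπ : aeval (H + Hinv) π = 0) (v₀ : V) (hv₀ : Q v₀ ≠ 0) :
    ∃ (D : AdjoinRoot π) (Θ : QuadraticAlgebra (AdjoinRoot π) D 0 →ₗ[F] V)
      (f : AdjoinRoot π →ₗ[F] F) (η : QuadraticAlgebra (AdjoinRoot π) D 0),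
      D ≠ 0 ∧ (∀ a, Q (Θ a) = f a.norm) ∧ (∀ a, H (Θ a) = Θ (η * a)) ∧ η.norm = 1 ∧
      (∃ c, f c = 1) ∧
      (∀ a, (∀ b, QuadraticMap.polar (⇑Q) (Θ a) (Θ b) = 0) → a = 0) := by
  classical
  obtain ⟨s, hs⟩ : ∃ s : Module.End F V, s = H + Hinv := ⟨_, rfl⟩
  obtain ⟨c₀, hc₀def⟩ : ∃ c₀ : Module.End F V, c₀ = H - Hinv := ⟨_, rfl⟩
  rw [← hs] at hπ
  have hB : ∀ u v, QuadraticMap.polar (⇑Q) (H u) (H v) = QuadraticMap.polar (⇑Q) u v := by
    intro u v
    unfold QuadraticMap.polar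
    rw [← map_add, hiso, hiso, hiso]
  have hadj1 : ∀ u v, QuadraticMap.polar (⇑Q) (H u) v = QuadraticMap.polar (⇑Q) u (Hinv v) := by
    intro u v
    rw [← hB u (Hinv v), hHH]
  have hadj2 : ∀ u v, QuadraticMap.polar (⇑Q) (Hinv u) v = QuadraticMap.polar (⇑Q) u (H v) := by
    intro u v
    rw [← hB (Hinv u) v, hHH]
  have hsadj : ∀ u v, QuadraticMap.polar (⇑Q) (s u) v = QuadraticMap.polar (⇑Q) u (s v) := by
    intro u v
    rw [hs, LinearMap.add_apply, LinearMap.add_apply, QuadraticMap.polar_add_left,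
      QuadraticMap.polar_add_right, hadj1, hadj2, add_comm]
  have hskew : ∀ u v,
      QuadraticMap.polar (⇑Q) (c₀ u) v = -QuadraticMap.polar (⇑Q) u (c₀ v) := by
    intro u v
    rw [hc₀def, LinearMap.sub_apply, LinearMap.sub_apply, QuadraticMap.polar_sub_left,
      QuadraticMap.polar_sub_right, hadj1, hadj2]
    ring
  have hHHinv : H * Hinv = 1 := LinearMap.ext hHH
  have hHinvH : Hinv * H = 1 := LinearMap.ext hHH'
  have hsc : Commute s c₀ := by
    rw [hs, hc₀def]
    show (H + Hinv) * (H - Hinv) = (H - Hinv) * (H + Hinv)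
    rw [add_mul, mul_sub, mul_sub, sub_mul, mul_add, mul_add, hHHinv, hHinvH]
    abel
  have hcc : ∀ v, c₀ (c₀ v) = s (s v) - (4 : F) • v := by
    intro v
    rw [hs, hc₀def]
    simp only [LinearMap.add_apply, LinearMap.sub_apply, map_add, map_sub, hHH, hHH']
    module
  have hc₀inj : ∀ v, c₀ v = 0 → v = 0 := by
    intro v hv
    rw [hc₀def, LinearMap.sub_apply, sub_eq_zero] at hv
    exact hc₀ v hv
  obtain ⟨ψ, hψ⟩ : ∃ ψ : AdjoinRoot π →ₐ[F] Module.End F V,
      ∀ p : F[X], ψ (AdjoinRoot.mk π p) = aeval s p :=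
    ⟨Ideal.Quotient.liftₐ (Ideal.span {π}) (aeval s) (by
      intro p hp
      obtain ⟨q, rfl⟩ := Ideal.mem_span_singleton.mp hp
      rw [map_mul, hπ, zero_mul]), fun p => rfl⟩
  have hψcomm : ∀ (T : Module.End F V), Commute s T → ∀ l, Commute (ψ l) T := by
    intro T hT l
    obtain ⟨p, rfl⟩ := AdjoinRoot.mk_surjective l
    rw [hψ]
    exact commute_aeval s T hT p
  have hψadj : ∀ l u v,
      QuadraticMap.polar (⇑Q) (ψ l u) v = QuadraticMap.polar (⇑Q) u (ψ l v) := by
    intro l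
    obtain ⟨p, rfl⟩ := AdjoinRoot.mk_surjective l
    rw [hψ]
    exact selfadj_aeval Q s hsadj p
  have hψc : ∀ l v, ψ l (c₀ v) = c₀ (ψ l v) := by
    intro l v
    exact congrArg (fun T : Module.End F V => T v) (hψcomm c₀ hsc l).eq
  have hψroot : ψ (AdjoinRoot.root π) = s := by
    rw [← AdjoinRoot.mk_X, hψ, aeval_X]
  obtain ⟨D, hD⟩ : ∃ D : AdjoinRoot π,
      D = AdjoinRoot.root π ^ 2 - algebraMap F (AdjoinRoot π) 4 := ⟨_, rfl⟩
  have hψD : ∀ v, ψ D v = c₀ (c₀ v) := by
    intro v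
    rw [hD, map_sub, map_pow, hψroot, AlgHom.commutes, LinearMap.sub_apply,
      Module.algebraMap_end_apply, pow_two, Module.End.mul_apply, hcc]
  have hv₀0 : v₀ ≠ 0 := by
    rintro rfl
    exact hv₀ (map_zero Q)
  have hD0 : D ≠ 0 := by
    intro h0
    have e := hψD v₀
    rw [h0, map_zero, LinearMap.zero_apply] at e
    exact hv₀0 (hc₀inj _ (hc₀inj _ e.symm))
  obtain ⟨g, hg⟩ : ∃ g : AdjoinRoot π →ₗ[F] F,
      ∀ l, g l = QuadraticMap.polar (⇑Q) (ψ l v₀) v₀ :=
    ⟨{ toFun := fun l => QuadraticMap.polar (⇑Q) (ψ l v₀) v₀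
       map_add' := fun l l' => by
        rw [map_add, LinearMap.add_apply, QuadraticMap.polar_add_left]
       map_smul' := fun t l => by
        rw [map_smul, LinearMap.smul_apply, QuadraticMap.polar_smul_left, RingHom.id_apply] },
      fun l => rfl⟩
  have hK1 : ∀ l l', QuadraticMap.polar (⇑Q) (ψ l v₀) (ψ l' v₀) = g (l * l') := by
    intro l l'
    rw [hg, ← hψadj, ← Module.End.mul_apply, ← map_mul, mul_comm]
  have hzero : ∀ l, QuadraticMap.polar (⇑Q) (ψ l v₀) (c₀ v₀) = 0 := by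
    intro l
    have e : QuadraticMap.polar (⇑Q) (ψ l v₀) (c₀ v₀)
        = -QuadraticMap.polar (⇑Q) (ψ l v₀) (c₀ v₀) := by
      calc QuadraticMap.polar (⇑Q) (ψ l v₀) (c₀ v₀)
          = -QuadraticMap.polar (⇑Q) (c₀ (ψ l v₀)) v₀ := by rw [hskew, neg_neg]
        _ = -QuadraticMap.polar (⇑Q) (ψ l (c₀ v₀)) v₀ := by rw [hψc]
        _ = -QuadraticMap.polar (⇑Q) (c₀ v₀) (ψ l v₀) := by rw [hψadj]
        _ = -QuadraticMap.polar (⇑Q) (ψ l v₀) (c₀ v₀) := by rw [QuadraticMap.polar_comm]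
    have e2 : (2 : F) * QuadraticMap.polar (⇑Q) (ψ l v₀) (c₀ v₀) = 0 := by
      linear_combination e
    exact (mul_eq_zero.mp e2).resolve_left h2
  have hK2 : ∀ l l', QuadraticMap.polar (⇑Q) (ψ l v₀) (ψ l' (c₀ v₀)) = 0 := by
    intro l l'
    rw [← hψadj, ← Module.End.mul_apply, ← map_mul]
    exact hzero _
  have hK3 : ∀ l l',
      QuadraticMap.polar (⇑Q) (ψ l (c₀ v₀)) (ψ l' (c₀ v₀)) = -g (D * l * l') := by
    intro l l'
    rw [hψc, hψc, hskew, ← hψD, ← Module.End.mul_apply (ψ D), ← map_mul, hK1,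
      show l * (D * l') = D * l * l' by ring]
  obtain ⟨Θ, hΘ⟩ : ∃ Θ : QuadraticAlgebra (AdjoinRoot π) D 0 →ₗ[F] V,
      ∀ a, Θ a = ψ a.re v₀ + ψ a.im (c₀ v₀) :=
    ⟨{ toFun := fun a => ψ a.re v₀ + ψ a.im (c₀ v₀)
       map_add' := fun a b => by
        rw [QuadraticAlgebra.re_add, QuadraticAlgebra.im_add, map_add, map_add,
          LinearMap.add_apply, LinearMap.add_apply]
        abel
       map_smul' := fun t a => by
        rw [QuadraticAlgebra.re_smul, QuadraticAlgebra.im_smul, map_smul, map_smul,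
          LinearMap.smul_apply, LinearMap.smul_apply, RingHom.id_apply, smul_add] },
      fun a => rfl⟩
  have hpolar : ∀ a b, QuadraticMap.polar (⇑Q) (Θ a) (Θ b)
      = g (a.re * b.re - D * a.im * b.im) := by
    intro a b
    rw [hΘ, hΘ, QuadraticMap.polar_add_left, QuadraticMap.polar_add_right,
      QuadraticMap.polar_add_right, hK1, hK2, hK3,
      QuadraticMap.polar_comm (⇑Q) (ψ a.im (c₀ v₀)) (ψ b.re v₀), hK2, map_sub]
    ring
  have hQΘ : ∀ a, Q (Θ a) = (2 : F)⁻¹ * g a.norm := by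
    intro a
    have e := hpolar a a
    rw [QuadraticMap.polar_self, nsmul_eq_mul, Nat.cast_ofNat] at e
    rw [qa_norm_eq, show a.re ^ 2 - D * a.im ^ 2 = a.re * a.re - D * a.im * a.im by ring, ← e,
      ← mul_assoc, inv_mul_cancel₀ h2, one_mul]
  have hg1 : g 1 = 2 * Q v₀ := by
    rw [hg, map_one, Module.End.one_apply, QuadraticMap.polar_self, nsmul_eq_mul,
      Nat.cast_ofNat]
  have hg1' : g 1 ≠ 0 := by
    rw [hg1]
    exact mul_ne_zero h2 hv₀
  obtain ⟨τ, hτdef⟩ : ∃ τ : AdjoinRoot π, τ = algebraMap F (AdjoinRoot π) (2 : F)⁻¹ := ⟨_, rfl⟩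
  have hτ : τ * τ * algebraMap F (AdjoinRoot π) 4 = 1 := by
    rw [hτdef, ← map_mul, ← map_mul]
    have e : (2 : F)⁻¹ * (2 : F)⁻¹ * 4 = 1 := by
      field_simp
      norm_num
    rw [e, map_one]
  have hψτ : ∀ x w, ψ (τ * x) w = (2 : F)⁻¹ • ψ x w := by
    intro x w
    rw [hτdef, map_mul, AlgHom.commutes, Module.End.mul_apply, Module.algebraMap_end_apply]
  have hH2 : ∀ v, H v = (2 : F)⁻¹ • (s v + c₀ v) := by
    intro v
    have e : s v + c₀ v = (2 : F) • H v := by
      rw [hs, hc₀def, LinearMap.add_apply, LinearMap.sub_apply, two_smul]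
      abel
    rw [e, smul_smul, inv_mul_cancel₀ h2, one_smul]
  refine ⟨D, Θ, (2 : F)⁻¹ • g, ⟨τ * AdjoinRoot.root π, τ⟩, hD0, ?_, ?_, ?_, ?_, ?_⟩
  · intro a
    rw [hQΘ, LinearMap.smul_apply, smul_eq_mul]
  · intro a
    have ere : ((⟨τ * AdjoinRoot.root π, τ⟩ : QuadraticAlgebra (AdjoinRoot π) D 0) * a).re
        = τ * (AdjoinRoot.root π * a.re + D * a.im) := by
      rw [QuadraticAlgebra.re_mul]
      ring
    have eim : ((⟨τ * AdjoinRoot.root π, τ⟩ : QuadraticAlgebra (AdjoinRoot π) D 0) * a).im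
        = τ * (AdjoinRoot.root π * a.im + a.re) := by
      rw [QuadraticAlgebra.im_mul]
      ring
    have e1 : s (Θ a) = ψ (AdjoinRoot.root π * a.re) v₀
        + ψ (AdjoinRoot.root π * a.im) (c₀ v₀) := by
      rw [hΘ, map_add, ← hψroot, ← Module.End.mul_apply, ← Module.End.mul_apply, ← map_mul,
        ← map_mul]
    have e2 : c₀ (Θ a) = ψ a.re (c₀ v₀) + ψ (D * a.im) v₀ := by
      have e3 : ψ (D * a.im) v₀ = ψ a.im (c₀ (c₀ v₀)) := by
        rw [mul_comm, map_mul, Module.End.mul_apply, hψD]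
      rw [hΘ, map_add, e3, ← hψc, ← hψc]
    rw [hH2, e1, e2, hΘ ((⟨τ * AdjoinRoot.root π, τ⟩ : QuadraticAlgebra (AdjoinRoot π) D 0) * a),
      ere, eim, hψτ, hψτ, map_add, map_add, LinearMap.add_apply, LinearMap.add_apply,
      ← smul_add]
    congr 1
    abel
  · rw [qa_norm_eq]
    show (τ * AdjoinRoot.root π) ^ 2 - D * τ ^ 2 = 1
    rw [hD]
    linear_combination hτ
  · refine ⟨(Q v₀)⁻¹ • 1, ?_⟩
    rw [map_smul, LinearMap.smul_apply, hg1, smul_eq_mul, smul_eq_mul]
    field_simp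
  · intro a ha
    have hre : a.re = 0 := by
      by_contra hne
      apply hg1'
      have e := ha ⟨a.re⁻¹, 0⟩
      rw [hpolar] at e
      have e' : a.re * a.re⁻¹ - D * a.im * 0 = 1 := by
        rw [mul_inv_cancel₀ hne]
        ring
      rw [show (⟨a.re⁻¹, 0⟩ : QuadraticAlgebra (AdjoinRoot π) D 0).re = a.re⁻¹ from rfl,
        show (⟨a.re⁻¹, 0⟩ : QuadraticAlgebra (AdjoinRoot π) D 0).im = 0 from rfl, e'] at e
      exact e
    have him : a.im = 0 := by
      by_contra hne
      apply hg1'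
      have e := ha ⟨0, -(D * a.im)⁻¹⟩
      rw [hpolar] at e
      have e' : a.re * 0 - D * a.im * (-(D * a.im)⁻¹) = 1 := by
        have : D * a.im ≠ 0 := mul_ne_zero hD0 hne
        field_simp
        ring
      rw [show (⟨0, -(D * a.im)⁻¹⟩ : QuadraticAlgebra (AdjoinRoot π) D 0).re = 0 from rfl,
        show (⟨0, -(D * a.im)⁻¹⟩ : QuadraticAlgebra (AdjoinRoot π) D 0).im = -(D * a.im)⁻¹
          from rfl, e'] at e
      exact e
    exact QuadraticAlgebra.ext hre him

end Cfsg.Agent.H49
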