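import Mathlib
import Cfsg.Agent.H49.TorusA
import Cfsg.Agent.H49.CayleyDet
import Cfsg.Agent.H49.SimInst

set_option autoImplicit false
set_option linter.unusedSectionVars false
set_option linter.style.haveILetI false

/-! Helper lemmas (helper49): from a "torus datum" (a binary hermitian piece `Θ : L[ω] → V` of a
quadratic space, invariant under an isometry `H`) to an isometry of determinant one and spinor
sign `-1` commuting with `H`. -/

namespace Cfsg.Agent.H49

open Module Matrix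

section
variable {ι : Type} [Fintype ι] [DecidableEq ι] {F : Type*} [Field F] [Fintype F] [DecidableEq F]

theorem det_eq_one_of_no_fix (Q : QuadraticForm F (ι → F))
    (hQ : (QuadraticMap.polarBilin Q).Nondegenerate) (hne : ∃ v, Q v ≠ 0) {k : ℕ}
    (hk : Fintype.card ι = 2 * k) (g : ↥(Cfsg.isometryGroup F (⇑Q)))
    (hg : ∀ v, ((g : Matrix.GeneralLinearGroup ι F) : Matrix ι ι F) *ᵥ
      (((g : Matrix.GeneralLinearGroup ι F) : Matrix ι ι F) *ᵥ v) = v → v = 0) :
    ((g : Matrix.GeneralLinearGroup ι F) : Matrix ι ι F).det = 1 := by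
  have hdet := det_of_sim_cayley (stdGram Q)
    ((g : Matrix.GeneralLinearGroup ι F) : Matrix ι ι F) 1
    (stdGram_det_ne_zero Q hQ) ?_ hk ?_
  · rw [hdet, one_pow]
  · have e := sim_gram Q (inclO Q g)
    rw [simMul_inclO Q hne, inclO_coe, Units.val_one] at e
    exact e
  · intro h0
    obtain ⟨v, hv, hv0⟩ := Matrix.exists_mulVec_eq_zero_iff.mpr h0
    apply hv
    apply hg
    rw [Matrix.sub_mulVec, Matrix.smul_mulVec, one_smul, Matrix.one_mulVec, sub_eq_zero,
      ← Matrix.mulVec_mulVec] at hv0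
    exact hv0

set_option maxHeartbeats 1600000 in
/-- From a torus datum to an isometry of determinant one and spinor sign `-1` commuting with the
given isometry. -/
theorem torus_spin (Q : QuadraticForm F (ι → F)) (h2 : (2 : F) ≠ 0)
    (hQ : (QuadraticMap.polarBilin Q).Nondegenerate) (hne : ∃ v, Q v ≠ 0) {k : ℕ}
    (hk : Fintype.card ι = 2 * k) (h : ↥(Cfsg.isometryGroup F (⇑Q)))
    (H : Module.End F (ι → F))
    (hHv : ∀ v, H v = ((h : Matrix.GeneralLinearGroup ι F) : Matrix ι ι F) *ᵥ v)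
    (hfix2 : ∀ v, H (H v) = v → v = 0)
    (hfix4 : ∀ v, H (H (H (H v))) = v → v = 0)
    {L : Type*} [Field L] [Finite L] [Algebra F L] (D : L) (hD : D ≠ 0)
    (Θ : QuadraticAlgebra L D 0 →ₗ[F] (ι → F)) (P₁ : (ι → F) →ₗ[F] QuadraticAlgebra L D 0)
    (f : L →ₗ[F] F) (η : QuadraticAlgebra L D 0)
    (d1 : ∀ a, P₁ (Θ a) = a)
    (d2 : ∀ v, P₁ v = 0 → ∀ a, Q (v + Θ a) = Q v + f a.norm)
    (d3 : ∀ a, H (Θ a) = Θ (η * a))
    (d4 : ∀ v, P₁ (H v) = η * P₁ v)
    (d5 : η.norm = 1)
    (d6 : ∃ c, f c = 1) :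
    ∃ s : ↥(Cfsg.isometryGroup F (⇑Q)), s * h = h * s ∧
      ((s : Matrix.GeneralLinearGroup ι F) : Matrix ι ι F).det = 1 ∧ spinSign Q s = -1 := by
  have h2L : (2 : L) ≠ 0 := by
    have h' : algebraMap F L 2 ≠ 0 := (map_ne_zero (algebraMap F L)).mpr h2
    rwa [map_ofNat] at h'
  haveI : Finite (QuadraticAlgebra L D 0) := qa_finite D
  obtain ⟨u₀, hu₀n, hu₀ord, hu₀even⟩ := exists_normOne_gen D h2L hD
  obtain ⟨hM, hhM⟩ : ∃ hM : Matrix ι ι F,
      hM = ((h : Matrix.GeneralLinearGroup ι F) : Matrix ι ι F) := ⟨_, rfl⟩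
  rw [← hhM] at hHv
  obtain ⟨S, hS⟩ : ∃ S : QuadraticAlgebra L D 0 → Module.End F (ι → F),
      ∀ b v, S b v = v + Θ ((b - 1) * P₁ v) :=
    ⟨fun b => 1 + Θ ∘ₗ (LinearMap.mulLeft F (b - 1)) ∘ₗ P₁, fun b v => rfl⟩
  have hP : ∀ b v, P₁ (S b v) = b * P₁ v := by
    intro b v
    rw [hS, map_add, d1]
    ring
  have hSS : ∀ b b' v, S b (S b' v) = S (b * b') v := by
    intro b b' v
    rw [hS b (S b' v), hP, hS b' v, hS (b * b') v, add_assoc, ← map_add]
    congr 2
    ring
  have hS1 : ∀ v, S 1 v = v := by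
    intro v
    rw [hS, sub_self, zero_mul, map_zero, add_zero]
  have hSQ : ∀ b : QuadraticAlgebra L D 0, b.norm = 1 → ∀ v, Q (S b v) = Q v := by
    intro b hb v
    have hz : P₁ (v - Θ (P₁ v)) = 0 := by rw [map_sub, d1, sub_self]
    have e1 : S b v = (v - Θ (P₁ v)) + Θ (b * P₁ v) := by
      rw [hS, sub_mul, one_mul, map_sub]
      abel
    have e2 : v = (v - Θ (P₁ v)) + Θ (P₁ v) := by abel
    rw [e1, d2 _ hz, map_mul, hb, one_mul]
    conv_rhs => rw [e2, d2 _ hz]
  have hSH : ∀ b v, H (S b v) = S b (H v) := by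
    intro b v
    rw [hS, hS, map_add, d3, d4]
    congr 2
    ring
  have hfixiff : ∀ b : QuadraticAlgebra L D 0, b.norm = 1 → b ≠ 1 →
      ∀ v, S b v = v ↔ P₁ v = 0 := by
    intro b hb hb1 v
    constructor
    · intro hv
      rw [hS, add_eq_left] at hv
      have h1 := congrArg P₁ hv
      rw [d1, map_zero] at h1
      apply qa_free D h2L hD b _ hb hb1
      rw [sub_mul, one_mul, sub_eq_zero] at h1
      exact h1
    · intro hv
      rw [hS, hv, mul_zero, map_zero, add_zero]
  obtain ⟨M, hMdef⟩ : ∃ M : Matrix ι ι F,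
      M = Matrix.toLinAlgEquiv'.symm (S (u₀ : QuadraticAlgebra L D 0)) := ⟨_, rfl⟩
  have hMv : ∀ v, M *ᵥ v = S (u₀ : QuadraticAlgebra L D 0) v := by
    intro v
    rw [hMdef, ← Matrix.toLinAlgEquiv'_apply, AlgEquiv.apply_symm_apply]
  have hMQ : ∀ v, Q (M *ᵥ v) = 1 * Q v := by
    intro v
    rw [hMv, hSQ _ hu₀n, one_mul]
  have hmem : Matrix.GeneralLinearGroup.mkOfDetNeZero M
      (det_ne_zero_of_sim Q hQ M 1 one_ne_zero hMQ) ∈ Cfsg.isometryGroup F (⇑Q) := by
    rw [mem_isometryGroup_iff]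
    intro v
    have := hMQ v
    rw [one_mul] at this
    exact this
  obtain ⟨s, hs⟩ : ∃ s : ↥(Cfsg.isometryGroup F (⇑Q)),
      ((s : Matrix.GeneralLinearGroup ι F) : Matrix ι ι F) = M := ⟨⟨_, hmem⟩, rfl⟩
  have hsv : ∀ v, ((s : Matrix.GeneralLinearGroup ι F) : Matrix ι ι F) *ᵥ v
      = S (u₀ : QuadraticAlgebra L D 0) v := by
    intro v
    rw [hs, hMv]
  have hHeq : H = Matrix.toLinAlgEquiv' hM := by
    apply LinearMap.ext
    intro v
    rw [hHv, Matrix.toLinAlgEquiv'_apply]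
  have hcomm : s * h = h * s := by
    apply Subtype.ext
    apply Units.ext
    rw [Subgroup.coe_mul, Subgroup.coe_mul, Units.val_mul, Units.val_mul, hs, ← hhM]
    have e : S (u₀ : QuadraticAlgebra L D 0) * H = H * S (u₀ : QuadraticAlgebra L D 0) := by
      apply LinearMap.ext
      intro v
      rw [Module.End.mul_apply, Module.End.mul_apply, hSH]
    have e' := congrArg Matrix.toLinAlgEquiv'.symm e
    rw [map_mul, map_mul, ← hMdef, hHeq, AlgEquiv.symm_apply_apply] at e'
    exact e'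
  have hu₀1 : (u₀ : QuadraticAlgebra L D 0) ≠ 1 := by
    intro h1
    have : u₀ = 1 := Units.ext h1
    rw [this, orderOf_one] at hu₀even
    exact Nat.not_even_one hu₀even
  have hpowS : ∀ (j : ℕ) v,
      (((s ^ j : ↥(Cfsg.isometryGroup F (⇑Q))) : Matrix.GeneralLinearGroup ι F) : Matrix ι ι F)
        *ᵥ v = S ((u₀ : QuadraticAlgebra L D 0) ^ j) v := by
    intro j
    induction j with
    | zero =>
      intro v
      rw [pow_zero, pow_zero, hS1, Subgroup.coe_one, Units.val_one, Matrix.one_mulVec]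
    | succ n ih =>
      intro v
      rw [pow_succ, pow_succ, Subgroup.coe_mul, Units.val_mul, ← Matrix.mulVec_mulVec, hsv, ih,
        hSS]
  have hdeth : hM.det = 1 := by
    rw [hhM]
    apply det_eq_one_of_no_fix Q hQ hne hk h
    intro v hv
    rw [← hhM, ← hHv, ← hHv] at hv
    exact hfix2 v hv
  have key : ∀ (g : ↥(Cfsg.isometryGroup F (⇑Q))) (K : Module.End F (ι → F))
      (κ : QuadraticAlgebra L D 0),
      (∀ v, K v = ((g : Matrix.GeneralLinearGroup ι F) : Matrix ι ι F) *ᵥ v) →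
      (∀ v, P₁ (K v) = κ * P₁ v) → κ.norm = 1 →
      (κ * (u₀ : QuadraticAlgebra L D 0)) ^ 2 ≠ 1 →
      (∀ v, K (K v) = v → v = 0) →
      (((g * s : ↥(Cfsg.isometryGroup F (⇑Q))) : Matrix.GeneralLinearGroup ι F)
        : Matrix ι ι F).det = 1 := by
    intro g K κ hK hKP hκ hne1 hKfix
    apply det_eq_one_of_no_fix Q hQ hne hk (g * s)
    intro v hv
    rw [Subgroup.coe_mul, Units.val_mul, ← Matrix.mulVec_mulVec, ← Matrix.mulVec_mulVec, hsv,
      hsv, ← hK, ← hK] at hv
    have hP0 : P₁ v = 0 := by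
      have e := congrArg P₁ hv
      rw [hKP, hP, hKP, hP] at e
      apply qa_free D h2L hD ((κ * (u₀ : QuadraticAlgebra L D 0)) ^ 2) _ ?_ hne1 ?_
      · rw [map_pow, map_mul, hκ, hu₀n, one_mul, one_pow]
      · calc (κ * (u₀ : QuadraticAlgebra L D 0)) ^ 2 * P₁ v
            = κ * ((u₀ : QuadraticAlgebra L D 0) * (κ * ((u₀ : QuadraticAlgebra L D 0) * P₁ v))) := by
              ring
          _ = P₁ v := e
    have e1 : S (u₀ : QuadraticAlgebra L D 0) v = v := (hfixiff _ hu₀n hu₀1 v).mpr hP0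
    have e2 : S (u₀ : QuadraticAlgebra L D 0) (K v) = K v :=
      (hfixiff _ hu₀n hu₀1 (K v)).mpr (by rw [hKP, hP0, mul_zero])
    rw [e1, e2] at hv
    exact hKfix v hv
  have hdets : ((s : Matrix.GeneralLinearGroup ι F) : Matrix ι ι F).det = 1 := by
    by_cases hc : (η * (u₀ : QuadraticAlgebra L D 0)) ^ 2 = 1
    · have hη2 : η * η ≠ 1 := by
        intro h1
        have e : H (H (Θ 1)) = Θ 1 := by
          rw [d3, d3, ← mul_assoc, h1, mul_one]
        have e0 := hfix2 _ e
        have e1 := congrArg P₁ e0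
        rw [d1, map_zero] at e1
        exact one_ne_zero e1
      have hc2 : (η * η * (u₀ : QuadraticAlgebra L D 0)) ^ 2 ≠ 1 := by
        intro h1
        apply hη2
        have e : (η * η * (u₀ : QuadraticAlgebra L D 0)) ^ 2
            = η * η * (η * (u₀ : QuadraticAlgebra L D 0)) ^ 2 := by ring
        rw [e, hc, mul_one] at h1
        exact h1
      have hd := key (h * h) (H * H) (η * η) ?_ ?_ ?_ hc2 ?_
      · rw [Subgroup.coe_mul, Units.val_mul, Matrix.det_mul, Subgroup.coe_mul, Units.val_mul,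
          Matrix.det_mul, ← hhM, hdeth, one_mul, one_mul] at hd
        exact hd
      · intro v
        rw [Module.End.mul_apply, hHv, hHv, Subgroup.coe_mul, Units.val_mul, ← hhM,
          Matrix.mulVec_mulVec]
      · intro v
        rw [Module.End.mul_apply, d4, d4, mul_assoc]
      · rw [map_mul, d5, one_mul]
      · intro v hv
        rw [Module.End.mul_apply, Module.End.mul_apply] at hv
        exact hfix4 v hv
    · have hd := key h H η ?_ d4 d5 hc hfix2
      · rw [Subgroup.coe_mul, Units.val_mul, Matrix.det_mul, ← hhM, hdeth, one_mul] at hd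
        exact hd
      · intro v
        rw [hHv, hhM]
  have hn : orderOf u₀ = Nat.card ↥(normOneSub D) := hu₀ord
  have hnpos : 0 < orderOf u₀ := orderOf_pos u₀
  have hσpow : ∀ (j : ℕ) (x : Sphere Q), (((spherePerm Q s) ^ j) x : Sphere Q).1
      = S ((u₀ : QuadraticAlgebra L D 0) ^ j) x.1 := by
    intro j x
    rw [← map_pow, spherePerm_apply, hpowS]
  have hσfix : ∀ x : Sphere Q, spherePerm Q s x ≠ x ↔ P₁ x.1 ≠ 0 := by
    intro x
    rw [Ne, Subtype.ext_iff, spherePerm_apply, hsv, hfixiff _ hu₀n hu₀1]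
  have hfree : ∀ x : Sphere Q, spherePerm Q s x ≠ x →
      ∀ j : ℕ, ((spherePerm Q s) ^ j) x = x ↔ orderOf u₀ ∣ j := by
    intro x hx j
    rw [hσfix] at hx
    rw [Subtype.ext_iff, hσpow]
    constructor
    · intro hj
      by_contra hnd
      apply hx
      refine (hfixiff _ ?_ ?_ x.1).mp hj
      · rw [map_pow, hu₀n, one_pow]
      · intro h1
        apply hnd
        rw [orderOf_dvd_iff_pow_eq_one]
        apply Units.ext
        rw [Units.val_pow_eq_pow_val, h1, Units.val_one]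
    · intro hj
      rw [orderOf_dvd_iff_pow_eq_one] at hj
      have e : (u₀ : QuadraticAlgebra L D 0) ^ j = 1 := by
        rw [← Units.val_pow_eq_pow_val, hj, Units.val_one]
      rw [e, hS1]
  obtain ⟨hdvd, hsgn⟩ := sign_of_free_orbits (spherePerm Q s) hu₀even hnpos hfree
  obtain ⟨t, ht, htodd⟩ := torus_count D h2L hD f d6 (Z := ↥(LinearMap.ker P₁))
    (fun z hz => by
      have e : (2 : F) • z = 0 := by rw [two_smul]; exact hz
      exact (smul_eq_zero.mp e).resolve_left h2)
    (fun z => Q (z : ι → F)) (by simp) (fun z => by simp)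
  have hcard : (spherePerm Q s).support.card = orderOf u₀ * t := by
    rw [hn, ← ht, ← Fintype.card_coe, ← Nat.card_eq_fintype_card]
    apply Nat.card_congr
    exact
      { toFun := fun x => ⟨(P₁ x.1.1, ⟨x.1.1 - Θ (P₁ x.1.1), by
            rw [LinearMap.mem_ker, map_sub, d1, sub_self]⟩), by
          refine ⟨(hσfix x.1).mp (Equiv.Perm.mem_support.mp x.2), ?_⟩
          have hz : P₁ (x.1.1 - Θ (P₁ x.1.1)) = 0 := by rw [map_sub, d1, sub_self]
          have e := d2 _ hz (P₁ x.1.1)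
          rw [sub_add_cancel, x.1.2] at e
          show f (P₁ x.1.1).norm + Q (x.1.1 - Θ (P₁ x.1.1)) = 1
          rw [add_comm]
          exact e.symm⟩
        invFun := fun p => ⟨⟨(p.1.2 : ι → F) + Θ p.1.1, by
            have hz : P₁ (p.1.2 : ι → F) = 0 := LinearMap.mem_ker.mp p.1.2.2
            rw [d2 _ hz, add_comm]
            exact p.2.2⟩, by
            rw [Equiv.Perm.mem_support, hσfix]
            show P₁ ((p.1.2 : ι → F) + Θ p.1.1) ≠ 0
            rw [map_add, LinearMap.mem_ker.mp p.1.2.2, zero_add, d1]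
            exact p.2.1⟩
        left_inv := fun x => Subtype.ext (Subtype.ext (sub_add_cancel _ _))
        right_inv := fun p => by
          apply Subtype.ext
          have hz : P₁ (p.1.2 : ι → F) = 0 := LinearMap.mem_ker.mp p.1.2.2
          have e1 : P₁ ((p.1.2 : ι → F) + Θ p.1.1) = p.1.1 := by
            rw [map_add, hz, zero_add, d1]
          apply Prod.ext
          · exact e1
          · apply Subtype.ext
            show (p.1.2 : ι → F) + Θ p.1.1 - Θ (P₁ ((p.1.2 : ι → F) + Θ p.1.1))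
              = (p.1.2 : ι → F)
            rw [e1, add_sub_cancel_right] }
  refine ⟨s, hcomm, hdets, ?_⟩
  show Equiv.Perm.sign (spherePerm Q s) = -1
  rw [hsgn, hcard, Nat.mul_div_cancel_left _ hnpos, htodd.neg_one_pow]

end

end Cfsg.Agent.H49
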