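import Mathlib
import Cfsg.Agent.H49.TorusB
import Cfsg.Agent.H49.TorusD
import Cfsg.Agent.H49.TorusGlue

set_option autoImplicit false
set_option linter.unusedSectionVars false
set_option linter.style.haveILetI false

/-! Helper lemmas (helper49): for an isometry `h` of odd order prime to the characteristic of an
even-dimensional non-degenerate quadratic space over a finite field of odd characteristic there
is an isometry of determinant one and spinor sign `-1` commuting with `h`. -/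

namespace Cfsg.Agent.H49

open Module Matrix Polynomial

section
variable {ι : Type} [Fintype ι] [DecidableEq ι] {F : Type*} [Field F] [Fintype F] [DecidableEq F]

set_option maxHeartbeats 3200000 in
theorem exists_spin_pure (Q : QuadraticForm F (ι → F)) (h2 : (2 : F) ≠ 0)
    (hQ : (QuadraticMap.polarBilin Q).Nondegenerate) (hne : ∃ v, Q v ≠ 0) {k : ℕ}
    (hk : Fintype.card ι = 2 * k) (h : ↥(Cfsg.isometryGroup F (⇑Q))) {r : ℕ} (hr : Odd r)
    (hrF : (r : F) ≠ 0) (hpow : h ^ r = 1)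
    (hfix : ∀ v, ((h : Matrix.GeneralLinearGroup ι F) : Matrix ι ι F) *ᵥ v = v → v = 0) :
    ∃ s : ↥(Cfsg.isometryGroup F (⇑Q)), s * h = h * s ∧
      ((s : Matrix.GeneralLinearGroup ι F) : Matrix ι ι F).det = 1 ∧ spinSign Q s = -1 := by
  classical
  obtain ⟨hM, hhM⟩ : ∃ hM : Matrix ι ι F,
      hM = ((h : Matrix.GeneralLinearGroup ι F) : Matrix ι ι F) := ⟨_, rfl⟩
  obtain ⟨H, hH⟩ : ∃ H : Module.End F (ι → F), H = Matrix.toLinAlgEquiv' hM := ⟨_, rfl⟩
  have hHv : ∀ v, H v = hM *ᵥ v := by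
    intro v
    rw [hH]
    exact Matrix.toLinAlgEquiv'_apply _ _
  have hiso : ∀ v, Q (H v) = Q v := by
    intro v
    rw [hHv, hhM]
    exact isometry_apply h v
  have hpowM : hM ^ r = 1 := by
    have e := congrArg (fun g : ↥(Cfsg.isometryGroup F (⇑Q)) =>
      ((g : Matrix.GeneralLinearGroup ι F) : Matrix ι ι F)) hpow
    simp only [Subgroup.coe_pow, Units.val_pow_eq_pow_val, Subgroup.coe_one, Units.val_one] at e
    rw [hhM]
    exact e
  have hpowH : H ^ r = 1 := by
    rw [hH, ← map_pow, hpowM, map_one]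
  have hfixH : ∀ v, H v = v → v = 0 := by
    intro v hv
    rw [hHv, hhM] at hv
    exact hfix v hv
  obtain ⟨vq, hvq⟩ := id hne
  haveI : Nontrivial (ι → F) := ⟨⟨vq, 0, by
    rintro rfl
    exact hvq (map_zero Q)⟩⟩
  obtain ⟨j, hj⟩ := hr
  obtain ⟨Hinv, hHinv⟩ : ∃ Hinv : Module.End F (ι → F), Hinv = H ^ (2 * j) := ⟨_, rfl⟩
  have hHH : ∀ v, H (Hinv v) = v := by
    intro v
    rw [hHinv, ← Module.End.mul_apply, ← pow_succ', ← hj, hpowH, Module.End.one_apply]
  have hHH' : ∀ v, Hinv (H v) = v := by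
    intro v
    rw [hHinv, ← Module.End.mul_apply, ← pow_succ, ← hj, hpowH, Module.End.one_apply]
  have hodd : ∀ (T : Module.End F (ι → F)), T ^ r = 1 → ∀ v, T (T v) = v → T v = v := by
    intro T hT v hv
    have hp : ∀ i : ℕ, (T ^ (2 * i)) v = v := by
      intro i
      induction i with
      | zero => rw [mul_zero, pow_zero, Module.End.one_apply]
      | succ n ih =>
        rw [show 2 * (n + 1) = 2 * n + 2 by ring, pow_add, Module.End.mul_apply, pow_two,
          Module.End.mul_apply, hv, ih]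
    have e : T v = (T ^ (2 * (j + 1))) v := by
      rw [show 2 * (j + 1) = r + 1 by omega, pow_succ, hT, one_mul]
    rw [e, hp]
  have hfix2 : ∀ v, H (H v) = v → v = 0 := fun v hv => hfixH v (hodd H hpowH v hv)
  have hfix4 : ∀ v, H (H (H (H v))) = v → v = 0 := by
    intro v hv
    apply hfix2
    have e := hodd (H * H) (by rw [← pow_two, ← pow_mul, mul_comm 2 r, pow_mul, hpowH, one_pow]) v
      (by rw [Module.End.mul_apply, Module.End.mul_apply]; exact hv)
    rw [Module.End.mul_apply] at e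
    exact e
  obtain ⟨s, hs⟩ : ∃ s : Module.End F (ι → F), s = H + Hinv := ⟨_, rfl⟩
  have hHss : H.IsSemisimple := by
    apply Module.End.isSemisimple_of_squarefree_aeval_eq_zero (p := X ^ r - C (1 : F))
    · exact (separable_X_pow_sub_C 1 hrF one_ne_zero).squarefree
    · rw [map_sub, map_pow, aeval_X, aeval_C, map_one, hpowH, sub_self]
  have hsss : s.IsSemisimple := by
    have e : s = aeval H (X + X ^ (2 * j) : F[X]) := by
      rw [map_add, map_pow, aeval_X, hs, hHinv]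
    rw [e]
    exact hHss.aeval _
  have hsq : Squarefree (minpoly F s) := hsss.minpoly_squarefree
  have hp0 : minpoly F s ≠ 0 := minpoly.ne_zero (Algebra.IsIntegral.isIntegral s)
  have hpu : ¬ IsUnit (minpoly F s) := minpoly.not_isUnit F s
  obtain ⟨π, hπirr, p', hp'⟩ := WfDvdMonoid.exists_irreducible_factor hpu hp0
  have hcop : IsCoprime π p' := by
    rw [hπirr.coprime_iff_not_dvd]
    rintro ⟨q, rfl⟩
    apply hπirr.not_isUnit
    apply hsq π
    rw [hp']
    exact ⟨q, by ring⟩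
  obtain ⟨α, β, hαβ⟩ := hcop
  have hmin : aeval s (minpoly F s) = 0 := minpoly.aeval F s
  have hB : ∀ u v, QuadraticMap.polar (⇑Q) (H u) (H v) = QuadraticMap.polar (⇑Q) u v := by
    intro u v
    unfold QuadraticMap.polar
    rw [← map_add, hiso, hiso, hiso]
  have hadj1 : ∀ u v, QuadraticMap.polar (⇑Q) (H u) v = QuadraticMap.polar (⇑Q) u (Hinv v) := by
    intro u v
    rw [← hB u (Hinv v), hHH]
  have hadj2 : ∀ u v, QuadraticMap.polar (⇑Q) (Hinv u) v = QuadraticMap.polar (⇑Q) u (H v) := by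
    intro u v
    rw [← hB (Hinv u) v, hHH]
  have hsadj : ∀ u v, QuadraticMap.polar (⇑Q) (s u) v = QuadraticMap.polar (⇑Q) u (s v) := by
    intro u v
    rw [hs, LinearMap.add_apply, LinearMap.add_apply, QuadraticMap.polar_add_left,
      QuadraticMap.polar_add_right, hadj1, hadj2, add_comm]
  have hself := selfadj_aeval Q s hsadj
  have hp'0 : p' ≠ 0 := by
    rintro rfl
    rw [mul_zero] at hp'
    exact hp0 hp'
  have hp'ne : aeval s p' ≠ 0 := by
    intro h0
    have hd := minpoly.dvd F s h0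
    rw [hp'] at hd
    have hdeg := Polynomial.natDegree_le_of_dvd hd hp'0
    rw [Polynomial.natDegree_mul hπirr.ne_zero hp'0] at hdeg
    have := hπirr.natDegree_pos
    omega
  obtain ⟨x₀, hx₀⟩ : ∃ x₀, aeval s p' x₀ ≠ 0 := by
    by_contra hcon
    push Not at hcon
    exact hp'ne (LinearMap.ext hcon)
  obtain ⟨w, hw⟩ : ∃ w, w = aeval s p' x₀ := ⟨_, rfl⟩
  have hwπ : aeval s π w = 0 := by
    rw [hw, ← Module.End.mul_apply, ← map_mul, ← hp', hmin, LinearMap.zero_apply]
  have hw0 : w ≠ 0 := by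
    rw [hw]
    exact hx₀
  obtain ⟨y, hy⟩ : ∃ y, QuadraticMap.polar (⇑Q) w y ≠ 0 := by
    by_contra hcon
    push Not at hcon
    exact hw0 (hQ.1 w (fun y => by
      show QuadraticMap.polar (⇑Q) w y = 0
      exact hcon y))
  obtain ⟨y', hy'⟩ : ∃ y', y' = aeval s (β * p') y := ⟨_, rfl⟩
  have hy'π : aeval s π y' = 0 := by
    rw [hy', ← Module.End.mul_apply, ← map_mul, show π * (β * p') = β * (π * p') by ring, ← hp',
      map_mul, hmin, mul_zero, LinearMap.zero_apply]
  have hwy' : QuadraticMap.polar (⇑Q) w y' ≠ 0 := by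
    have e : y = aeval s (α * π) y + y' := by
      rw [hy', ← LinearMap.add_apply, ← map_add, hαβ, map_one, Module.End.one_apply]
    have e0 : QuadraticMap.polar (⇑Q) w (aeval s (α * π) y) = 0 := by
      rw [← hself, map_mul, Module.End.mul_apply, hwπ, map_zero, QuadraticMap.polar_zero_left]
    intro h0
    apply hy
    rw [e, QuadraticMap.polar_add_right, e0, h0, add_zero]
  obtain ⟨v₀, hv₀π, hv₀Q⟩ : ∃ v₀, aeval s π v₀ = 0 ∧ Q v₀ ≠ 0 := by
    by_cases h1 : Q w = 0
    · by_cases h2' : Q y' = 0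
      · refine ⟨w + y', by rw [map_add, hwπ, hy'π, add_zero], ?_⟩
        intro h3
        apply hwy'
        unfold QuadraticMap.polar
        rw [h3, h1, h2']
        ring
      · exact ⟨y', hy'π, h2'⟩
    · exact ⟨w, hwπ, h1⟩
  obtain ⟨V', hV'⟩ : ∃ V' : Submodule F (ι → F), V' = LinearMap.ker (aeval s π) := ⟨_, rfl⟩
  have hmem' : ∀ v, v ∈ V' ↔ aeval s π v = 0 := by
    intro v
    rw [hV', LinearMap.mem_ker]
  have hsH : Commute s H := by
    rw [hs, hHinv]
    exact (Commute.refl H).add_left (Commute.pow_left (Commute.refl H) _)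
  have hsHinv : Commute s Hinv := by
    rw [hHinv]
    exact hsH.pow_right _
  have hHV' : ∀ w ∈ V', H w ∈ V' := by
    intro w hw
    rw [hmem'] at hw ⊢
    have e := congrArg (fun T : Module.End F (ι → F) => T w) (commute_aeval s H hsH π).eq
    rw [show aeval s π (H w) = H (aeval s π w) from e, hw, map_zero]
  have hHinvV' : ∀ w ∈ V', Hinv w ∈ V' := by
    intro w hw
    rw [hmem'] at hw ⊢
    have e := congrArg (fun T : Module.End F (ι → F) => T w) (commute_aeval s Hinv hsHinv π).eq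
    rw [show aeval s π (Hinv w) = Hinv (aeval s π w) from e, hw, map_zero]
  obtain ⟨H', hH'⟩ : ∃ H' : Module.End F ↥V',
      ∀ w : ↥V', ((H' w : ↥V') : ι → F) = H (w : ι → F) := ⟨H.restrict hHV', fun w => rfl⟩
  obtain ⟨Hinv', hHinv'⟩ : ∃ Hinv' : Module.End F ↥V',
      ∀ w : ↥V', ((Hinv' w : ↥V') : ι → F) = Hinv (w : ι → F) :=
    ⟨Hinv.restrict hHinvV', fun w => rfl⟩
  have hπ' : aeval (H' + Hinv') π = 0 := by
    apply LinearMap.ext
    intro w
    apply Subtype.ext
    show ((aeval (H' + Hinv') π w : ↥V') : ι → F) = ((0 : ↥V') : ι → F)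
    rw [aeval_coe_submodule V' s (H' + Hinv') (fun w => by
      rw [LinearMap.add_apply, Submodule.coe_add, hH', hHinv', hs, LinearMap.add_apply]) π w]
    exact (hmem' _).mp w.2
  haveI : Fact (Irreducible π) := ⟨hπirr⟩
  obtain ⟨D, Θ', f, η, hD0, c1, c2, c3, c4, c5⟩ :=
    torus_cyc h2 (Q.comp V'.subtype) H' Hinv'
      (fun w => by
        show Q ((H' w : ↥V') : ι → F) = Q (w : ι → F)
        rw [hH', hiso])
      (fun w => by
        apply Subtype.ext
        rw [hH', hHinv', hHH])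
      (fun w => by
        apply Subtype.ext
        rw [hHinv', hH', hHH'])
      (fun w hw => by
        have e := congrArg Subtype.val hw
        rw [hH', hHinv'] at e
        apply Subtype.ext
        apply hfix2
        rw [e, hHH])
      π hπ' ⟨v₀, (hmem' _).mpr hv₀π⟩ hv₀Q
  obtain ⟨Θ, hΘ⟩ : ∃ Θ : QuadraticAlgebra (AdjoinRoot π) D 0 →ₗ[F] (ι → F),
      ∀ a, Θ a = ((Θ' a : ↥V') : ι → F) := ⟨V'.subtype ∘ₗ Θ', fun a => rfl⟩
  have hΘQ : ∀ a, Q (Θ a) = f a.norm := by
    intro a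
    rw [hΘ]
    exact c1 a
  have hΘH : ∀ a, H (Θ a) = Θ (η * a) := by
    intro a
    rw [hΘ, hΘ, ← hH', c2]
  have hnd : ∀ a, (∀ b, QuadraticMap.polar (⇑Q) (Θ a) (Θ b) = 0) → a = 0 := by
    intro a ha
    apply c5
    intro b
    have e := ha b
    rw [hΘ, hΘ] at e
    exact e
  haveI : Finite (AdjoinRoot π) := by
    have := (AdjoinRoot.powerBasis hπirr.ne_zero).finite
    exact Module.finite_of_finite F
  haveI : Finite (QuadraticAlgebra (AdjoinRoot π) D 0) := qa_finite D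
  obtain ⟨β₀, hβ₀⟩ : ∃ β₀ : LinearMap.BilinForm F (QuadraticAlgebra (AdjoinRoot π) D 0),
      ∀ a b, β₀ a b = QuadraticMap.polar (⇑Q) (Θ a) (Θ b) :=
    ⟨(QuadraticMap.polarBilin Q).compl₁₂ Θ Θ, fun a b => rfl⟩
  have hβnd : β₀.Nondegenerate := by
    constructor
    · intro a ha
      apply hnd a
      intro b
      rw [← hβ₀]
      exact ha b
    · intro a ha
      apply hnd a
      intro b
      rw [QuadraticMap.polar_comm, ← hβ₀]
      exact ha b
  obtain ⟨P₁, hP₁⟩ : ∃ P₁ : (ι → F) →ₗ[F] QuadraticAlgebra (AdjoinRoot π) D 0,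
      ∀ v b, QuadraticMap.polar (⇑Q) (Θ (P₁ v)) (Θ b) = QuadraticMap.polar (⇑Q) v (Θ b) := by
    refine ⟨(β₀.toDual hβnd).symm.toLinearMap ∘ₗ ((QuadraticMap.polarBilin Q).compl₂ Θ), ?_⟩
    intro v b
    rw [← hβ₀]
    exact LinearMap.BilinForm.apply_toDual_symm_apply (hB := hβnd)
      ((QuadraticMap.polarBilin Q).compl₂ Θ v) b
  have d1 : ∀ a, P₁ (Θ a) = a := by
    intro a
    apply sub_eq_zero.mp
    apply hnd
    intro b
    rw [map_sub, QuadraticMap.polar_sub_left, hP₁, sub_self]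
  have d2 : ∀ v, P₁ v = 0 → ∀ a, Q (v + Θ a) = Q v + f a.norm := by
    intro v hv a
    have e : QuadraticMap.polar (⇑Q) v (Θ a) = 0 := by
      rw [← hP₁, hv, map_zero, QuadraticMap.polar_zero_left]
    have e2 : Q (v + Θ a) = Q v + Q (Θ a) + QuadraticMap.polar (⇑Q) v (Θ a) := by
      unfold QuadraticMap.polar
      ring
    rw [e2, e, add_zero, hΘQ]
  have hpowΘ : ∀ (i : ℕ) b, (H ^ i) (Θ b) = Θ (η ^ i * b) := by
    intro i
    induction i with
    | zero =>
      intro b
      rw [pow_zero, pow_zero, Module.End.one_apply, one_mul]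
    | succ n ih =>
      intro b
      rw [pow_succ', Module.End.mul_apply, ih, hΘH, ← mul_assoc, ← pow_succ']
  have d4 : ∀ v, P₁ (H v) = η * P₁ v := by
    intro v
    apply sub_eq_zero.mp
    apply hnd
    intro b
    have eb : Θ b = H (Θ (η ^ (2 * j) * b)) := by
      rw [← hpowΘ, ← hHinv, hHH]
    rw [map_sub, QuadraticMap.polar_sub_left, hP₁, ← hΘH, sub_eq_zero, eb, hB, hB, hP₁]
  exact torus_spin Q h2 hQ hne hk h H (fun v => by rw [hHv, hhM]) hfix2 hfix4 D hD0 Θ P₁ f η
    d1 d2 hΘH d4 c3 c4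

set_option maxHeartbeats 1600000 in
theorem exists_spin_mixed (Q : QuadraticForm F (ι → F)) (h2 : (2 : F) ≠ 0)
    (hQ : (QuadraticMap.polarBilin Q).Nondegenerate) {k : ℕ}
    (hk : Fintype.card ι = 2 * k) (h : ↥(Cfsg.isometryGroup F (⇑Q))) {r : ℕ} (hr : Odd r)
    (hrF : (r : F) ≠ 0) (hpow : h ^ r = 1)
    (hfix : ¬ ∀ v, ((h : Matrix.GeneralLinearGroup ι F) : Matrix ι ι F) *ᵥ v = v → v = 0) :
    ∃ s : ↥(Cfsg.isometryGroup F (⇑Q)), s * h = h * s ∧
      ((s : Matrix.GeneralLinearGroup ι F) : Matrix ι ι F).det = 1 ∧ spinSign Q s = -1 := by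
  classical
  obtain ⟨ν, hν⟩ := exists_nonsquare_unit (F := F) h2
  obtain ⟨hM, hhM⟩ : ∃ hM : Matrix ι ι F,
      hM = ((h : Matrix.GeneralLinearGroup ι F) : Matrix ι ι F) := ⟨_, rfl⟩
  obtain ⟨H, hH⟩ : ∃ H : Module.End F (ι → F), H = Matrix.toLinAlgEquiv' hM := ⟨_, rfl⟩
  have hHv : ∀ v, H v = hM *ᵥ v := by
    intro v
    rw [hH]
    exact Matrix.toLinAlgEquiv'_apply _ _
  have hiso : ∀ v, Q (H v) = Q v := by
    intro v
    rw [hHv, hhM]
    exact isometry_apply h v
  have hpowM : hM ^ r = 1 := by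
    have e := congrArg (fun g : ↥(Cfsg.isometryGroup F (⇑Q)) =>
      ((g : Matrix.GeneralLinearGroup ι F) : Matrix ι ι F)) hpow
    simp only [Subgroup.coe_pow, Units.val_pow_eq_pow_val, Subgroup.coe_one, Units.val_one] at e
    rw [hhM]
    exact e
  have hpowH : H ^ r = 1 := by
    rw [hH, ← map_pow, hpowM, map_one]
  have hfixH : ¬ ∀ v, H v = v → v = 0 := by
    intro hcon
    apply hfix
    intro v hv
    apply hcon
    rw [hHv, hhM]
    exact hv
  have hfixeq : LinearMap.ker (H - 1) = Cfsg.Agent.H7.fixSub Q h := by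
    ext x
    rw [LinearMap.mem_ker, Cfsg.Agent.H7.mem_fixSub, LinearMap.sub_apply, Module.End.one_apply,
      sub_eq_zero, hHv, hhM]
  have hpar : ∃ m₁, finrank F (LinearMap.ker (H - 1)) = 2 * m₁ := by
    rw [hfixeq]
    obtain ⟨j, hj⟩ := hr
    have hsq : h = h ^ (j + 1) * h ^ (j + 1) := by
      rw [← pow_add, show j + 1 + (j + 1) = r + 1 by omega, pow_succ, hpow, one_mul]
    have hinv : ∀ s ∈ reflSet Q, s * s = 1 := by
      rintro s ⟨v, -, rfl⟩
      exact reflG_mul_self Q v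
    obtain ⟨l, hl, hlp⟩ := exists_list_of_closure_invol (reflSet Q) hinv
      (closure_reflSet_eq_top Q h2 hQ) (h ^ (j + 1))
    have hmem : h ∈ evenSub (reflSet Q) := by
      rw [hsq, ← hlp, ← List.prod_append]
      apply (list_prod_mem_evenSub (reflSet Q) (l ++ l) ?_).1 ?_
      · intro y hy
        rcases List.mem_append.mp hy with h' | h' <;> exact hl y h'
      · rw [List.length_append]
        exact ⟨l.length, rfl⟩
    have hev := (Cfsg.Agent.H7.even_fix_of_mem_evenSub Q hQ h hmem).mpr (by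
      rw [Module.finrank_fintype_fun_eq_card, hk]
      exact even_two_mul k)
    obtain ⟨m₁, hm₁⟩ := hev
    exact ⟨m₁, by rw [hm₁]; ring⟩
  obtain ⟨m₁, hm₁⟩ := hpar
  obtain ⟨δL, hδQ, hδH, -, hδa⟩ :=
    exists_lin_sim_commuting h2 Q hQ H hiso hr hrF hpowH hm₁ hν
  obtain ⟨u, hu, hQu⟩ := hδa hfixH
  have hv : H (δL u) = δL u := by
    rw [← Module.End.mul_apply, ← hδH, Module.End.mul_apply, hu]
  have hQv : Q (δL u) = ν * Q u := hδQ u
  have hQv0 : Q (δL u) ≠ 0 := by
    rw [hQv]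
    exact mul_ne_zero ν.ne_zero hQu
  have hrefl : ∀ w, H w = w → reflG Q w * h = h * reflG Q w := by
    intro w hw
    have e := conj_reflG Q h w
    rw [← hhM, ← hHv, hw] at e
    exact (mul_inv_eq_iff_eq_mul.mp e).symm
  refine ⟨reflG Q u * reflG Q (δL u), ?_, ?_, ?_⟩
  · rw [mul_assoc, hrefl _ hv, ← mul_assoc, hrefl _ hu, mul_assoc]
  · rw [Subgroup.coe_mul, Units.val_mul, Matrix.det_mul, reflG_coe, reflG_coe,
      det_reflectionMatrix Q u hQu, det_reflectionMatrix Q _ hQv0]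
    ring
  · rw [map_mul, spinSign_reflG Q h2 u hQu, spinSign_reflG Q h2 _ hQv0, hQv, mul_comm (ν : F)]
    by_cases hsq : IsSquare (Q u)
    · rw [if_pos hsq, if_neg ((isSquare_mul_nonsquare_iff hQu hν).not.mpr (not_not.mpr hsq))]
      rfl
    · rw [if_neg hsq, if_pos ((isSquare_mul_nonsquare_iff hQu hν).mpr hsq)]
      rfl

/-- For an isometry `h` with `h ^ r = 1`, `r` odd and prime to the characteristic, there is an
isometry of determinant one and spinor sign `-1` commuting with `h`. -/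
theorem exists_spin_commuting (Q : QuadraticForm F (ι → F)) (h2 : (2 : F) ≠ 0)
    (hQ : (QuadraticMap.polarBilin Q).Nondegenerate) (hne : ∃ v, Q v ≠ 0) {k : ℕ}
    (hk : Fintype.card ι = 2 * k) (h : ↥(Cfsg.isometryGroup F (⇑Q))) {r : ℕ} (hr : Odd r)
    (hrF : (r : F) ≠ 0) (hpow : h ^ r = 1) :
    ∃ s : ↥(Cfsg.isometryGroup F (⇑Q)), s * h = h * s ∧
      ((s : Matrix.GeneralLinearGroup ι F) : Matrix ι ι F).det = 1 ∧ spinSign Q s = -1 := by
  by_cases hfix : ∀ v, ((h : Matrix.GeneralLinearGroup ι F) : Matrix ι ι F) *ᵥ v = v → v = 0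
  · exact exists_spin_pure Q h2 hQ hne hk h hr hrF hpow hfix
  · exact exists_spin_mixed Q h2 hQ hk h hr hrF hpow hfix

end

end Cfsg.Agent.H49
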