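import Mathlib
import Cfsg.Agent.H49.OddFusion
import Cfsg.Agent.H49.TorusE
import Cfsg.Agent.H49.SimPlus

set_option autoImplicit false
set_option linter.unusedSectionVars false

/-! Helper lemmas (helper49): fusion of classes of elements of odd order prime to the
characteristic in the image of the conformal orthogonal group (plus type). -/

namespace Cfsg.Agent.H49

open Module Matrix

theorem klein_cases : ∀ a b z : Multiplicative (ZMod 2 × ZMod 2), a ≠ 1 → b ≠ 1 → a ≠ b →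
    z = 1 ∨ z = a ∨ z = b ∨ z = a * b := by decide

theorem mem_of_hom_eq {X : Type*} [Group X] (K H : Subgroup X) {A : Type*} [Group A]
    (φ : ↥H →* A) (hker : φ.ker = K.subgroupOf H) (g c : X) (hg : g ∈ H) (hc : c ∈ H)
    (h : φ ⟨g, hg⟩ = φ ⟨c, hc⟩) : g * c⁻¹ ∈ K := by
  have hmem : (⟨g, hg⟩ * ⟨c, hc⟩⁻¹ : ↥H) ∈ φ.ker := by
    rw [MonoidHom.mem_ker, map_mul, map_inv, h, mul_inv_cancel]
  rw [hker, Subgroup.mem_subgroupOf] at hmem
  exact hmem

section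
variable {ι : Type} [Fintype ι] [DecidableEq ι] {F : Type*} [Field F] [Fintype F] [DecidableEq F]

/-- If `-1` has trivial spinor sign, an isometry inducing an inner automorphism has trivial
spinor sign. -/
theorem spinSign_eq_one_of_mem_inn (Q : QuadraticForm F (ι → F)) (h2 : (2 : F) ≠ 0)
    (hQ : (QuadraticMap.polarBilin Q).Nondegenerate) (h3 : HasTS3 Q) (hne : ∃ v, Q v ≠ 0)
    (hneg : spinSign Q (negG Q) = 1) (s : ↥(Cfsg.isometryGroup F (⇑Q)))
    (hmem : cHom (⇑Q) (inclO Q s) ∈ Cfsg.Inn (Cfsg.POmega F (⇑Q))) : spinSign Q s = 1 := by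
  rw [inn_eq] at hmem
  obtain ⟨g, ⟨t, ht, htg⟩, hg⟩ := hmem
  have hgt : g = inclO Q t := Subtype.ext htg.symm
  rw [hgt] at hg
  have h1 : cHom (⇑Q) (inclO Q (t⁻¹ * s)) = 1 := by
    rw [map_mul, map_mul, map_inv, map_inv, hg, inv_mul_cancel]
  obtain ⟨l', hl'⟩ := eq_scalSim_of_cHom_eq_one Q hQ h3 hne _ h1
  have h2' : ((t⁻¹ * s : ↥(Cfsg.isometryGroup F (⇑Q))) : Matrix.GeneralLinearGroup ι F)
      = scalGL ι l' := congrArg Subtype.val hl'
  have ht' := (mem_commutator_iff_spinSign_det Q h2 hQ t).mp ht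
  rcases scal_isometry Q hne l' (t⁻¹ * s) h2' with h | h
  · rw [inv_mul_eq_one] at h
    rw [← h]
    exact ht'.1
  · have hst : s = t * negG Q := by
      rw [← h, mul_inv_cancel_left]
    rw [hst, map_mul, hneg, mul_one]
    exact ht'.1

end

section Plus
variable {F : Type*} [Field F] [Fintype F]

set_option maxHeartbeats 3200000 in
/-- Class fusion for automorphisms of odd order prime to the characteristic of `PΩ⁺`. -/
theorem plus_odd_fusion (hodd : Odd (Fintype.card F)) {m : ℕ} (hm : 3 ≤ m)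
    (x : MulAut (Cfsg.POmega F (Cfsg.quadFormPlus m F)))
    (hx : x ∈ Cfsg.pgoAut F (Cfsg.quadFormPlus m F))
    {r : ℕ} (hr : Odd r) (hrF : (r : F) ≠ 0) (hxr : x ^ r = 1) :
    (∀ y : MulAut (Cfsg.POmega F (Cfsg.quadFormPlus m F)),
      (Cfsg.IsConjUnder (Cfsg.Inn (Cfsg.POmega F (Cfsg.quadFormPlus m F))) x y
        ↔ Cfsg.IsConjUnder (Cfsg.inndiagPOmegaPlus m F) x y) ∧
      (Cfsg.IsConjUnder (Cfsg.psoAut F (Cfsg.quadFormPlus m F)) x y
        ↔ Cfsg.IsConjUnder (Cfsg.inndiagPOmegaPlus m F) x y)) ∧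
    (∀ y : MulAut (Cfsg.POmega F (Cfsg.quadFormPlus m F)),
      Cfsg.IsConjUnder (Cfsg.poAut F (Cfsg.quadFormPlus m F)) x y
        ↔ Cfsg.IsConjUnder (Cfsg.pgoAut F (Cfsg.quadFormPlus m F)) x y) := by
  classical
  have h2 : (2 : F) ≠ 0 := two_ne_zero_of_odd_card hodd
  have hQ := QP_nondeg m F
  have h3 : HasTS3 (QP m F) := hasTS3_QP m hm
  have hne : ∃ v, QP m F v ≠ 0 := by
    obtain ⟨x, hx⟩ := exists_Q_eq_of_ts3 (QP m F) (QP_nondeg m F) (hasTS3_QP m hm) 1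
    exact ⟨x, by rw [hx]; exact one_ne_zero⟩
  have hcard : Fintype.card (Fin m ⊕ Fin m) = 2 * m := by simp; ring
  have hx' : x ∈ Cfsg.pgoAut F (⇑(QP m F)) := hx
  obtain ⟨h, hhx, hhr⟩ := exists_iso_lift_of_odd_order (QP m F) hQ h3 hne x hx' hr hxr
  obtain ⟨δ, hδsq, hδs, hδh⟩ := exists_sim_commuting (QP m F) h2 hQ hne hcard h hr hrF hhr
  obtain ⟨s, hsh, hsdet, hsspin⟩ :=
    exists_spin_commuting (QP m F) h2 hQ hne hcard h hr hrF hhr
  have hD : Cfsg.inndiagPOmegaPlus m F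
      = (sgnD (QP m F) h2 hQ hne hcard).ker.map (cHom (⇑(QP m F))) := inndiagPlus_eq m F h2 hne
  obtain ⟨c₀, hc₀⟩ : ∃ c₀ : MulAut (Cfsg.POmega F (Cfsg.quadFormPlus m F)),
      c₀ = cHom (⇑(QP m F)) δ := ⟨_, rfl⟩
  have hδx : cHom (⇑(QP m F)) δ * cHom (⇑(QP m F)) (inclO (QP m F) h)
      = cHom (⇑(QP m F)) (inclO (QP m F) h) * cHom (⇑(QP m F)) δ := by
    rw [← map_mul, ← map_mul, hδh]
  have hc₀x : c₀ * x = x * c₀ := by
    rw [hc₀, ← hhx]
    exact hδx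
  have hc₀D : c₀ ∈ Cfsg.inndiagPOmegaPlus m F := by
    rw [hD, hc₀]
    exact ⟨δ, MonoidHom.mem_ker.mpr hδs, rfl⟩
  have hSO : Cfsg.psoAut F (Cfsg.quadFormPlus m F)
      ≤ Cfsg.poAut F (Cfsg.quadFormPlus m F) := psoAut_le_poAut _
  have hc₀S : c₀ ∉ Cfsg.psoAut F (Cfsg.quadFormPlus m F) := by
    intro hmem
    apply hδsq
    apply isSquare_of_mem_poAut (QP m F) hQ h3 hne δ
    rw [← hc₀]
    exact hSO hmem
  have hIS : Cfsg.Inn (Cfsg.POmega F (Cfsg.quadFormPlus m F))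
      ≤ Cfsg.psoAut F (Cfsg.quadFormPlus m F) := inn_le_psoAut _
  have hSD : Cfsg.psoAut F (Cfsg.quadFormPlus m F) ≤ Cfsg.inndiagPOmegaPlus m F := by
    rw [hD]
    intro t ht
    have ht' : t ∈ Cfsg.psoAut F (⇑(QP m F)) := ht
    have ht'' := ht'
    rw [psoAut_eq] at ht'
    obtain ⟨s', hs', rfl⟩ := ht'
    exact ⟨s', MonoidHom.mem_ker.mpr
      (sgnD_eq_one_of_mem_psoAut (QP m F) h2 hQ h3 hne hcard s' ht''), rfl⟩
  obtain ⟨s₀, hs₀⟩ : ∃ s₀ : MulAut (Cfsg.POmega F (Cfsg.quadFormPlus m F)),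
      s₀ = cHom (⇑(QP m F)) (inclO (QP m F) s) := ⟨_, rfl⟩
  have hsx : cHom (⇑(QP m F)) (inclO (QP m F) s) * cHom (⇑(QP m F)) (inclO (QP m F) h)
      = cHom (⇑(QP m F)) (inclO (QP m F) h) * cHom (⇑(QP m F)) (inclO (QP m F) s) := by
    rw [← map_mul, ← map_mul, ← map_mul, ← map_mul, hsh]
  have hs₀x : s₀ * x = x * s₀ := by
    rw [hs₀, ← hhx]
    exact hsx
  have hs₀S : s₀ ∈ Cfsg.psoAut F (Cfsg.quadFormPlus m F) := by
    show s₀ ∈ Cfsg.psoAut F (⇑(QP m F))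
    rw [psoAut_eq, hs₀]
    refine ⟨inclO (QP m F) s, ?_, rfl⟩
    exact ⟨s.2, (Cfsg.Agent.H95.mem_specialLinear_iff _).mpr hsdet⟩
  have hcover : ∀ g ∈ Cfsg.inndiagPOmegaPlus m F, ∃ c, c * x = x * c ∧
      g * c⁻¹ ∈ Cfsg.Inn (Cfsg.POmega F (Cfsg.quadFormPlus m F)) := by
    by_cases hme : Even m
    · obtain ⟨φ, -, hker⟩ := (plus_inndiag hodd hm).2.2 hme
      have hφ1 : ∀ (t : MulAut (Cfsg.POmega F (Cfsg.quadFormPlus m F)))
          (ht : t ∈ Cfsg.inndiagPOmegaPlus m F), φ ⟨t, ht⟩ = 1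
            ↔ t ∈ Cfsg.Inn (Cfsg.POmega F (Cfsg.quadFormPlus m F)) := by
        intro t ht
        rw [← MonoidHom.mem_ker, hker, Subgroup.mem_subgroupOf]
      have hneg : spinSign (QP m F) (negG (QP m F)) = 1 :=
        (spinSign_negG_QP_iff m F h2).mpr (Or.inl hme)
      have hs₀I : s₀ ∉ Cfsg.Inn (Cfsg.POmega F (Cfsg.quadFormPlus m F)) := by
        intro hmem
        rw [hs₀] at hmem
        have e := spinSign_eq_one_of_mem_inn (QP m F) h2 hQ h3 hne hneg s hmem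
        rw [hsspin] at e
        exact absurd e (by decide)
      have ha : φ ⟨c₀, hc₀D⟩ ≠ 1 := by
        rw [Ne, hφ1]
        exact fun hmem => hc₀S (hIS hmem)
      have hb : φ ⟨s₀, hSD hs₀S⟩ ≠ 1 := by
        rw [Ne, hφ1]
        exact hs₀I
      have hab : φ ⟨c₀, hc₀D⟩ ≠ φ ⟨s₀, hSD hs₀S⟩ := by
        intro heq
        apply hc₀S
        have h1 := mem_of_hom_eq _ _ φ hker c₀ s₀ hc₀D (hSD hs₀S) heq
        have h3' := mul_mem (hIS h1) hs₀S
        rw [inv_mul_cancel_right] at h3'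
        exact h3'
      intro g hg
      rcases klein_cases (φ ⟨c₀, hc₀D⟩) (φ ⟨s₀, hSD hs₀S⟩) (φ ⟨g, hg⟩) ha hb hab
        with h | h | h | h
      · refine ⟨1, by rw [one_mul, mul_one], ?_⟩
        rw [inv_one, mul_one]
        exact (hφ1 g hg).mp h
      · exact ⟨c₀, hc₀x, mem_of_hom_eq _ _ φ hker g c₀ hg hc₀D h⟩
      · exact ⟨s₀, hs₀x, mem_of_hom_eq _ _ φ hker g s₀ hg (hSD hs₀S) h⟩
      · refine ⟨c₀ * s₀, ?_,
          mem_of_hom_eq _ _ φ hker g (c₀ * s₀) hg (mul_mem hc₀D (hSD hs₀S)) ?_⟩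
        · rw [mul_assoc, hs₀x, ← mul_assoc, hc₀x, mul_assoc]
        · rw [h, ← map_mul]
          rfl
    · have hmo : Odd m := Nat.not_even_iff_odd.mp hme
      by_cases hq : Fintype.card F % 4 = 3
      · obtain ⟨φ, -, hker⟩ := (plus_inndiag hodd hm).1 ⟨hmo, hq⟩
        have hφ1 : ∀ (t : MulAut (Cfsg.POmega F (Cfsg.quadFormPlus m F)))
            (ht : t ∈ Cfsg.inndiagPOmegaPlus m F), φ ⟨t, ht⟩ = 1
              ↔ t ∈ Cfsg.Inn (Cfsg.POmega F (Cfsg.quadFormPlus m F)) := by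
          intro t ht
          rw [← MonoidHom.mem_ker, hker, Subgroup.mem_subgroupOf]
        apply cover_of_cyclic_gen _ _ φ hker c₀ hc₀D ?_ x hc₀x
        intro z
        apply gen_zmod_two (φ ⟨c₀, hc₀D⟩) z
        rw [Ne, hφ1]
        exact fun hmem => hc₀S (hIS hmem)
      · have hq1 : Fintype.card F % 4 = 1 := by
          have := Nat.odd_iff.mp hodd
          omega
        obtain ⟨φ, -, hker⟩ := (plus_inndiag hodd hm).2.1 ⟨hmo, hq1⟩
        have hrel := (plus_relIndex hodd hm).2 (fun hc => hq hc.2)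
        obtain ⟨t, htS, htI, hall⟩ := Subgroup.relIndex_eq_two_iff_exists_notMem_and.mp hrel
        have httI : t * t ∈ Cfsg.Inn (Cfsg.POmega F (Cfsg.quadFormPlus m F)) :=
          (hall t htS).resolve_right htI
        have hφ1 : ∀ (t : MulAut (Cfsg.POmega F (Cfsg.quadFormPlus m F)))
            (ht : t ∈ Cfsg.inndiagPOmegaPlus m F), φ ⟨t, ht⟩ = 1
              ↔ t ∈ Cfsg.Inn (Cfsg.POmega F (Cfsg.quadFormPlus m F)) := by
          intro t ht
          rw [← MonoidHom.mem_ker, hker, Subgroup.mem_subgroupOf]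
        apply cover_of_cyclic_gen _ _ φ hker c₀ hc₀D ?_ x hc₀x
        intro z
        apply gen_zmod_four (φ ⟨c₀, hc₀D⟩) (φ ⟨t, hSD htS⟩) z
        · rw [Ne, hφ1]
          exact htI
        · rw [← map_mul]
          exact (hφ1 (t * t) _).mpr httI
        · rw [Ne, hφ1]
          exact fun hmem => hc₀S (hIS hmem)
        · intro heq
          apply hc₀S
          have h1 : φ (⟨c₀, hc₀D⟩ * ⟨t, hSD htS⟩⁻¹) = 1 := by
            rw [map_mul, map_inv, heq, mul_inv_cancel]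
          have h2' := (hφ1 (c₀ * t⁻¹) _).mp h1
          have h3' := mul_mem (hIS h2') htS
          rw [inv_mul_cancel_right] at h3'
          exact h3'
  refine ⟨fun y => ⟨⟨conj_under_mono (le_trans hIS hSD) x y, ?_⟩,
    ⟨conj_under_mono hSD x y, ?_⟩⟩, fun y => ?_⟩
  · exact conj_under_of_cover _ _ x hcover y
  · intro hy
    exact conj_under_mono hIS x y (conj_under_of_cover _ _ x hcover y hy)
  · exact po_pgo_fusion (QP m F) h2 hQ h3 hne hcard x hx' hr hrF hxr y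

end Plus

end Cfsg.Agent.H49
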