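import Mathlib
import Cfsg.Agent.H49.SemiConjSim
import Cfsg.Agent.H49.SimQuot3

set_option autoImplicit false
set_option linter.unusedSectionVars false
set_option linter.unusedSimpArgs false
set_option linter.unusedVariables false

/-! Helper lemmas (helper49) for `Out(PΩ⁺_{2m}(q))`, `q` odd: the automorphism induced by a field
automorphism acting entrywise centralises the image of the isometry group modulo `PΩ`. -/

namespace Cfsg.Agent.H49

open Module Matrix

section
variable {ι : Type} [Fintype ι] [DecidableEq ι] {F : Type*} [Field F] [Fintype F] [DecidableEq F]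

/-- A field automorphism applied entrywise to an isometry (for a form with fixed coefficients). -/
def sigO (Q : QuadraticForm F (ι → F)) (σ : F ≃+* F)
    (hσ : ∀ v : ι → F, Q (fun i => σ (v i)) = σ (Q v))
    (g : ↥(Cfsg.isometryGroup F (⇑Q))) : ↥(Cfsg.isometryGroup F (⇑Q)) :=
  ⟨Matrix.GeneralLinearGroup.map (σ : F →+* F) g.1, mem_isometryGroup_iff.mpr (fun v => by
    obtain ⟨w, rfl⟩ : ∃ w : ι → F, v = fun i => σ (w i) :=
      ⟨fun i => σ.symm (v i), by funext i; simp⟩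
    rw [glMap_val, sigma_mulVec, hσ, hσ, isometry_apply g])⟩

theorem sigO_coe (Q : QuadraticForm F (ι → F)) (σ : F ≃+* F)
    (hσ : ∀ v : ι → F, Q (fun i => σ (v i)) = σ (Q v))
    (g : ↥(Cfsg.isometryGroup F (⇑Q))) :
    ((sigO Q σ hσ g : ↥(Cfsg.isometryGroup F (⇑Q))) : Matrix.GeneralLinearGroup ι F)
      = Matrix.GeneralLinearGroup.map (σ : F →+* F) g.1 := rfl

/-- The spinor sign is invariant under entrywise field automorphisms. -/
theorem spinSign_sigO (Q : QuadraticForm F (ι → F)) (σ : F ≃+* F)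
    (hσ : ∀ v : ι → F, Q (fun i => σ (v i)) = σ (Q v))
    (g : ↥(Cfsg.isometryGroup F (⇑Q))) :
    spinSign Q (sigO Q σ hσ g) = spinSign Q g := by
  let T : Sphere Q ≃ Sphere Q :=
    { toFun := fun x => ⟨fun i => σ (x.1 i), by rw [hσ, x.2, map_one]⟩
      invFun := fun x => ⟨fun i => σ.symm (x.1 i), by
        have h := hσ (fun i => σ.symm (x.1 i))
        simp only [RingEquiv.apply_symm_apply] at h
        have hx : Q x.1 = 1 := x.2
        have h' : Q (fun i => x.1 i) = 1 := hx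
        rw [h'] at h
        have h3 := congrArg σ.symm h
        rw [map_one, RingEquiv.symm_apply_apply] at h3
        exact h3.symm⟩
      left_inv := fun x => Subtype.ext (by funext i; simp)
      right_inv := fun x => Subtype.ext (by funext i; simp) }
  have e : spherePerm Q (sigO Q σ hσ g) = (T.symm.trans (spherePerm Q g)).trans T := by
    apply Equiv.ext
    intro x
    apply Subtype.ext
    show ((Matrix.GeneralLinearGroup.map (σ : F →+* F) g.1 : Matrix.GeneralLinearGroup ι F) :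
        Matrix ι ι F) *ᵥ x.1
      = fun i => σ ((((g : Matrix.GeneralLinearGroup ι F) : Matrix ι ι F) *ᵥ
          fun j => σ.symm (x.1 j)) i)
    rw [← sigma_mulVec, glMap_val]
    congr 1
    funext i
    simp
  unfold spinSign
  rw [MonoidHom.comp_apply, MonoidHom.comp_apply, e, Equiv.Perm.sign_symm_trans_trans]

/-- Conjugating an isometry by the entrywise semilinear map. -/
theorem semiConjSim_inclO (Q : QuadraticForm F (ι → F)) {σ : F ≃+* F}
    (hp : Cfsg.IsSemisimilarityPair (⇑Q) (1 : Matrix.GeneralLinearGroup ι F) σ)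
    (hσ : ∀ v : ι → F, Q (fun i => σ (v i)) = σ (Q v))
    (g : ↥(Cfsg.isometryGroup F (⇑Q))) :
    semiConjSim Q hp (inclO Q g) = inclO Q (sigO Q σ hσ g) := by
  apply Subtype.ext
  rw [semiConjSim_coe, one_mul, inv_one, mul_one]
  rfl

/-- An element of `Ω` induces an inner automorphism. -/
theorem cHom_inclO_mem_inn (Q : QuadraticForm F (ι → F)) (y : ↥(Cfsg.isometryGroup F (⇑Q)))
    (hy : y ∈ commutator ↥(Cfsg.isometryGroup F (⇑Q))) :
    cHom (⇑Q) (inclO Q y) ∈ Cfsg.Inn (Cfsg.POmega F (⇑Q)) := by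
  rw [inn_eq]
  exact ⟨inclO Q y, ⟨y, hy, rfl⟩, rfl⟩

/-- Membership in `Ω` from the two signs. -/
theorem mem_commutator_of_signs (Q : QuadraticForm F (ι → F)) (h2 : (2 : F) ≠ 0)
    (hQ : (QuadraticMap.polarBilin Q).Nondegenerate) (hne : ∃ v, Q v ≠ 0) {k : ℕ}
    (hk : Fintype.card ι = 2 * k) (y : ↥(Cfsg.isometryGroup F (⇑Q)))
    (h1 : spinSign Q y = 1) (h2' : sgnD Q h2 hQ hne hk (inclO Q y) = 1) :
    y ∈ commutator ↥(Cfsg.isometryGroup F (⇑Q)) :=
  (mem_commutator_iff_spinSign_det Q h2 hQ y).mpr ⟨h1, (sgnD_inclO_iff Q h2 hQ hne hk y).mp h2'⟩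

theorem units_int_mul_self' (u : ℤˣ) : u * u = 1 := Int.units_mul_self u

theorem units_int_inv' (u : ℤˣ) : u⁻¹ = u := by
  rcases Int.units_eq_one_or u with h | h <;> rw [h] <;> rfl

/-- The twisted field automorphism `cHom(g₁) · ψ` centralises the image of the isometry group
modulo `PΩ`. -/
theorem comm_inclO_mem_inn (Q : QuadraticForm F (ι → F)) (h2 : (2 : F) ≠ 0)
    (hQ : (QuadraticMap.polarBilin Q).Nondegenerate) (hne : ∃ v, Q v ≠ 0) {k : ℕ}
    (hk : Fintype.card ι = 2 * k) {σ : F ≃+* F}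
    (hp : Cfsg.IsSemisimilarityPair (⇑Q) (1 : Matrix.GeneralLinearGroup ι F) σ)
    (hσ : ∀ v : ι → F, Q (fun i => σ (v i)) = σ (Q v))
    {ψ : MulAut (Cfsg.POmega F (⇑Q))}
    (hi : Cfsg.IsInducedBySemilinearPOmega (⇑Q) (1 : Matrix.GeneralLinearGroup ι F) σ ψ)
    (g₁ g₀ : ↥(Cfsg.isometryGroup F (⇑Q))) :
    (cHom (⇑Q) (inclO Q g₁) * ψ) * cHom (⇑Q) (inclO Q g₀) * (cHom (⇑Q) (inclO Q g₁) * ψ)⁻¹
      * (cHom (⇑Q) (inclO Q g₀))⁻¹ ∈ Cfsg.Inn (Cfsg.POmega F (⇑Q)) := by
  have e : (cHom (⇑Q) (inclO Q g₁) * ψ) * cHom (⇑Q) (inclO Q g₀)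
      * (cHom (⇑Q) (inclO Q g₁) * ψ)⁻¹ * (cHom (⇑Q) (inclO Q g₀))⁻¹
      = cHom (⇑Q) (inclO Q g₁) * (ψ * cHom (⇑Q) (inclO Q g₀) * ψ⁻¹)
        * (cHom (⇑Q) (inclO Q g₁))⁻¹ * (cHom (⇑Q) (inclO Q g₀))⁻¹ := by group
  rw [e, conj_cHom Q hp hi, semiConjSim_inclO Q hp hσ, ← map_inv, ← map_inv, ← map_mul, ← map_mul,
    ← map_mul, ← map_inv, ← map_inv, ← map_mul, ← map_mul, ← map_mul]
  apply cHom_inclO_mem_inn
  apply mem_commutator_of_signs Q h2 hQ hne hk
  · rw [map_mul, map_mul, map_mul, map_inv, map_inv, spinSign_sigO, units_int_inv', units_int_inv']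
    rw [mul_comm (spinSign Q g₁) (spinSign Q g₀), mul_assoc (spinSign Q g₀), units_int_mul_self',
      mul_one, units_int_mul_self']
  · rw [map_mul, map_mul, map_mul, map_inv, map_inv, map_mul, map_mul, map_mul, map_inv, map_inv,
      ← semiConjSim_inclO Q hp hσ, sgnD_semiConjSim Q h2 hQ hne hk hp, units_int_inv',
      units_int_inv']
    rw [mul_comm (sgnD Q h2 hQ hne hk (inclO Q g₁)) (sgnD Q h2 hQ hne hk (inclO Q g₀)),
      mul_assoc (sgnD Q h2 hQ hne hk (inclO Q g₀)), units_int_mul_self', mul_one,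
      units_int_mul_self']

end

end Cfsg.Agent.H49
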