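import Mathlib
import Cfsg.Agent.H49.PlusOddA
import Cfsg.Agent.H49.SimPlus
import Cfsg.Agent.H49.SimInst

set_option autoImplicit false
set_option linter.unusedSectionVars false
set_option linter.unusedSimpArgs false
set_option linter.unusedVariables false

/-! Helper lemmas (helper49) for `Out(PΩ⁺_{2m}(q))`, `q` odd: a twisted field automorphism
centralises `PGO` modulo `PΩ`. -/

namespace Cfsg.Agent.H49

open Module Matrix

theorem comm_aux {G : Type*} [Group G] (k ψ d cL cS : G) (h2 : ψ * d * ψ⁻¹ = cL * d)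
    (h3 : d * k⁻¹ * d⁻¹ = cS⁻¹) : (k * ψ) * d * (k * ψ)⁻¹ * d⁻¹ = k * cL * cS⁻¹ := by
  have e : (k * ψ) * d * (k * ψ)⁻¹ * d⁻¹ = k * (ψ * d * ψ⁻¹) * k⁻¹ * d⁻¹ := by group
  have e' : k * (cL * d) * k⁻¹ * d⁻¹ = k * cL * (d * k⁻¹ * d⁻¹) := by group
  rw [e, h2, e', h3]

section
variable {ι : Type} [Fintype ι] [DecidableEq ι] {F : Type*} [Field F] [Fintype F] [DecidableEq F]

/-- Reduction to the isometries and one similarity with non-square multiplier. -/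
theorem comm_pgo_mem_inn (Q : QuadraticForm F (ι → F)) (h2 : (2 : F) ≠ 0)
    (hQ : (QuadraticMap.polarBilin Q).Nondegenerate) (hne : ∃ v, Q v ≠ 0) {k : ℕ}
    (hk : Fintype.card ι = 2 * k) {σ : F ≃+* F}
    (hp : Cfsg.IsSemisimilarityPair (⇑Q) (1 : Matrix.GeneralLinearGroup ι F) σ)
    (hσ : ∀ v : ι → F, Q (fun i => σ (v i)) = σ (Q v))
    {ψ : MulAut (Cfsg.POmega F (⇑Q))}
    (hi : Cfsg.IsInducedBySemilinearPOmega (⇑Q) (1 : Matrix.GeneralLinearGroup ι F) σ ψ)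
    (g₁ : ↥(Cfsg.isometryGroup F (⇑Q)))
    (δ : ↥(Cfsg.Geo.quadSimilarityGroup (⇑Q))) (hδ : ¬ IsSquare (simMul (⇑Q) δ : F))
    (hδc : (cHom (⇑Q) (inclO Q g₁) * ψ) * cHom (⇑Q) δ * (cHom (⇑Q) (inclO Q g₁) * ψ)⁻¹
      * (cHom (⇑Q) δ)⁻¹ ∈ Cfsg.Inn (Cfsg.POmega F (⇑Q)))
    (x : MulAut (Cfsg.POmega F (⇑Q))) (hx : x ∈ Cfsg.pgoAut F (⇑Q)) :
    (cHom (⇑Q) (inclO Q g₁) * ψ) * x * (cHom (⇑Q) (inclO Q g₁) * ψ)⁻¹ * x⁻¹
      ∈ Cfsg.Inn (Cfsg.POmega F (⇑Q)) := by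
  rw [pgoAut_eq] at hx
  obtain ⟨h, rfl⟩ := hx
  have hδe := epsHom_neg Q hne δ hδ
  have hO : ∀ (l : Fˣ) (g₀ : ↥(Cfsg.isometryGroup F (⇑Q))),
      (cHom (⇑Q) (inclO Q g₁) * ψ) * cHom (⇑Q) (scalSim Q l * inclO Q g₀)
        * (cHom (⇑Q) (inclO Q g₁) * ψ)⁻¹ * (cHom (⇑Q) (scalSim Q l * inclO Q g₀))⁻¹
        ∈ Cfsg.Inn (Cfsg.POmega F (⇑Q)) := by
    intro l g₀
    rw [map_mul, cHom_scalSim, one_mul]
    exact comm_inclO_mem_inn Q h2 hQ hne hk hp hσ hi g₁ g₀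
  rcases Int.units_eq_one_or (epsHom Q hne h) with he | he
  · obtain ⟨l, g₀, rfl⟩ := exists_inclO_of_eps Q hne h he
    exact hO l g₀
  · have he1 : epsHom Q hne (δ⁻¹ * h) = 1 := by
      rw [map_mul, map_inv, hδe, he]
      rfl
    obtain ⟨l, g₀, hlg⟩ := exists_inclO_of_eps Q hne (δ⁻¹ * h) he1
    have hh : h = δ * (scalSim Q l * inclO Q g₀) := by
      rw [← hlg]
      group
    rw [hh, map_mul]
    have e : ∀ (φ a b : MulAut (Cfsg.POmega F (⇑Q))),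
        φ * (a * b) * φ⁻¹ * (a * b)⁻¹ = (φ * a * φ⁻¹ * a⁻¹) * (a * (φ * b * φ⁻¹ * b⁻¹) * a⁻¹) := by
      intro φ a b
      group
    rw [e]
    exact Subgroup.mul_mem _ hδc
      ((Cfsg.innNormal (Cfsg.POmega F (⇑Q))).conj_mem _ (hO l g₀) _)

end

section
variable (m : ℕ) (F : Type*) [Field F] [Fintype F] [DecidableEq F]

theorem dsim_mul (a b : Fˣ) : dsim m F (a * b) = dsim m F a * dsim m F b := by
  apply Subtype.ext
  show diagHom (Fin m ⊕ Fin m) F (Sum.elim (fun _ => a * b) (fun _ => 1))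
    = diagHom (Fin m ⊕ Fin m) F (Sum.elim (fun _ => a) (fun _ => 1))
      * diagHom (Fin m ⊕ Fin m) F (Sum.elim (fun _ => b) (fun _ => 1))
  rw [← map_mul]
  congr 1
  funext i
  rcases i with i | i <;> simp

theorem QP_sigma_odd (σ : F ≃+* F) (v : Fin m ⊕ Fin m → F) :
    QP m F (fun i => σ (v i)) = σ (QP m F v) := by
  rw [QP_apply, QP_apply, map_sum]
  refine Finset.sum_congr rfl fun i _ => ?_
  rw [map_mul]

theorem semiConjSim_dsim {σ : F ≃+* F}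
    (hp : Cfsg.IsSemisimilarityPair (⇑(QP m F)) (1 : Matrix.GeneralLinearGroup (Fin m ⊕ Fin m) F) σ)
    (ν : Fˣ) :
    semiConjSim (QP m F) hp (dsim m F ν) = dsim m F (Units.map (σ : F →* F) ν) := by
  apply Subtype.ext
  rw [semiConjSim_coe, one_mul, inv_one, mul_one]
  apply Units.ext
  show ((diagHom (Fin m ⊕ Fin m) F (Sum.elim (fun _ => ν) (fun _ => 1)) :
      Matrix.GeneralLinearGroup (Fin m ⊕ Fin m) F) : Matrix (Fin m ⊕ Fin m) (Fin m ⊕ Fin m) F).map σ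
    = ((diagHom (Fin m ⊕ Fin m) F (Sum.elim (fun _ => Units.map (σ : F →* F) ν) (fun _ => 1)) :
      Matrix.GeneralLinearGroup (Fin m ⊕ Fin m) F) : Matrix (Fin m ⊕ Fin m) (Fin m ⊕ Fin m) F)
  rw [diagHom_coe, diagHom_coe, Matrix.diagonal_map (map_zero σ)]
  congr 1
  funext i
  rcases i with i | i <;> simp

set_option maxHeartbeats 1600000 in
/-- The commutator of the twisted field automorphism with `dsim ν` is inner, under a sign
condition. -/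
theorem comm_dsim_mem_inn (h2 : (2 : F) ≠ 0) (hne : ∃ v, QP m F v ≠ 0) {σ : F ≃+* F}
    (hp : Cfsg.IsSemisimilarityPair (⇑(QP m F)) (1 : Matrix.GeneralLinearGroup (Fin m ⊕ Fin m) F) σ)
    {ψ : MulAut (Cfsg.POmega F (⇑(QP m F)))}
    (hi : Cfsg.IsInducedBySemilinearPOmega (⇑(QP m F))
      (1 : Matrix.GeneralLinearGroup (Fin m ⊕ Fin m) F) σ ψ)
    (g₁ : ↥(Cfsg.isometryGroup F (⇑(QP m F)))) (ν μ : Fˣ) (hν : ¬ IsSquare (ν : F))
    (hμ : Units.map (σ : F →* F) ν = μ * μ * ν)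
    (hε : spinSign (QP m F) (leviO m F (scalGL (Fin m) μ))
      * sgnD (QP m F) h2 (QP_nondeg m F) hne (k := m) (by simp; ring) (inclO (QP m F) g₁) = 1) :
    (cHom (⇑(QP m F)) (inclO (QP m F) g₁) * ψ) * cHom (⇑(QP m F)) (dsim m F ν)
      * (cHom (⇑(QP m F)) (inclO (QP m F) g₁) * ψ)⁻¹ * (cHom (⇑(QP m F)) (dsim m F ν))⁻¹
      ∈ Cfsg.Inn (Cfsg.POmega F (⇑(QP m F))) := by
  have hk : Fintype.card (Fin m ⊕ Fin m) = 2 * m := by simp; ring
  have hQ := QP_nondeg m F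
  have hδ : ¬ IsSquare (simMul (⇑(QP m F)) (dsim m F ν) : F) := by
    rw [simMul_dsim m F hne]
    exact hν
  set δ := dsim m F ν with hδdef
  set L := leviO m F (scalGL (Fin m) μ) with hL
  have e2 : ψ * cHom (⇑(QP m F)) δ * ψ⁻¹
      = cHom (⇑(QP m F)) (inclO (QP m F) L) * cHom (⇑(QP m F)) δ := by
    rw [conj_cHom (QP m F) hp hi, hδdef, semiConjSim_dsim m F hp ν, hμ, dsim_mul, dsim_mul,
      dsim_sq, map_mul, map_mul, cHom_scalSim, one_mul]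
  have e4 : inclO (QP m F) (simConj (⇑(QP m F)) δ g₁) = δ * inclO (QP m F) g₁ * δ⁻¹ := rfl
  have e3 : cHom (⇑(QP m F)) δ * (cHom (⇑(QP m F)) (inclO (QP m F) g₁))⁻¹
      * (cHom (⇑(QP m F)) δ)⁻¹
      = (cHom (⇑(QP m F)) (inclO (QP m F) (simConj (⇑(QP m F)) δ g₁)))⁻¹ := by
    rw [e4, map_mul, map_mul, map_inv, _root_.mul_inv_rev, _root_.mul_inv_rev, inv_inv, mul_assoc]
  have e6 : cHom (⇑(QP m F)) (inclO (QP m F) (g₁ * L * (simConj (⇑(QP m F)) δ g₁)⁻¹))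
      = cHom (⇑(QP m F)) (inclO (QP m F) g₁) * cHom (⇑(QP m F)) (inclO (QP m F) L)
        * (cHom (⇑(QP m F)) (inclO (QP m F) (simConj (⇑(QP m F)) δ g₁)))⁻¹ := by
    simp only [map_mul, map_inv]
  have e5 : (cHom (⇑(QP m F)) (inclO (QP m F) g₁) * ψ) * cHom (⇑(QP m F)) δ
      * (cHom (⇑(QP m F)) (inclO (QP m F) g₁) * ψ)⁻¹ * (cHom (⇑(QP m F)) δ)⁻¹
      = cHom (⇑(QP m F)) (inclO (QP m F) (g₁ * L * (simConj (⇑(QP m F)) δ g₁)⁻¹)) :=
    (comm_aux _ _ _ _ _ e2 e3).trans e6.symm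
  rw [e5]
  apply cHom_inclO_mem_inn
  apply mem_commutator_of_signs (QP m F) h2 hQ hne hk
  · rw [map_mul, map_mul, map_inv, spinSign_simConj (QP m F) h2 hQ hne hk δ hδ g₁, units_int_inv']
    have hε' := hε
    calc spinSign (QP m F) g₁ * spinSign (QP m F) L
          * (spinSign (QP m F) g₁ * sgnD (QP m F) h2 hQ hne hk (inclO (QP m F) g₁))
        = (spinSign (QP m F) g₁ * spinSign (QP m F) g₁)
          * (spinSign (QP m F) L * sgnD (QP m F) h2 hQ hne hk (inclO (QP m F) g₁)) := by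
          rw [mul_mul_mul_comm]
      _ = 1 := by rw [units_int_mul_self', one_mul]; exact hε'
  · have hdL : sgnD (QP m F) h2 hQ hne hk (inclO (QP m F) L) = 1 :=
      (sgnD_inclO_iff (QP m F) h2 hQ hne hk L).mpr (det_leviO m F _)
    rw [map_mul, map_mul, map_inv, map_mul, map_mul, map_inv, e4, map_mul, map_mul, map_inv, hdL,
      mul_one, units_int_inv', units_int_inv']
    rw [mul_comm (sgnD (QP m F) h2 hQ hne hk δ), mul_assoc, units_int_mul_self', mul_one,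
      units_int_mul_self']

end

end Cfsg.Agent.H49
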