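import Mathlib
import Cfsg.Agent.H49.AutOut4

set_option autoImplicit false
set_option linter.unusedSectionVars false
set_option linter.unusedSimpArgs false
set_option linter.unusedVariables false

/-! Helper lemma (helper49): `A/N ≅ D × C_f` from a lift of a generator that centralises the
kernel modulo `N` and whose `f`-th power lies in `N`. -/

namespace Cfsg.Agent.H49

section Grp
variable {A C : Type*} [Group A] [Group C]

theorem quot_equiv_prod_of_gen {D : Type*} [Group D] (N P : Subgroup A) [N.Normal]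
    (Ψ : A →* C) (hsurj : Function.Surjective Ψ) (hP : Ψ.ker = P) (hN : N ≤ P)
    (χ : ↥P →* D) (hχs : Function.Surjective χ) (hχk : χ.ker = N.subgroupOf P)
    (f : ℕ) (hf : 0 < f) (hC : IsCyclic C) (hcard : Nat.card C = f) (φ : A)
    (hord : orderOf (Ψ φ) = f) (hpow : φ ^ f ∈ N)
    (hcomm : ∀ x ∈ P, φ * x * φ⁻¹ * x⁻¹ ∈ N) :
    Nonempty (A ⧸ N ≃* D × Multiplicative (ZMod f)) := by
  classical
  subst hP
  have hNP : N ≤ Ψ.ker := hN
  haveI : Finite C := Nat.finite_of_card_ne_zero (by rw [hcard]; omega)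
  obtain ⟨x, hx⟩ : ∃ x : A ⧸ N, x = QuotientGroup.mk φ := ⟨_, rfl⟩
  have hψx : (QuotientGroup.lift N Ψ hNP) x = Ψ φ := by rw [hx]; rfl
  have hxf : x ^ f = 1 := by
    rw [hx, ← QuotientGroup.mk_pow]
    exact (QuotientGroup.eq_one_iff _).mpr hpow
  have hgen : ∀ c : C, c ∈ Subgroup.zpowers (Ψ φ) := by
    have htop : Subgroup.zpowers (Ψ φ) = ⊤ :=
      Subgroup.eq_top_of_card_eq _ (by rw [Nat.card_zpowers, hord, hcard])
    intro c
    rw [htop]
    exact Subgroup.mem_top c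
  have hdvd : orderOf x ∣ orderOf (Ψ φ) := by
    rw [hord]
    exact orderOf_dvd_of_pow_eq_one hxf
  obtain ⟨s, hs⟩ : ∃ s : C →* A ⧸ N, s (Ψ φ) = x :=
    ⟨monoidHomOfForallMemZpowers hgen hdvd, monoidHomOfForallMemZpowers_apply_gen hgen hdvd⟩
  have hsec : ∀ c, (QuotientGroup.lift N Ψ hNP) (s c) = c := by
    have h1 : (QuotientGroup.lift N Ψ hNP).comp s = MonoidHom.id C := by
      rw [MonoidHom.eq_iff_eq_on_generator hgen]
      show (QuotientGroup.lift N Ψ hNP) (s (Ψ φ)) = Ψ φ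
      rw [hs, hψx]
    intro c
    exact DFunLike.congr_fun h1 c
  have hxk : ∀ k ∈ (QuotientGroup.lift N Ψ hNP).ker, x * k = k * x := by
    intro k hk
    obtain ⟨a, ha, rfl⟩ := mem_ker_lift N Ψ hNP k hk
    have h2 : (QuotientGroup.mk φ : A ⧸ N) * QuotientGroup.mk a * (QuotientGroup.mk φ)⁻¹
        * (QuotientGroup.mk a)⁻¹ = 1 := (QuotientGroup.eq_one_iff _).mpr (hcomm a ha)
    rw [hx]
    calc (QuotientGroup.mk φ : A ⧸ N) * QuotientGroup.mk a
        = ((QuotientGroup.mk φ : A ⧸ N) * QuotientGroup.mk a * (QuotientGroup.mk φ)⁻¹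
            * (QuotientGroup.mk a)⁻¹) * (QuotientGroup.mk a * QuotientGroup.mk φ) := by group
      _ = QuotientGroup.mk a * QuotientGroup.mk φ := by rw [h2, one_mul]
  have hcen : ∀ k ∈ (QuotientGroup.lift N Ψ hNP).ker, ∀ c : C, s c * k = k * s c := by
    intro k hk c
    obtain ⟨j, rfl⟩ := Subgroup.mem_zpowers_iff.mp (hgen c)
    rw [map_zpow, hs]
    have hc : Commute x k := hxk k hk
    exact (hc.zpow_left j).eq
  obtain ⟨E⟩ := nonempty_prod_of_section (QuotientGroup.lift N Ψ hNP) s hsec hcen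
  obtain ⟨ρ, hρ⟩ : ∃ ρ : ↥Ψ.ker →* ↥(QuotientGroup.lift N Ψ hNP).ker,
      ∀ a, (ρ a : A ⧸ N) = QuotientGroup.mk (a : A) :=
    ⟨MonoidHom.mk' (fun a => ⟨QuotientGroup.mk (a : A), a.2⟩) (fun a b => rfl), fun a => rfl⟩
  have hρs : Function.Surjective ρ := by
    intro y
    obtain ⟨a, ha, hya⟩ := mem_ker_lift N Ψ hNP y.1 y.2
    exact ⟨⟨a, ha⟩, Subtype.ext (by rw [hρ, hya])⟩
  have hρk : ρ.ker = N.subgroupOf Ψ.ker := by
    ext a
    rw [MonoidHom.mem_ker, Subgroup.mem_subgroupOf, ← QuotientGroup.eq_one_iff, ← hρ]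
    exact ⟨fun h => congrArg Subtype.val h, fun h => Subtype.ext h⟩
  have eK : ↥(QuotientGroup.lift N Ψ hNP).ker ≃* D :=
    (QuotientGroup.quotientKerEquivOfSurjective ρ hρs).symm.trans
      ((QuotientGroup.quotientMulEquivOfEq (hρk.trans hχk.symm)).trans
        (QuotientGroup.quotientKerEquivOfSurjective χ hχs))
  obtain ⟨eC⟩ := nonempty_cyc_equiv hC f hcard
  exact ⟨E.trans (MulEquiv.prodCongr eK eC)⟩

end Grp

end Cfsg.Agent.H49

#print axioms Cfsg.Agent.H49.quot_equiv_prod_of_gen
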