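import Mathlib
import Cfsg.Agent.H49.PlusOddB
import Cfsg.Agent.H49.PlusOddC
import Cfsg.Agent.H49.MinusOdd
import Cfsg.Agent.H49.AutOdd2
import Cfsg.Agent.H49.PlusInn

set_option autoImplicit false
set_option linter.unusedSectionVars false
set_option linter.unusedSimpArgs false
set_option linter.unusedVariables false
set_option linter.style.haveILetI false

/-! Helper lemmas (helper49): `Out(PΩ⁺_{2m}(q))` for `q` odd and `m ≥ 5`
(the half of S2608 without triality). -/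

namespace Cfsg.Agent.H49

open Module Matrix

theorem pow_mod_four_of_odd (p f : ℕ) (hp : p % 4 = 3) (hf : Odd f) : p ^ f % 4 = 3 := by
  obtain ⟨j, rfl⟩ := hf
  rw [Nat.pow_mod, hp, pow_succ, pow_mul, Nat.mul_mod, Nat.pow_mod]
  norm_num

section
variable {F : Type*} [Field F] [Fintype F]

set_option maxHeartbeats 3200000 in
/-- `Out(PΩ⁺_{2m}(q))` for `q = p^f` odd and `m ≥ 5`. -/
theorem out_plus_odd_ge5 {p f m : ℕ} [Fact p.Prime] (hf : 1 ≤ f) (hF : Fintype.card F = p ^ f)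
    (hp : p ≠ 2) (hm : 5 ≤ m) :
    if p ^ f % 4 = 3 ∧ Odd m then
      Nonempty (Cfsg.Out (Cfsg.POmega F (Cfsg.quadFormPlus m F))
        ≃* Multiplicative (ZMod 2 × ZMod 2 × ZMod f))
    else
      Nonempty (Cfsg.Out (Cfsg.POmega F (Cfsg.quadFormPlus m F))
        ≃* DihedralGroup 4 × Multiplicative (ZMod f)) := by
  classical
  have hpp := (Fact.out : p.Prime)
  have hpodd : Odd p := hpp.odd_of_ne_two hp
  have hodd : Odd (Fintype.card F) := by rw [hF]; exact hpodd.pow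
  have h2 : (2 : F) ≠ 0 := two_ne_zero_of_odd_card hodd
  haveI := charP_of_card_pow hF
  have hQ := QP_nondeg m F
  have h3 := hasTS3_QP (F := F) m (by omega)
  have hk : Fintype.card (Fin m ⊕ Fin m) = 2 * m := by simp; ring
  have hne : ∃ v, QP m F v ≠ 0 := by
    obtain ⟨x, hx⟩ := exists_Q_eq_of_ts3 (QP m F) hQ h3 1
    exact ⟨x, by rw [hx]; exact one_ne_zero⟩
  have htop : ∀ β : MulAut (Cfsg.POmega F (⇑(QP m F))),
      β ∈ Cfsg.gammaPOmega F (⇑(QP m F)) := by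
    intro β
    have ht : Cfsg.gammaPOmega F (⇑(QP m F)) = ⊤ := gamma_top_plus hm
    rw [ht]
    exact Subgroup.mem_top β
  obtain ⟨Ψ, hΨ⟩ := exists_sigHom (QP m F) hQ h3 htop
  have hker := sigHom_ker (QP m F) htop Ψ hΨ
  obtain ⟨s, hs⟩ := exists_fieldHom (⇑(QP m F)) (fun σ => pair_plus_sigma m σ)
  have hsec : ∀ σ : RingAut F, Ψ (s σ) = σ := fun σ => hΨ (s σ) 1 σ (pair_plus_sigma m σ) (hs σ)
  have hsurj : Function.Surjective Ψ := fun σ => ⟨s σ, hsec σ⟩
  obtain ⟨hC, hcardC⟩ := ringAut_card (F := F) p f hf hF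
  obtain ⟨hall, hordσ, hfrob⟩ := ringAut_frob (F := F) p f hf hF
  obtain ⟨σ₀, hσ₀⟩ : ∃ σ₀ : RingAut F, σ₀ = (frobeniusEquiv F p : RingAut F) := ⟨_, rfl⟩
  rw [← hσ₀] at hordσ hfrob
  obtain ⟨ψ, hψ⟩ : ∃ ψ : MulAut (Cfsg.POmega F (⇑(QP m F))), ψ = s σ₀ := ⟨_, rfl⟩
  have hpair : Cfsg.IsSemisimilarityPair (⇑(QP m F))
      (1 : Matrix.GeneralLinearGroup (Fin m ⊕ Fin m) F) σ₀ := pair_plus_sigma m σ₀
  have hi : Cfsg.IsInducedBySemilinearPOmega (⇑(QP m F))
      (1 : Matrix.GeneralLinearGroup (Fin m ⊕ Fin m) F) σ₀ ψ := by rw [hψ]; exact hs σ₀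
  have hΨψ : Ψ ψ = σ₀ := by rw [hψ]; exact hsec σ₀
  have hψf : ψ ^ f = 1 := by rw [hψ, ← map_pow, ← hordσ, pow_orderOf_eq_one, map_one]
  have hσQ : ∀ v : Fin m ⊕ Fin m → F, QP m F (fun i => σ₀ (v i)) = σ₀ (QP m F v) :=
    QP_sigma_odd m F σ₀
  obtain ⟨ν, hν⟩ := exists_nonsquare_unit (F := F) h2
  have hδ : ¬ IsSquare (simMul (⇑(QP m F)) (dsim m F ν) : F) := by
    rw [simMul_dsim m F hne]
    exact hν
  have hf0 : 0 < f := by omega
  by_cases hc : p ^ f % 4 = 3 ∧ Odd m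
  · rw [if_pos hc]
    have hneg : spinSign (QP m F) (negG (QP m F)) ≠ 1 := by
      intro hh
      rw [spinSign_negG_QP_iff m F h2] at hh
      rcases hh with he | hq
      · exact (Nat.not_even_iff_odd.mpr hc.2) he
      · exact hq (by rw [hF]; exact hc.1)
    have hpso := psoAut_le_inn (QP m F) h2 hQ hk hneg
    have heq : Cfsg.psoAut F (⇑(QP m F)) = Cfsg.Inn (Cfsg.POmega F (⇑(QP m F))) :=
      le_antisymm hpso (inn_le_psoAut _)
    obtain ⟨χ, hχs, hχk⟩ := exists_hom_of_mulEquiv kleinEquiv _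
      (pgo_mod_pso (QP m F) h2 hQ h3 hk (dsim m F ν) hδ)
    rw [heq] at hχk
    have hcommP : ∀ x ∈ Cfsg.pgoAut F (⇑(QP m F)),
        ψ * x * ψ⁻¹ * x⁻¹ ∈ Cfsg.Inn (Cfsg.POmega F (⇑(QP m F))) :=
      fun x hx => hpso (comm_mem_psoAut (QP m F) h2 hQ hne hk hpair hi x hx)
    obtain ⟨E⟩ := quot_equiv_prod_of_gen (Cfsg.Inn (Cfsg.POmega F (⇑(QP m F))))
      (Cfsg.pgoAut F (⇑(QP m F))) Ψ hsurj hker (inn_le_pgoAut _) χ hχs hχk f hf0 hC hcardC ψ
      (by rw [hΨψ]; exact hordσ) (by rw [hψf]; exact Subgroup.one_mem _) hcommP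
    exact ⟨E.trans ((MulEquiv.prodMultiplicative (G := ZMod 2 × ZMod 2) (H := ZMod f)).symm.trans
      (AddEquiv.toMultiplicative AddEquiv.prodAssoc))⟩
  · rw [if_neg hc]
    have hneg : spinSign (QP m F) (negG (QP m F)) = 1 := by
      rw [spinSign_negG_QP_iff m F h2]
      by_contra hcon
      push Not at hcon
      exact hc ⟨by rw [← hF]; exact hcon.2, Nat.not_even_iff_odd.mp hcon.1⟩
    obtain ⟨χ, hχs, hχk⟩ := pgo_mod_inn_dihedral (QP m F) h2 hQ h3 hk (dsim m F ν) hδ hneg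
    -- the multiplier of Frobenius on `ν`
    obtain ⟨e, he⟩ : ∃ e : ℕ, p = 2 * e + 1 := hpodd
    obtain ⟨μ, hμdef⟩ : ∃ μ : Fˣ, μ = ν ^ e := ⟨_, rfl⟩
    have hμ : Units.map (σ₀ : F →* F) ν = μ * μ * ν := by
      apply Units.ext
      have h1 := hfrob 1 (ν : F)
      rw [pow_one, pow_one] at h1
      show σ₀ (ν : F) = _
      rw [h1, hμdef, Units.val_mul, Units.val_mul, Units.val_pow_eq_pow_val, he]
      ring
    have hχν : (quadraticChar F).toUnitHom ν = -1 := by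
      apply Units.ext
      rw [MulChar.coe_toUnitHom, quadraticChar_neg_one_iff_not_isSquare.mpr hν]
      rfl
    have hdet : Matrix.GeneralLinearGroup.det (scalGL (Fin m) μ) = μ ^ m := by
      apply Units.ext
      rw [Matrix.GeneralLinearGroup.val_det_apply, scalGL_coe, Matrix.det_smul, Matrix.det_one,
        Fintype.card_fin, mul_one, Units.val_pow_eq_pow_val]
    have hL : spinSign (QP m F) (leviO m F (scalGL (Fin m) μ)) = (-1) ^ (e * m) := by
      rw [spinSign_leviO m F h2, hdet, map_pow, hμdef, map_pow, hχν, ← pow_mul]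
    -- the twisting isometry
    obtain ⟨g₁, hε, hpowφ⟩ : ∃ g₁ : ↥(Cfsg.isometryGroup F (⇑(QP m F))),
        spinSign (QP m F) (leviO m F (scalGL (Fin m) μ))
          * sgnD (QP m F) h2 hQ hne hk (inclO (QP m F) g₁) = 1 ∧
        (cHom (⇑(QP m F)) (inclO (QP m F) g₁) * ψ) ^ f
          ∈ Cfsg.Inn (Cfsg.POmega F (⇑(QP m F))) := by
      by_cases hG : Even (e * m)
      · refine ⟨1, ?_, ?_⟩
        · rw [hL, hG.neg_one_pow, map_one, map_one, mul_one]
        · rw [map_one, map_one, one_mul, hψf]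
          exact Subgroup.one_mem _
      · rw [Nat.not_even_iff_odd] at hG
        obtain ⟨v, hv⟩ := hne
        have hne' : ∃ v, QP m F v ≠ 0 := ⟨v, hv⟩
        have heo : Odd e := (Nat.odd_mul.mp hG).1
        have hmo : Odd m := (Nat.odd_mul.mp hG).2
        have hp4 : p % 4 = 3 := by
          obtain ⟨t, ht⟩ := heo
          omega
        have hfe : Even f := by
          by_contra hfo
          rw [Nat.not_even_iff_odd] at hfo
          exact hc ⟨pow_mod_four_of_odd p f hp4 hfo, hmo⟩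
        obtain ⟨r, hr⟩ : ∃ r : ↥(Cfsg.isometryGroup F (⇑(QP m F))), r = reflG (QP m F) v :=
          ⟨_, rfl⟩
        have hdr : sgnD (QP m F) h2 hQ hne' hk (inclO (QP m F) r) = -1 := by
          rw [hr]
          exact sgnD_inclO_reflG (QP m F) h2 hQ hne' hk v hv
        refine ⟨r, ?_, ?_⟩
        · rw [hL, hG.neg_one_pow, hdr]
          rfl
        · -- `φ² ∈ Inn · ψ²`
          have hy : r * sigO (QP m F) σ₀ hσQ r ∈ commutator ↥(Cfsg.isometryGroup F (⇑(QP m F))) := by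
            apply mem_commutator_of_signs (QP m F) h2 hQ hne' hk
            · rw [map_mul, spinSign_sigO, units_int_mul_self']
            · rw [map_mul, map_mul, ← semiConjSim_inclO (QP m F) hpair hσQ,
                sgnD_semiConjSim (QP m F) h2 hQ hne' hk hpair, units_int_mul_self']
          have hn := cHom_inclO_mem_inn (QP m F) _ hy
          have e1 : (cHom (⇑(QP m F)) (inclO (QP m F) r) * ψ) ^ 2
              = cHom (⇑(QP m F)) (inclO (QP m F) (r * sigO (QP m F) σ₀ hσQ r)) * ψ ^ 2 := by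
            have e2 : ψ * cHom (⇑(QP m F)) (inclO (QP m F) r) * ψ⁻¹
                = cHom (⇑(QP m F)) (inclO (QP m F) (sigO (QP m F) σ₀ hσQ r)) := by
              rw [conj_cHom (QP m F) hpair hi, semiConjSim_inclO (QP m F) hpair hσQ]
            rw [pow_two, pow_two, map_mul (inclO (QP m F)), map_mul (cHom (⇑(QP m F))), ← e2]
            group
          obtain ⟨j, hj⟩ := hfe
          have e3 : (QuotientGroup.mk (cHom (⇑(QP m F)) (inclO (QP m F) r) * ψ) :
              MulAut (Cfsg.POmega F (⇑(QP m F))) ⧸ Cfsg.Inn (Cfsg.POmega F (⇑(QP m F)))) ^ 2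
              = (QuotientGroup.mk ψ) ^ 2 := by
            rw [← QuotientGroup.mk_pow, e1, QuotientGroup.mk_mul,
              (QuotientGroup.eq_one_iff _).mpr hn, one_mul, QuotientGroup.mk_pow]
          rw [← QuotientGroup.eq_one_iff, QuotientGroup.mk_pow, hj, ← two_mul, pow_mul, e3,
            ← pow_mul, two_mul, ← hj, ← QuotientGroup.mk_pow, hψf]
          rfl
    have hδc := comm_dsim_mem_inn m F h2 hne hpair hi g₁ ν μ hν hμ hε
    have hcommP := comm_pgo_mem_inn (QP m F) h2 hQ hne hk hpair hσQ hi g₁ (dsim m F ν) hδ hδc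
    have hk1 : Ψ (cHom (⇑(QP m F)) (inclO (QP m F) g₁)) = 1 := by
      rw [← MonoidHom.mem_ker, hker, pgoAut_eq]
      exact ⟨_, rfl⟩
    obtain ⟨E⟩ := quot_equiv_prod_of_gen (Cfsg.Inn (Cfsg.POmega F (⇑(QP m F))))
      (Cfsg.pgoAut F (⇑(QP m F))) Ψ hsurj hker (inn_le_pgoAut _) χ hχs hχk f hf0 hC hcardC
      (cHom (⇑(QP m F)) (inclO (QP m F) g₁) * ψ)
      (by rw [map_mul, hk1, one_mul, hΨψ]; exact hordσ) hpowφ hcommP
    exact ⟨E⟩

end

end Cfsg.Agent.H49

#print axioms Cfsg.Agent.H49.out_plus_odd_ge5
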