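import Mathlib
import Cfsg.Agent.H49.AutOdd2
import Cfsg.Agent.H49.MinusN

set_option autoImplicit false
set_option linter.unusedSectionVars false
set_option linter.unusedSimpArgs false
set_option linter.unusedVariables false

/-! Helper lemmas (helper49): `Out(PΩ⁺_{2m}(q)) ≅ C₂ × C_f` for `q = 2^f` and `m ≥ 5`
(the half of S2607 without triality). -/

namespace Cfsg.Agent.H49

open Module Matrix

section
variable {F : Type*} [Field F] [Fintype F]

/-- `Out(PΩ⁺_{2m}(q)) ≅ C₂ × C_f` for `q = 2^f` and `m ≥ 5`. -/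
theorem out_plus_two_ge5 {f m : ℕ} (hf : 1 ≤ f) (hF : Fintype.card F = 2 ^ f) (hm : 5 ≤ m) :
    Nonempty (Cfsg.Out (Cfsg.POmega F (Cfsg.quadFormPlus m F))
      ≃* Multiplicative (ZMod 2 × ZMod f)) := by
  classical
  have hp2 : Fact (Nat.Prime 2) := ⟨Nat.prime_two⟩
  have hcp := charP_of_card_pow hF
  have h2 : (2 : F) = 0 := by
    have := CharP.cast_eq_zero F 2
    exact_mod_cast this
  have hQ := QP_nondeg m F
  have h3 := hasTS3_QP (F := F) m (by omega)
  have hV : finrank F (Fin m ⊕ Fin m → F) = 2 * m := finrank_plus m F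
  have htop : ∀ β : MulAut (Cfsg.POmega F (⇑(QP m F))),
      β ∈ Cfsg.gammaPOmega F (⇑(QP m F)) := by
    intro β
    have ht : Cfsg.gammaPOmega F (⇑(QP m F)) = ⊤ := gamma_top_plus hm
    rw [ht]
    exact Subgroup.mem_top β
  obtain ⟨Ψ, hΨ⟩ := exists_sigHom (QP m F) hQ h3 htop
  have hker := sigHom_ker (QP m F) htop Ψ hΨ
  obtain ⟨s, hs⟩ := exists_fieldHom (⇑(QP m F)) (fun σ => pair_plus_sigma m σ)
  have hsec : ∀ σ : RingAut F, Ψ (s σ) = σ := fun σ => hΨ (s σ) 1 σ (pair_plus_sigma m σ) (hs σ)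
  have hN : Cfsg.Inn (Cfsg.POmega F (⇑(QP m F))) ≤ Ψ.ker := by
    rw [hker]
    exact inn_le_pgoAut _
  have hidx : (Cfsg.Inn (Cfsg.POmega F (⇑(QP m F)))).relIndex Ψ.ker = 2 := by
    rw [hker]
    exact relIndex_inn_pgoAut_two (QP m F) h2 hQ h3 hV (Or.inr (by omega))
  obtain ⟨hC, hcardC⟩ := ringAut_card (F := F) 2 f hf hF
  exact quot_equiv_two_prod (Cfsg.Inn (Cfsg.POmega F (⇑(QP m F)))) Ψ s hsec hN hidx f hC hcardC

end

end Cfsg.Agent.H49

#print axioms Cfsg.Agent.H49.out_plus_two_ge5
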