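import Mathlib
import Cfsg.Agent.H49.PlusTwoOut
import Cfsg.Agent.S1082

set_option autoImplicit false

/-! Helper lemmas (helper49): glue for S2607. The `m ≥ 5` half is `out_plus_two_ge5`; the
`m = 4` half is reduced, through `D₄(F) ≅ PΩ⁺₈(F)` (S1082), to the outer automorphism group of
the Chevalley group `chevD4.group F`. -/

namespace Cfsg.Agent.H49

universe u v

/-- Transport of the outer automorphism group along an isomorphism. -/
noncomputable def outCongrP {G : Type u} {H : Type v} [Group G] [Group H] (e : G ≃* H) :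
    Cfsg.Out G ≃* Cfsg.Out H :=
  QuotientGroup.congr (Cfsg.Inn G) (Cfsg.Inn H) (MulAut.congr e) (by
    ext ψ
    constructor
    · rintro ⟨φ, ⟨g, rfl⟩, rfl⟩
      refine ⟨e g, ?_⟩
      ext x
      simp [MulAut.congr]
    · rintro ⟨h, rfl⟩
      refine ⟨MulAut.conj (e.symm h), ⟨e.symm h, rfl⟩, ?_⟩
      ext x
      simp [MulAut.congr])

/-- S2607 from the `D₄` statement: `Out(D₄(2^f)) ≅ S₃ × C_f`. -/
theorem s2607_of_d4 {F : Type*} [Field F] [Fintype F] {f m : ℕ} (hf : 1 ≤ f)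
    (hF : Fintype.card F = 2 ^ f) (hm : 4 ≤ m)
    (hB : Nonempty (Cfsg.Out ↥(Cfsg.Lie.chevD4.group F)
      ≃* Equiv.Perm (Fin 3) × Multiplicative (ZMod f))) :
    if m = 4 then Nonempty (Cfsg.Out (Cfsg.POmega F (Cfsg.quadFormPlus m F))
        ≃* Equiv.Perm (Fin 3) × Multiplicative (ZMod f))
      else Nonempty (Cfsg.Out (Cfsg.POmega F (Cfsg.quadFormPlus m F))
        ≃* Multiplicative (ZMod 2 × ZMod f)) := by
  by_cases h4 : m = 4
  · subst h4
    rw [if_pos rfl]
    obtain ⟨e⟩ := Cfsg.Agent.S1082.result (F := F)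
    obtain ⟨b⟩ := hB
    exact ⟨(outCongrP e).symm.trans b⟩
  · rw [if_neg h4]
    exact out_plus_two_ge5 hf hF (by omega)

end Cfsg.Agent.H49

#print axioms Cfsg.Agent.H49.s2607_of_d4
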