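import Mathlib
import Cfsg.Agent.H49.PlusOddD
import Cfsg.Agent.H49.PlusTwoGlue

set_option autoImplicit false

/-! Helper lemmas (helper49): glue for S2608. The `m ≥ 5` half is `out_plus_odd_ge5`; the
`m = 4` half is reduced, through `D₄(F) ≅ PΩ⁺₈(F)` (S1082), to the outer automorphism group of
the Chevalley group `chevD4.group F`. -/

namespace Cfsg.Agent.H49

/-- S2608 from the `D₄` statement: `Out(D₄(p^f)) ≅ S₄ × C_f` for odd `p`. -/
theorem s2608_of_d4 {F : Type*} [Field F] [Fintype F] {p f m : ℕ} [Fact p.Prime] (hf : 1 ≤ f)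
    (hF : Fintype.card F = p ^ f) (hp : p ≠ 2) (hm : 4 ≤ m)
    (hB : Nonempty (Cfsg.Out ↥(Cfsg.Lie.chevD4.group F)
      ≃* Equiv.Perm (Fin 4) × Multiplicative (ZMod f))) :
    if m = 4 then Nonempty (Cfsg.Out (Cfsg.POmega F (Cfsg.quadFormPlus m F))
        ≃* Equiv.Perm (Fin 4) × Multiplicative (ZMod f))
      else if p ^ f % 4 = 3 ∧ Odd m then
        Nonempty (Cfsg.Out (Cfsg.POmega F (Cfsg.quadFormPlus m F))
          ≃* Multiplicative (ZMod 2 × ZMod 2 × ZMod f))
      else Nonempty (Cfsg.Out (Cfsg.POmega F (Cfsg.quadFormPlus m F))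
        ≃* DihedralGroup 4 × Multiplicative (ZMod f)) := by
  by_cases h4 : m = 4
  · subst h4
    rw [if_pos rfl]
    obtain ⟨e⟩ := Cfsg.Agent.S1082.result (F := F)
    obtain ⟨b⟩ := hB
    exact ⟨(outCongrP e).symm.trans b⟩
  · rw [if_neg h4]
    exact out_plus_odd_ge5 hf hF hp (by omega)

end Cfsg.Agent.H49

#print axioms Cfsg.Agent.H49.s2608_of_d4
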