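import Cfsg.Agent.H49.PtDefs

/-!
# S5973 team project (helper49): the main assembly (port of helper77's `tm_main`)
-/

set_option autoImplicit false
open scoped MatrixGroups
open scoped Matrix

namespace Cfsg.Agent.H49.Pt

open Cfsg.Agent.H45 Cfsg.Agent.H42.Spd Cfsg.Agent.H42.Ti Module Polynomial

universe u

theorem pt_omega_le {F : Type u} [Field F] {ι : Type} [Fintype ι] [DecidableEq ι]
    (Q : (ι → F) → F) : Cfsg.Geo.omegaGL Q ≤ Cfsg.isometryGroup F Q := by
  unfold Cfsg.Geo.omegaGL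
  exact Subgroup.map_subtype_le _

set_option maxHeartbeats 1000000 in
/-- S5973 from its pieces. -/
theorem pt_main (hCntP : StCntP.{u}) (hCnt : StCnt.{u}) (hOrd : Cfsg.Agent.H77.Tm.StOrd)
    (hSign : StSign.{u})
    (hTwo : StTwo.{u}) (hMOdd : StMOdd.{u}) (hMEven : StMEven.{u}) (hExOdd : StExOdd.{u})
    (hExEven : StExEven.{u}) (hAOF : StArOddFix) (hAOE : StArOddEx) (hAEF : StArEvenFix)
    (hAEE : StArEvenEx) (hCyc : StCycSet.{u})
    {F : Type u} [Field F] [Fintype F] {p : ℕ} [Fact p.Prime] [CharP F p] {q : ℕ} (hq : Fintype.card F = q)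
    (d m : ℕ) (hd : 4 ≤ d) (hm : 1 ≤ m) (hmd : m < d)
    (r : ℕ) [Fact r.Prime]
    (hrΩ : r ∣ Nat.card {W : Submodule F (Fin d ⊕ Fin d → F) // Module.finrank F ↥W = m ∧ (∀ w ∈ W, Cfsg.quadFormPlus d F w = 0)})
    (i c : ℕ) (hi : i = orderOf (q : ZMod r)) (hc : c = if Even i then i else 2 * i) :
    (∀ x : GL (Fin d ⊕ Fin d) F, x ∈ Cfsg.Geo.omegaGL (Cfsg.quadFormPlus d F) →
      (∃ z : F, ((x ^ r : GL (Fin d ⊕ Fin d) F) : Matrix (Fin d ⊕ Fin d) (Fin d ⊕ Fin d) F) = z • (1 : Matrix (Fin d ⊕ Fin d) (Fin d ⊕ Fin d) F)) →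
      (∀ z : F, (x : Matrix (Fin d ⊕ Fin d) (Fin d ⊕ Fin d) F) ≠ z • (1 : Matrix (Fin d ⊕ Fin d) (Fin d ⊕ Fin d) F)) →
      ∃ W : Submodule F (Fin d ⊕ Fin d → F), Module.finrank F ↥W = m ∧ (∀ w ∈ W, Cfsg.quadFormPlus d F w = 0) ∧
        W.map (Matrix.toLin' (x : Matrix (Fin d ⊕ Fin d) (Fin d ⊕ Fin d) F)) ≤ W) ↔
    ((r = 2 ∧ p ≠ 2 ∧ (q % 4 = 1 ∨ (q % 4 = 3 ∧ m + 2 ≤ d ∧ (Even m ∨ (2 * d) % 4 = 2)))) ∨
     (r ≠ p ∧ 2 < r ∧ Odd i ∧ i ≤ m ∧ 2 * (m % i) ≤ (2 * d) % c) ∨
     (r ≠ p ∧ 2 < r ∧ Even i ∧ i ≤ m ∧ (r - 1) / i + 2 * (m / i) ≤ (2 * d) / i ∧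
       ((2 * (m % i) ≤ i ∧ (2 * d) % c = 0 ∧ Odd ((2 * d) / i) ∧ (r - 1) / i + 2 * (m / i) < (2 * d) / i) ∨
        (2 * (m % i) ≤ (2 * d) % c ∧ Even ((2 * d) / i)) ∨
        (2 * (m % i) < (2 * d) % c ∧ Odd ((2 * d) / i))))) := by
  have hp : p.Prime := Fact.out
  have hr : r.Prime := Fact.out
  subst hq
  have hd1 : 1 ≤ d := by omega
  have hmd' : m + 1 ≤ d := by omega
  by_cases hrp : r = p
  · subst hrp
    exact absurd hrΩ (hCntP F r d m hmd')
  by_cases hr2 : r = 2
  · subst hr2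
    have hp2 : p ≠ 2 := fun h => hrp h.symm
    have h2F : (2 : F) ≠ 0 := by
      intro h0
      have h1 : ((2 : ℕ) : F) = 0 := by exact_mod_cast h0
      have h2 := (CharP.cast_eq_zero_iff F p 2).mp h1
      exact hp2 ((Nat.prime_dvd_prime_iff_eq hp Nat.prime_two).mp h2)
    have key := hTwo F d m h2F hd hm hmd'
    constructor
    · intro hL
      exact Or.inl ⟨rfl, hp2, key.mp hL⟩
    · rintro (⟨-, -, h⟩ | ⟨-, h, -⟩ | ⟨-, h, -⟩)
      · exact key.mpr h
      · omega
      · omega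
  · have hr3 : 2 < r := by have := hr.two_le; omega
    have hrq : ¬ r ∣ Fintype.card F := by
      obtain ⟨f, -, hf⟩ := FiniteField.card F p
      intro h
      rw [hf] at h
      exact hrp ((Nat.prime_dvd_prime_iff_eq hr hp).mp (hr.dvd_of_dvd_pow h))
    have hrF : (r : F) ≠ 0 := by
      intro h0
      have h2 := (CharP.cast_eq_zero_iff F p r).mp h0
      exact hrp ((Nat.prime_dvd_prime_iff_eq hp hr).mp h2).symm
    obtain ⟨hipos, hidvd, hord⟩ := hOrd (Fintype.card F) r hr hrq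
    have hii : ii F r = i := by rw [hi]; rfl
    rw [← hi] at hipos hidvd hord
    have ht1 : 1 ≤ (r - 1) / i := Nat.div_pos (Nat.le_of_dvd (by omega) hidvd) hipos
    have hcnt := hCnt F p d m r hmd' hr hrp hrΩ
    have hrodd : Odd r := hr.odd_of_ne_two hr2
    rcases Nat.even_or_odd i with hev | hodd
    · -- `i` even
      have hci : c = i := by rw [hc, if_pos hev]
      have hev' : Even (ii F r) := by rw [hii]; exact hev
      obtain ⟨⟨Φs, hΦ⟩, -⟩ := hCyc F r hr hrF
      constructor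
      · intro hL
        right; right
        by_contra hneg
        obtain ⟨j, hj, hjr⟩ := hcnt
        have hcond : ∃ j, j < m ∧ (i ∣ d - j ∨ (d - 1 - j) % i = i / 2) := by
          refine ⟨j, hj, ?_⟩
          rcases hjr with h | h
          · left
            exact (hord (d - j) (by omega)).1 h
          · right
            exact ((hord (d - 1 - j) (by omega)).2 hr2 h).2
        obtain ⟨A, hA1, hAo, hAe, hAno⟩ := hAEE d m i ((r - 1) / i) hipos hev ht1 hm hmd' hcond (by
          intro h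
          apply hneg
          refine ⟨hrp, hr3, hev, h.1, h.2.1, ?_⟩
          rw [hci]
          exact h.2.2)
        obtain ⟨x, hxΩ, hxr, hxfix, hxns, hxS⟩ := hExEven F p d r hd hr hr2 hrp hev'
          Φs hΦ A hA1 (by rw [hii]; exact hAo) (by rw [hii]; exact hAe)
        obtain ⟨W, hWdim, hWts, hWinv⟩ := hL x hxΩ ⟨1, by rw [hxr]; simp⟩ hxns
        obtain ⟨A', hA'fix, -, -, hup⟩ := hMEven F p d r hr hr2 hrp hev' Φs hΦ x
          (pt_omega_le _ hxΩ) hxr
        rw [hii] at hA'fix hxfix hxS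
        have hAA : A' = A := by
          have h1 : i * A' = i * A := by omega
          exact Nat.eq_of_mul_eq_mul_left hipos h1
        subst hAA
        obtain ⟨j', w, hWjw, hjS, hwb⟩ := hup W hWts hWinv
        rw [hii] at hWjw hwb
        exact hAno j' w (le_trans hjS hxS) hwb (hWjw.symm.trans hWdim)
      · rintro (⟨h, -, -⟩ | ⟨-, -, h, -⟩ | ⟨-, -, -, h1, h2, h3⟩)
        · exact absurd h hr2
        · exact absurd hev (Nat.not_even_iff_odd.mpr h)
        · intro x hxΩ ⟨z, hz⟩ _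
          obtain ⟨y, hyO, hyr, hyW⟩ := hSign F d x r z hd1 hrodd (pt_omega_le _ hxΩ) hz
          obtain ⟨A, hAfix, hAo, hfixall, -⟩ := hMEven F p d r hr hr2 hrp hev' Φs hΦ
            y hyO hyr
          rw [hii] at hAfix hAo hfixall
          have hAb : i / 2 * A + (if Odd A then 1 else 0) ≤ d := by
            split_ifs with hAodd
            · exact hAo hAodd
            · obtain ⟨h', hh'⟩ := hev
              have e1 : i / 2 = h' := by omega
              have e2 : i * A = 2 * (h' * A) := by rw [hh']; ring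
              rw [e1]
              omega
          rw [hci] at h3
          obtain ⟨j, w, hj, hw, hjw⟩ := hAEF d m i ((r - 1) / i) A hipos hev ht1 hmd' h1 h2 h3 hAb
          obtain ⟨W, hW, hWts, hWinv⟩ := hfixall j w hj hw
          rw [hjw] at hW
          exact ⟨W, hW, hWts, hyW W hWinv⟩
    · -- `i` odd
      have hci : c = 2 * i := by rw [hc, if_neg (Nat.not_even_iff_odd.mpr hodd)]
      have hodd' : Odd (ii F r) := by rw [hii]; exact hodd
      constructor
      · intro hL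
        right; left
        by_contra hneg
        obtain ⟨j, hj, hjr⟩ := hcnt
        have hcond : ∃ e, d < e + m ∧ e ≤ d ∧ i ∣ e := by
          rcases hjr with h | h
          · exact ⟨d - j, by omega, by omega, (hord (d - j) (by omega)).1 h⟩
          · exfalso
            exact (Nat.not_even_iff_odd.mpr hodd) ((hord (d - 1 - j) (by omega)).2 hr2 h).1
        obtain ⟨A, hA1, hAk, hAno⟩ := hAOE d m i hipos hodd hm hmd' hcond (by
          intro h
          apply hneg
          refine ⟨hrp, hr3, hodd, h.1, ?_⟩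
          rw [hci]
          exact h.2)
        obtain ⟨x, hxΩ, hxr, hxfix, hxns⟩ := hExOdd F p d r hd hr hr2 hrp hodd' A hA1
          (by rw [hii]; exact hAk)
        obtain ⟨W, hWdim, hWts, hWinv⟩ := hL x hxΩ ⟨1, by rw [hxr]; simp⟩ hxns
        obtain ⟨A', -, hA'fix, -, hup⟩ := hMOdd F p d r hr hr2 hrp hodd' x
          (pt_omega_le _ hxΩ) hxr
        rw [hii] at hA'fix hxfix
        have hAA : A' = A := by
          have h1 : 2 * i * A' = 2 * i * A := by omega
          exact Nat.eq_of_mul_eq_mul_left (by omega : 0 < 2 * i) h1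
        subst hAA
        obtain ⟨j', w, hWjw, hjA, hwb⟩ := hup W hWts hWinv
        rw [hii] at hWjw hwb
        exact hAno j' w hjA hwb (hWjw.symm.trans hWdim)
      · rintro (⟨h, -, -⟩ | ⟨-, -, -, h1, h2⟩ | ⟨-, -, h, -⟩)
        · exact absurd h hr2
        · intro x hxΩ ⟨z, hz⟩ _
          obtain ⟨y, hyO, hyr, hyW⟩ := hSign F d x r z hd1 hrodd (pt_omega_le _ hxΩ) hz
          obtain ⟨A, hAk, hAfix, hfixall, -⟩ := hMOdd F p d r hr hr2 hrp hodd' y hyO hyr
          rw [hii] at hAk hAfix hfixall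
          rw [hci] at h2
          obtain ⟨j, w, hj, hw, hjw⟩ := hAOF d m i A hipos hodd hmd' h1 h2 hAk
          obtain ⟨W, hW, hWts, hWinv⟩ := hfixall j w hj hw
          rw [hjw] at hW
          exact ⟨W, hW, hWts, hyW W hWinv⟩
        · exact absurd h (Nat.not_even_iff_odd.mpr hodd)

end Cfsg.Agent.H49.Pt
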