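import Cfsg.Agent.H49.PtMain
import Cfsg.Agent.H86.Ev2Defs
import Cfsg.Agent.H14.CqDefs

/-!
# S5973 team project (helper49): wiring lemmas

`two_of_r2`: helper86's row-level statement `StR2P73` gives the `r = 2` piece `StTwo`.
-/

set_option autoImplicit false
open scoped MatrixGroups
open scoped Matrix

namespace Cfsg.Agent.H49.Pt

open Cfsg.Agent.H45 Cfsg.Agent.H42.Spd Cfsg.Agent.H42.Ti Module Polynomial

universe u

theorem odd_card_of_two_ne_zero {F : Type u} [Field F] [Fintype F] (h2 : (2 : F) ≠ 0) :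
    Odd (Fintype.card F) := by
  rw [← Nat.not_even_iff_odd]
  intro hev
  have h1 : ringChar F = 2 := by
    rw [FiniteField.even_card_iff_char_two]
    exact Nat.even_iff.mp hev
  have : CharP F 2 := by
    rw [← h1]
    exact ringChar.charP F
  apply h2
  have := CharP.cast_eq_zero F 2
  exact_mod_cast this

theorem two_of_r2 (h : Cfsg.Agent.H86.Ev2.StR2P73.{u}) : StTwo.{u} := by
  intro F _ _ d m h2 hd hm hmd
  exact h F d m (odd_card_of_two_ne_zero h2) hd hm (by omega)

theorem cntP_of (h : Cfsg.Agent.H14.Cq.StCntPP.{u}) : StCntP.{u} := by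
  intro F _ _ p _ _ d m hmd
  exact h F p d m (by omega)

theorem cnt_of (h : Cfsg.Agent.H14.Cq.StCntPl.{u}) : StCnt.{u} := by
  intro F _ _ p _ _ d m r hmd hr hrp hdvd
  exact h F p d m r (by omega) hr hrp hdvd

end Cfsg.Agent.H49.Pt
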