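import Mathlib
import Cfsg.Agent.H49.PtMain
import Cfsg.Agent.H49.PtWire
import Cfsg.Agent.H49.PtExTransP
import Cfsg.Agent.H3.CqCntPP
import Cfsg.Agent.H8.TmXAll
import Cfsg.Agent.H63.TmXBlockEx
import Cfsg.Agent.H27.TmXBlockOne
import Cfsg.Agent.H79.TmXPowers
import Cfsg.Agent.H79.TmXSum
import Cfsg.Agent.H87.CqAvg
import Cfsg.Agent.H87.CqPerp
import Cfsg.Agent.H38.CqCardP
import Cfsg.Agent.H86.Ev2Fin
import Cfsg.Agent.H32.Ev2InvExP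
import Cfsg.Agent.H84.PtExProdFix
import Cfsg.Agent.H84.PtExTsProd
import Cfsg.Agent.H84.PtExNonScal
import Cfsg.Agent.H19.PtExMinusProd
import Cfsg.Agent.H3.CqCntPl
import Cfsg.Agent.H25.CqTuples
import Cfsg.Agent.H25.CqExt
import Cfsg.Agent.H14.CqFib
import Cfsg.Agent.H84.CqZPlus
import Cfsg.Agent.H24.TmOrd
import Cfsg.Agent.H35.PtScal
import Cfsg.Agent.H35.PtSign
import Cfsg.Agent.H40.PtMOdd
import Cfsg.Agent.H15.PtMEven
import Cfsg.Agent.H11.TmQStruct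
import Cfsg.Agent.H8.TmQTrick
import Cfsg.Agent.H18.TmComplPlus
import Cfsg.Agent.H3.TmQWitt
import Cfsg.Agent.H28.TmTypeU
import Cfsg.Agent.H28.TmBlockMinus
import Cfsg.Agent.H3.TmMinusSum
import Cfsg.Agent.H19.TmAnisoStd
import Cfsg.Agent.H19.TmAnisoIso
import Cfsg.Agent.H15.PtExOdd
import Cfsg.Agent.H85.PtExEven
import Cfsg.Agent.H85.PtExBridge
import Cfsg.Agent.H28.TmOddMem
import Cfsg.Agent.H19.PtExAnisoEx
import Cfsg.Agent.Helper55.PtExToMat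
import Cfsg.Agent.H20.PtArOddFix
import Cfsg.Agent.H20.PtArOddEx
import Cfsg.Agent.H65.PtArEF
import Cfsg.Agent.H65.PtArEE
import Cfsg.Agent.H86.OtSplit
import Cfsg.Agent.H16.SpdBlock
import Cfsg.Agent.H67.SpdRel
import Cfsg.Agent.H77.SpdHyp
import Cfsg.Agent.H77.SpdFix
import Cfsg.Agent.H77.SpdCompl
import Cfsg.Agent.H18.SpdSum
import Cfsg.Agent.H24.SpdModc
import Cfsg.Agent.H24.SpdSub
import Cfsg.Agent.H51.SpdDecomp
import Cfsg.Agent.H3.TiPrim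
import Cfsg.Agent.H3.TiCompDvd
import Cfsg.Agent.H3.TiIrrSub
import Cfsg.Agent.H3.TiCycSet
import Cfsg.Agent.H3.TiPair
import Cfsg.Agent.H3.TiStepEven
import Cfsg.Agent.H3.TiUpper
import Cfsg.Agent.H72.TiHalf
import Cfsg.Agent.H72.TiPeel
import Cfsg.Agent.H32.TiAnti
import Cfsg.Agent.H14.TiStepOdd
import Cfsg.Agent.H14.TiBuild
import Cfsg.Agent.H16.TiHypClose
import Cfsg.Agent.H16.TiCompNd
import Cfsg.Agent.H60.TiUpperEven

/-!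
# S5973 project (helper49): CLOSED forms of all piece statements

Hypothesis-free versions of the generic quadratic-space Props of helper77's S5987 project
(`Cfsg.Agent.H77.Tm`) and of the plus-type Props of `Cfsg.Agent.H49.Pt`, obtained by plugging the
landed pieces together exactly as in `Cfsg/Agent/S5973.lean`.  For reuse by sibling rows.
-/

set_option autoImplicit false

namespace Cfsg.Agent.H49.Pt

universe u v

/-! ## Spd / Ti / Ot generic pieces -/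

theorem fin_modc : Cfsg.Agent.H42.Spd.StModc.{u, v} :=
  Cfsg.Agent.H24.Spd.modc (Cfsg.Agent.H67.Spd.blockRel Cfsg.Agent.H16.Spd.block)
    Cfsg.Agent.H77.Spd.fix Cfsg.Agent.H77.Spd.compl

theorem fin_decomp : Cfsg.Agent.H42.Spd.StDecomp.{u, v} :=
  Cfsg.Agent.H51.Spd.decomp
    (Cfsg.Agent.H24.Spd.sub (Cfsg.Agent.H67.Spd.blockRel Cfsg.Agent.H16.Spd.block)
      Cfsg.Agent.H77.Spd.hyp Cfsg.Agent.H77.Spd.fix Cfsg.Agent.H77.Spd.compl Cfsg.Agent.H18.Spd.sum)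
    fin_modc Cfsg.Agent.H77.Spd.compl

/-! ## Generic quadratic pieces (helper77's S5987 project) -/

theorem fin_qTrick : Cfsg.Agent.H77.Tm.StQTrick.{u, v} := Cfsg.Agent.H8.Tm.qTrick

theorem fin_qStruct : Cfsg.Agent.H77.Tm.StQStruct.{u, v} := by
  have hUpper := Cfsg.Agent.H3.Ti.tiUpper Cfsg.Agent.H72.Ti.tiHalf
  have hPrim := Cfsg.Agent.H3.Ti.tiPrim Cfsg.Agent.H3.Ti.cycSet
  have hUpperEven := Cfsg.Agent.H60.Ti.tiUpperEven Cfsg.Agent.H3.Ti.cycSet hPrim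
    Cfsg.Agent.H3.Ti.tiCompDvd Cfsg.Agent.H16.Ti.tiCompNd Cfsg.Agent.H72.Ti.tiHalf
  have hHypClose := Cfsg.Agent.H16.Ti.tiHypClose Cfsg.Agent.H3.Ti.tiCompDvd Cfsg.Agent.H3.Ti.tiIrrSub
  have hPair := Cfsg.Agent.H3.Ti.tiPair Cfsg.Agent.H3.Ti.tiCompDvd Cfsg.Agent.H3.Ti.tiIrrSub
    hHypClose Cfsg.Agent.H32.Ti.tiAnti
  have hStepEven := Cfsg.Agent.H3.Ti.tiStepEven Cfsg.Agent.H3.Ti.cycSet hPrim
    Cfsg.Agent.H3.Ti.tiCompDvd Cfsg.Agent.H16.Ti.tiCompNd hPair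
  have hBuild := Cfsg.Agent.H14.Ti.tiBuild Cfsg.Agent.H72.Ti.tiPeel Cfsg.Agent.H14.Ti.tiStepOdd
    hStepEven
  exact Cfsg.Agent.H11.Tm.qStruct fin_qTrick Cfsg.Agent.H86.Ot.oSplit fin_modc hUpper hUpperEven
    Cfsg.Agent.H72.Ti.tiHalf hBuild

theorem fin_complPlus : Cfsg.Agent.H77.Tm.StComplPlus.{u, v} := Cfsg.Agent.H18.Tm.complPlus

theorem fin_qWitt : Cfsg.Agent.H77.Tm.StQWitt.{u, v} := Cfsg.Agent.H3.Tm.qWitt

theorem fin_minusSum : Cfsg.Agent.H77.Tm.StMinusSum.{u, v} :=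
  Cfsg.Agent.H3.Tm.minusSum Cfsg.Agent.H19.Tm.anisoStd Cfsg.Agent.H19.Tm.anisoIso

theorem fin_typeU : Cfsg.Agent.H77.Tm.StTypeU.{u, v} :=
  Cfsg.Agent.H28.Tm.typeU fin_qTrick fin_decomp Cfsg.Agent.H28.Tm.blockMinus' fin_minusSum
    fin_complPlus

theorem fin_oddMemAll : Cfsg.Agent.H77.Tm.StOddMemAll.{u} := Cfsg.Agent.H28.Tm.oddMemAll

theorem fin_modAll : Cfsg.Agent.H61.Tm.StModAll.{u} :=
  Cfsg.Agent.H8.Tm.modAll
    (Cfsg.Agent.H63.Tm.blockEx Cfsg.Agent.H27.Tm.blockOne Cfsg.Agent.H79.Tm.powers)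
    Cfsg.Agent.H79.Tm.modSum

/-! ## Plus-type pieces (S5973) -/

theorem fin_cardP : Cfsg.Agent.H14.Cq.StCardP.{u} :=
  Cfsg.Agent.H38.Cq.cardP
    (Cfsg.Agent.H25.Cq.tuples
      (Cfsg.Agent.H25.Cq.ext (Cfsg.Agent.H87.Cq.avg Cfsg.Agent.H87.Cq.perp)))
    Cfsg.Agent.H14.Cq.fib Cfsg.Agent.H84.Cq.zPlus

theorem fin_cntP : StCntP.{u} := cntP_of (Cfsg.Agent.H3.Cq.cntPP fin_cardP)

theorem fin_cnt : StCnt.{u} := cnt_of (Cfsg.Agent.H3.Cq.cntPl fin_cardP)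

theorem fin_scal : StScal.{u} := Cfsg.Agent.H35.Pt.scal

theorem fin_sign : StSign.{u} := Cfsg.Agent.H35.Pt.sign Cfsg.Agent.H35.Pt.scal

theorem fin_two : StTwo.{u} :=
  two_of_r2 (Cfsg.Agent.H86.Ev2.fin_r2P73_of
    (Cfsg.Agent.H32.Ev2.invExP Cfsg.Agent.H86.Ev2.fin_sumType Cfsg.Agent.H86.Ev2.fin_oHalf))

theorem fin_mOdd : StMOdd.{u} := Cfsg.Agent.H40.Pt.mOdd fin_qStruct fin_complPlus

theorem fin_mEven : StMEven.{u} :=
  Cfsg.Agent.H15.Pt.mEven fin_qStruct fin_qWitt fin_typeU fin_complPlus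

theorem fin_exOdd : StExOdd.{u} := Cfsg.Agent.H15.Pt.exOdd

theorem fin_exEven : StExEven.{u} :=
  Cfsg.Agent.H85.PtEx.exEven_of Cfsg.Agent.H3.Ti.cycSet fin_modAll Cfsg.Agent.H19.PtEx.anisoEx
    Cfsg.Agent.H49.PtEx.transP Cfsg.Agent.H84.PtEx.prodFix Cfsg.Agent.H84.PtEx.tsProd
    (Cfsg.Agent.H19.PtEx.minusProd fin_minusSum) Cfsg.Agent.Helper55.PtEx.toMat
    Cfsg.Agent.H84.PtEx.nonScal fin_typeU fin_oddMemAll

end Cfsg.Agent.H49.Pt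

#print axioms Cfsg.Agent.H49.Pt.fin_exEven
#print axioms Cfsg.Agent.H49.Pt.fin_mEven
#print axioms Cfsg.Agent.H49.Pt.fin_two
#print axioms Cfsg.Agent.H49.Pt.fin_cnt
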