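import Mathlib
import Cfsg.Agent.H49.Plus

set_option autoImplicit false

namespace Cfsg.Agent.H49

open Module Matrix
open scoped commutatorElement

section
variable (k : ℕ) (F : Type*) [Field F]

/-- Swap `x_i ↔ y_i` for `i < k`. -/
def tauFun (x : Fin (k + k) ⊕ Fin (k + k)) : Fin (k + k) ⊕ Fin (k + k) :=
  Sum.elim (fun i : Fin (k + k) => if (i : ℕ) < k then Sum.inr i else Sum.inl i)
    (fun i : Fin (k + k) => if (i : ℕ) < k then Sum.inl i else Sum.inr i) x

theorem tauFun_invol : Function.Involutive (tauFun k) := by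
  intro x
  rcases x with i | i <;> by_cases h : (i : ℕ) < k <;> simp [tauFun, h]

/-- Reverse the order of the pairs. -/
def piFun (x : Fin (k + k) ⊕ Fin (k + k)) : Fin (k + k) ⊕ Fin (k + k) :=
  Sum.map Fin.rev Fin.rev x

theorem piFun_invol : Function.Involutive (piFun k) := by
  intro x
  rcases x with i | i <;> simp [piFun]

theorem tau_pres (v : Fin (k + k) ⊕ Fin (k + k) → F) :
    Cfsg.quadFormPlus (k + k) F (v ∘ ((tauFun_invol k).toPerm (tauFun k)))
      = Cfsg.quadFormPlus (k + k) F v := by
  simp only [Cfsg.quadFormPlus, Function.comp_apply, Function.Involutive.coe_toPerm]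
  refine Finset.sum_congr rfl fun i _ => ?_
  by_cases h : (i : ℕ) < k
  · simp [tauFun, h]; ring
  · simp [tauFun, h]

theorem pi_pres (v : Fin (k + k) ⊕ Fin (k + k) → F) :
    Cfsg.quadFormPlus (k + k) F (v ∘ ((piFun_invol k).toPerm (piFun k)))
      = Cfsg.quadFormPlus (k + k) F v := by
  simp only [Cfsg.quadFormPlus, Function.comp_apply, Function.Involutive.coe_toPerm]
  exact Equiv.sum_comp Fin.revPerm (fun j => v (Sum.inl j) * v (Sum.inr j))

theorem rev_lt_iff (i : Fin (k + k)) : ((Fin.rev i : Fin (k + k)) : ℕ) < k ↔ ¬ ((i : ℕ) < k) := by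
  rw [Fin.val_rev]
  have := i.2
  omega

theorem pi_tau_pi_tau (x : Fin (k + k) ⊕ Fin (k + k)) :
    piFun k (tauFun k (piFun k (tauFun k x))) = Sum.swap x := by
  rcases x with i | i <;> by_cases h : (i : ℕ) < k
  · have := i.2
    have h' : ¬ (k + k - ((i : ℕ) + 1) < k) := by omega
    simp [tauFun, piFun, h, h']
  · have := i.2
    have h' : k + k - ((i : ℕ) + 1) < k := by omega
    simp [tauFun, piFun, h, h']
  · have := i.2
    have h' : ¬ (k + k - ((i : ℕ) + 1) < k) := by omega
    simp [tauFun, piFun, h, h']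
  · have := i.2
    have h' : k + k - ((i : ℕ) + 1) < k := by omega
    simp [tauFun, piFun, h, h']

/-- In dimension `4k` the commutator subgroup of `O⁺` contains an element interchanging
`{y = 0}` and `{x = 0}`. -/
theorem exists_swap_mem_commutator :
    ∃ g : ↥(Cfsg.isometryGroup F (Cfsg.quadFormPlus (k + k) F)),
      g ∈ commutator ↥(Cfsg.isometryGroup F (Cfsg.quadFormPlus (k + k) F)) ∧
      ∀ v : Fin (k + k) ⊕ Fin (k + k) → F,
        ((g : Matrix.GeneralLinearGroup (Fin (k + k) ⊕ Fin (k + k)) F) :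
          Matrix (Fin (k + k) ⊕ Fin (k + k)) (Fin (k + k) ⊕ Fin (k + k)) F) *ᵥ v
          = v ∘ Sum.swap := by
  set a := permIso (Cfsg.quadFormPlus (k + k) F) ((tauFun_invol k).toPerm (tauFun k))
    (tau_pres k F) with ha
  set b := permIso (Cfsg.quadFormPlus (k + k) F) ((piFun_invol k).toPerm (piFun k))
    (pi_pres k F) with hb
  have haa : a * a = 1 := by
    apply isometry_ext
    intro x
    rw [coe_mul_mulVec, ha, permIso_mulVec, permIso_mulVec]
    funext y
    simp [(tauFun_invol k) y]
  have hbb : b * b = 1 := by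
    apply isometry_ext
    intro x
    rw [coe_mul_mulVec, hb, permIso_mulVec, permIso_mulVec]
    funext y
    simp [(piFun_invol k) y]
  have hainv : a⁻¹ = a := inv_eq_of_mul_eq_one_left haa
  have hbinv : b⁻¹ = b := inv_eq_of_mul_eq_one_left hbb
  refine ⟨⁅a, b⁆, ?_, ?_⟩
  · rw [commutator_def]
    exact Subgroup.commutator_mem_commutator (Subgroup.mem_top a) (Subgroup.mem_top b)
  · intro v
    rw [commutatorElement_def, hainv, hbinv, coe_mul_mulVec, coe_mul_mulVec, coe_mul_mulVec,
      ha, hb, permIso_mulVec, permIso_mulVec, permIso_mulVec, permIso_mulVec]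
    funext y
    simp only [Function.comp_apply, Function.Involutive.coe_toPerm]
    rw [pi_tau_pi_tau]

end

end Cfsg.Agent.H49
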